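import Cfsg.Agent.OD.Pre
import Cfsg.Agent.H9.AL
import Cfsg.Agent.L.GA
/-! The counting lemma for a class of involutions commuting modulo a central involution. -/
set_option autoImplicit false
set_option maxRecDepth 100000
open Subgroup CfL
namespace CfH1

/-- the product of the generators selected by the binary digits -/
def pl {M : Type*} [Monoid M] : List M → ℕ → M
  | [], _ => 1
  | g :: gs, c => g ^ (c % 2) * pl gs (c / 2)

/-- the number of common binary digits -/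
def par : ℕ → ℕ → ℕ → ℕ
  | 0, _, _ => 0
  | n + 1, l, c => l % 2 * (c % 2) + par n (l / 2) (c / 2)

theorem map_pl {M N : Type*} [Monoid M] [Monoid N] (f : M →* N) (gs : List M) :
    ∀ c, f (pl gs c) = pl (gs.map f) c := by
  induction gs with
  | nil => exact fun _ => f.map_one
  | cons g gs ih => exact fun c => by rw [List.map_cons, pl, pl, map_mul, map_pow, ih]

theorem pl_mem {G : Type*} [Group G] {K : Subgroup G} {gs : List G} (h : ∀ a ∈ gs, a ∈ K) : ∀ c, pl gs c ∈ K := by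
  induction gs with
  | nil => exact fun _ => K.one_mem
  | cons g gs ih =>
    exact fun c => K.mul_mem (K.pow_mem (h g List.mem_cons_self) _) (ih (fun a ha => h a (List.mem_cons_of_mem _ ha)) _)

theorem pl_xor {G : Type*} [Group G] {gs : List G} (h : ∀ a ∈ gs, a * a = 1 ∧ ∀ b ∈ gs, a * b = b * a) :
    ∀ c d, pl gs c * pl gs d = pl gs (c ^^^ d) := by
  induction gs with
  | nil => exact fun _ _ => one_mul _
  | cons g gs ih =>
    intro c d
    have h1 := h g List.mem_cons_self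
    have h2 : g * pl gs (c / 2) = pl gs (c / 2) * g := (mem_centralizer_singleton_iff.1 (pl_mem
      (fun a ha => mem_centralizer_singleton_iff.2 (h1.2 a (List.mem_cons_of_mem _ ha)).symm) _)).symm
    rw [pl, pl, pl, Nat.xor_div_two, ← ih fun a ha => ⟨(h a (List.mem_cons_of_mem _ ha)).1,
      fun b hb => (h a (List.mem_cons_of_mem _ ha)).2 b (List.mem_cons_of_mem _ hb)⟩, Nat.xor_mod_two_eq,
      mul_assoc, ← mul_assoc (pl gs _), ← (Commute.pow_left h2 _).eq, mul_assoc, ← mul_assoc, ← pow_add, Nat.add_mod c]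
    congr 1
    rcases Nat.mod_two_eq_zero_or_one c with e | e <;> rcases Nat.mod_two_eq_zero_or_one d with e' | e' <;>
      simp [e, e', sq, h1.1]

theorem pl_cj {G : Type*} [Group G] {a W : G} {gs : List G} (hW : ∀ g ∈ gs, g * W = W * g) :
    ∀ l, (∀ i < gs.length, a * gs.getD i 1 * a⁻¹ = gs.getD i 1 * W ^ (l / 2 ^ i % 2)) →
      ∀ c, a * pl gs c * a⁻¹ = pl gs c * W ^ par gs.length l c := by
  induction gs with
  | nil => intro l _ c; simp [pl, par]
  | cons g gs ih =>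
    intro l h c
    have h1 : a * g * a⁻¹ = g * W ^ (l % 2) := by simpa using h 0 (by simp)
    have h2 := ih (fun g hg => hW g (List.mem_cons_of_mem _ hg)) (l / 2) (fun i hi => by
      have := h (i + 1) (by simpa using hi)
      rwa [List.getD_cons_succ, pow_succ', ← Nat.div_div_eq_div_mul] at this) (c / 2)
    have h3 : Commute (pl gs (c / 2)) W := mem_centralizer_singleton_iff.1 (pl_mem
      (fun a ha => mem_centralizer_singleton_iff.2 (hW a (List.mem_cons_of_mem _ ha))) _)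
    rw [pl, List.length_cons, par, ← conj_mul, ← conj_pow, h1, h2,
      (Commute.pow_right (hW g List.mem_cons_self) _).mul_pow, ← pow_mul, mul_assoc, ← mul_assoc (W ^ _),
      ← (h3.pow_right _).eq, mul_assoc, ← pow_add, mul_assoc]

def LD : List ℕ := [1, 2, 3, 4, 5, 8, 9, 12, 16, 17, 20, 24, 32, 33, 35, 36, 41, 44, 45, 47, 64, 65, 67, 68, 81, 84, 85,
  87, 103, 109, 110, 111, 117, 118, 119, 126, 128, 131, 136, 138, 140, 143, 144, 146, 148, 151, 156, 158, 163, 172, 179,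
  189, 195, 203, 212, 221, 226, 231, 249, 253]

def mD (c : ℕ) : Bool := Nat.testBit 15378640413920605526707167059186544158858506848011918090525502790205422375742 c
theorem LD1 : ∀ c ∈ LD, c < 256 := by decide +kernel
theorem LD2 : LD.Nodup := by decide +kernel
theorem LD3 : ∀ c < 256, mD c = true ↔ c ∈ LD := by decide +kernel
theorem LD4 : ∀ c < 256, mD c = true ∨ ∃ a ∈ LD, mD (Nat.xor a c) = true := by decide +kernel
theorem LD5 : ∀ c < 256, c ≠ 0 → mD c = false → (LD.filter fun d => mD (Nat.xor d c)).length = 12 := by decide +kernel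

theorem AL1 {H : Type*} [Group H] [Finite H] (D : Set H) (h2 : ∀ a ∈ D, a * a = 1) (hc : ∀ a ∈ D, ∀ g, g * a * g⁻¹ ∈ D)
    (e : ℕ → H) (em : ∀ c d, e c * e d = e (c ^^^ d)) (tr : ∀ a ∈ D, IsConj (e 1) a)
    (h0 : ∀ c < 256, e c = 1 → c = 0) (hD : ∀ c < 256, e c ∈ D ↔ c ∈ LD)
    (hB : ∀ a ∈ D, e 1 * a = a * e 1 → ∃ c < 256, a = e c) : ∀ a ∈ D, ∃ c < 256, a = e c := by
  have e0 : e 0 = 1 := by simpa using em 0 0
  have lt := LD1
  have xl : ∀ {c d}, c < 256 → d < 256 → c ^^^ d < 256 := Nat.xor_lt_two_pow (n := 8)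
  have inj : Set.InjOn e (Set.Iio 256) := fun c hc d hd h =>
    Nat.xor_eq_zero_iff.1 (h0 _ (xl hc hd) (by rw [← em, h, em, Nat.xor_self, e0]))
  have cm : ∀ c d, e c * e d = e d * e c := fun c d => by rw [em, em, Nat.xor_comm]
  have nc : ∀ l : List ℕ, (∀ c ∈ l, c < 256) → l.Nodup → (e '' {c | c ∈ l}).ncard = l.length := fun l h1 h2 => by
    rw [Set.InjOn.ncard_image (inj.mono (s₁ := {c | c ∈ l}) h1), ← List.toFinset_card_of_nodup h2, ← Set.ncard_coe_finset, List.coe_toFinset]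
  have S0 : {b | b ∈ D ∧ e 1 * b = b * e 1} = e '' {c | c ∈ LD} := Set.ext fun b => ⟨fun hb => by
      obtain ⟨c, h1, rfl⟩ := hB b hb.1 hb.2
      exact ⟨c, (hD c h1).1 hb.1, rfl⟩, by
      rintro ⟨c, h1, rfl⟩
      exact ⟨(hD c (lt c h1)).2 h1, cm _ _⟩⟩
  have K0 : closure (e '' {c | c ∈ LD}) = subOf (fun x => ∃ c < 256, e c = x) ⟨0, by norm_num, e0⟩ (by
      rintro _ _ ⟨c, h1, rfl⟩ ⟨d, h2, rfl⟩
      exact ⟨_, xl h1 h2, (em _ _).symm⟩) := by
    refine le_antisymm ((closure_le _).2 ?_) ?_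
    · rintro _ ⟨c, h1, rfl⟩
      exact ⟨c, lt c h1, rfl⟩
    · rintro _ ⟨c, h1, rfl⟩
      obtain hc | ⟨a, ha, hb⟩ := LD4 c h1
      · exact subset_closure ⟨c, (LD3 c h1).1 hc, rfl⟩
      · rw [← Nat.xor_xor_cancel_left a c, ← em]
        exact mul_mem (subset_closure ⟨a, ha, rfl⟩) (subset_closure ⟨_, (LD3 _ (xl (lt a ha) h1)).1 hb, rfl⟩)
  have hc' : ∀ g a, MulAut.conj g a ∈ D ↔ a ∈ D := fun g a =>
    ⟨fun h => by simpa [mul_assoc] using hc _ h g⁻¹, fun h => hc a h g⟩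
  have S1 : ∀ g, {b | b ∈ D ∧ MulAut.conj g (e 1) * b = b * MulAut.conj g (e 1)} =
      MulAut.conj g '' {b | b ∈ D ∧ e 1 * b = b * e 1} := fun g => Set.ext fun b => by
    obtain ⟨b, rfl⟩ := (MulAut.conj g).surjective b
    rw [(MulAut.conj g).injective.mem_set_image, Set.mem_ofPred, Set.mem_ofPred, hc', ← map_mul, ← map_mul,
      (MulAut.conj g).injective.eq_iff]
  have ind : ∀ {p : H → Prop}, (∀ g, p (MulAut.conj g (e 1))) → ∀ a ∈ D, p a := fun hp a ha => by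
    obtain ⟨g, rfl⟩ := isConj_iff.1 (tr a ha)
    exact hp g
  have key := AL D (fun a ha => ⟨h2 a ha, fun h => absurd ((hD 0 (by norm_num)).1 (e0 ▸ h ▸ ha)) (by decide)⟩) hc
    (fun a ha b hb c hc => ind (p := fun b => a * b = b * a → b * c = c * b → a * c = c * a) (fun g h1 h2 => by
      obtain ⟨_, ⟨x, -, rfl⟩, rfl⟩ := (S0 ▸ S1 g).le ⟨ha, h1.symm⟩
      obtain ⟨_, ⟨y, -, rfl⟩, rfl⟩ := (S0 ▸ S1 g).le ⟨hc, h2⟩
      rw [← map_mul, cm, map_mul]) b hb)
    (ind fun g => by rw [S1, Set.ncard_image_of_injective _ (MulAut.conj g).injective, S0, nc _ lt LD2]; rfl)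
    (ind fun g => by
      rw [S1, S0, ← MulEquiv.coe_toMonoidHom, ← MonoidHom.map_closure, card_map_of_injective (MulAut.conj g).injective, K0]
      change (e '' Set.Iio 256).ncard = _
      rw [inj.ncard_image]; simp)
    (ind fun g z hz z1 z2 => by
      rw [S1, S0, ← MulEquiv.coe_toMonoidHom, ← MonoidHom.map_closure, K0] at hz
      obtain ⟨_, ⟨c, h1, rfl⟩, rfl⟩ := hz
      have : {x | x ∈ D ∧ MulAut.conj g (e 1) * x = x * MulAut.conj g (e 1) ∧ x * MulAut.conj g (e c) ∈ D} =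
          MulAut.conj g '' (e '' {d | d ∈ LD.filter fun d => mD (Nat.xor d c)}) := Set.ext fun x => ⟨fun hx => by
        obtain ⟨_, ⟨d, hd, rfl⟩, rfl⟩ := (S0 ▸ S1 g).le ⟨hx.1, hx.2.1⟩
        have := hx.2.2
        rw [← map_mul, hc', em, hD _ (xl (lt d hd) h1), ← LD3 _ (xl (lt d hd) h1)] at this
        exact ⟨_, ⟨d, List.mem_filter.2 ⟨hd, this⟩, rfl⟩, rfl⟩, by
        rintro ⟨_, ⟨d, hd, rfl⟩, rfl⟩
        obtain ⟨h2, h3⟩ := List.mem_filter.1 hd
        refine ⟨(hc' _ _).2 ((hD d (lt d h2)).2 h2), by rw [← map_mul, cm, map_mul], ?_⟩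
        rw [← map_mul, hc', em, hD _ (xl (lt d h2) h1), ← LD3 _ (xl (lt d h2) h1)]
        exact h3⟩
      erw [this]
      rw [Set.ncard_image_of_injective _ (MulAut.conj g).injective, nc _ (fun d hd => lt d (List.mem_filter.1 hd).1)
        (LD2.filter _)]
      refine LD5 c h1 ?_ (Bool.eq_false_iff.2 fun h => z2 ((hc' _ _).2 ((hD c h1).2 ((LD3 c h1).1 h))))
      rintro rfl
      exact z1 (by rw [e0, map_one]))
  exact fun a ha => hB a ha (key _ ((hD 1 (by norm_num)).2 (by decide)) a ha)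

theorem AL2 {G : Type*} [Group G] [Finite G] (W : G) (Wc : ∀ g, g * W = W * g) (W2 : W * W = 1) (T : Set G)
    (hT : ∀ a ∈ T, a * a = 1 ∧ a * W ∈ T) (hc : ∀ a ∈ T, ∀ g, g * a * g⁻¹ ∈ T) (gs : List G)
    (hg : ∀ a ∈ gs, a * a = 1 ∧ ∀ b ∈ gs, a * b = b * a ∨ a * b = b * a * W) (tr : ∀ a ∈ T, IsConj (pl gs 1) a)
    (h0 : ∀ c < 256, pl gs c = 1 ∨ pl gs c = W → c = 0) (hD : ∀ c < 256, pl gs c ∈ T ↔ c ∈ LD)
    (hB : ∀ a ∈ T, pl gs 1 * a = a * pl gs 1 ∨ pl gs 1 * a = a * pl gs 1 * W →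
      ∃ c < 256, a = pl gs c ∨ a = pl gs c * W) : ∀ a ∈ T, ∃ c < 256, a = pl gs c ∨ a = pl gs c * W := by
  let N : Subgroup G := subOf (fun x => x = 1 ∨ x = W) (Or.inl rfl) (by
    rintro _ _ (rfl | rfl) (rfl | rfl) <;> simp [W2])
  have : N.Normal := ⟨by
    rintro _ (rfl | rfl) g
    exacts [Or.inl (by simp), Or.inr (by rw [Wc, mul_inv_cancel_right])]⟩
  let π := QuotientGroup.mk' N
  have eq : ∀ {x y}, π y = π x ↔ x = y ∨ x = y * W := fun {x y} => QuotientGroup.eq.trans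
    (or_congr (inv_mul_eq_one.trans eq_comm) inv_mul_eq_iff_eq_mul)
  have mT : ∀ {x}, π x ∈ π '' T ↔ x ∈ T := ⟨fun ⟨y, hy, e⟩ => (eq.1 e).elim (· ▸ hy) (· ▸ (hT y hy).2),
    fun h => ⟨_, h, rfl⟩⟩
  intro a ha
  obtain ⟨c, h1, h2⟩ := AL1 (π '' T) (by rintro _ ⟨a, ha, rfl⟩; rw [← map_mul, (hT a ha).1, map_one])
    (by
      rintro _ ⟨a, ha, rfl⟩ g
      obtain ⟨g, rfl⟩ := QuotientGroup.mk'_surjective N g
      exact ⟨_, hc a ha g, by simp [π]⟩) (fun c => π (pl gs c))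
    (fun c d => by
      simp only [map_pl]
      refine pl_xor (fun x hx0 => ?_) c d
      obtain ⟨x, hx, rfl⟩ := List.mem_map.1 hx0
      refine ⟨by rw [← map_mul, (hg x hx).1, map_one], fun y hy0 => ?_⟩
      obtain ⟨y, hy, rfl⟩ := List.mem_map.1 hy0
      rw [← map_mul, ← map_mul]
      exact (eq.2 ((hg x hx).2 y hy)).symm)
    (by rintro _ ⟨a, ha, rfl⟩; exact π.map_isConj (tr a ha))
    (fun c h e => h0 c h (by simpa using eq.1 (e.trans π.map_one.symm).symm)) (fun c h => mT.trans (hD c h))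
    (by
      rintro _ ⟨a, ha, rfl⟩ e
      rw [← map_mul, ← map_mul] at e
      obtain ⟨c, h1, h2⟩ := hB a ha (eq.1 e.symm)
      exact ⟨c, h1, (eq.2 h2).symm⟩) _ ⟨a, ha, rfl⟩
  exact ⟨c, h1, eq.1 h2.symm⟩
end CfH1
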