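import Cfsg.Agent.OD.Pre
import Cfsg.Agent.H5.DoubleCover
import Mathlib.GroupTheory.SpecificGroups.Alternating.Simple
/-! Homomorphisms from Carmichael's presentation of the alternating groups. -/
set_option autoImplicit false
open Subgroup Equiv
namespace CfH1

theorem carm {G H : Type*} [Group G] [Finite G] [Group H] [Finite H] {n : ℕ} (s : Fin n → G) (s' : Fin n → H)
    (h3 : ∀ i, s i ^ 3 = 1) (h2 : ∀ i j, i ≠ j → (s i * s j) ^ 2 = 1) (h3' : ∀ i, s' i ^ 3 = 1)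
    (h2' : ∀ i j, i ≠ j → (s' i * s' j) ^ 2 = 1) (hg : ∀ K : Subgroup H, (∀ i, s' i ∈ K) → K = ⊤)
    (hc : (n + 2).factorial ≤ 2 * Nat.card H) : ∃ ψ : H →* G, ∀ i, ψ (s' i) = s i := by
  have hb := CfH5.carmichael_bound (fun i => (s' i, s i)) Finset.univ (fun i _ => Prod.ext (h3' i) (h3 i))
    fun i _ j _ e => Prod.ext (h2' i j e) (h2 i j e)
  rw [Finset.card_univ, Fintype.card_fin] at hb
  have m : ∀ i, (s' i, s i) ∈ closure ((fun i => (s' i, s i)) '' (Finset.univ : Finset (Fin n))) :=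
    fun i => subset_closure ⟨i, by simp, rfl⟩
  generalize Subgroup.closure (G := H × G) _ = K at hb m
  let f := (MonoidHom.fst H G).comp K.subtype
  have sj : Function.Surjective f := MonoidHom.range_eq_top.1 (hg _ fun i => ⟨⟨_, m i⟩, rfl⟩)
  let e := MulEquiv.ofBijective f (sj.bijective_of_nat_card_le (by omega))
  refine ⟨((MonoidHom.snd H G).comp K.subtype).comp e.symm.toMonoidHom, fun i => ?_⟩
  change (e.symm (e ⟨_, m i⟩)).1.2 = _
  rw [e.symm_apply_apply]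

/-- Carmichael's generators -/
def cg (n : ℕ) (i : Fin n) : alternatingGroup (Fin (n + 2)) :=
  ⟨swap 0 i.succ.succ * swap 0 1, Perm.mem_alternatingGroup.2 (by
    rw [Perm.sign_mul, Perm.sign_swap (Fin.succ_ne_zero _).symm, Perm.sign_swap Fin.zero_ne_one]; simp)⟩

theorem cg_gen (n : ℕ) (K : Subgroup (alternatingGroup (Fin (n + 2)))) (h : ∀ i, cg n i ∈ K) : K = ⊤ := by
  have := CfH5.alternatingGroup_le_of_forall (a := (0 : Fin (n + 2))) (b := 1) Fin.zero_ne_one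
    (L := K.map (Subgroup.subtype _)) (map_subtype_le _) fun i h0 h1 => by
      obtain ⟨i, rfl⟩ := Fin.exists_succ_eq.2 h0
      obtain ⟨i, rfl⟩ := Fin.exists_succ_eq.2 (fun e : i = 0 => h1 (by rw [e]; rfl))
      exact ⟨_, h i, rfl⟩
  refine eq_top_iff.2 fun a _ => ?_
  obtain ⟨b, hb, e⟩ := this a.2
  exact Subtype.ext e ▸ hb

theorem cg_card (n : ℕ) : (n + 2).factorial = 2 * Nat.card (alternatingGroup (Fin (n + 2))) := by
  rw [two_mul_nat_card_alternatingGroup, Nat.card_eq_fintype_card, Fintype.card_perm, Fintype.card_fin]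

theorem carmA {G : Type*} [Group G] [Finite G] {n : ℕ} (s : Fin n → G) (h3 : ∀ i, s i ^ 3 = 1)
    (h2 : ∀ i j, i ≠ j → (s i * s j) ^ 2 = 1) (h3' : ∀ i, (cg n i).1 ^ 3 = 1)
    (h2' : ∀ i j, i ≠ j → ((cg n i).1 * (cg n j).1) ^ 2 = 1) :
    ∃ ψ : alternatingGroup (Fin (n + 2)) →* G, ∀ i, ψ (cg n i) = s i :=
  carm s (cg n) h3 h2 (fun i => Subtype.ext (h3' i)) (fun i j e => Subtype.ext (h2' i j e)) (cg_gen n) (cg_card n).le

theorem carm12 {G : Type*} [Group G] [Finite G] (s : Fin 10 → G) (h3 : ∀ i, s i ^ 3 = 1)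
    (h2 : ∀ i j, i ≠ j → (s i * s j) ^ 2 = 1) (h1 : s 0 ≠ 1) :
    ∃ H : Subgroup G, Nonempty (H ≃* alternatingGroup (Fin 12)) := by
  obtain ⟨ψ, hψ⟩ := carmA s h3 h2 (by decide +kernel) (by decide +kernel)
  have := alternatingGroup.isSimpleGroup (α := Fin (10 + 2)) (by simp)
  have hi : Function.Injective ψ := (MonoidHom.ker_eq_bot_iff ψ).1 ((ψ.normal_ker.eq_bot_or_eq_top).resolve_right
    fun e => h1 ((hψ 0).symm.trans (e ▸ mem_top _ : _ ∈ ψ.ker)))
  exact ⟨ψ.range, ⟨(MonoidHom.ofInjective hi).symm⟩⟩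
end CfH1
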