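import Cfsg.Agent.OD.Pre
import Cfsg.Agent.H1.Products
import Cfsg.Agent.S0558
import Cfsg.Agent.OD.Helper1x24a0d5f1dd

/-! The Kegel-Wielandt theorem: a finite product of two nilpotent groups is solvable. -/

set_option autoImplicit false

namespace CfH1

open Cfsg Subgroup CfH9
open scoped Pointwise commutatorElement

universe u

variable {G : Type*} [Group G]

theorem le_normalizer_of_sylIn_of_isNilpotent [Finite G] {p : ℕ} [Fact p.Prime] {S H : Subgroup G}
    (hS : SylIn p S H) (hH : Group.IsNilpotent H) : H ≤ normalizer (S : Set G) := by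
  rw [← hS.map_toSylow]
  exact le_normalizer_map_subtype _

theorem le_of_sylIn_of_isNilpotent [Finite G] {p : ℕ} [Fact p.Prime] {S H Q : Subgroup G}
    (hS : SylIn p S H) (hH : Group.IsNilpotent H) (hQ : IsPGroup p Q) (hle : Q ≤ H) : Q ≤ S :=
  hS.le_of_le_Nm' hQ hle (hle.trans (le_normalizer_of_sylIn_of_isNilpotent hS hH))

theorem eq_of_sylIn_of_isNilpotent [Finite G] {p : ℕ} [Fact p.Prime] {S T H : Subgroup G}
    (hS : SylIn p S H) (hT : SylIn p T H) (hH : Group.IsNilpotent H) : S = T :=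
  le_antisymm (le_of_sylIn_of_isNilpotent hT hH hS.pgrp hS.le)
    (le_of_sylIn_of_isNilpotent hS hH hT.pgrp hT.le)

theorem PiHall.sylIn_top [Finite G] {π : Set ℕ} {p : ℕ} [hp : Fact p.Prime] {S H : Subgroup G}
    (hH : IsPiHall π H) (hπ : p ∈ π) (hS : SylIn p S H) : SylIn p S ⊤ :=
  hS.trans le_top (by rw [relIndex_top_right]; exact fun hd => PiHall.index hH p hp.out hd hπ)

/-- A nilpotent group is generated by a Sylow subgroup and the centraliser of any subgroup of it. -/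
theorem le_of_sylIn_le_of_isNilpotent [Finite G] {r : ℕ} [hr : Fact r.Prime] {A R X C : Subgroup G}
    (hA : Group.IsNilpotent A) (hR : SylIn r R A) (hX : X ≤ R) (h1 : R ≤ C)
    (h2 : centralizer (X : Set G) ≤ C) : A ≤ C := by
  intro a ha
  refine mem_of_forall_pPart_mem (fun p hp _ x hx ⟨k, hk⟩ => ?_)
  have hxA : zpowers x ≤ A := zpowers_le.2 (zpowers_le.2 ha hx)
  by_cases e : p = r
  · subst e
    exact h1 (le_of_sylIn_of_isNilpotent hR hA (isPGroup_zpowers hk) hxA (mem_zpowers x))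
  · refine h2 (le_centralizer_of_coprime hA hxA (hX.trans hR.le) ?_ (mem_zpowers x))
    obtain ⟨m, hm⟩ := (hR.pgrp.to_le hX).exists_card_eq
    rw [hm]
    exact (coprime_card_zpowers_of_pow hp hr.out e hk).pow_right _

theorem isPiNum_fittingOf [Finite G] {π : Set ℕ} {S : Subgroup G}
    (h : ∀ q : ℕ, q.Prime → q ∉ π → q ∣ Nat.card S → pCoreOf q S = ⊥) :
    IsPiNum π (Nat.card (fittingOf S)) := by
  intro q hq hd
  by_contra hπ
  haveI := Fact.mk hq
  obtain ⟨Q, hQ, hQp, hne⟩ := dvd_card_iff_exists.1 hd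
  have h1 := ((CfH7.subnIn_of_isNilpotent (CfH7.isNilpotent_fittingOf S) hQ).trans
    (CfH7.subnIn_of_normal (CfH7.fittingOf_le S) (CfH7.le_normalizer_fittingOf S))).le_pCoreOf hQp
  rw [h q hq hπ (hd.trans (card_dvd_of_le (CfH7.fittingOf_le S))), le_bot_iff] at h1
  exact hne h1

theorem exists_pow_orderOf_prime [Finite G] {a : G} (ha : a ≠ 1) :
    ∃ x ∈ zpowers a, (orderOf x).Prime := by
  obtain ⟨p, hp, hd⟩ := Nat.exists_prime_and_dvd (show orderOf a ≠ 1 by simpa using ha)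
  haveI := Fact.mk hp
  obtain ⟨y, hy, hyo⟩ := exists_orderOf_eq_prime (Q := zpowers a) (p := p)
    (by rwa [Nat.card_zpowers])
  exact ⟨y, hy, hyo ▸ hp⟩

theorem le_normalizer_zpowers_of_mem_centralizer {B : Subgroup G} {b : G}
    (h : b ∈ centralizer (B : Set G)) : B ≤ normalizer ((zpowers b : Subgroup G) : Set G) :=
  (le_Cx_iff.2 h).trans (Cz_zpowers b ▸ centralizer_le_normalizer _)

theorem exists_center_pElement [Finite G] {A : Subgroup G} (hA : Group.IsNilpotent A) {r : ℕ}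
    [Fact r.Prime] {R : Subgroup G} (hR : SylIn r R A) (hd : r ∣ Nat.card A) :
    ∃ z ∈ R, z ≠ 1 ∧ z ∈ centralizer (A : Set G) :=
  exists_mem_centralizer_of_isNilpotent hA hR.le (le_normalizer_of_sylIn_of_isNilpotent hR hA)
    (hR.ne_bot_iff.2 hd)

/-- Proper subgroups that are products of two nilpotent subgroups are solvable. -/
def KWMin (G : Type*) [Group G] : Prop :=
  ∀ H : Subgroup G, H ≠ ⊤ → ∀ A B : Subgroup G, Group.IsNilpotent A → Group.IsNilpotent B →
    (∀ h ∈ H, ∃ a ∈ A ⊓ H, ∃ b ∈ B ⊓ H, h = a * b) → Group.IsSolvable H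

/-- The configuration of a minimal counterexample to the Kegel-Wielandt theorem. -/
structure KWPair (π : Set ℕ) (A B : Subgroup G) : Prop where
  simple : IsSimpleGroup G
  ns : ¬ Group.IsSolvable G
  min : KWMin G
  fac : Fac A B
  nA : Group.IsNilpotent A
  nB : Group.IsNilpotent B
  hA : IsPiHall π A
  hB : IsPiHall πᶜ B
  twoA : ∀ s : ℕ, ∃ r : ℕ, r.Prime ∧ r ∣ Nat.card A ∧ r ≠ s
  twoB : ∀ s : ℕ, ∃ r : ℕ, r.Prime ∧ r ∣ Nat.card B ∧ r ≠ s

namespace KWPair

variable {π : Set ℕ} {A B : Subgroup G}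

theorem symm (h : KWPair π A B) : KWPair πᶜ B A :=
  ⟨h.simple, h.ns, h.min, h.fac.symm, h.nB, h.nA, h.hB, by rw [compl_compl]; exact h.hA,
    h.twoB, h.twoA⟩

theorem conjR (h : KWPair π A B) (g : G) : KWPair π A (MulAut.conj g • B) :=
  ⟨h.simple, h.ns, h.min, h.fac.conj_right g, h.nA, isNilpotent_smul _ h.nB, h.hA,
    PiHall.smul _ h.hB, h.twoA, by rw [card_smul]; exact h.twoB⟩

theorem conjL (h : KWPair π A B) (g : G) : KWPair π (MulAut.conj g • A) B :=
  ⟨h.simple, h.ns, h.min, h.fac.conj_left g, isNilpotent_smul _ h.nA, h.nB,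
    PiHall.smul _ h.hA, h.hB, by rw [card_smul]; exact h.twoA, h.twoB⟩

theorem nz (h : KWPair π A B) {X : Subgroup G} (h1 : X ≠ ⊥) (h2 : X ≠ ⊤) :
    normalizer (X : Set G) ≠ ⊤ := by
  intro e
  haveI := h.simple
  exact (normalizer_eq_top_iff.1 e).eq_bot_or_eq_top.elim h1 h2

theorem nz' (h : KWPair π A B) {X : Subgroup G} (h1 : X ≠ ⊥) (h2 : Group.IsSolvable X) :
    normalizer (X : Set G) ≠ ⊤ :=
  h.nz h1 (fun e => h.ns (by rwa [e, isSolvable_top_iff] at h2))

theorem f4 (h : KWPair π A B) {H : Subgroup G} (hH : H ≠ ⊤) (hA : A ≤ H) {b : G}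
    (hb : b ∈ centralizer (B : Set G)) (hbH : b ∈ H) : b = 1 := by
  have h1 := normalClosure_le_of_factor (h.fac.symm.mono le_rfl hA)
    (le_normalizer_zpowers_of_mem_centralizer hb) (zpowers_le.2 hbH)
  haveI := h.simple
  rcases (normalClosure_normal (s := (zpowers b : Set G))).eq_bot_or_eq_top with e | e
  · exact mem_bot.1 (e ▸ le_normalClosure (mem_zpowers b))
  · exact absurd (top_le_iff.1 (e ▸ h1)) hH

variable [Finite G]

theorem exists_center (h : KWPair π A B) : ∃ a ∈ A, a ≠ 1 ∧ a ∈ centralizer (A : Set G) := by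
  obtain ⟨r, hr, hd, -⟩ := h.twoA 0
  haveI := Fact.mk hr
  obtain ⟨R, hR⟩ := exists_sylIn r A
  obtain ⟨z, hz, h1, h2⟩ := exists_center_pElement h.nA hR hd
  exact ⟨z, hR.le hz, h1, h2⟩

theorem f5a (h : KWPair π A B) {r t : ℕ} [hr : Fact r.Prime] [ht : Fact t.Prime] {R : Subgroup G}
    (hR : SylIn r R A) (hd : r ∣ Nat.card A) {b : G} (hbB : b ∈ B)
    (hb : b ∈ centralizer (B : Set G)) (ho : orderOf b = t) (hne : R ⊔ zpowers b ≠ ⊤) :
    IsPGroup t (⨆ y ∈ R, MulAut.conj y • zpowers b : Subgroup G) := by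
  have hb1 : b ≠ 1 := by rintro rfl; exact ht.out.ne_one (by rw [← ho, orderOf_one])
  have hrπ : r ∈ π := PiHall.card h.hA r hr.out hd
  have hAR := le_normalizer_of_sylIn_of_isNilpotent hR h.nA
  set N := normalizer ((R ⊔ zpowers b : Subgroup G) : Set G) with hN
  have hNt : N ≠ ⊤ := h.nz (fun e => hb1 (mem_bot.1 (e ▸ mem_sup_right (mem_zpowers b)))) hne
  have hfac : ∀ g ∈ N, ∃ a ∈ A ⊓ N, ∃ c ∈ B ⊓ N, g = a * c := by
    intro g hg
    obtain ⟨a, ha, c, hc, e⟩ := h.fac.normalizer_sup hAR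
      (le_normalizer_zpowers_of_mem_centralizer hb) hg
    exact ⟨a, ha.symm, c, hc.symm, e⟩
  haveI hNs : Group.IsSolvable N := h.min N hNt A B h.nA h.nB hfac
  have hRN : R ≤ N := le_sup_left.trans le_normalizer
  have hbN : b ∈ N := le_normalizer (mem_sup_right (mem_zpowers b))
  have hfac' := Fac.subgroupOf_of_forall hfac
  obtain ⟨T, hT⟩ := exists_sylIn t (B ⊓ N)
  have nBN : Group.IsNilpotent (B ⊓ N : Subgroup G) := isNilpotent_of_le inf_le_left h.nB
  have hTN : T ≤ N := hT.le.trans inf_le_right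
  have hbp : IsPGroup t (zpowers b) := isPGroup_zpowers_of_orderOf (k := 1) (by rw [ho, pow_one])
  have htπ : t ∈ πᶜ := PiHall.card h.hB t ht.out (ho ▸ orderOf_dvd_natCard _ hbB)
  have hT' : SylIn t T N := hT.trans inf_le_right (by
    rw [inf_relIndex_right]
    intro hd'
    have := hd'.trans (hfac'.symm.index_dvd.trans (CfH7.card_subgroupOf_dvd _ _))
    exact htπ (PiHall.card h.hA t ht.out this))
  have hR' : SylIn r R N := (PiHall.sylIn_top h.hA hrπ hR).mono hRN le_top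
  have hall : ∀ {p : ℕ} [Fact p.Prime] {S : Subgroup G}, SylIn p S N →
      (Nat.card (S.subgroupOf N)).Coprime (S.subgroupOf N).index :=
    fun hS => hS.toSylow.card_coprime_index
  obtain ⟨S₀, hS₀⟩ := hfac'.exists_hall_mul (A := R.subgroupOf N) (B := T.subgroupOf N)
    (by rw [← subgroupOf_normalizer_eq hRN]; exact subgroupOf_mono N hAR)
    (by
      rw [← subgroupOf_normalizer_eq hTN, ← inf_subgroupOf_right]
      exact subgroupOf_mono N (le_normalizer_of_sylIn_of_isNilpotent hT nBN))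
    (hall hR') (hall hT')
  have hperm : Permutes R T := by
    intro y hy x hx
    obtain ⟨a, ha, c, hc, e⟩ := Permutes.of_coe_eq hS₀ ⟨y, hTN hy⟩ hy ⟨x, hRN hx⟩ hx
    exact ⟨a, ha, c, hc, congrArg Subtype.val e⟩
  set S := R ⊔ T with hS
  have hSN : S ≤ N := sup_le hRN hTN
  have hbT : b ∈ T := le_of_sylIn_of_isNilpotent hT nBN hbp (zpowers_le.2 ⟨hbB, hbN⟩) (mem_zpowers b)
  have hF : IsPGroup t (fittingOf S) := by
    refine isPGroup_of_isPiNum ht.out (isPiNum_fittingOf (fun q hq hqt hqd => ?_))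
    have hqr : q = r := by
      obtain ⟨i, hi⟩ := hR.pgrp.exists_card_eq
      obtain ⟨j, hj⟩ := hT.pgrp.exists_card_eq
      have := hqd.trans hperm.card_sup_dvd
      rw [hi, hj] at this
      rcases (Nat.Prime.dvd_mul hq).1 this with h1 | h1
      · exact (Nat.prime_dvd_prime_iff_eq hq hr.out).1 (hq.dvd_of_dvd_pow h1)
      · exact absurd ((Nat.prime_dvd_prime_iff_eq hq ht.out).1 (hq.dvd_of_dvd_pow h1)) hqt
    subst hqr
    by_contra hne'
    have h1 : pCoreOf q S ≤ R := (hR'.mono le_sup_left hSN).le_of_le_Nm (CfH7.isPGroup_pCoreOf S)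
      (CfH7.pCoreOf_le S) (le_sup_left.trans (CfH7.le_normalizer_pCoreOf S))
    refine hb1 (h.f4 (h.nz' hne' (CfH8.isSolvable_of_isPGroup (CfH7.isPGroup_pCoreOf S))) ?_ hb
      (CfH7.le_normalizer_pCoreOf S (mem_sup_right hbT)))
    exact le_of_sylIn_le_of_isNilpotent h.nA hR h1
      (le_sup_left.trans (CfH7.le_normalizer_pCoreOf S)) (centralizer_le_normalizer _)
  have hFT : fittingOf S ≤ T := (hT'.mono le_sup_right hSN).le_of_le_Nm hF (CfH7.fittingOf_le S)
    (le_sup_right.trans (CfH7.le_normalizer_fittingOf S))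
  have hbF : b ∈ fittingOf S := inf_centralizer_fittingOf_le (isSolvable_of_le hSN hNs)
    ⟨mem_sup_right hbT, Cz_anti (hFT.trans (hT.le.trans inf_le_left)) hb⟩
  refine hF.to_le (iSup₂_le (fun y hy => ?_))
  rw [← conj_smul_eq_iff.2 (CfH7.le_normalizer_fittingOf S (mem_sup_left hy))]
  exact conj_smul_mono _ (zpowers_le.2 hbF)

theorem f5 (h : KWPair π A B) {r t : ℕ} [hr : Fact r.Prime] [ht : Fact t.Prime] {R : Subgroup G}
    (hR : SylIn r R A) (hd : r ∣ Nat.card A) {b : G} (hbB : b ∈ B)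
    (hb : b ∈ centralizer (B : Set G)) (ho : orderOf b = t) : R ⊔ zpowers b = ⊤ := by
  by_contra hne
  have hb1 : b ≠ 1 := by rintro rfl; exact ht.out.ne_one (by rw [← ho, orderOf_one])
  have hAR := le_normalizer_of_sylIn_of_isNilpotent hR h.nA
  have hbp : IsPGroup t (zpowers b) := isPGroup_zpowers_of_orderOf (k := 1) (by rw [ho, pow_one])
  have htπ : t ∈ πᶜ := PiHall.card h.hB t ht.out (ho ▸ orderOf_dvd_natCard _ hbB)
  obtain ⟨P, hP⟩ := matsuyama t (zpowers b) R (fun g => by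
    have h1 := (h.conjR g).f5a (t := t) hR hd (conj_mem_conj_smul g hbB)
      (by rw [← smul_centralizer]; exact conj_mem_conj_smul g hb)
      (by rw [← ho]; exact (MulAut.conj g).orderOf_eq b) (by
        obtain ⟨a, ha, c, hc, rfl⟩ := h.fac g
        rw [← conj_smul_zpowers, ← conj_smul_conj_smul,
          conj_smul_eq_iff.2 (le_normalizer_zpowers_of_mem_centralizer hb hc),
          ← conj_smul_eq_iff.2 (hAR ha), ← Subgroup.smul_sup, Ne, smul_eq_top_iff]
        exact hne)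
    have e : (⨆ y ∈ R, MulAut.conj y • zpowers (g * b * g⁻¹) : Subgroup G) =
        ⨆ y ∈ R, MulAut.conj (y * g) • zpowers b := by
      simp only [conj_smul_zpowers, mul_inv_rev, mul_assoc]
    rwa [e] at h1)
  set W : Subgroup G := ⨆ g ∈ {g : G | MulAut.conj g • zpowers b ≤ (P : Subgroup G)},
    MulAut.conj g • zpowers b with hW
  have hWP : W ≤ P := iSup₂_le (fun g hg => hg)
  have hWne : W ≠ ⊥ := by
    obtain ⟨Q, hQ⟩ := hbp.exists_le_sylow
    obtain ⟨g, rfl⟩ := MulAction.exists_smul_eq G Q P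
    intro e
    have : MulAut.conj g • zpowers b ≤ W :=
      le_iSup₂_of_le (f := fun g (_ : g ∈ {g : G | MulAut.conj g • zpowers b ≤ _}) =>
        MulAut.conj g • zpowers b) g (conj_smul_mono g hQ) le_rfl
    rw [e, le_bot_iff, smul_eq_bot_iff, zpowers_eq_bot] at this
    exact hb1 this
  have hNP : normalizer ((P : Subgroup G) : Set G) ≤ normalizer (W : Set G) := by
    intro n hn
    rw [← conj_smul_eq_iff]
    refine Subgroup.eq_of_le_of_card_ge ?_ (by rw [card_smul])
    rw [conj_smul_le_iff]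
    refine iSup₂_le (fun g hg => ?_)
    rw [← conj_smul_le_iff, conj_smul_conj_smul]
    refine le_iSup₂_of_le (f := fun g (_ : g ∈ {g : G | MulAut.conj g • zpowers b ≤ _}) =>
        MulAut.conj g • zpowers b) (n * g) ?_ le_rfl
    change MulAut.conj (n * g) • zpowers b ≤ _
    rw [← conj_smul_conj_smul, ← conj_smul_eq_iff.2 hn]
    exact conj_smul_mono _ hg
  obtain ⟨T, hT⟩ := exists_sylIn t B
  obtain ⟨g, -, hg⟩ := (PiHall.sylIn_top h.hB htπ hT).conj (sylIn_top P)
  have hBP : MulAut.conj g • B ≤ normalizer ((P : Subgroup G) : Set G) := by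
    rw [← hg, ← cj_normalizer]
    exact cj_mono g (le_normalizer_of_sylIn_of_isNilpotent hT h.nB)
  obtain ⟨a, ha, ha1, hac⟩ := exists_center_pElement h.nA hR hd
  exact ha1 ((h.conjR g).symm.f4
    (h.nz' hWne (CfH8.isSolvable_of_isPGroup (P.isPGroup'.to_le hWP))) (hBP.trans hNP) hac (hP ha))

theorem f7a (h : KWPair π A B) {a : G} (haA : a ∈ A) (ha1 : a ≠ 1)
    (ha : a ∈ centralizer (A : Set G)) {t : ℕ} [ht : Fact t.Prime] (htπ : t ∉ π) {T : Subgroup G}
    (hT : IsPGroup t T) (hn : a ∈ normalizer (T : Set G)) : T = ⊥ := by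
  by_contra hne
  obtain ⟨x, hx, hxp⟩ := exists_pow_orderOf_prime ha1
  obtain ⟨g, hg⟩ := le_conj_of_isNilpotent_hall h.hB h.nB (isPiNum_card_of_isPGroup hT htπ)
  have h' := (h.conjR g).symm
  obtain ⟨q, hq, hqd, hqt⟩ := h'.twoA t
  haveI := Fact.mk hq
  haveI := Fact.mk hxp
  obtain ⟨Q, hQ⟩ := exists_sylIn q (MulAut.conj g • B)
  have h1 := h'.f5 hQ hqd (zpowers_le.2 haA hx) (zpowers_le.2 ha hx) rfl
  refine h.nz' hne (CfH8.isSolvable_of_isPGroup hT) (top_le_iff.1 (h1 ▸ sup_le ?_ ?_))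
  · refine (le_centralizer_of_coprime h'.nA hQ.le hg ?_).trans (centralizer_le_normalizer _)
    obtain ⟨k, hk⟩ := hT.exists_card_eq
    rw [hk]
    exact (CfH7.coprime_card_of_isPGroup_of_ne hqt hQ.pgrp).pow_right _
  · exact zpowers_le.2 (zpowers_le.2 hn hx)

theorem f7 (h : KWPair π A B) {a : G} (haA : a ∈ A) (ha1 : a ≠ 1)
    (ha : a ∈ centralizer (A : Set G)) {K : Subgroup G} (hK : IsPiNum πᶜ (Nat.card K))
    (hn : a ∈ normalizer (K : Set G)) : K = ⊥ := by
  by_contra hne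
  haveI := (Subgroup.nontrivial_iff_ne_bot K).2 hne
  obtain ⟨t, ht, hd, -⟩ := exists_max_prime_dvd_card K
  haveI := Fact.mk ht
  obtain ⟨S, hS, hn'⟩ := CfH8.exists_invariant_sylIn t (A := zpowers a) (N := K) (zpowers_le.2 hn)
    ((isPiNum_card_of_le (zpowers_le.2 haA) (PiHall.card h.hA)).coprime hK)
    (Or.inl (CfH8.isSolvable_zpowers a))
  exact hS.ne_bot_iff.2 hd (h.f7a haA ha1 ha (hK t ht hd) hS.pgrp (hn' (mem_zpowers a)))

theorem centralizer_le (h : KWPair π A B) {a : G} (haA : a ∈ A) (ha1 : a ≠ 1)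
    (ha : a ∈ centralizer (A : Set G)) : centralizer {a} ≤ A := by
  intro c hc
  obtain ⟨x, hx, y, hy, rfl⟩ := h.fac c
  have hy' : y ∈ centralizer ({a} : Set G) := (mul_mem_cancel_left (le_Cx_iff.2 ha hx)).1 hc
  have := h.f7 haA ha1 ha (K := zpowers y) (isPiNum_card_of_le (zpowers_le.2 hy) (PiHall.card h.hB))
    (centralizer_le_normalizer _ (by rw [Cz_zpowers, mem_Cx]; exact (mem_Cx.1 hy').symm))
  rw [zpowers_eq_bot.1 this, mul_one]
  exact hx

theorem f8 (h : KWPair π A B) {a : G} (haA : a ∈ A) (ha1 : a ≠ 1)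
    (ha : a ∈ centralizer (A : Set G)) {g : G} (hg : a ∈ MulAut.conj g • A) :
    g ∈ normalizer (A : Set G) := by
  obtain ⟨x, hx, hxp⟩ := exists_pow_orderOf_prime ha1
  have hx1 : x ≠ 1 := by rintro rfl; exact Nat.not_prime_one (by simpa using hxp)
  obtain ⟨r, hr, hd, hrs⟩ := h.twoA (orderOf x)
  haveI := Fact.mk hr
  obtain ⟨R, hR⟩ := exists_sylIn r A
  have h' := h.conjL g
  have hR' : SylIn r (MulAut.conj g • R) (MulAut.conj g • A) := hR.cj g
  have h1 : MulAut.conj g • R ≤ A := by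
    refine le_trans ?_ (h.centralizer_le (zpowers_le.2 haA hx) hx1 (zpowers_le.2 ha hx))
    rw [← Cz_zpowers]
    refine le_centralizer_of_coprime h'.nA hR'.le (zpowers_le.2 (zpowers_le.2 hg hx)) ?_
    rw [Nat.card_zpowers]
    haveI := Fact.mk hxp
    exact CfH7.coprime_card_of_isPGroup_of_ne hrs hR'.pgrp
  have h2 : MulAut.conj g • R = R := Subgroup.eq_of_le_of_card_ge
    (le_of_sylIn_of_isNilpotent hR h.nA hR'.pgrp h1) (by rw [card_smul])
  obtain ⟨z, hz, hz1, hzc⟩ := exists_center_pElement h'.nA hR' (by rwa [card_smul])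
  have h3 : A ≤ centralizer {z} := by
    refine le_of_sylIn_le_of_isNilpotent h.nA hR (X := zpowers z) (zpowers_le.2 (h2 ▸ hz)) ?_
      (Cz_zpowers z).le
    rw [← h2]
    exact hR'.le.trans (le_Cx_iff.2 hzc)
  rw [← conj_smul_eq_iff]
  exact (Subgroup.eq_of_le_of_card_ge (h3.trans (h'.centralizer_le (hR'.le hz) hz1 hzc))
    (by rw [card_smul])).symm

theorem f9a (h : KWPair π A B) {V : Subgroup G} (hV : Group.IsSolvable V)
    (hZ : A ⊓ centralizer (A : Set G) ≤ V) (hH : IsPiHallOf π (A ⊓ V) V) :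
    V ≤ normalizer (A : Set G) := by
  obtain ⟨a, haA, ha1, ha⟩ := h.exists_center
  have haV : a ∈ V := hZ ⟨haA, ha⟩
  have h1 : IsPiNum π (Nat.card (fittingOf V)) := isPiNum_fittingOf (fun q hq hπ _ => by
    haveI := Fact.mk hq
    exact h.f7a haA ha1 ha hπ (CfH7.isPGroup_pCoreOf V) (CfH7.le_normalizer_pCoreOf V haV))
  have h2 : fittingOf V ≤ A := (PiHallOf.le_of_le_normalizer hH h1 (CfH7.fittingOf_le V)
    (inf_le_right.trans (CfH7.le_normalizer_fittingOf V))).trans inf_le_left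
  have h3 : a ∈ fittingOf V := inf_centralizer_fittingOf_le hV ⟨haV, Cz_anti h2 ha⟩
  intro v hv
  refine h.f8 haA ha1 ha (mem_conj_smul.2 (h2 ?_))
  exact conj_mem_of_mem_normalizer' (CfH7.le_normalizer_fittingOf V hv) h3

theorem f9 (h : KWPair π A B) {z : G} (hzA : z ∈ A) (hz1 : z ≠ 1)
    (hz : z ∈ normalizer (B : Set G)) : centralizer {z} ≤ normalizer (A : Set G) := by
  have hAB : A ⊓ B = ⊥ := disjoint_iff.1
    (Subgroup.disjoint_of_coprime_natCard ((PiHall.card h.hA).coprime (PiHall.card h.hB)))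
  have hfac : ∀ g ∈ centralizer ({z} : Set G), ∃ a ∈ A ⊓ centralizer ({z} : Set G),
      ∃ c ∈ B ⊓ centralizer ({z} : Set G), g = a * c := by
    intro g hg
    obtain ⟨a, ha, b, hb, rfl⟩ := h.fac g
    have e := mem_Cx.1 hg
    have h1 : a⁻¹ * (z * a * z⁻¹) ∈ A ⊓ B := by
      refine ⟨A.mul_mem (A.inv_mem ha) (A.mul_mem (A.mul_mem hzA ha) (A.inv_mem hzA)), ?_⟩
      have : a⁻¹ * (z * a * z⁻¹) = b * (z * b⁻¹ * z⁻¹) := by
        calc a⁻¹ * (z * a * z⁻¹) = a⁻¹ * (z * (a * b)) * b⁻¹ * z⁻¹ := by group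
          _ = _ := by rw [← e]; group
      rw [this]
      exact B.mul_mem hb (conj_mem_of_mem_normalizer hz (B.inv_mem hb))
    rw [hAB, mem_bot] at h1
    have h2 : a ∈ centralizer ({z} : Set G) := by
      rw [mem_Cx]
      calc a * z = a * (a⁻¹ * (z * a * z⁻¹)) * z := by rw [h1, mul_one]
        _ = _ := by group
    exact ⟨a, ⟨ha, h2⟩, b, ⟨hb, (mul_mem_cancel_left h2).1 hg⟩, rfl⟩
  have hne : centralizer ({z} : Set G) ≠ ⊤ := fun e =>
    h.nz' (X := zpowers z) (by simpa using hz1) (CfH8.isSolvable_zpowers z)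
      (top_le_iff.1 (e ▸ Cz_zpowers z ▸ centralizer_le_normalizer _))
  refine h.f9a (h.min _ hne A B h.nA h.nB hfac) (inf_le_right.trans (Cz_le_Cx hzA)) ?_
  rw [isPiHallOf_iff]
  refine ⟨inf_le_right, isPiNum_card_of_le inf_le_left (PiHall.card h.hA), ?_⟩
  rw [inf_relIndex_right]
  exact (PiHall.card h.hB).of_dvd
    ((Fac.subgroupOf_of_forall hfac).index_dvd.trans (CfH7.card_subgroupOf_dvd _ _))

theorem f10 (h : KWPair π A B) {x : G} (hxA : x ∈ A) (hx1 : x ≠ 1) :
    centralizer {x} ≤ normalizer (A : Set G) := by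
  set V := centralizer ({x} : Set G) with hV
  have hZ : ∀ z, z ∈ centralizer (A : Set G) → z ∈ V := fun z hz => Cz_le_Cx hxA hz
  by_cases hc : IsPiNum π (Nat.card (V ⊓ normalizer (A : Set G) : Subgroup G))
  swap
  · simp only [IsPiNum, not_forall] at hc
    obtain ⟨t, ht, hd, htπ⟩ := hc
    haveI := Fact.mk ht
    obtain ⟨y, hy, hyo⟩ := exists_orderOf_eq_prime hd
    have hy1 : y ≠ 1 := by rintro rfl; exact ht.ne_one (by rw [← hyo, orderOf_one])
    obtain ⟨g, hg⟩ := le_conj_of_isNilpotent_hall h.hB h.nB (K := zpowers y) (isPiNum_card_of_isPGroup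
      (isPGroup_zpowers_of_orderOf (k := 1) (by rw [hyo, pow_one])) htπ)
    have h1 := (h.conjR g).symm.f9 (hg (mem_zpowers y)) hy1 hy.2
    exact (h.conjR g).f9 hxA hx1 (h1 (by rw [mem_Cx]; exact (mem_Cx.1 hy.1).symm))
  have hVA : V ⊓ normalizer (A : Set G) ≤ A := PiHall.le_of_le_normalizer' h.hA hc inf_le_right
  set H := A.subgroupOf V with hH
  have nH : Group.IsNilpotent H := isNilpotent_subgroupOf V h.nA
  have hz : ∀ (p : ℕ) [Fact p.Prime], p ∣ Nat.card A → ∃ z : V, z ∈ H ∧ z ≠ 1 ∧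
      (z : G) ∈ centralizer (A : Set G) ∧ IsPGroup p (zpowers z) := by
    intro p _ hd
    obtain ⟨R, hR⟩ := exists_sylIn p A
    obtain ⟨z, hz, hz1, hzc⟩ := exists_center_pElement h.nA hR hd
    obtain ⟨k, hk⟩ := isPGroup_iff_mem.1 hR.pgrp z hz
    exact ⟨⟨z, hZ z hzc⟩, hR.le hz, fun e => hz1 (congrArg Subtype.val e), hzc,
      isPGroup_zpowers (k := k) (Subtype.ext hk)⟩
  have hnorm : ∀ (p : ℕ) [Fact p.Prime], p ∣ Nat.card A → ∀ S, SylIn p S H →
      normalizer (S : Set V) = H := by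
    intro p _ hd S hS
    refine le_antisymm (fun v hv => ?_) (le_normalizer_of_sylIn_of_isNilpotent hS nH)
    obtain ⟨z, hzH, hz1, hzc, hzp⟩ := hz p hd
    have h1 : z ∈ S := le_of_sylIn_of_isNilpotent hS nH hzp (zpowers_le.2 hzH) (mem_zpowers z)
    have h2 : v⁻¹ * z * v ∈ H := hS.le (conj_mem_of_mem_normalizer' hv h1)
    exact hVA ⟨v.2, h.f8 hzH (fun e => hz1 (Subtype.ext e)) hzc (mem_conj_smul.2 h2)⟩
  obtain ⟨K, hK, hc'⟩ := Cfsg.Agent.S0558.result H (by
      intro p hp P e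
      obtain ⟨r, hr, hd, hrp⟩ := h.twoA p
      haveI := Fact.mk hr
      haveI := Fact.mk hp
      obtain ⟨z, hzH, hz1, -, hzp⟩ := hz r hd
      have := IsPGroup.disjoint_of_ne _ _ hrp _ _ hzp P.isPGroup'
      exact hz1 (disjoint_def.1 this (mem_zpowers z) (e ▸ hzH)))
    (by
      intro p hp hd P
      haveI := Fact.mk hp
      exact hnorm p (hd.trans (CfH7.card_subgroupOf_dvd _ _)) _ (sylIn_of_sylow P))
  have hKπ : IsPiNum πᶜ (Nat.card (K.map V.subtype)) := by
    rw [card_subtype, ← hc'.index_eq_card]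
    intro p hp hd hπ
    haveI := Fact.mk hp
    have hdA : p ∣ Nat.card A := by
      have : p ∣ Nat.card A * A.index := by
        rw [card_mul_index]
        exact hd.trans ((index_dvd_card H).trans (card_subgroup_dvd_card V))
      exact ((Nat.Prime.dvd_mul hp).1 this).resolve_right
        (fun h1 => PiHall.index h.hA p hp h1 hπ)
    obtain ⟨S, hS⟩ := exists_sylIn p H
    have h1 := (hS.of_Nm_le le_top (inf_le_right.trans (hnorm p hdA S hS).le)).not_dvd_relIndex_of_le
      hS.le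
    rw [relIndex_top_right] at h1
    exact h1 hd
  obtain ⟨a, haA, ha1, ha⟩ := h.exists_center
  have hKb := h.f7 haA ha1 ha hKπ (le_normalizer_map_subtype K (hZ a ha))
  rw [map_eq_bot_iff_of_injective _ V.subtype_injective] at hKb
  have := hc'.sup_eq_top
  rw [hKb, bot_sup_eq, subgroupOf_eq_top] at this
  exact this.trans le_normalizer

theorem card_le (h : KWPair π A B) : Nat.card A ≤ Nat.card B := by
  obtain ⟨a, haA, ha1, ha⟩ := h.exists_center
  haveI := h.nA
  have hne := h.nz' (X := A) (fun e => ha1 (mem_bot.1 (e ▸ haA))) inferInstance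
  obtain ⟨g, hg⟩ : ∃ g, g ∉ normalizer (A : Set G) := by
    by_contra hc
    push Not at hc
    exact hne (eq_top_iff.2 (fun g _ => hc g))
  have hd : A ⊓ MulAut.conj g • A = ⊥ := by
    rw [eq_bot_iff]
    intro x hx
    by_contra hx1
    have h1 := (h.conjL g).f10 hx.2 hx1 (Cz_le_Cx hx.1 ha)
    exact hg (h.f8 haA ha1 ha (PiHall.mem_of_mem_normalizer (h.conjL g).hA
      ((PiHall.card h.hA).of_dvd (orderOf_dvd_natCard _ haA)) h1))
  have h1 := CfL.card_mul_card_le_of_le (H := A) (K := MulAut.conj g • A) (L := ⊤) le_top le_top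
  rw [hd, card_bot, one_mul, card_smul, card_top, ← A.card_mul_index] at h1
  exact (Nat.le_of_mul_le_mul_left h1 Nat.card_pos).trans
    (Nat.le_of_dvd Nat.card_pos h.fac.index_dvd)

theorem false (h : KWPair π A B) : False := by
  have h1 := le_antisymm h.card_le h.symm.card_le
  have h2 := (PiHall.card h.hA).coprime (PiHall.card h.hB)
  obtain ⟨r, hr, hd, -⟩ := h.twoA 0
  exact hr.ne_one (Nat.eq_one_of_dvd_coprimes h2 hd (h1 ▸ hd))

end KWPair

/-- The Kegel-Wielandt theorem. -/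
theorem kegel_wielandt {G : Type u} [Group G] [Finite G] {A B : Subgroup G}
    (hA : Group.IsNilpotent A) (hB : Group.IsNilpotent B) (h : Fac A B) : Group.IsSolvable G := by
  revert A B
  refine group_induction (P := fun G _ _ => ∀ {A B : Subgroup G}, Group.IsNilpotent A →
    Group.IsNilpotent B → Fac A B → Group.IsSolvable G) ?_ G
  intro G _ _ ih A B hA hB h
  by_contra ns
  have hmin : KWMin G := fun H hH A B hA hB hf => ih H (card_lt_of_ne_top hH)
    (isNilpotent_subgroupOf H hA) (isNilpotent_subgroupOf H hB) (Fac.subgroupOf_of_forall hf)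
  have ha : ∀ N : Subgroup G, N.Normal → Group.IsSolvable N → N = ⊥ := by
    intro N hN hs
    by_contra hne
    have := ih _ (card_quotient_lt hne) (isNilpotent_map _ hA) (isNilpotent_map _ hB)
      (h.map (QuotientGroup.mk'_surjective N))
    exact ns (Group.isSolvable_of_ker_le_range N.subtype (QuotientGroup.mk' N) (by simp))
  have hc : ∀ {A B : Subgroup G}, Group.IsNilpotent A → Group.IsNilpotent B → Fac A B →
      ∀ N : Subgroup G, N.Normal → N ≠ ⊥ → N ⊔ A = ⊤ := by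
    intro A B hA hB h N hN hne
    by_contra ht
    refine hne (ha N hN (isSolvable_of_le le_sup_left (ih (N ⊔ A : Subgroup G) (card_lt_of_ne_top ht)
      (isNilpotent_subgroupOf _ hA) (isNilpotent_subgroupOf _ hB) (h.subgroupOf_left le_sup_right))))
  have hcop : (Nat.card A).Coprime (Nat.card B) := by
    refine Nat.coprime_of_dvd (fun p hp d1 d2 => ?_)
    haveI := Fact.mk hp
    obtain ⟨P, hP⟩ := exists_sylIn p A
    obtain ⟨Q, hQ⟩ := exists_sylIn p B
    have h1 := commutator_le_pCore_of_permutes hP.pgrp hQ.pgrp (fun x => by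
      obtain ⟨P', Q', R, e⟩ := (h.conj_right x).exists_sylow p
      rw [eq_of_sylIn_of_isNilpotent (sylIn_of_sylow P') hP hA,
        eq_of_sylIn_of_isNilpotent (sylIn_of_sylow Q') (hQ.cj x) (isNilpotent_smul _ hB)] at e
      exact Permutes.of_coe_eq e)
    rw [ha (pCore p G) inferInstance (CfH8.isSolvable_of_isPGroup (CfH7.isPGroup_pCore p G)),
      le_bot_iff, commutator_eq_bot_iff_le_centralizer] at h1
    set N := normalClosure (Q : Set G) with hN
    set C := centralizer (N : Set G) with hC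
    have hCA := hc hA hB h C inferInstance (fun e => hP.ne_bot_iff.2 d1 (le_bot_iff.1 (e ▸ h1)))
    have hNC : N ⊓ C = ⊥ := ha _ inferInstance
      (CfH8.isSolvable_of_comm (CfH7.isMulCommutative_inf_centralizer N))
    have h2 : Group.IsSolvable (N.map (QuotientGroup.mk' C)) := by
      refine isSolvable_of_le (K := A.map (QuotientGroup.mk' C)) ?_ (isSolvable_map _ inferInstance)
      rw [(map_mk'_eq_top_iff C A).2 (by rwa [sup_comm])]
      exact le_top
    have h3 : Group.IsSolvable N := by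
      refine Group.isSolvable_of_isSolvable_injective (f := (QuotientGroup.mk' C).subgroupMap N) ?_
      rw [← MonoidHom.ker_eq_bot_iff, ker_subgroupMap_mk', subgroupOf_eq_bot, disjoint_iff,
        inf_comm, hNC]
    exact hQ.ne_bot_iff.2 d2 (le_bot_iff.1 (ha N inferInstance h3 ▸ le_normalClosure))
  haveI : Nontrivial G := by
    rcases subsingleton_or_nontrivial G with h0 | h0
    · exact absurd (inferInstance : Group.IsSolvable G) ns
    · exact h0
  haveI hs : IsSimpleGroup G := ⟨fun N hN => by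
    by_cases hne : N = ⊥
    · exact Or.inl hne
    · exact Or.inr (index_eq_one.1 (Nat.eq_one_of_dvd_coprimes hcop
        (index_dvd_card_of_sup_eq_top (hc hA hB h N hN hne)).1
        (index_dvd_card_of_sup_eq_top (hc hB hA h.symm N hN hne)).1))⟩
  have two : ∀ {A B : Subgroup G}, Group.IsNilpotent A → Group.IsNilpotent B → Fac A B →
      ∀ s : ℕ, ∃ r : ℕ, r.Prime ∧ r ∣ Nat.card A ∧ r ≠ s := by
    intro A B hA hB h s
    by_contra hcon
    push Not at hcon
    obtain ⟨p, hp, hπ⟩ : ∃ p : ℕ, p.Prime ∧ IsPiNum {p} (Nat.card A) := by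
      by_cases hs : s.Prime
      · exact ⟨s, hs, hcon⟩
      · exact ⟨2, Nat.prime_two, fun r hr hd => absurd (hcon r hr hd ▸ hr) hs⟩
    obtain ⟨k, hk⟩ := (hπ.of_dvd h.symm.index_dvd).exists_eq_pow hp (index_pos B).ne'
    have hBne : B ≠ ⊥ := by
      rintro rfl
      have := h.sup_eq_top
      rw [sup_bot_eq] at this
      subst this
      exact ns (isSolvable_top_iff.1 inferInstance)
    obtain ⟨b, -, hb1, hb⟩ := exists_mem_centralizer_of_isNilpotent hB le_rfl le_normalizer hBne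
    have := CfH5.comm_of_simple_of_index_prime_pow B hp hk hb1 hb
    exact ns (Group.isSolvable_of_comm this)
  refine KWPair.false (π := {p | p ∣ Nat.card A}) ⟨hs, ns, hmin, h, hA, hB, ?_, ?_,
    two hA hB h, two hB hA h.symm⟩
  · exact isPiHall_of_coprime (Nat.Coprime.coprime_dvd_right h.index_dvd hcop)
  · rw [isPiHall_iff, compl_compl]
    exact ⟨IsPiNum.compl_of_coprime hcop, (IsPiNum.self _).of_dvd h.symm.index_dvd⟩

/-- In a product of two nilpotent groups one of the factors lies in a proper normal subgroup. -/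
theorem exists_normal_ge_of_fac {G : Type u} [Group G] [Finite G] {A B : Subgroup G}
    (hA : Group.IsNilpotent A) (hB : Group.IsNilpotent B) (h : Fac A B) (hne : A ≠ ⊤ ∨ B ≠ ⊤) :
    ∃ N : Subgroup G, N.Normal ∧ N ≠ ⊤ ∧ (A ≤ N ∨ B ≤ N) := by
  revert A B
  refine group_induction (P := fun G _ _ => ∀ {A B : Subgroup G}, Group.IsNilpotent A →
    Group.IsNilpotent B → Fac A B → (A ≠ ⊤ ∨ B ≠ ⊤) →
    ∃ N : Subgroup G, N.Normal ∧ N ≠ ⊤ ∧ (A ≤ N ∨ B ≤ N)) ?_ G
  intro G _ _ ih A B hA hB h hne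
  haveI := kegel_wielandt hA hB h
  by_cases hn : Group.IsNilpotent G
  · rcases hne with h1 | h1
    · obtain ⟨M, hM, hle⟩ := exists_isCoatom_ge h1
      exact ⟨M, normal_of_isCoatom_of_isNilpotent hM, hM.1, Or.inl hle⟩
    · obtain ⟨M, hM, hle⟩ := exists_isCoatom_ge h1
      exact ⟨M, normal_of_isCoatom_of_isNilpotent hM, hM.1, Or.inr hle⟩
  have key : ∀ N : Subgroup G, N.Normal → N ≠ ⊥ → (A ⊔ N ≠ ⊤ ∨ B ⊔ N ≠ ⊤) →
      ∃ N : Subgroup G, N.Normal ∧ N ≠ ⊤ ∧ (A ≤ N ∨ B ≤ N) := by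
    intro N hN hNb hne
    have hs := QuotientGroup.mk'_surjective N
    obtain ⟨K, hK, hKt, hle⟩ := ih _ (card_quotient_lt hNb) (isNilpotent_map _ hA)
      (isNilpotent_map _ hB) (h.map hs) (by simpa only [Ne, map_mk'_eq_top_iff] using hne)
    refine ⟨K.comap (QuotientGroup.mk' N), hK.comap _, fun e => hKt ?_, ?_⟩
    · rw [← map_comap_eq_self_of_surjective hs K, e, map_top_of_surjective _ hs]
    · exact hle.imp map_le_iff_le_comap.1 map_le_iff_le_comap.1
  have h1 : A ≠ ⊤ := fun e => hn ((Group.isNilpotent_congr topEquiv).1 (e ▸ hA))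
  have h2 : B ≠ ⊤ := fun e => hn ((Group.isNilpotent_congr topEquiv).1 (e ▸ hB))
  obtain ⟨M, hM, hle⟩ := exists_isCoatom_ge h1
  obtain ⟨L, hL, hle'⟩ := exists_isCoatom_ge h2
  by_cases c1 : M.normalCore = ⊥
  · by_cases c2 : L.normalCore = ⊥
    · obtain ⟨g, rfl⟩ := conj_of_coreFree hM hL c1 c2
      exact absurd (h.mono hle hle').eq_top_of_conj hM.1
    · exact key _ inferInstance c2 (Or.inr (fun e => hL.1
        (top_le_iff.1 (e ▸ sup_le hle' L.normalCore_le))))
  · exact key _ inferInstance c1 (Or.inl (fun e => hM.1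
        (top_le_iff.1 (e ▸ sup_le hle M.normalCore_le))))

end CfH1
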