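import Cfsg.Agent.OD.Pre
import Cfsg.Agent.H1.KW

/-! Complement systems, system normalizers and Carter subgroups of solvable groups. -/

set_option autoImplicit false

namespace CfH1

open Cfsg Subgroup CfH9
open scoped Pointwise commutatorElement

universe u

variable {G : Type*} [Group G]

theorem isPiHall_compl_iff [Finite G] {p : ℕ} (hp : p.Prime) {H : Subgroup G} :
    IsPiHall {p}ᶜ H ↔ H.index = p ^ (Nat.card G).factorization p := by
  rw [isPiHall_iff, compl_compl, IsPiNum.compl_singleton_iff hp]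
  have e := H.card_mul_index
  constructor
  · rintro ⟨h1, h2⟩
    obtain ⟨k, hk⟩ := h2.exists_eq_pow hp (index_pos H).ne'
    rw [← e, Nat.factorization_mul Nat.card_pos.ne' (index_pos H).ne', Finsupp.add_apply,
      Nat.factorization_eq_zero_of_not_dvd h1, zero_add, hk, hp.factorization_pow]
    simp
  · intro h
    refine ⟨fun hd => ?_, h ▸ IsPiNum.prime_pow hp (Set.mem_singleton _) _⟩
    have : p ^ ((Nat.card G).factorization p + 1) ∣ Nat.card G := by
      conv_rhs => rw [← e, h]
      rw [pow_succ']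
      exact Nat.mul_dvd_mul_right hd _
    exact Nat.pow_succ_factorization_not_dvd Nat.card_pos.ne' hp this

theorem isComplementSystem_iff [Finite G] {K : Nat.Primes → Subgroup G} :
    IsComplementSystem K ↔ ∀ p : Nat.Primes, IsPiHall {(p : ℕ)}ᶜ (K p) :=
  forall_congr' (fun p => (isPiHall_compl_iff p.2).symm)

theorem exists_isComplementSystem (G : Type*) [Group G] [Finite G] [Group.IsSolvable G] :
    ∃ K : Nat.Primes → Subgroup G, IsComplementSystem K := by
  choose K hK using fun p : Nat.Primes => hall_exists {(p : ℕ)}ᶜ G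
  exact ⟨K, isComplementSystem_iff.2 hK⟩

theorem isComplementSystem_map [Finite G] {G' : Type*} [Group G'] {f : G →* G'}
    (hf : Function.Surjective f) {K : Nat.Primes → Subgroup G} (hK : IsComplementSystem K) :
    IsComplementSystem (fun p => (K p).map f) := by
  haveI : Finite G' := Finite.of_surjective f hf
  rw [isComplementSystem_iff] at hK ⊢
  exact fun p => PiHall.map hf (hK p)

theorem isComplementSystem_smul [Finite G] {K : Nat.Primes → Subgroup G}
    (hK : IsComplementSystem K) (g : G) : IsComplementSystem (fun p => MulAut.conj g • K p) := by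
  rw [isComplementSystem_iff] at hK ⊢
  exact fun p => PiHall.smul _ (hK p)

theorem mem_systemNormalizer {K : Nat.Primes → Subgroup G} {g : G} :
    g ∈ systemNormalizer K ↔ ∀ p, MulAut.conj g • K p = K p := by
  simp only [systemNormalizer, mem_iInf, conj_smul_eq_iff]

theorem systemNormalizer_le (K : Nat.Primes → Subgroup G) (p : Nat.Primes) :
    systemNormalizer K ≤ normalizer (K p : Set G) := iInf_le _ p

theorem systemNormalizer_smul (K : Nat.Primes → Subgroup G) (g : G) :
    systemNormalizer (fun p => MulAut.conj g • K p) = MulAut.conj g • systemNormalizer K := by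
  simp only [systemNormalizer, smul_iInf, smul_normalizer]

theorem system_conj_of_sup_eq {G : Type u} [Group G] [Finite G] [hG : Group.IsSolvable G]
    {K L : Nat.Primes → Subgroup G} (hK : IsComplementSystem K) (hL : IsComplementSystem L)
    {N : Subgroup G} (hN : N.Normal) (h : ∀ p, K p ⊔ N = L p ⊔ N) :
    ∃ n ∈ N, ∀ p, MulAut.conj n • K p = L p := by
  revert hG K L N
  refine group_induction (P := fun G _ _ => ∀ [Group.IsSolvable G] {K L : Nat.Primes → Subgroup G},
    IsComplementSystem K → IsComplementSystem L → ∀ {N : Subgroup G}, N.Normal →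
    (∀ p, K p ⊔ N = L p ⊔ N) → ∃ n ∈ N, ∀ p, MulAut.conj n • K p = L p) ?_ G
  intro G _ _ ih _ K L hK hL N hN h
  by_cases hb : N = ⊥
  · subst hb
    exact ⟨1, one_mem _, fun p => by simpa [conj_one_smul] using h p⟩
  obtain ⟨M, q, hq, hM, hMN, -, hMq⟩ := exists_isMinNormal_isPGroup_le hN hb inferInstance
  haveI := hM.normal
  haveI := Fact.mk hq
  have hs := QuotientGroup.mk'_surjective M
  obtain ⟨_, ⟨n, hn, rfl⟩, h1⟩ := ih (G ⧸ M) (card_quotient_lt hM.ne_bot)
    (isComplementSystem_map hs hK) (isComplementSystem_map hs hL) (hN.map _ hs)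
    (fun p => by simp only [← Subgroup.map_sup, h p])
  have h2 : ∀ p, MulAut.conj n • K p ⊔ M = L p ⊔ M := fun p => by
    rw [← map_mk'_eq_map_mk'_iff, map_conj_smul]; exact h1 p
  have hK' := isComplementSystem_iff.1 (isComplementSystem_smul hK n)
  have hL' := isComplementSystem_iff.1 hL
  obtain ⟨m, hm, h3⟩ := sz_conj_smul_eq (N := M) (K := MulAut.conj n • K ⟨q, hq⟩) (B := L ⟨q, hq⟩)
    le_normalizer_of_normal
    (IsPiNum.coprime' (PiHall.card (hL' ⟨q, hq⟩)) (isPiNum_card_of_isPGroup hMq (Set.mem_singleton _)))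
    (Or.inl inferInstance) (le_sup_left.trans ((h2 _).ge.trans (sup_comm _ _).le))
    (PiHall.card_eq (hK' _) (hL' _)).le
  refine ⟨m * n, mul_mem (hMN hm) hn, fun p => ?_⟩
  rw [← conj_smul_conj_smul]
  by_cases e : p = ⟨q, hq⟩
  · rw [e]; exact h3
  · have hπ : IsPiNum {(p : ℕ)}ᶜ (Nat.card M) :=
      isPiNum_card_of_isPGroup hMq (fun e' => e (Subtype.ext (Set.mem_singleton_iff.1 e').symm))
    have a1 := PiHall.normal_le (hK' p) hπ
    have a2 := PiHall.normal_le (hL' p) hπ
    have := h2 p
    rw [sup_eq_left.2 a1, sup_eq_left.2 a2] at this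
    rw [this]
    exact conj_smul_eq_iff.2 (le_normalizer (a2 hm))

theorem system_conj [Finite G] [Group.IsSolvable G] {K L : Nat.Primes → Subgroup G}
    (hK : IsComplementSystem K) (hL : IsComplementSystem L) :
    ∃ g : G, ∀ p, MulAut.conj g • K p = L p := by
  obtain ⟨n, -, h⟩ := system_conj_of_sup_eq hK hL (N := ⊤) inferInstance (by simp)
  exact ⟨n, h⟩

theorem systemNormalizer_map_mk' [Finite G] [Group.IsSolvable G] {K : Nat.Primes → Subgroup G}
    (hK : IsComplementSystem K) (N : Subgroup G) [hN : N.Normal] :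
    systemNormalizer (fun p => (K p).map (QuotientGroup.mk' N)) =
      (systemNormalizer K).map (QuotientGroup.mk' N) := by
  refine le_antisymm (fun g hg => ?_) ?_
  · obtain ⟨g, rfl⟩ := QuotientGroup.mk'_surjective N g
    rw [mem_systemNormalizer] at hg
    obtain ⟨n, hn, h⟩ := system_conj_of_sup_eq (isComplementSystem_smul hK g) hK hN (fun p => by
      rw [← map_mk'_eq_map_mk'_iff, map_conj_smul]; exact hg p)
    refine ⟨n * g, mem_systemNormalizer.2 (fun p => by rw [← conj_smul_conj_smul]; exact h p), ?_⟩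
    rw [map_mul, QuotientGroup.mk'_apply N n, (QuotientGroup.eq_one_iff n).2 hn, one_mul]
  · rintro _ ⟨g, hg, rfl⟩
    rw [mem_systemNormalizer]
    intro p
    rw [← map_conj_smul, mem_systemNormalizer.1 hg p]

theorem isPiHallOf_inf_systemNormalizer [Finite G] {K : Nat.Primes → Subgroup G}
    (hK : IsComplementSystem K) (p : Nat.Primes) {d : G} (hd : d ∈ systemNormalizer K)
    (ho : (orderOf d).Coprime p) : d ∈ K p :=
  PiHall.mem_of_mem_normalizer (isComplementSystem_iff.1 hK p)
    ((IsPiNum.compl_singleton_iff p.2).2 ((Nat.Prime.coprime_iff_not_dvd p.2).1 ho.symm))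
    (systemNormalizer_le K p hd)

theorem isNilpotent_systemNormalizer [Finite G] {K : Nat.Primes → Subgroup G}
    (hK : IsComplementSystem K) : Group.IsNilpotent (systemNormalizer K) := by
  refine isNilpotent_of_forall_pNil (fun q hq => pNil_top_iff.2 ?_)
  refine CfH7.coprime_card_of_le (K := K ⟨q, hq.out⟩) (CfH7.pResidualOf_le_iff.2
    (fun g hg ho => isPiHallOf_inf_systemNormalizer hK ⟨q, hq.out⟩ hg ho)) ?_
  exact coprime_iff_not_dvd.2 ((IsPiNum.compl_singleton_iff hq.out).1
    (PiHall.card (isComplementSystem_iff.1 hK ⟨q, hq.out⟩)))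

theorem systemNormalizer_eq_top_of_isNilpotent [Finite G] [Group.IsNilpotent G]
    {K : Nat.Primes → Subgroup G} (hK : IsComplementSystem K) : systemNormalizer K = ⊤ := by
  rw [eq_top_iff]
  refine le_iInf (fun p => ?_)
  haveI := PiHall.normal_of_isNilpotent (isComplementSystem_iff.1 hK p)
  exact le_normalizer_of_normal

theorem systemNormalizer_sup_eq_top [Finite G] [Group.IsSolvable G] {K : Nat.Primes → Subgroup G}
    (hK : IsComplementSystem K) (N : Subgroup G) [N.Normal] (h : Group.IsNilpotent (G ⧸ N)) :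
    systemNormalizer K ⊔ N = ⊤ := by
  rw [← map_mk'_eq_top_iff, ← systemNormalizer_map_mk' hK]
  exact systemNormalizer_eq_top_of_isNilpotent
    (isComplementSystem_map (QuotientGroup.mk'_surjective N) hK)

/-- A noncentral minimal normal `p`-subgroup has no nontrivial element centralised by a Hall
`p'`-subgroup. -/
theorem IsMinNormal.inf_centralizer_eq_bot [Finite G] [Group.IsSolvable G] {N H : Subgroup G}
    (hN : IsMinNormal N) {p : ℕ} [hp : Fact p.Prime] (hNp : IsPGroup p N) (hH : IsPiHall {p}ᶜ H)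
    (hc : centralizer (N : Set G) ≠ ⊤) : N ⊓ centralizer (H : Set G) = ⊥ := by
  haveI := hN.normal
  set C := centralizer (N : Set G) with hC
  haveI : Nontrivial (G ⧸ C) := QuotientGroup.nontrivial_iff.2 hc
  obtain ⟨M₀, q, hq, hM₀, -, hMq⟩ := exists_isMinNormal_isPGroup (G ⧸ C)
  haveI := hM₀.normal
  haveI := Fact.mk hq
  set M := M₀.comap (QuotientGroup.mk' C) with hM
  have hs := QuotientGroup.mk'_surjective C
  have hMC : ¬ M ≤ C := fun h => hM₀.ne_bot (by
    rw [← map_comap_eq_self_of_surjective hs M₀]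
    exact (map_mk'_eq_bot_iff C _).2 h)
  have h1 : N ⊓ centralizer (M : Set G) = ⊥ :=
    (hN.le_or_disjoint _).resolve_left (fun h => hMC (le_centralizer_iff.1 h))
  have hrel : IsPiNum {q} (C.relIndex M) := by
    have e := card_mul_relIndex (le_comap_mk' C M₀)
    rw [card_comap_mk', mul_comm (Nat.card M₀)] at e
    rw [Nat.eq_of_mul_eq_mul_left Nat.card_pos e]
    exact isPiNum_card_of_isPGroup hMq (Set.mem_singleton _)
  have key : ∀ S : Subgroup G, IsPiNum {q}ᶜ (S.relIndex M) → N ⊓ centralizer (S : Set G) = ⊥ := by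
    intro S hS
    rw [eq_bot_iff, ← h1]
    rintro x ⟨hx, hxS⟩
    refine ⟨hx, fun m hm => ?_⟩
    obtain ⟨a, ha, b, hb, rfl⟩ := exists_mul_of_coprime_relIndex (hrel.coprime hS) hm
    rw [mul_assoc, hxS b hb.1, ← mul_assoc, ← ha.1 x hx, mul_assoc]
  by_cases e : q = p
  · subst e
    obtain ⟨S, hS⟩ := exists_sylIn q M
    obtain ⟨x, hx, hx1, hxc⟩ := exists_mem_center_of_normal hS.pgrp hNp le_normalizer_of_normal
      hN.ne_bot
    have := key S ((IsPiNum.compl_singleton_iff hq).2 hS.not_dvd_relIndex)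
    exact absurd (mem_bot.1 (this ▸ (⟨hx, hxc⟩ : x ∈ N ⊓ centralizer (S : Set G)))) hx1
  · refine key H (((PiHall.index hH).of_dvd (relIndex_dvd_index_of_normal_right H M)).mono ?_)
    rw [compl_compl]
    rintro _ rfl
    exact fun h => e (Set.mem_singleton_iff.1 h).symm

theorem IsMinNormal.inf_systemNormalizer [Finite G] [Group.IsSolvable G] {N : Subgroup G}
    (hN : IsMinNormal N) {K : Nat.Primes → Subgroup G} (hK : IsComplementSystem K)
    (hc : centralizer (N : Set G) ≠ ⊤) : N ⊓ systemNormalizer K = ⊥ := by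
  haveI := hN.normal
  obtain ⟨p, hp, hNp⟩ := hN.exists_isPGroup inferInstance
  haveI := Fact.mk hp
  have hH := isComplementSystem_iff.1 hK ⟨p, hp⟩
  rw [eq_bot_iff, ← hN.inf_centralizer_eq_bot hNp hH hc]
  refine le_inf inf_le_left ?_
  rw [← commutator_eq_bot_iff_le_centralizer, eq_bot_iff]
  have hd : N ⊓ K ⟨p, hp⟩ = ⊥ := disjoint_iff.1 (Subgroup.disjoint_of_coprime_natCard
    ((isPiNum_card_of_isPGroup hNp (Set.mem_singleton _)).coprime (PiHall.card hH)))
  rw [← hd]
  refine le_inf ((commutator_mono inf_le_left le_rfl).trans (commutator_le_left _ _)) ?_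
  exact le_normalizer_iff_commutator_le_right.1 (inf_le_right.trans (systemNormalizer_le K _))

/-- The normaliser of a Hall `p'`-subgroup lies in every non-normal maximal subgroup containing
it. -/
theorem normalizer_le_of_isCoatom_of_not_normal [Finite G] [Group.IsSolvable G] {M H : Subgroup G}
    (hM : IsCoatom M) (hn : ¬ M.Normal) {p : ℕ} (hH : IsPiHall {p}ᶜ H) (hle : H ≤ M) :
    normalizer (H : Set G) ≤ M := by
  have core : ∀ (G : Type _) [Group G] [Finite G] [Group.IsSolvable G] {M H : Subgroup G},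
      IsCoatom M → M.normalCore = ⊥ → M ≠ ⊥ → IsPiHall {p}ᶜ H → H ≤ M →
      normalizer (H : Set G) ≤ M := by
    intro G _ _ _ U H hU hUc hUb hH hle
    haveI : Nontrivial G := by
      rcases subsingleton_or_nontrivial G with h | h
      · exact absurd (Subsingleton.elim _ _) hU.1
      · exact h
    obtain ⟨N, r, hr, hN, hE, hNp⟩ := exists_isMinNormal_isPGroup G
    haveI := hN.normal
    haveI := hE.1
    haveI := Fact.mk hr
    have hC : N = centralizer (N : Set G) :=
      eq_centralizer_of_coreFree hU hUc hN.ne_bot hN.normal hN.ne_bot (le_centralizer N)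
    have dU : N ⊓ U = ⊥ := by rw [hC]; exact centralizer_inf_eq_bot_of_coreFree hU hUc hN.ne_bot
    have sU := sup_eq_top_of_coreFree hU hUc hN.normal hN.ne_bot
    have hrp : r = p := by
      by_contra e
      have := PiHall.normal_le hH (K := N) (isPiNum_card_of_isPGroup hNp e)
      exact hN.ne_bot (by rw [← dU, inf_eq_left.2 (this.trans hle)])
    subst hrp
    have ht : N ≠ ⊤ := by
      rintro rfl
      exact hUb (by rwa [top_inf_eq] at dU)
    haveI : Nontrivial (G ⧸ N) := QuotientGroup.nontrivial_iff.2 ht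
    obtain ⟨K₀, q, hq, hK₀, -, hKq⟩ := exists_isMinNormal_isPGroup (G ⧸ N)
    haveI := hK₀.normal
    haveI := Fact.mk hq
    set K := K₀.comap (QuotientGroup.mk' N) with hK
    have hNK : N ≤ K := le_comap_mk' N K₀
    have hKN : ¬ K ≤ N := fun h => hK₀.ne_bot (by
      rw [← map_comap_eq_self_of_surjective (QuotientGroup.mk'_surjective N) K₀]
      exact (map_mk'_eq_bot_iff N _).2 h)
    have hqp : q ≠ r := by
      rintro rfl
      refine hKN (hC.ge.trans' (hN.le_centralizer_of_isNilpotent (IsPGroup.isNilpotent (p := q) ?_)))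
      refine CfH7.isPGroup_of_map_mk hNp ?_
      rwa [map_comap_eq_self_of_surjective (QuotientGroup.mk'_surjective N)]
    have h1 := dedekind_left (H := U) (N := N) le_normalizer_of_normal hNK
    rw [sU, top_inf_eq] at h1
    have h2 := card_sup_of_disjoint (N := N) (H := U ⊓ K) le_normalizer_of_normal
      (le_bot_iff.1 (dU ▸ inf_le_inf_left _ inf_le_left))
    rw [← h1, card_comap_mk', mul_comm] at h2
    have h3 := (Nat.eq_of_mul_eq_mul_left Nat.card_pos h2).symm
    have h4 := normalizer_eq_of_coreFree hU hUc (Q := U ⊓ K) (fun e => by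
      rw [e, sup_bot_eq] at h1
      exact hKN h1.le) inf_le_left (le_normalizer_inf le_normalizer le_normalizer_of_normal)
    have h5 : U ⊓ K ≤ H := PiHall.le_of_le_normalizer hH
      (by rw [h3]; exact isPiNum_card_of_isPGroup hKq hqp) (h4.symm ▸ hle)
    have h6 : U ⊓ K = H ⊓ K := le_antisymm (le_inf h5 inf_le_right) (inf_le_inf_right _ hle)
    rw [← h4, h6]
    exact le_normalizer_inf le_rfl le_normalizer_of_normal
  have hs := QuotientGroup.mk'_surjective M.normalCore
  have h1 := core (G ⧸ M.normalCore) (isCoatom_map_mk' M.normalCore_le hM) (by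
      rw [eq_bot_iff, ← map_comap_eq_self_of_surjective hs (normalCore _), le_bot_iff,
        map_mk'_eq_bot_iff, normal_le_normalCore]
      refine (comap_mono (normalCore_le _)).trans ?_
      rw [comap_map_eq, QuotientGroup.ker_mk', sup_eq_left.2 M.normalCore_le])
    (fun e => hn (by
      rw [map_mk'_eq_bot_iff] at e
      rw [le_antisymm e M.normalCore_le]; infer_instance))
    (PiHall.map hs hH) (map_mono hle)
  intro g hg
  have := h1 (le_normalizer_map _ (mem_map_of_mem _ hg))
  rwa [QuotientGroup.mk'_apply, mem_map_mk'_iff, sup_eq_left.2 M.normalCore_le] at this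

theorem exists_index_eq_prime_pow_of_isCoatom {G : Type u} [Group G] [Finite G]
    [hG : Group.IsSolvable G] {M : Subgroup G} (hM : IsCoatom M) :
    ∃ p : ℕ, p.Prime ∧ IsPiNum {p} M.index := by
  revert hG M
  refine group_induction (P := fun G _ _ => ∀ [Group.IsSolvable G] {M : Subgroup G}, IsCoatom M →
    ∃ p : ℕ, p.Prime ∧ IsPiNum {p} M.index) ?_ G
  intro G _ _ ih _ M hM
  haveI : Nontrivial G := by
    rcases subsingleton_or_nontrivial G with h | h
    · exact absurd (Subsingleton.elim _ _) hM.1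
    · exact h
  obtain ⟨N, p, hp, hN, -, hNp⟩ := exists_isMinNormal_isPGroup G
  haveI := hN.normal
  haveI := Fact.mk hp
  by_cases h : N ≤ M
  · have := ih _ (card_quotient_lt hN.ne_bot) (isCoatom_map_mk' h hM)
    rwa [Subgroup.index_map_eq _ (QuotientGroup.mk'_surjective N)
      (by rwa [QuotientGroup.ker_mk'])] at this
  · exact ⟨p, hp, (isPiNum_card_of_isPGroup hNp (Set.mem_singleton _)).of_dvd
      (index_dvd_card_of_sup_eq_top (sup_eq_top_of_isCoatom hM h)).2⟩

theorem eq_of_isCarter_of_le [Finite G] {C T : Subgroup G} (hC : IsCarterSubgroup C)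
    (hT : Group.IsNilpotent T) (h : C ≤ T) : C = T := by
  by_contra hne
  have := lt_inf_normalizer_of_isNilpotent hT (lt_of_le_of_ne h hne)
  rw [hC.2] at this
  exact not_le_of_gt this inf_le_right

theorem isNilpotent_sup_of_le_normalizer [Finite G] {A B : Subgroup G} (hA : Group.IsNilpotent A)
    (hB : Group.IsNilpotent B) (h1 : A ≤ normalizer (B : Set G)) (h2 : B ≤ normalizer (A : Set G)) :
    Group.IsNilpotent (A ⊔ B : Subgroup G) :=
  isNilpotent_of_le (sup_le (CfH7.le_fittingOf le_sup_left (sup_le le_normalizer h2) hA)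
    (CfH7.le_fittingOf le_sup_right (sup_le h1 le_normalizer) hB)) (CfH7.isNilpotent_fittingOf _)

theorem normalizer_sup_of_isCarter [Finite G] {C N : Subgroup G} (hC : IsCarterSubgroup C)
    [N.Normal] {p : ℕ} [hp : Fact p.Prime] (hN : IsPGroup p N) :
    normalizer ((N ⊔ C : Subgroup G) : Set G) ≤ N ⊔ C := by
  haveI := hC.1
  obtain ⟨Q, hQ⟩ := hallOf_exists {p}ᶜ (L := C) inferInstance
  obtain ⟨S, hS⟩ := exists_sylIn p C
  have hQ' : IsPiHallOf {p}ᶜ Q (N ⊔ C) := by
    rw [isPiHallOf_iff]
    refine ⟨(PiHallOf.le hQ).trans le_sup_right, PiHallOf.card hQ, ?_⟩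
    rw [← relIndex_mul_relIndex Q C (N ⊔ C) (PiHallOf.le hQ) le_sup_right]
    refine (PiHallOf.relIndex hQ).mul ?_
    rw [compl_compl]
    refine (isPiNum_card_of_isPGroup hN (Set.mem_singleton _)).of_dvd ?_
    have e1 := card_mul_relIndex (le_sup_right : C ≤ N ⊔ C)
    have e2 := card_sup_mul_card_inf (N := N) (H := C) le_normalizer_of_normal
    rw [← e1, mul_assoc, mul_comm (Nat.card N)] at e2
    exact Dvd.intro _ (Nat.eq_of_mul_eq_mul_left Nat.card_pos e2)
  have hCQ : C ≤ normalizer (Q : Set G) := PiHallOf.le_normalizer_of_isNilpotent hQ hC.1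
  have hT : (N ⊔ C) ⊓ normalizer (Q : Set G) = C := by
    rw [dedekind_right le_normalizer_of_normal hCQ, sup_eq_right]
    have hd : N ⊓ Q = ⊥ := disjoint_iff.1 (Subgroup.disjoint_of_coprime_natCard
      ((isPiNum_card_of_isPGroup hN (Set.mem_singleton _)).coprime (PiHallOf.card hQ)))
    have c1 : N ⊓ normalizer (Q : Set G) ≤ centralizer (Q : Set G) := by
      rw [← commutator_eq_bot_iff_le_centralizer, eq_bot_iff, ← hd]
      exact le_inf ((commutator_mono inf_le_left le_rfl).trans (commutator_le_left _ _))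
        (le_normalizer_iff_commutator_le_right.1 inf_le_right)
    have c2 : S ≤ centralizer (Q : Set G) := le_centralizer_of_coprime hC.1 hS.le (PiHallOf.le hQ)
      ((isPiNum_card_of_isPGroup hS.pgrp (Set.mem_singleton _)).coprime (PiHallOf.card hQ))
    set X := N ⊓ normalizer (Q : Set G) ⊔ S with hX
    have c3 : X ≤ centralizer (Q : Set G) := sup_le c1 c2
    have hXp : IsPGroup p X := CfH8.isPGroup_sup_of_le_normalizer hN.to_inf_left hS.pgrp
      (le_normalizer_inf le_normalizer_of_normal ((hS.le.trans hCQ).trans le_normalizer))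
    have hn := isNilpotent_sup_of_le_normalizer hXp.isNilpotent
      (isNilpotent_of_le (PiHallOf.le hQ) hC.1) (c3.trans (centralizer_le_normalizer _))
      ((le_centralizer_iff.1 c3).trans (centralizer_le_normalizer _))
    have hCX : C ≤ X ⊔ Q := by
      intro c hc
      obtain ⟨a, ha, b, hb, rfl⟩ := exists_mul_of_coprime_relIndex (H := S) (K := Q)
        (IsPiNum.coprime ((IsPiNum.compl_singleton_iff hp.out).2 hS.not_dvd_relIndex)
          (PiHallOf.relIndex hQ)) hc
      exact mul_mem_sup (mem_sup_right ha.1) hb.1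
    rw [eq_of_isCarter_of_le hC hn hCX]
    exact le_sup_left.trans le_sup_left
  intro g hg
  obtain ⟨n, hn, x, hx, rfl⟩ := hall_frattini
    (isSolvable_sup_of_normal N C (CfH8.isSolvable_of_isPGroup hN) inferInstance) hQ' hg
  have hx' := (mul_mem_cancel_left (le_normalizer hn)).1 hg
  have : x ∈ normalizer (C : Set G) := by
    rw [← hT]
    exact inf_normalizer_le_normalizer_inf _ _ ⟨hx', le_normalizer hx⟩
  rw [hC.2] at this
  exact mul_mem hn (mem_sup_right this)

theorem isCarter_map_mk' [Finite G] {C N : Subgroup G} (hC : IsCarterSubgroup C)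
    [N.Normal] {p : ℕ} [Fact p.Prime] (hN : IsPGroup p N) :
    IsCarterSubgroup (C.map (QuotientGroup.mk' N)) := by
  refine ⟨isNilpotent_map _ hC.1, le_antisymm (fun g hg => ?_) le_normalizer⟩
  obtain ⟨g, rfl⟩ := QuotientGroup.mk'_surjective N g
  rw [← conj_smul_eq_iff, ← map_conj_smul, map_mk'_eq_map_mk'_iff] at hg
  rw [QuotientGroup.mk'_apply, mem_map_mk'_iff, sup_comm]
  refine normalizer_sup_of_isCarter hC hN ?_
  rw [← conj_smul_eq_iff, Subgroup.smul_sup,
    conj_smul_eq_iff.2 (le_normalizer_of_normal (mem_top g)), sup_comm, hg, sup_comm]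

theorem eq_top_of_isCarter_le {G : Type u} [Group G] [Finite G] [hG : Group.IsSolvable G]
    {C M : Subgroup G} (hC : IsCarterSubgroup C) (hM : M.Normal) (h : C ≤ M) : M = ⊤ := by
  revert hG C M
  refine group_induction (P := fun G _ _ => ∀ [Group.IsSolvable G] {C M : Subgroup G},
    IsCarterSubgroup C → M.Normal → C ≤ M → M = ⊤) ?_ G
  intro G _ _ ih _ C M hC hM h
  by_cases hb : M = ⊥
  · subst hb
    have := hC.2
    rw [le_bot_iff.1 h, normalizer_eq_top] at this
    exact this.symm
  obtain ⟨N, p, hp, hN, hNM, -, hNp⟩ := exists_isMinNormal_isPGroup_le hM hb inferInstance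
  haveI := hN.normal
  haveI := Fact.mk hp
  have := ih _ (card_quotient_lt hN.ne_bot) (isCarter_map_mk' hC hNp)
    (hM.map _ (QuotientGroup.mk'_surjective N)) (map_mono h)
  rwa [map_mk'_eq_top_iff, sup_eq_left.2 hNM] at this

theorem isCarter_smul {C : Subgroup G} (hC : IsCarterSubgroup C) (g : G) :
    IsCarterSubgroup (MulAut.conj g • C) :=
  ⟨isNilpotent_smul _ hC.1, by rw [← smul_normalizer, hC.2]⟩

theorem exists_isCarter (G : Type u) [Group G] [Finite G] [hG : Group.IsSolvable G] :
    ∃ C : Subgroup G, IsCarterSubgroup C := by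
  revert hG
  refine group_induction (P := fun G _ _ => ∀ [Group.IsSolvable G],
    ∃ C : Subgroup G, IsCarterSubgroup C) ?_ G
  intro G _ _ ih _
  rcases subsingleton_or_nontrivial G with h0 | h0
  · exact ⟨⊤, inferInstance, Subsingleton.elim _ _⟩
  obtain ⟨N, p, hp, hN, -, hNp⟩ := exists_isMinNormal_isPGroup G
  haveI := hN.normal
  haveI := Fact.mk hp
  have hs := QuotientGroup.mk'_surjective N
  obtain ⟨C₁, hC₁⟩ := ih _ (card_quotient_lt hN.ne_bot)
  set f := QuotientGroup.mk' N with hf
  set C₀ := C₁.comap f with hC₀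
  have hm : C₀.map f = C₁ := map_comap_eq_self_of_surjective hs _
  have hNC : N ≤ C₀ := le_comap_mk' N C₁
  obtain ⟨Q, hQ⟩ := hallOf_exists {p}ᶜ (L := C₀) inferInstance
  have hQ₁ : IsPiHallOf {p}ᶜ (Q.map f) C₁ := hm ▸ PiHallOf.map f hQ
  have hd : N ⊓ Q = ⊥ := disjoint_iff.1 (Subgroup.disjoint_of_coprime_natCard
    ((isPiNum_card_of_isPGroup hNp (Set.mem_singleton _)).coprime (PiHallOf.card hQ)))
  have nQ : Group.IsNilpotent Q := by
    haveI := isNilpotent_of_le (PiHallOf.le hQ₁) hC₁.1
    refine Subgroup.isNilpotent_of_ker_le_center (f.subgroupMap Q) ?_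
    rw [ker_subgroupMap_mk', subgroupOf_eq_bot.2 (disjoint_iff.2 hd)]
    exact bot_le
  have hNQ : C₀ ≤ normalizer ((N ⊔ Q : Subgroup G) : Set G) := by
    have := comap_mono (f := f) (PiHallOf.le_normalizer_of_isNilpotent hQ₁ hC₁.1)
    refine this.trans ((le_normalizer_comap _).trans ?_)
    rw [comap_map_eq, QuotientGroup.ker_mk', sup_comm]
  set C := C₀ ⊓ normalizer (Q : Set G) with hC
  have hQC : Q ≤ C := le_inf (PiHallOf.le hQ) le_normalizer
  have hNCC : N ⊔ C = C₀ := by
    refine le_antisymm (sup_le hNC inf_le_left) (fun g hg => ?_)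
    obtain ⟨n, hn, x, hx, rfl⟩ := hall_frattini (N := N ⊔ Q) inferInstance
      (PiHallOf.mono hQ le_sup_right (sup_le hNC (PiHallOf.le hQ))) (hNQ hg)
    refine mul_mem (sup_le_sup_left hQC N hn) (mem_sup_right ⟨?_, hx⟩)
    exact (mul_mem_cancel_left (sup_le hNC (PiHallOf.le hQ) hn)).1 hg
  have hQC' : IsPiHallOf {p}ᶜ Q C := PiHallOf.mono hQ hQC inf_le_left
  refine ⟨C, ?_, le_antisymm (fun g hg => ⟨?_, ?_⟩) le_normalizer⟩
  · obtain ⟨S₁, hS₁⟩ := exists_sylIn p C₁
    set P := S₁.comap f with hP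
    have hPp : IsPGroup p P := CfH7.isPGroup_of_map_mk hNp (by
      rw [map_comap_eq_self_of_surjective hs]; exact hS₁.pgrp)
    have hCP : C₀ ≤ normalizer (P : Set G) :=
      (comap_mono (le_normalizer_of_sylIn_of_isNilpotent hS₁ hC₁.1)).trans (le_normalizer_comap _)
    have hn := isNilpotent_sup_of_le_normalizer (A := P ⊓ C) (B := Q) hPp.to_inf_left.isNilpotent nQ
      (inf_le_right.trans inf_le_right)
      (le_normalizer_inf ((PiHallOf.le hQ).trans hCP) (hQC.trans le_normalizer))
    refine isNilpotent_of_le (fun c hc => ?_) hn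
    obtain ⟨a, ha, b, hb, ⟨k, hk⟩, hbo, rfl⟩ := CfH7.exists_pPart_mul_pPrimePart (p := p) c
    have haC := zpowers_le.2 hc ha
    have hbC := zpowers_le.2 hc hb
    refine mul_mem_sup ⟨?_, haC⟩ ?_
    · exact le_of_sylIn_of_isNilpotent hS₁ hC₁.1 (isPGroup_zpowers (k := k) (by rw [← map_pow, hk, map_one]))
        (zpowers_le.2 haC.1) (mem_zpowers _)
    · exact (PiHallOf.mem_iff_of_le_normalizer hQC' inf_le_right).2
        ⟨hbC, (IsPiNum.compl_singleton_iff hp).2 (coprime_iff_not_dvd.1 hbo)⟩
  · have h1 : g ∈ normalizer (C₀ : Set G) := by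
      rw [← hNCC]; exact mem_Nm_sup (mem_Nm_of_normal g N) hg
    have h2 := le_normalizer_map f (mem_map_of_mem f h1)
    rwa [hm, hC₁.2] at h2
  · exact PiHallOf.normalizer_le_of_le_normalizer hQC' inf_le_right hg

theorem exists_systemNormalizer_le_of_isCarter {G : Type u} [Group G] [Finite G]
    [hG : Group.IsSolvable G] {C : Subgroup G} (hC : IsCarterSubgroup C) :
    ∃ K : Nat.Primes → Subgroup G, IsComplementSystem K ∧ systemNormalizer K ≤ C := by
  revert hG C
  refine group_induction (P := fun G _ _ => ∀ [Group.IsSolvable G] {C : Subgroup G},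
    IsCarterSubgroup C →
    ∃ K : Nat.Primes → Subgroup G, IsComplementSystem K ∧ systemNormalizer K ≤ C) ?_ G
  intro G _ _ ih _ C hC
  by_cases ht : C = ⊤
  · obtain ⟨K, hK⟩ := exists_isComplementSystem G
    exact ⟨K, hK, ht ▸ le_top⟩
  obtain ⟨M, hM, hle⟩ := exists_isCoatom_ge ht
  have hn : ¬ M.Normal := fun h => hM.1 (eq_top_of_isCarter_le hC h hle)
  obtain ⟨L, hL, hLC⟩ := ih M (card_lt_of_ne_top hM.1) (C := C.subgroupOf M)
    ⟨isNilpotent_subgroupOf _ hC.1, by rw [← subgroupOf_normalizer_eq hle, hC.2]⟩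
  rw [isComplementSystem_iff] at hL
  have hL' : ∀ q : Nat.Primes, IsPiHallOf {(q : ℕ)}ᶜ ((L q).map M.subtype) M :=
    fun q => isPiHallOf_map_subtype_iff.2 (hL q)
  choose K hK hLK using fun q : Nat.Primes => exists_hall_ge (PiHallOf.card (hL' q))
  have e : ∀ q, (L q).map M.subtype = K q ⊓ M := fun q =>
    PiHallOf.eq_of_le (hL' q) (isPiNum_card_of_le inf_le_left (PiHall.card (hK q))) inf_le_right
      (le_inf (hLK q) (map_subtype_le _))
  refine ⟨K, isComplementSystem_iff.2 hK, fun d hd => ?_⟩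
  obtain ⟨p, hp, hi⟩ := exists_index_eq_prime_pow_of_isCoatom hM
  have h1 : IsPiHall {p}ᶜ ((L ⟨p, hp⟩).map M.subtype) :=
    PiHallOf.isPiHall (hL' ⟨p, hp⟩) (by rwa [compl_compl])
  have h2 := PiHall.eq_of_le h1 (PiHall.card (hK ⟨p, hp⟩)) (hLK ⟨p, hp⟩)
  have hdM : d ∈ M := normalizer_le_of_isCoatom_of_not_normal hM hn h1 (map_subtype_le _)
    (h2 ▸ systemNormalizer_le K ⟨p, hp⟩ hd)
  refine hLC (x := ⟨d, hdM⟩) (mem_systemNormalizer.2 (fun q => ?_))
  apply map_injective M.subtype_injective
  rw [map_conj_smul, e]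
  exact conj_smul_eq_iff.2 (mem_Nm_inf (systemNormalizer_le K q hd) (le_normalizer hdM))

theorem isCarter_systemNormalizer [Finite G] {F : Subgroup G} [F.Normal] (hF : Group.IsNilpotent F)
    (hGF : Group.IsNilpotent (G ⧸ F)) {K : Nat.Primes → Subgroup G} (hK : IsComplementSystem K) :
    IsCarterSubgroup (systemNormalizer K) := by
  haveI : Group.IsSolvable G :=
    Group.isSolvable_of_ker_le_range F.subtype (QuotientGroup.mk' F) (by simp)
  refine ⟨isNilpotent_systemNormalizer hK, le_antisymm (fun g hg => ?_) le_normalizer⟩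
  set D := systemNormalizer K with hD
  have ht := systemNormalizer_sup_eq_top hK F hGF
  rw [sup_comm] at ht
  refine mem_iInf.2 (fun p => ?_)
  haveI := Fact.mk p.2
  have hH := isComplementSystem_iff.1 hK p
  have hKo : ∀ k ∈ K p, (orderOf k).Coprime p := fun k hk => coprime_iff_not_dvd.2
    ((IsPiNum.compl_singleton_iff p.2).1 ((PiHall.card hH).of_dvd (orderOf_dvd_natCard _ hk)))
  haveI := PiHall.inf_normal_of_isNilpotent hH hF
  have e : K p = K p ⊓ F ⊔ K p ⊓ D := by
    refine le_antisymm (fun k hk => ?_) (sup_le inf_le_left inf_le_left)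
    obtain ⟨f, hf, d, hd, rfl⟩ := forall_exists_mul_of_sup_eq_top ht k
    obtain ⟨a, ha, b, hb, ⟨j, hj⟩, hbo, e⟩ := CfH7.exists_pPart_mul_pPrimePart (p := p) d
    have hbK := isPiHallOf_inf_systemNormalizer hK p (zpowers_le.2 hd hb) hbo
    have haF : a ∈ F := by
      rw [← QuotientGroup.eq_one_iff, ← QuotientGroup.mk'_apply]
      refine CfH7.eq_one_of_pow_pow_of_coprime (p := p) (k := j) (by rw [← map_pow, hj, map_one]) ?_
      refine Nat.Coprime.coprime_dvd_left ?_ (hKo _ hk)
      refine (orderOf_dvd_of_mem_zpowers (x := QuotientGroup.mk' F (f * d)) ?_).trans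
        (orderOf_map_dvd (QuotientGroup.mk' F) _)
      rw [map_mul, QuotientGroup.mk'_apply F f, (QuotientGroup.eq_one_iff f).2 hf, one_mul,
        ← MonoidHom.map_zpowers]
      exact mem_map_of_mem _ ha
    rw [e, ← mul_assoc] at hk ⊢
    exact mul_mem_sup ⟨(mul_mem_cancel_right hbK).1 hk, mul_mem hf haF⟩ ⟨hbK, zpowers_le.2 hd hb⟩
  rw [e]
  refine mem_Nm_sup (mem_Nm_of_normal g _) (mem_normalizer_of_conj_mem (fun x hx => ?_))
  have h1 := conj_mem_of_mem_normalizer hg hx.2
  exact ⟨isPiHallOf_inf_systemNormalizer hK p h1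
    (((MulAut.conj g).orderOf_eq x).symm ▸ hKo x hx.1), h1⟩

end CfH1
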