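import Cfsg.Agent.OD.Pre
import Cfsg.Agent.L.GA
import Cfsg.Agent.L.Cnt
import Cfsg.Agent.OD.Helper1x6f196c0702
/-! Terms over a faithful permutation table, table groups embedded in a group, class sizes. -/
set_option autoImplicit false
open CfH6 CfL MulAction Subgroup
namespace CfH1

/-- extra columns given by words -/
def extT (T : Tab) (k : ℕ) (cols : List ℕ) : Tab := ⟨T.N, k, T.W, T.mW, cols, 0, 0, 0, 0, 0⟩

noncomputable def extOk (T : Tab) (σ : List (List ℕ)) (cols : List ℕ) : Bool :=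
  σ.all (allLt T.nc) && all1 (fun x => allN (fun i =>
    Nat.beq ((extT T σ.length cols).R x i) (T.trL (σ.getD x []) i)) T.N) σ.length

def extR {T : Tab} {G : Type*} [Group G] {ev : ℕ → G} (r : Rep T ev) (σ : List (List ℕ)) (cols : List ℕ)
    (h : extOk T σ cols = true) : Rep (extT T σ.length cols) (byW ev σ) :=
  ⟨r.ρ, fun x hx i => by
    rw [extOk, Bool.and_eq_true, all1_iff] at h
    have h1 := Nat.eq_of_beq_eq_true ((allN_iff _ _).1 (h.2 x hx) i.1 i.2)
    rw [h1, ← r.word (getD_lt (allLt_all h.1) x) i]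
    rfl⟩

/-- a faithful table whose letters come in inverse pairs -/
structure PA (G : Type*) [Group G] where
  T : Tab
  ev : ℕ → G
  r : Rep T ev
  bs : List ℕ
  hi : ∀ x < T.nc, Nat.xor x 1 < T.nc ∧ ev (Nat.xor x 1) = (ev x)⁻¹
  hb : ∀ g ∈ r.Fx bs, g = 1
  hl : ∀ b ∈ bs, b < T.N

inductive Tm
  | l (x : ℕ)
  | w (o D k : ℕ)
  | one
  | mul (a b : Tm)
  | inv (a : Tm)

instance : Mul Tm := ⟨Tm.mul⟩
instance : Inv Tm := ⟨Tm.inv⟩
instance : One Tm := ⟨Tm.one⟩

noncomputable def trF (T : Tab) (o : ℕ) : ℕ → ℕ → ℕ → ℕ := fun f =>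
  Nat.rec (fun _ i => i) (fun _ ih w i => Nat.rec i (fun w' _ =>
    ih (Nat.shiftRight w' 4) (T.R (Nat.add o (Nat.land w' 15)) i)) w) f

noncomputable def trB (T : Tab) (o : ℕ) : ℕ → ℕ → ℕ → ℕ := fun f =>
  Nat.rec (fun _ i => i) (fun _ ih w i => Nat.rec i (fun w' _ =>
    T.R (Nat.xor (Nat.add o (Nat.land w' 15)) 1) (ih (Nat.shiftRight w' 4) i)) w) f

noncomputable def okW (n o : ℕ) : ℕ → ℕ → Bool := fun f =>
  Nat.rec (fun _ => true) (fun _ ih w => Nat.rec true (fun w' _ =>
    Nat.blt (Nat.add o (Nat.land w' 15)) n && ih (Nat.shiftRight w' 4)) w) f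

namespace Tm
noncomputable def ok (n : ℕ) (t : Tm) : Bool :=
  Tm.rec (fun x => Nat.blt x n) (fun o D k => okW n o D k) true (fun _ _ a b => a && b) (fun _ a => a) t

noncomputable def app (T : Tab) (t : Tm) : Bool → ℕ → ℕ :=
  Tm.rec (fun x s i => T.R (Bool.rec x (Nat.xor x 1) s) i)
    (fun o D k s i => Bool.rec (trF T o D k i) (trB T o D k i) s) (fun _ i => i)
    (fun _ _ a b s i => Bool.rec (frc (a false i) (b false)) (frc (b true i) (a true)) s)
    (fun _ a s i => a (Bool.rec true false s) i) t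

noncomputable def val {G : Type*} [Group G] (ev : ℕ → G) : Tm → G
  | l x => ev x
  | w o D k => evw (fun x => ev (o + x)) (Tab.dec D k)
  | one => 1
  | mul a b => val ev a * val ev b
  | inv a => (val ev a)⁻¹
end Tm

noncomputable def cdOf (n : ℕ) (f : ℕ → ℕ) (bs : List ℕ) : ℕ :=
  List.rec 0 (fun b _ ih => Nat.add (f b) (Nat.mul n ih)) bs

noncomputable def cdMap (n : ℕ) (f : ℕ → ℕ) (bs : List ℕ) : ℕ → ℕ :=
  List.rec (fun _ => 0) (fun _ _ ih c => Nat.add (f (Nat.mod c n)) (Nat.mul n (ih (Nat.div c n)))) bs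

theorem cdOf_cons (n : ℕ) (f : ℕ → ℕ) (b : ℕ) (bs : List ℕ) : cdOf n f (b :: bs) = f b + n * cdOf n f bs := rfl

theorem cdOf_congr {n : ℕ} {f g : ℕ → ℕ} {bs : List ℕ} (h : ∀ b ∈ bs, f b = g b) : cdOf n f bs = cdOf n g bs := by
  induction bs with
  | nil => rfl
  | cons b bs ih => rw [cdOf_cons, cdOf_cons, h b List.mem_cons_self, ih fun c hc => h c (List.mem_cons_of_mem _ hc)]

theorem cdOf_inj {n : ℕ} {f g : ℕ → ℕ} {bs : List ℕ} (hf : ∀ b ∈ bs, f b < n) (hg : ∀ b ∈ bs, g b < n)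
    (h : cdOf n f bs = cdOf n g bs) : ∀ b ∈ bs, f b = g b := by
  induction bs with
  | nil => simp
  | cons b bs ih =>
    rw [cdOf_cons, cdOf_cons] at h
    have a := hf b List.mem_cons_self
    have c := hg b List.mem_cons_self
    have e : f b = g b := by
      have := congrArg (· % n) h
      simpa [Nat.add_mul_mod_self_left, Nat.mod_eq_of_lt a, Nat.mod_eq_of_lt c] using this
    rw [e] at h
    exact List.forall_mem_cons.2 ⟨e, ih (fun c hc => hf c (List.mem_cons_of_mem _ hc))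
      (fun c hc => hg c (List.mem_cons_of_mem _ hc)) (Nat.eq_of_mul_eq_mul_left (by omega) (Nat.add_left_cancel h))⟩

theorem cdMap_of {n : ℕ} (f g : ℕ → ℕ) {bs : List ℕ} (hg : ∀ b ∈ bs, g b < n) :
    cdMap n f bs (cdOf n g bs) = cdOf n (fun b => f (g b)) bs := by
  induction bs with
  | nil => rfl
  | cons b bs ih =>
    have a := hg b List.mem_cons_self
    change f ((g b + n * cdOf n g bs) % n) + n * cdMap n f bs ((g b + n * cdOf n g bs) / n) = f (g b) + n * _
    rw [Nat.add_mul_mod_self_left, Nat.mod_eq_of_lt a, Nat.add_mul_div_left _ _ (by omega), Nat.div_eq_of_lt a,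
      zero_add, ih fun c hc => hg c (List.mem_cons_of_mem _ hc)]
    rfl

namespace PA
variable {G : Type*} [Group G] (P : PA G)

theorem stepF {x : ℕ} (hx : x < P.T.nc) (i : P.r.Pt) : P.T.R x i.1 = ((P.ev x)⁻¹ • i).1 := (P.r.spec x hx i).symm

theorem stepB {x : ℕ} (hx : x < P.T.nc) (i : P.r.Pt) : P.T.R (Nat.xor x 1) i.1 = (P.ev x • i).1 := by
  rw [P.stepF (P.hi x hx).1, (P.hi x hx).2, inv_inv]

theorem trF_eq (o D : ℕ) : ∀ k, okW P.T.nc o D k = true → ∀ i : P.r.Pt,
    trF P.T o D k i.1 = ((evw (fun x => P.ev (o + x)) (Tab.dec D k))⁻¹ • i).1 ∧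
    trB P.T o D k i.1 = (evw (fun x => P.ev (o + x)) (Tab.dec D k) • i).1 := by
  induction D with
  | zero => intro k _ i; exact ⟨by simp [trF, Tab.dec], by simp [trB, Tab.dec]⟩
  | succ D ih =>
    intro k h i
    cases k with
    | zero => exact ⟨by simp [trF, Tab.dec], by simp [trB, Tab.dec]⟩
    | succ k =>
      have h : (Nat.blt (Nat.add o (Nat.land k 15)) P.T.nc && okW P.T.nc o D (Nat.shiftRight k 4)) = true := h
      rw [Bool.and_eq_true] at h
      have e : Tab.dec (D + 1) (k + 1) = Nat.land k 15 :: Tab.dec D (Nat.shiftRight k 4) := rfl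
      rw [e, evw_cons, mul_inv_rev, mul_smul, mul_smul]
      constructor
      · change trF P.T o D (Nat.shiftRight k 4) (P.T.R (Nat.add o (Nat.land k 15)) i.1) = _
        rw [P.stepF (blt1 h.1), (ih _ h.2 _).1]; rfl
      · change P.T.R (Nat.xor (Nat.add o (Nat.land k 15)) 1) (trB P.T o D (Nat.shiftRight k 4) i.1) = _
        rw [(ih _ h.2 _).2, P.stepB (blt1 h.1)]; rfl

theorem app_eq (t : Tm) : t.ok P.T.nc = true → ∀ i : P.r.Pt,
    t.app P.T false i.1 = ((t.val P.ev)⁻¹ • i).1 ∧ t.app P.T true i.1 = (t.val P.ev • i).1 := by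
  induction t with
  | l x => exact fun h i => ⟨P.stepF (blt1 h) i, P.stepB (blt1 h) i⟩
  | w o D k => exact fun h i => P.trF_eq o D k h i
  | one => exact fun _ i => ⟨by simp [Tm.val]; rfl, by simp [Tm.val]; rfl⟩
  | mul a b iha ihb =>
    intro h i
    have h : (a.ok P.T.nc && b.ok P.T.nc) = true := h
    rw [Bool.and_eq_true] at h
    constructor
    · change frc (a.app P.T false i.1) (b.app P.T false) = _
      rw [frc_eq, (iha h.1 i).1, (ihb h.2 _).1, Tm.val, mul_inv_rev, mul_smul]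
    · change frc (b.app P.T true i.1) (a.app P.T true) = _
      rw [frc_eq, (ihb h.2 i).2, (iha h.1 _).2, Tm.val, mul_smul]
  | inv a ih =>
    intro h i
    exact ⟨by rw [Tm.val, inv_inv]; exact (ih h i).2, (ih h i).1⟩

noncomputable def sm (s t : Tm) : Bool := P.bs.all fun b => Nat.beq (s.app P.T false b) (t.app P.T false b)

theorem sm_iff {s t : Tm} (hs : s.ok P.T.nc = true) (ht : t.ok P.T.nc = true) :
    P.sm s t = true ↔ s.val P.ev = t.val P.ev := by
  constructor
  · intro e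
    refine mul_inv_eq_one.1 (P.hb _ fun i hi => ?_)
    have := Nat.eq_of_beq_eq_true (List.all_eq_true.1 e _ hi)
    rw [(P.app_eq s hs i).1, (P.app_eq t ht i).1] at this
    rw [mul_smul, ← Subtype.ext this, smul_inv_smul]
  · intro e
    refine List.all_eq_true.2 fun b h => ?_
    rw [(P.app_eq s hs ⟨b, P.hl b h⟩).1, (P.app_eq t ht ⟨b, P.hl b h⟩).1, e, Nat.beq_refl]

noncomputable def eq (s t : Tm) : Bool := s.ok P.T.nc && t.ok P.T.nc && P.sm s t
noncomputable def ne (s t : Tm) : Bool := s.ok P.T.nc && t.ok P.T.nc && !P.sm s t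

theorem of_eq {s t : Tm} (h : P.eq s t = true) : s.val P.ev = t.val P.ev := by
  simp only [eq, Bool.and_eq_true] at h
  exact (P.sm_iff h.1.1 h.1.2).1 h.2

theorem of_ne {s t : Tm} (h : P.ne s t = true) : s.val P.ev ≠ t.val P.ev := by
  simp only [ne, Bool.and_eq_true] at h
  intro e
  rw [(P.sm_iff h.1.1 h.1.2).2 e] at h
  exact absurd h.2 (by decide)

theorem E (s t : Tm) (h : P.eq s t = true := by decide +kernel) : s.val P.ev = t.val P.ev := P.of_eq h
theorem N (s t : Tm) (h : P.ne s t = true := by decide +kernel) : s.val P.ev ≠ t.val P.ev := P.of_ne h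

/-- number of fixed points -/
theorem fixc (t : Tm) (c : ℕ)
    (h : (t.ok P.T.nc && Nat.beq (cntN (fun i => Nat.beq (t.app P.T true i) i) P.T.N) c) = true) :
    {i : P.r.Pt | t.val P.ev • i = i}.ncard = c := by
  rw [Bool.and_eq_true] at h
  rw [← Nat.eq_of_beq_eq_true h.2, cntN_eq]
  refine (Set.ncard_image_of_injective _ (f := fun i : P.r.Pt => i.1) Subtype.val_injective).symm.trans ?_
  congr 1
  ext i
  constructor
  · rintro ⟨a, ha, rfl⟩
    refine ⟨a.2, ?_⟩
    rw [(P.app_eq t h.1 a).2, show t.val P.ev • a = a from ha, Nat.beq_refl]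
  · rintro ⟨h1, h2⟩
    refine ⟨⟨i, h1⟩, Subtype.ext ?_, rfl⟩
    exact (P.app_eq t h.1 ⟨i, h1⟩).2.symm.trans (Nat.eq_of_beq_eq_true h2)

noncomputable def ccd (g : Tm) (ps : List ℕ) (D k : ℕ) : ℕ :=
  cdOf P.T.N (fun b => ((Tm.w 0 D k)⁻¹ * g * Tm.w 0 D k).app P.T false b) ps

/-- the conjugates by the listed words have increasing codes -/
noncomputable def clsOk (g : Tm) (ps : List ℕ) (D : ℕ) (wd : ℕ → ℕ) (lo n : ℕ) : Bool :=
  allN (fun j => frc (Nat.add lo j) fun j => frc (wd j) fun k => frc (wd (Nat.succ j)) fun k' =>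
    okW P.T.nc 0 D k && okW P.T.nc 0 D k' && Nat.blt (P.ccd g ps D k) (P.ccd g ps D k')) n

def ClsP (g : Tm) (ps : List ℕ) (D : ℕ) (wd : ℕ → ℕ) (n : ℕ) : Prop :=
  ∀ j < n, okW P.T.nc 0 D (wd j) = true ∧ okW P.T.nc 0 D (wd (j + 1)) = true ∧
    P.ccd g ps D (wd j) < P.ccd g ps D (wd (j + 1))

theorem ClsP.zero (g : Tm) (ps : List ℕ) (D : ℕ) (wd : ℕ → ℕ) : P.ClsP g ps D wd 0 := fun _ h => absurd h (by omega)

theorem ClsP.add {g : Tm} {ps : List ℕ} {D : ℕ} {wd : ℕ → ℕ} {lo : ℕ} (h : P.ClsP g ps D wd lo) (n : ℕ)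
    (h1 : P.clsOk g ps D wd lo n = true) : P.ClsP g ps D wd (lo + n) := fun j hj => by
  by_cases c : j < lo
  · exact h j c
  · have := (allN_iff _ _).1 h1 (j - lo) (by omega)
    simp only [frc_eq, Bool.and_eq_true] at this
    rw [show Nat.add lo (j - lo) = j by change lo + (j - lo) = j; omega] at this
    exact ⟨this.1.1, this.1.2, blt1 this.2⟩

theorem cls_ge [Finite G] {g : Tm} {ps : List ℕ} {D : ℕ} {wd : ℕ → ℕ} {n : ℕ} (h : P.ClsP g ps D wd (n + 1))
    (h1 : (g.ok P.T.nc && ps.all fun b => Nat.blt b P.T.N) = true) :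
    (n + 2) * Nat.card (centralizer ({g.val P.ev} : Set G)) ≤ Nat.card G := by
  rw [Bool.and_eq_true] at h1
  have ok : ∀ j < n + 2, okW P.T.nc 0 D (wd j) = true := fun j hj => by
    cases j with
    | zero => exact (h 0 (by omega)).1
    | succ j => exact (h j (by omega)).2.1
  let f : ℕ → G := fun j => ((Tm.w 0 D (wd j))⁻¹ * g * Tm.w 0 D (wd j)).val P.ev
  have mono : ∀ i j, i < j → j < n + 2 → P.ccd g ps D (wd i) < P.ccd g ps D (wd j) := by
    intro i j hij hj
    induction j with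
    | zero => omega
    | succ j ih =>
      rcases Nat.lt_succ_iff_lt_or_eq.1 hij with c | c
      · exact (ih c (by omega)).trans (h j (by omega)).2.2
      · exact c ▸ (h j (by omega)).2.2
  have key : ∀ i < n + 2, ∀ j < n + 2, f i = f j → P.ccd g ps D (wd i) = P.ccd g ps D (wd j) := fun i hi j hj e =>
    cdOf_congr fun b hb => by
      have o : ∀ i < n + 2, ((Tm.w 0 D (wd i))⁻¹ * g * Tm.w 0 D (wd i)).ok P.T.nc = true := fun i hi => by
        change (okW P.T.nc 0 D (wd i) && g.ok P.T.nc && okW P.T.nc 0 D (wd i)) = true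
        rw [ok i hi, h1.1]; rfl
      have hb' := blt1 (List.all_eq_true.1 h1.2 b hb)
      let q : P.r.Pt := ⟨b, hb'⟩
      exact (P.app_eq _ (o i hi) q).1.trans
        ((congrArg (fun a : G => (a⁻¹ • q).1) e).trans (P.app_eq _ (o j hj) q).1.symm)
  have inj : Set.InjOn f (Finset.range (n + 2) : Set ℕ) := fun i hi j hj e => by
    have hi : i < n + 2 := by simpa using hi
    have hj : j < n + 2 := by simpa using hj
    have := key i hi j hj e
    rcases lt_trichotomy i j with c | c | c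
    · exact absurd this (mono i j c hj).ne
    · exact c
    · exact absurd this (mono j i c hi).ne'
  have h2 : n + 2 ≤ {b | IsConj (g.val P.ev) b}.ncard := by
    have : (f '' (Finset.range (n + 2) : Set ℕ)).ncard = n + 2 := by
      rw [inj.ncard_image, Set.ncard_coe_finset, Finset.card_range]
    rw [← this]
    refine Set.ncard_le_ncard ?_
    rintro _ ⟨j, -, rfl⟩
    exact isConj_iff.2 ⟨((Tm.w 0 D (wd j)).val P.ev)⁻¹, by rw [inv_inv]; rfl⟩
  exact (Nat.mul_le_mul_right _ h2).trans (ncard_class_mul _).le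

end PA

/-- a regular table realised inside a group -/
structure Emb (T : Tab) {G : Type*} [Group G] (ev : ℕ → G) : Prop where
  pos : 0 < T.N
  lt : ∀ x < T.nc, ∀ i < T.N, T.R x i < T.N
  ok3 : T.ok3 = true
  step : ∀ x < T.nc, ∀ i < T.N, evw ev (T.wl (T.R x i)) = evw ev (T.wl i) * ev x
  inj : ∀ i < T.N, ∀ j < T.N, evw ev (T.wl i) = evw ev (T.wl j) → i = j

namespace PA
variable {G : Type*} [Group G] (P : PA G)

noncomputable def embA (T : Tab) (o : ℕ) (cd : ℕ → ℕ) (x : ℕ) : Bool :=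
  frc (lget P.T.cols 0 (Nat.add o x)) fun c => allN (fun j => frc (T.R x j) fun j' => Nat.blt j' T.N &&
    frc (cd j) fun k => Nat.beq (cd j')
      (cdMap P.T.N (fun i => Nat.land (Nat.shiftRight c (Nat.mul P.T.W i)) P.T.mW) P.bs k)) T.N

noncomputable def embB (T : Tab) (o : ℕ) (cd : ℕ → ℕ) : Bool :=
  Nat.blt 0 T.N && Nat.ble (Nat.add o T.nc) P.T.nc && Nat.beq (cd 0) (cdOf P.T.N (fun b => b) P.bs) &&
    allN (fun j => frc (Nat.succ j) fun j => frc (cd j) fun c => Nat.ble T.N j ||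
      !Nat.beq c (cd 0) && (Nat.ble T.N (Nat.succ j) || Nat.blt c (cd (Nat.succ j)))) T.N

noncomputable def im (g : G) (b : ℕ) : ℕ := if h : b < P.T.N then (g⁻¹ • (P.r.pt b (blt2 h))).1 else 0

theorem im_lt (g : G) {b : ℕ} (h : b < P.T.N) : P.im g b < P.T.N := by
  rw [im, dif_pos h]; exact Subtype.property (p := fun i => i < P.T.N) _

theorem im_mul (g : G) {b x : ℕ} (h : b < P.T.N) (hx : x < P.T.nc) :
    P.T.R x (P.im g b) = P.im (g * P.ev x) b := by
  rw [im, im, dif_pos h, dif_pos h, P.stepF hx, mul_inv_rev, mul_smul]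

theorem im_inj {g k : G} (h : cdOf P.T.N (P.im g) P.bs = cdOf P.T.N (P.im k) P.bs) : g = k := by
  have := cdOf_inj (fun b hb => P.im_lt g (P.hl b hb)) (fun b hb => P.im_lt k (P.hl b hb)) h
  refine mul_inv_eq_one.1 (P.hb _ fun i hi => ?_)
  have := this _ hi
  rw [im, im, dif_pos i.2, dif_pos i.2] at this
  have e : g⁻¹ • i = k⁻¹ • i := Subtype.ext this
  rw [mul_smul, ← e, smul_inv_smul]

theorem emb (T : Tab) (o : ℕ) (cd : ℕ → ℕ) (hA : ∀ x < T.nc, P.embA T o cd x = true) (hB : P.embB T o cd = true)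
    (h3 : T.ok3 = true) : Emb T fun x => P.ev (o + x) := by
  simp only [embB, Bool.and_eq_true] at hB
  obtain ⟨⟨⟨b1, b2⟩, b3⟩, b4⟩ := hB
  have b2 : o + T.nc ≤ P.T.nc := Nat.le_of_ble_eq_true b2
  have a : ∀ x < T.nc, ∀ j < T.N, T.R x j < T.N ∧
      cd (T.R x j) = cdMap P.T.N (P.T.R (o + x)) P.bs (cd j) := fun x hx j hj => by
    have h0 := hA x hx
    rw [embA, frc_eq] at h0
    have := (allN_iff _ _).1 h0 j hj
    rw [frc_eq, frc_eq, Bool.and_eq_true] at this
    exact ⟨blt1 this.1, Nat.eq_of_beq_eq_true this.2⟩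
  have s : ∀ x < T.nc, ∀ j < T.N, ∀ g, cd j = cdOf P.T.N (P.im g) P.bs →
      cd (T.R x j) = cdOf P.T.N (P.im (g * P.ev (o + x))) P.bs := fun x hx j hj g e => by
    rw [(a x hx j hj).2, e, cdMap_of _ _ fun b hb => P.im_lt g (P.hl b hb)]
    exact cdOf_congr fun b hb => P.im_mul g (P.hl b hb) (by omega)
  have c : ∀ w : List ℕ, (∀ x ∈ w, x < T.nc) → ∀ j < T.N, ∀ g, cd j = cdOf P.T.N (P.im g) P.bs →
      cd (T.trL w j) = cdOf P.T.N (P.im (g * evw (fun x => P.ev (o + x)) w)) P.bs := by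
    intro w
    induction w with
    | nil => intro _ j _ g e; rw [evw_nil, mul_one]; exact e
    | cons x w ih =>
      intro hw j hj g e
      have hx := hw x List.mem_cons_self
      rw [evw_cons, ← mul_assoc]
      exact ih (fun y hy => hw y (List.mem_cons_of_mem _ hy)) _ (a x hx j hj).1 _ (s x hx j hj g e)
  have d : ∀ j < T.N, cd j = cdOf P.T.N (P.im (evw (fun x => P.ev (o + x)) (T.wl j))) P.bs := fun j hj => by
    have := (allN_iff _ _).1 h3 j hj
    simp only [Bool.and_eq_true] at this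
    have e := c _ (allLt_sound this.1.1.1) 0 (blt1 b1) 1 ((Nat.eq_of_beq_eq_true b3).trans
      (cdOf_congr fun b hb => by rw [im, dif_pos (P.hl b hb), inv_one, one_smul]; rfl))
    rwa [Tab.wl, ← Tab.tr_eq, one_mul, show T.tr T.D (T.word j) 0 = j from Nat.eq_of_beq_eq_true this.1.1.2] at e
  have m : ∀ j, j + 1 < T.N → cd (j + 1) ≠ cd 0 ∧ (j + 2 < T.N → cd (j + 1) < cd (j + 2)) := fun j hj => by
    have := (allN_iff _ _).1 b4 j (by omega)
    simp only [frc_eq, Bool.or_eq_true, Bool.and_eq_true, Nat.ble_eq, Nat.blt_eq] at this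
    rcases this with h | h
    · exact absurd hj (by simpa using h)
    · refine ⟨fun e => ?_, fun h' => h.2.resolve_left (by simpa using h')⟩
      have := h.1
      rw [show cd (Nat.succ j) = cd 0 from e, Nat.beq_refl] at this
      exact absurd this (by decide)
  have mono : ∀ i j, i < j → j + 1 < T.N → cd (i + 1) < cd (j + 1) := by
    intro i j hij hj
    induction j with
    | zero => omega
    | succ j ih =>
      rcases Nat.lt_succ_iff_lt_or_eq.1 hij with c | c
      · exact (ih c (by omega)).trans ((m j (by omega)).2 hj)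
      · exact c ▸ (m j (by omega)).2 hj
  refine ⟨blt1 b1, fun x hx j hj => (a x hx j hj).1, h3, fun x hx j hj => P.im_inj ?_, fun i hi j hj e => ?_⟩
  · rw [← d _ (a x hx j hj).1, s x hx j hj _ (d j hj)]
  · have e' : cd i = cd j := by rw [d i hi, d j hj, e]
    rcases i with _ | i <;> rcases j with _ | j
    · rfl
    · exact absurd e'.symm (m j hj).1
    · exact absurd e' (m i hi).1
    · rcases lt_trichotomy i j with c | c | c
      · exact absurd e' (mono i j c hj).ne
      · rw [c]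
      · exact absurd e' (mono j i c hi).ne'
end PA

namespace Emb
variable {T : Tab} {G : Type*} [Group G] {ev : ℕ → G} (g : Emb T ev)
include g

theorem w_spec {j : ℕ} (hj : j < T.N) : (∀ x ∈ T.wl j, x < T.nc) ∧ T.mul 0 j = j ∧ T.inv j < T.N ∧
    T.mul (T.inv j) j = 0 := by
  have := (allN_iff _ _).1 g.ok3 j hj
  simp only [Bool.and_eq_true] at this
  exact ⟨allLt_sound this.1.1.1, Nat.eq_of_beq_eq_true this.1.1.2, blt1 this.1.2,
    Nat.eq_of_beq_eq_true this.2⟩

theorem trL (w : List ℕ) (hw : ∀ x ∈ w, x < T.nc) : ∀ i < T.N, T.trL w i < T.N ∧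
    evw ev (T.wl (T.trL w i)) = evw ev (T.wl i) * evw ev w := by
  induction w with
  | nil => exact fun i hi => ⟨hi, by simp [Tab.trL]⟩
  | cons x w ih =>
    intro i hi
    have hx := hw x List.mem_cons_self
    have := ih (fun y hy => hw y (List.mem_cons_of_mem _ hy)) _ (g.lt x hx i hi)
    rw [g.step x hx i hi, mul_assoc, ← evw_cons] at this
    exact this

theorem mul {i j : ℕ} (hi : i < T.N) (hj : j < T.N) : T.mul i j < T.N ∧
    evw ev (T.wl (T.mul i j)) = evw ev (T.wl i) * evw ev (T.wl j) := by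
  rw [Tab.mul, Tab.tr_eq]; exact g.trL _ (g.w_spec hj).1 i hi

theorem zero : evw ev (T.wl 0) = 1 := by
  have := (g.mul g.pos g.pos).2
  rw [(g.w_spec g.pos).2.1] at this
  exact left_eq_mul.1 this
end Emb

/-- the group of an embedded table -/
def SE {T : Tab} {G : Type*} [Group G] {ev : ℕ → G} (_ : Emb T ev) : Type := {i // i < T.N}

namespace SE
variable {T : Tab} {G : Type*} [Group G] {ev : ℕ → G} {g : Emb T ev}

noncomputable instance : Mul (SE g) := ⟨fun a b => ⟨T.mul a.1 b.1, (g.mul a.2 b.2).1⟩⟩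
instance : One (SE g) := ⟨⟨0, g.pos⟩⟩
noncomputable instance : Inv (SE g) := ⟨fun a => ⟨T.inv a.1, (g.w_spec a.2).2.2.1⟩⟩

theorem ext' {a b : SE g} (h : evw ev (T.wl a.1) = evw ev (T.wl b.1)) : a = b := Subtype.ext (g.inj _ a.2 _ b.2 h)
theorem pel_mul (a b : SE g) : evw ev (T.wl (a * b).1) = evw ev (T.wl a.1) * evw ev (T.wl b.1) := (g.mul a.2 b.2).2

noncomputable instance : Group (SE g) := Group.ofLeftAxioms
  (fun a b c => ext' (by simp only [pel_mul, mul_assoc]))
  (fun a => Subtype.ext (g.w_spec a.2).2.1)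
  (fun a => Subtype.ext (g.w_spec a.2).2.2.2)

instance : DecidableEq (SE g) := fun a b =>
  decidable_of_iff (Nat.beq a.1 b.1 = true) (by rw [Nat.beq_eq]; exact Subtype.ext_iff.symm)

instance : Finite (SE g) := Finite.of_equiv _ (Fin.equivSubtype (n := T.N))

theorem card : Nat.card (SE g) = T.N :=
  (Nat.card_congr (Fin.equivSubtype (n := T.N)).symm).trans (by simp)

noncomputable def liftB (p : SE g → Bool) (d : Bool) (k : ℕ) : Bool := if h : k < T.N then p ⟨k, h⟩ else d

noncomputable instance (priority := 50) decAll (p : SE g → Prop) [DecidablePred p] : Decidable (∀ a, p a) :=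
  decidable_of_iff (allB (liftB (fun a => decide (p a)) true) (Nat.succ (Nat.div T.N 64)) = true) (by
    rw [allB_iff]
    constructor
    · intro h a
      have := h a.1 (by have := a.2; change _ < (T.N / 64 + 1) * 64; omega)
      rw [liftB, dif_pos a.2] at this
      exact of_decide_eq_true this
    · intro h k _
      unfold liftB
      split_ifs with hk
      · exact @decide_eq_true _ (‹DecidablePred p› _) (h _)
      · rfl)

noncomputable instance (priority := 50) decEx (p : SE g → Prop) [DecidablePred p] : Decidable (∃ a, p a) :=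
  decidable_of_iff (¬ ∀ a, ¬ p a) (by simp)

noncomputable def cnt (p : SE g → Prop) [DecidablePred p] : ℕ := cntN (liftB (fun a => decide (p a)) false) T.N

theorem cnt_eq (p : SE g → Prop) [DecidablePred p] : {a | p a}.ncard = cnt p := by
  rw [cnt, cntN_eq, ← Set.ncard_image_of_injective {a | p a} (f := fun a : SE g => a.1) Subtype.val_injective]
  congr 1
  ext k
  constructor
  · rintro ⟨a, ha, rfl⟩
    refine ⟨a.2, ?_⟩
    rw [liftB, dif_pos a.2]
    exact @decide_eq_true (p a) _ ha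
  · rintro ⟨h1, h2⟩
    rw [liftB, dif_pos h1] at h2
    have h3 := @of_decide_eq_true _ (‹DecidablePred p› _) h2
    exact ⟨⟨k, h1⟩, h3, rfl⟩

/-- the element with a given index, or the identity -/
noncomputable def mk (g : Emb T ev) (k : ℕ) : SE g := ⟨Bool.rec 0 k (Nat.blt k T.N), by
  cases h : Nat.blt k T.N
  · exact g.pos
  · exact blt1 h⟩

/-- the embedding -/
noncomputable def ι (g : Emb T ev) : SE g →* G := MonoidHom.mk' (fun a => evw ev (T.wl a.1)) pel_mul

theorem ι_inj : Function.Injective (ι g) := fun _ _ h => ext' h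

theorem ι_range : (ι g).range = gensub ev T.nc := by
  refine le_antisymm ?_ (gensub_le fun x hx => ⟨⟨_, g.lt x hx 0 g.pos⟩, ?_⟩)
  · rintro _ ⟨a, rfl⟩
    exact evw_mem (fun _ => mem_gensub) (g.w_spec a.2).1
  · change evw ev (T.wl (T.R x 0)) = _
    rw [g.step x hx 0 g.pos, g.zero, one_mul]

theorem card_range : Nat.card (ι g).range = T.N := by
  rw [← Nat.card_congr (MonoidHom.ofInjective ι_inj).toEquiv, card]

/-- the term of a table element -/
noncomputable def tm (o : ℕ) (a : SE g) : Tm := Tm.w o T.D (T.word a.1)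

end SE

theorem tm_val {T : Tab} {G : Type*} [Group G] {ev : ℕ → G} {o : ℕ} {g : Emb T fun x => ev (o + x)} (a : SE g) :
    (SE.tm o a).val ev = SE.ι g a := rfl

end CfH1
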