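import Cfsg.Agent.OD.Pre
import Cfsg.Agent.H1.PA
/-! Table checks split into pieces. -/
set_option autoImplicit false
open CfH6 CfL
namespace CfH1

noncomputable def chk (p : ℕ → Bool) (n c i : ℕ) : Bool :=
  allN (fun j => frc (Nat.add (Nat.mul i c) j) fun k => Bool.rec true (p k) (Nat.blt k n)) c

theorem allN_chk {p : ℕ → Bool} {n c m : ℕ} (hn : n ≤ c * m) (h : ∀ i < m, chk p n c i = true) : allN p n = true := by
  refine (allN_iff _ _).2 fun k hk => ?_
  have hc : 0 < c := Nat.pos_of_ne_zero fun e => by rw [e] at hn; omega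
  have := (allN_iff _ _).1 (h (k / c) (Nat.div_lt_of_lt_mul (hk.trans_le hn))) (k % c) (Nat.mod_lt _ hc)
  rwa [frc_eq, show Nat.add (Nat.mul (k / c) c) (k % c) = k from Nat.div_add_mod' k c, blt2 hk] at this

noncomputable def ok3c (T : Tab) (c i : ℕ) : Bool :=
  chk (fun j => allLt T.nc (T.wl j) && Nat.beq (T.mul 0 j) j && Nat.blt (T.inv j) T.N && Nat.beq (T.mul (T.inv j) j) 0) T.N c i

theorem ok3_of (T : Tab) (c m : ℕ) (hn : T.N ≤ c * m) (h : ∀ i < m, ok3c T c i = true) : T.ok3 = true := allN_chk hn h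

namespace PA
variable {G : Type*} [Group G] (P : PA G)

noncomputable def embAc (T : Tab) (o : ℕ) (cd : ℕ → ℕ) (x s i : ℕ) : Bool :=
  frc (lget P.T.cols 0 (Nat.add o x)) fun c => chk (fun j => frc (T.R x j) fun j' => Nat.blt j' T.N &&
    frc (cd j) fun k => Nat.beq (cd j')
      (cdMap P.T.N (fun i => Nat.land (Nat.shiftRight c (Nat.mul P.T.W i)) P.T.mW) P.bs k)) T.N s i

theorem embA_of (T : Tab) (o : ℕ) (cd : ℕ → ℕ) (x s m : ℕ) (hn : T.N ≤ s * m) (h : ∀ i < m, P.embAc T o cd x s i = true) :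
    P.embA T o cd x = true := by
  rw [embA, frc_eq]
  exact allN_chk hn fun i hi => by have := h i hi; rwa [embAc, frc_eq] at this

noncomputable def embBc (T : Tab) (cd : ℕ → ℕ) (s i : ℕ) : Bool :=
  chk (fun j => frc (Nat.succ j) fun j => frc (cd j) fun c => Nat.ble T.N j ||
    !Nat.beq c (cd 0) && (Nat.ble T.N (Nat.succ j) || Nat.blt c (cd (Nat.succ j)))) T.N s i

theorem embB_of (T : Tab) (o : ℕ) (cd : ℕ → ℕ) (s m : ℕ) (hn : T.N ≤ s * m)
    (h0 : (Nat.blt 0 T.N && Nat.ble (Nat.add o T.nc) P.T.nc && Nat.beq (cd 0) (cdOf P.T.N (fun b => b) P.bs)) = true)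
    (h : ∀ i < m, embBc T cd s i = true) : P.embB T o cd = true := by
  rw [embB, h0, Bool.true_and]
  exact allN_chk hn h
end PA
end CfH1
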