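import Cfsg.Agent.OD.Pre
import Cfsg.Agent.L.ZB
import Cfsg.Agent.L.GA
/-! Isometries of an eight-dimensional quadratic space over the field with two elements, in binary coordinates. -/
set_option autoImplicit false
set_option maxRecDepth 100000
set_option synthInstance.maxSize 4096
open CfL CfH6
namespace CfH1.Cls

/-- the linear map with the given images of the basis vectors -/
noncomputable def ap (m : List ℕ) (x : ℕ) : ℕ :=
  frc x (List.rec (fun _ => 0) (fun r _ ih v => Nat.xor (Nat.mul (Nat.mod v 2) r) (ih (Nat.div v 2))) m)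

theorem ap_nil (x : ℕ) : ap [] x = 0 := frc_eq _ _
theorem ap_cons (r : ℕ) (m : List ℕ) (x : ℕ) : ap (r :: m) x = x % 2 * r ^^^ ap m (x / 2) := by
  rw [ap, ap, frc_eq, frc_eq]; rfl

theorem ap_xor (m : List ℕ) : ∀ x y, ap m (x ^^^ y) = ap m x ^^^ ap m y := by
  induction m with
  | nil => intro x y; simp [ap_nil]
  | cons r m ih =>
    intro x y
    rw [ap_cons, ap_cons, ap_cons, Nat.xor_div_two, ih, Nat.xor_mod_two_eq, Nat.add_mod]
    rcases Nat.mod_two_eq_zero_or_one x with e | e <;> rcases Nat.mod_two_eq_zero_or_one y with e' | e' <;>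
      simp [e, e', Nat.xor_assoc, Nat.xor_comm, Nat.xor_left_comm]

theorem ap_lt {k : ℕ} {m : List ℕ} (h : ∀ r ∈ m, r < 2 ^ k) : ∀ x, ap m x < 2 ^ k := by
  induction m with
  | nil => intro x; simp [ap_nil]
  | cons r m ih =>
    intro x
    rw [ap_cons]
    refine Nat.xor_lt_two_pow ?_ (ih (fun s hs => h s (List.mem_cons_of_mem _ hs)) _)
    rcases Nat.mod_two_eq_zero_or_one x with e | e <;> simp [e, h r List.mem_cons_self]

theorem xlt {x y : ℕ} (hx : x < 256) (hy : y < 256) : x ^^^ y < 256 := Nat.xor_lt_two_pow (n := 8) hx hy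

theorem map_ap {k : ℕ} {f : ℕ → ℕ} (h : ∀ x < 2 ^ k, ∀ y < 2 ^ k, f (x ^^^ y) = f x ^^^ f y) {bs : List ℕ}
    (hb : ∀ b ∈ bs, b < 2 ^ k) : ∀ c, f (ap bs c) = ap (bs.map f) c := by
  have h0 : f 0 = 0 := by simpa using h 0 (by simp) 0 (by simp)
  induction bs with
  | nil => intro c; rw [List.map_nil, ap_nil, h0]
  | cons r m ih =>
    intro c
    have hm := fun s hs => hb s (List.mem_cons_of_mem _ hs)
    rw [List.map_cons, ap_cons, ap_cons, ← ih hm]
    rcases Nat.mod_two_eq_zero_or_one c with e | e <;> rw [e]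
    · simp
    · rw [one_mul, one_mul, h _ (hb r List.mem_cons_self) _ (ap_lt hm _)]

def std : List ℕ := [1, 2, 4, 8, 16, 32, 64, 128]
theorem std_lt : ∀ e ∈ std, e < 256 := by decide
theorem ap_std : ∀ x < 256, ap std x = x := by decide +kernel

noncomputable def qf (q x : ℕ) : ℕ := Nat.land (Nat.shiftRight q x) 1
theorem qf_lt (q x : ℕ) : qf q x < 2 := Nat.lt_succ_of_le Nat.and_le_right

/-- additive maps -/
def Lin (f : ℕ → ℕ) : Prop := ∀ x < 256, ∀ y < 256, f (x ^^^ y) = f x ^^^ f y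

theorem Lin.map {f : ℕ → ℕ} (h : Lin f) {bs : List ℕ} (hb : ∀ b ∈ bs, b < 256) (c : ℕ) : f (ap bs c) = ap (bs.map f) c :=
  map_ap (k := 8) h hb c
theorem lin_ap (m : List ℕ) : Lin (ap m) := fun x _ y _ => ap_xor m x y
theorem Lin.ext {f g : ℕ → ℕ} (hf : Lin f) (hg : Lin g) (e : ∀ b ∈ std, f b = g b) {x : ℕ} (hx : x < 256) : f x = g x := by
  rw [← ap_std x hx, hf.map std_lt, hg.map std_lt, List.map_congr_left e]

/-- isometries -/
structure Iso (q : ℕ) (f : ℕ → ℕ) : Prop where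
  lt : ∀ x < 256, f x < 256
  lin : Lin f
  q : ∀ x < 256, qf q (f x) = qf q x

noncomputable def okq (q b y : ℕ) (st : List (ℕ × ℕ)) : Bool :=
  Nat.beq (qf q y) (qf q b) && st.all fun p => Nat.beq (qf q (Nat.xor y p.2)) (qf q (Nat.xor b p.1))

/-- enumeration of the isometries `f` with `f N = N' f` -/
noncomputable def dfs (q : ℕ) (N N' : List ℕ) (cd : ℕ → List ℕ) (fin : List ℕ → Bool) (ls : List (ℕ × ℕ)) :
    List (ℕ × ℕ) → Bool :=
  List.rec (fun st => fin (st.map Prod.snd)) (fun s _ ih st => cond (Nat.beq s.2 0)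
    (frc (ap N' (st.headD (0, 0)).2) fun y => Nat.beq s.1 (ap N (st.headD (0, 0)).1) &&
      (!okq q s.1 y st || ih ((s.1, y) :: st)))
    ((cd s.2).all fun y => !okq q s.1 y st || ih ((s.1, y) :: st))) ls

theorem dfs_ok {q : ℕ} {N N' : List ℕ} {cd : ℕ → List ℕ} {fin : List ℕ → Bool} {f : ℕ → ℕ} (h : Iso q f)
    (c : ∀ x < 256, f (ap N x) = ap N' (f x)) (ls : List (ℕ × ℕ)) (hl : ∀ s ∈ ls, s.1 < 256 ∧ (s.2 = 0 ∨ f s.1 ∈ cd s.2)) :
    ∀ st, (∀ p ∈ st, p.1 < 256 ∧ f p.1 = p.2) → dfs q N N' cd fin ls st = true →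
      fin (((ls.map Prod.fst).reverse ++ st.map Prod.fst).map f) = true := by
  induction ls with
  | nil =>
    intro st hs e
    rw [List.map_nil, List.reverse_nil, List.nil_append, List.map_map,
      List.map_congr_left (f := f ∘ Prod.fst) (g := Prod.snd) fun p hp => (hs p hp).2]
    exact e
  | cons s ls ih =>
    intro st hs e
    obtain ⟨b, d⟩ := s
    have e : cond (Nat.beq d 0) (frc (ap N' (st.headD (0, 0)).2) fun y => Nat.beq b (ap N (st.headD (0, 0)).1) &&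
      (!okq q b y st || dfs q N N' cd fin ls ((b, y) :: st)))
      ((cd d).all fun y => !okq q b y st || dfs q N N' cd fin ls ((b, y) :: st)) = true := e
    obtain ⟨hb, hd⟩ := hl _ List.mem_cons_self
    have k : okq q b (f b) st = true := by
      simp only [okq, Bool.and_eq_true, List.all_eq_true, Nat.beq_eq]
      refine ⟨h.q b hb, fun p hp => ?_⟩
      change qf q (_ ^^^ _) = qf q (_ ^^^ _)
      rw [← (hs p hp).2, ← h.lin _ hb _ (hs p hp).1, h.q _ (xlt hb (hs p hp).1)]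
    rw [List.map_cons, List.reverse_cons, List.append_assoc]
    refine ih (fun s hs => hl s (List.mem_cons_of_mem _ hs)) ((b, f b) :: st) (List.forall_mem_cons.2 ⟨⟨hb, rfl⟩, hs⟩) ?_
    cases d with
    | succ d =>
      have := List.all_eq_true.1 e _ (hd.resolve_left (Nat.succ_ne_zero d))
      rwa [k] at this
    | zero =>
      have := e
      rw [Nat.beq_refl, cond_true, frc_eq, Bool.and_eq_true, Nat.beq_eq] at this
      have e1 : ap N' (st.headD (0, 0)).2 = f b := by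
        rw [this.1]
        cases st with
        | nil => exact ((c 0 (by decide)).trans (congrArg _ (by simpa using h.lin 0 (by decide) 0 (by decide)))).symm
        | cons p st => exact ((c _ (hs p List.mem_cons_self).1).trans (congrArg _ (hs p List.mem_cons_self).2)).symm
      have k2 := this.2
      rwa [e1, k] at k2

noncomputable def frcL {α : Type} (l : List ℕ) : (List ℕ → α) → α :=
  List.rec (fun k => k []) (fun a _ ih k => frc a fun a' => ih fun l' => k (a' :: l')) l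
theorem frcL_eq {α : Type} (l : List ℕ) : ∀ k : List ℕ → α, frcL l k = k l := by
  induction l with
  | nil => exact fun _ => rfl
  | cons a l ih => exact fun k => (frc_eq a fun a' => frcL l fun l' => k (a' :: l')).trans (ih _)

/-- the search, with the leaves in matrix form -/
noncomputable def srch (q : ℕ) (N N' bi : List ℕ) (ls st : List (ℕ × ℕ)) (iv : Bool) (fin : List ℕ → Bool) : Bool :=
  frcL ((ls.map Prod.fst).reverse ++ st.map Prod.fst) fun bs =>
  decide (bi.map (ap bs) = std ∧ (∀ b ∈ bs, b < 256) ∧ (∀ b ∈ bi, b < 256) ∧ ∀ s ∈ ls, s.1 < 256 ∧ (s.2 = 1 → ap N s.1 = s.1) ∧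
    (s.2 = 2 → ap N s.1 < 256 ∧ s.1 ^^^ ap N s.1 = ap N (ap N s.1))) &&
  frcL ((List.range 256).filter fun y => ap N' y = y) fun L1 =>
  frcL ((List.range 256).filter fun y => y ^^^ ap N' y = ap N' (ap N' y)) fun L2 => frcL (List.range 256) fun L3 =>
    dfs q N N' (lget [[], L1, L2] L3) (fun ys => iv && ((bs.zip ys).any fun p => !Nat.beq (ap ys (ap bi p.2)) p.1) ||
      frcL (bi.map (ap ys)) fin) ls st

theorem srch_ok {q : ℕ} {N N' bi : List ℕ} {iv : Bool} {fin : List ℕ → Bool} {f : ℕ → ℕ} (h : Iso q f)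
    (c : ∀ x < 256, f (ap N x) = ap N' (f x)) {ls st : List (ℕ × ℕ)} (hs : ∀ p ∈ st, p.1 < 256 ∧ f p.1 = p.2)
    (hi : iv = true → ∀ x < 256, f (f x) = x) (e : srch q N N' bi ls st iv fin = true) :
    ∃ m, (∀ x < 256, f x = ap m x) ∧ fin m = true := by
  simp only [srch, frcL_eq, Bool.and_eq_true, decide_eq_true_eq] at e
  obtain ⟨⟨e1, e2, e3, e4⟩, e⟩ := e
  have := dfs_ok h c ls (fun s hs => ⟨(e4 s hs).1, by
    obtain ⟨a1, a2, a3⟩ := e4 s hs
    have l := List.mem_range.2 (h.lt _ a1)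
    rcases s with ⟨b, _ | _ | _ | d⟩
    · exact Or.inl rfl
    · exact Or.inr (List.mem_filter.2 ⟨l, decide_eq_true (by rw [← c _ a1, a2 rfl])⟩)
    · obtain ⟨n, a3⟩ := a3 rfl
      exact Or.inr (List.mem_filter.2 ⟨l, decide_eq_true (by rw [← c _ a1, ← c _ n, ← a3, h.lin _ a1 _ n])⟩)
    · exact Or.inr l⟩) st hs e
  generalize (ls.map Prod.fst).reverse ++ st.map Prod.fst = bs at *
  have k : ∀ x < 256, f x = ap (bi.map (ap (bs.map f))) x := fun x hx => by
    refine (congrArg f (ap_std x hx).symm).trans ?_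
    rw [h.lin.map std_lt, ← e1, List.map_map]
    exact congrArg (ap · x) (List.map_congr_left fun c _ => h.lin.map e2 c)
  rw [Bool.or_eq_true, Bool.and_eq_true] at this
  refine ⟨_, k, this.resolve_left fun a => ?_⟩
  obtain ⟨p, hp, a2⟩ := List.any_eq_true.1 a.2
  rw [show bs.zip (bs.map f) = bs.map fun a => (a, f a) by simpa using List.zip_map' (f := id) (g := f) (l := bs)] at hp
  obtain ⟨x, hq, rfl⟩ := List.mem_map.1 hp
  have hx := e2 x hq
  simp [(lin_ap _).map e3, ← k _ (h.lt x hx), hi a.1 x hx] at a2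

noncomputable def apW (ms : List (List ℕ)) (w : List ℕ) (x : ℕ) : ℕ :=
  List.rec x (fun l _ ih => ap (lget ms [] l) ih) w

/-- the polar form -/
noncomputable def Bf (J : List ℕ) (x y : ℕ) : ℕ := ap [1, 1, 1, 1, 1, 1, 1, 1] (ap J x &&& y)
theorem Bf_l (J : List ℕ) (x y z : ℕ) : Bf J (x ^^^ y) z = Bf J x z ^^^ Bf J y z := by
  rw [Bf, ap_xor, Nat.and_xor_distrib_right, ap_xor]; rfl
theorem Bf_r (J : List ℕ) (x y z : ℕ) : Bf J x (y ^^^ z) = Bf J x y ^^^ Bf J x z := by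
  rw [Bf, Nat.and_xor_distrib_left, ap_xor]; rfl
theorem Bf_lt (J : List ℕ) (x y : ℕ) : Bf J x y < 2 := ap_lt (k := 1) (by decide) _

def PM : ℕ := 0x6996966996696996966969966996966996696996699696696996966996696996
noncomputable def polOk (q : ℕ) (J : List ℕ) : Bool := allB (fun x => frc (ap J x) fun j => Nat.blt j 256 &&
  allB (fun y => Nat.beq (qf q (Nat.xor x y)) (Nat.xor (Nat.xor (qf q x) (qf q y)) (qf PM (Nat.land j y)))) 4) 4

def es : List ℕ := [1, 2, 4, 8, 16, 32]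
def h6 : List ℕ := [4, 10, 16, 32, 5, 2]
def q6 : ℕ := 0x8777788878887888

structure Pol (q : ℕ) (J : List ℕ) : Prop where
  pol : ∀ x < 256, ∀ y < 256, qf q (x ^^^ y) = qf q x ^^^ qf q y ^^^ Bf J x y
  nd : ∀ v < 256, (∀ e ∈ std, Bf J e v = 0) → v = 0
  z : qf q 0 = 0
  s : ∀ x < 64, qf q x = qf q6 x

theorem pol_of {q : ℕ} {J : List ℕ} (h : polOk q J = true) : ∀ x < 256, ∀ y < 256,
    qf q (x ^^^ y) = qf q x ^^^ qf q y ^^^ Bf J x y := fun x hx y hy => by
  have := (allB_iff _ _).1 h x hx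
  rw [frc_eq, Bool.and_eq_true] at this
  rw [Bf, ← (by decide +kernel : ∀ v < 256, qf PM v = ap [1, 1, 1, 1, 1, 1, 1, 1] v) _
    (Nat.and_le_right.trans_lt hy)]
  exact Nat.eq_of_beq_eq_true ((allB_iff _ _).1 this.2 y hy)

noncomputable def qR (B : ℕ → ℕ → ℕ) : List ℕ → ℕ → ℕ
  | [], _ => 0
  | i :: l, c => c % 2 ^^^ qR B l (c / 2) ^^^ c % 2 * ap (l.map (B i)) (c / 2)

def rot : List ℕ := [2, 4, 8, 16, 32, 64, 1]
def pats : List (List ℕ) := [[23, 116, 46, 29, 92, 58], [114, 105, 101, 58, 75, 116], [114, 39, 101, 105, 75, 83], [23, 105, 46, 58, 92, 116]]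
noncomputable def QA (a : List ℕ) : ℕ → ℕ := qR (fun i j => lget a 0 (j - i)) [0, 1, 2, 3, 4, 5, 6]

theorem pat : ∀ a1 < 2, ∀ a2 < 2, ∀ a3 < 2, ∀ a4 < 2, ∀ a5 < 2, ∀ a6 < 2,
    (∀ c ∈ [0, 1, 2, 4, 8, 16, 32, 64], QA [0, a1, a2, a3, a4, a5, a6] (127 ^^^ c) = QA [0, a1, a2, a3, a4, a5, a6] c) →
    ∃ cs ∈ pats, (∀ x < 64, QA [0, a1, a2, a3, a4, a5, a6] (ap cs x) = qf q6 x) ∧ (∀ c ∈ cs, c < 128) ∧
      ∀ e ∈ es, ap rot (ap cs e) = ap cs (ap h6 e) := by decide +kernel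

namespace Pol
variable {q : ℕ} {J : List ℕ} (p : Pol q J) {f : ℕ → ℕ} (h : Iso q f)
include p

theorem q_ap (g : ℕ → ℕ) (B : ℕ → ℕ → ℕ) (l : List ℕ) (h1 : ∀ i ∈ l, g i < 256 ∧ qf q (g i) = 1)
    (h2 : l.Pairwise fun i j => Bf J (g i) (g j) = B i j) : ∀ c, qf q (ap (l.map g) c) = qR B l c := by
  induction l with
  | nil => intro c; rw [List.map_nil, ap_nil, p.z, qR]
  | cons i l ih =>
    intro c
    have k := fun j hj => h1 j (List.mem_cons_of_mem _ hj)
    have k' : ∀ b ∈ l.map g, b < 256 := List.forall_mem_map.2 fun j hj => (k j hj).1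
    rw [List.pairwise_cons] at h2
    rw [List.map_cons, ap_cons, qR, ← ih k h2.2]
    rcases Nat.mod_two_eq_zero_or_one c with e | e <;> rw [e]
    · simp
    · rw [one_mul, one_mul, p.pol _ (h1 i List.mem_cons_self).1 _ (ap_lt (k := 8) k' _), (h1 i List.mem_cons_self).2,
        Lin.map (fun x _ y _ => Bf_r J _ x y) k', List.map_map, List.map_congr_left (f := Bf J (g i) ∘ g) h2.1]

include h
theorem B {x y : ℕ} (hx : x < 256) (hy : y < 256) : Bf J (f x) (f y) = Bf J x y := by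
  have := p.pol _ (h.lt x hx) _ (h.lt y hy)
  rw [← h.lin x hx y hy, h.q _ (xlt hx hy), h.q x hx, h.q y hy, p.pol x hx y hy] at this
  exact (Nat.xor_right_inj.1 this).symm

theorem seven (h7 : ∀ x < 256, f^[7] x = x) (h1 : ∃ x < 256, f (f x) ≠ x) : ∃ ys : List ℕ, (∀ y ∈ ys, y < 256) ∧
    (∀ x < 64, qf q (ap ys x) = qf q x) ∧ ∀ e ∈ es, f (ap ys e) = ap ys (ap h6 e) := by
  obtain ⟨x, hx, e⟩ : ∃ x < 256, qf q (x ^^^ f x) = 1 := by
    by_contra c
    replace c : ∀ x < 256, qf q (x ^^^ f x) = 0 := fun x hx => by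
      have := qf_lt q (x ^^^ f x)
      by_contra e
      exact c ⟨x, hx, by omega⟩
    have k : ∀ x < 256, ∀ y < 256, Bf J x (f y) = Bf J (f x) y := fun x hx y hy => by
      have := p.pol _ (xlt hx (h.lt x hx)) _ (xlt hy (h.lt y hy))
      rw [c x hx, c y hy, show x ^^^ f x ^^^ (y ^^^ f y) = x ^^^ y ^^^ (f x ^^^ f y) by
        simp only [Nat.xor_assoc, Nat.xor_left_comm], ← h.lin x hx y hy, c _ (xlt hx hy), Bf_l, Bf_r, Bf_r,
        p.B h hx hy] at this
      refine Nat.xor_eq_zero_iff.1 (Eq.trans ?_ this.symm)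
      simp [Nat.xor_assoc, Nat.xor_comm, Nat.xor_left_comm]
    obtain ⟨y, hy, n⟩ := h1
    refine n (Nat.xor_eq_zero_iff.1 (p.nd _ (xlt (h.lt _ (h.lt y hy)) hy) fun e he => ?_))
    rw [Bf_r, k e (std_lt e he) _ (h.lt y hy), p.B h (std_lt e he) hy, Nat.xor_self]
  have it : ∀ n, ∀ y < 256, f^[n] y < 256 ∧ qf q (f^[n] y) = qf q y ∧ ∀ z < 256, Bf J (f^[n] y) (f^[n] z) = Bf J y z ∧
      f^[n] (y ^^^ z) = f^[n] y ^^^ f^[n] z := fun n => by
    induction n with
    | zero => exact fun y hy => ⟨hy, rfl, fun _ _ => ⟨rfl, rfl⟩⟩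
    | succ n ih =>
      intro y hy
      have := ih _ (h.lt y hy)
      simp only [Function.iterate_succ_apply]
      exact ⟨this.1, this.2.1.trans (h.q y hy), fun z hz => ⟨(this.2.2 _ (h.lt z hz)).1.trans (p.B h hy hz),
        by rw [h.lin y hy z hz, (this.2.2 _ (h.lt z hz)).2]⟩⟩
  have hw := xlt hx (h.lt x hx)
  let g : ℕ → ℕ := fun i => f^[i] (x ^^^ f x)
  let a := fun k => Bf J (x ^^^ f x) (g k)
  have gl : ∀ b ∈ [0, 1, 2, 3, 4, 5, 6].map g, b < 256 := List.forall_mem_map.2 fun i _ => (it i _ hw).1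
  have Q : ∀ c, qf q (ap ([0, 1, 2, 3, 4, 5, 6].map g) c) = QA [0, a 1, a 2, a 3, a 4, a 5, a 6] c :=
    p.q_ap g _ _ (fun i _ => ⟨(it i _ hw).1, (it i _ hw).2.1.trans e⟩) (List.Pairwise.imp_of_mem (R := fun i j => i < j ∧ j < 7)
      (fun {i j} _ _ hij => by
        obtain ⟨k, rfl⟩ := Nat.exists_eq_add_of_le hij.1.le
        rw [Nat.add_sub_cancel_left]
        refine ((congrArg _ (Function.iterate_add_apply f i k _)).trans ((it i _ hw).2.2 _ (it k _ hw).1).1).trans ?_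
        have : k < 7 := by omega
        have : 0 < k := by omega
        interval_cases k <;> rfl) (by decide))
  have z : ap ([0, 1, 2, 3, 4, 5, 6].map g) 127 = 0 := by
    have : ∀ i, g i = f^[i] x ^^^ f^[i + 1] x := fun i => ((it i x hx).2.2 _ (h.lt x hx)).2
    simp [ap_cons, ap_nil, this, h7 x hx, Nat.xor_assoc, -Function.iterate_succ]
  obtain ⟨cs, -, c1, c2, c3⟩ := pat _ (Bf_lt _ _ _) _ (Bf_lt _ _ _) _ (Bf_lt _ _ _) _ (Bf_lt _ _ _) _ (Bf_lt _ _ _) _
    (Bf_lt _ _ _) fun c _ => by rw [← Q, ← Q, ap_xor, z, Nat.zero_xor]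
  have A := fun c => map_ap (k := 7) (f := ap ([0, 1, 2, 3, 4, 5, 6].map g)) (fun x _ y _ => ap_xor _ x y) c2 c
  refine ⟨cs.map (ap ([0, 1, 2, 3, 4, 5, 6].map g)), List.forall_mem_map.2 fun c _ => ap_lt (k := 8) gl c,
    fun x hx => by rw [← A, Q, c1 x hx, p.s x hx], fun e he => ?_⟩
  rw [← A, ← A, ← c3 e he, h.lin.map gl, map_ap (k := 7) (bs := rot) (fun x _ y _ => ap_xor _ x y) (by decide)]
  congr 1
  have : f (g 6) = g 0 := (Function.iterate_succ_apply' f 6 _).symm.trans (h7 _ hw)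
  have k : ∀ i, f (g i) = g (i + 1) := fun i => (Function.iterate_succ_apply' f i _).symm
  simp [rot, ap_cons, ap_nil, this, k]
end Pol
end CfH1.Cls
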