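import Cfsg.Agent.OD.Pre
import Cfsg.Agent.H1.Cls0
import Cfsg.Agent.H8.D0
/-! Actions of `Sp₆(2)` on extraspecial groups of order 512. -/
set_option autoImplicit false
set_option maxRecDepth 100000
set_option synthInstance.maxSize 4096
set_option linter.unusedSectionVars false
open CfL hiding Tp Tm Zp Zm hZp hZm cZp cZm es_rels autp autm
open CfH6 CfH6.Co CfH9 Subgroup CfH8.C2
open CfH8.C3 (Sp A cA A_eq A_val A_gen)
namespace CfH1.Cls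

def okM (q : ℕ) (m : List ℕ) : Prop := ∀ i < 9, ap m (2 ^ i / 2) < 256 ∧
  ∀ j < 9, qf q (ap m (2 ^ i / 2) ^^^ ap m (2 ^ j / 2)) = qf q (2 ^ i / 2 ^^^ 2 ^ j / 2)
noncomputable instance (q : ℕ) (m : List ℕ) : Decidable (okM q m) := by unfold okM; infer_instance

/-- coordinates on an extraspecial group -/
structure Es {T : Type*} [Group T] (Z : T) (vl : T → ℕ) (mk : ℕ → T) (q : ℕ) : Prop where
  lt : ∀ t, vl t < 256
  mul : ∀ s t, vl (s * t) = vl s ^^^ vl t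
  ker : ∀ t, vl t = 0 ↔ t = 1 ∨ t = Z
  z1 : Z ≠ 1
  sq : ∀ t, t * t = Z ^ qf q (vl t)
  sur : ∀ x < 256, vl (mk x) = x
  aut : ∀ φ : MulAut T, φ Z = Z
  lift : ∀ m, okM q m → ∃ φ : MulAut T, ∀ t, vl (φ t) = ap m (vl t)

structure Dt where
  q : ℕ
  J : List ℕ
  lA : List (ℕ × ℕ)
  bA : List ℕ
  h0 : List ℕ
  W : List (List (ℕ × List ℕ))
  lB : List (ℕ × ℕ)
  bB : List ℕ
  C : List (List ℕ × List (ℕ × ℕ) × List ℕ)
  fx : List ℕ
  gs : List (List ℕ)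

def τ (i : ℕ) : List ℕ := [[1, 1, 2, 0, 2, 0, 2, 0, 2, 0, 2, 0, 1], [0, 1, 1, 2, 0, 2, 0, 2, 0, 2, 0, 1, 2, 0, 0, 0], [1, 0, 1, 2, 0, 2, 0, 2, 0, 2, 0, 1, 2, 0, 0], [0, 1, 0, 1, 2, 0, 2, 0, 2, 0, 2, 0, 1, 2, 0], [1, 0, 0, 2, 0, 1, 2, 0, 2, 0, 2, 0, 2, 0, 1, 2, 0, 0, 2, 0, 0, 0], [1, 1, 0, 2, 0, 2, 0, 2, 0, 2, 0, 1, 2], [0, 1, 1, 0, 2, 0, 2, 0, 2, 0, 2, 0, 2, 0, 1, 0, 0]].getD i []
def σ : List (List ℕ) := [[0, 1, 2, 3, 5, 6], [0, 2, 1, 5, 3, 2], [0, 2, 1, 0, 3, 4, 2, 1, 0, 3, 2, 1, 5, 3, 2, 1, 0, 4, 2]]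
def EE (i : ℕ) : List ℕ := [[84, 36, 68, 59, 5, 70, 64, 154], [85, 2, 64, 146, 16, 102, 4, 26], [241, 250, 101, 8, 219, 227, 115, 187], [1, 70, 4, 89, 16, 36, 64, 133], [5, 2, 4, 106, 84, 32, 64, 164], [161, 2, 32, 240, 206, 4, 102, 164], [5, 70, 4, 59, 84, 36, 64, 161]].getD i []
def prs : List (List ℕ × List ℕ) := [(wpow [0] 7, []), ([1, 0], [0, 0, 1]), ([1, 1, 1], []), ([2, 1], [1, 2]), ([2, 2], []),
  (wpow [0, 2] 10, []), (wpow [0, 1, 2] 7, [])]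
def stA : List (ℕ × ℕ) := [(32, 2), (16, 5), (8, 32), (4, 16), (2, 10), (1, 4)]
def Nt (ms : List (List ℕ)) (w : List ℕ) : Prop := ∃ e ∈ std, apW ms w e ≠ e
noncomputable instance (ms : List (List ℕ)) (w : List ℕ) : Decidable (Nt ms w) := by unfold Nt; infer_instance

namespace Dt
variable (D : Dt)
def okW : Prop := ∀ k < 6, (∃ j < 6, qf D.q (2 ^ k ^^^ 2 ^ j) ≠ qf D.q (2 ^ j)) ∧
  (∀ p ∈ D.W.getD k [], okM D.q p.2 ∧ ap p.2 p.1 = 2 ^ k ∧ ∀ i < k, ap p.2 (2 ^ i) = 2 ^ i) ∧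
  ∀ y < 256, qf D.q y = qf D.q (2 ^ k) → (∀ i < k, qf D.q (y ^^^ 2 ^ i) = qf D.q (2 ^ k ^^^ 2 ^ i)) →
    y = 0 ∨ ∃ p ∈ D.W.getD k [], p.1 = y
noncomputable instance : Decidable D.okW := by unfold okW; infer_instance
noncomputable def okA : Bool := srch D.q [] [] D.bA D.lA stA false fun m => decide (Nt [m] (wpow [0] 7) ∨ m = D.h0)
def finB (m : List ℕ) : Prop := Nt [[], m] [1, 1, 1] ∨
  ∃ j < 7, ∃ c ∈ D.C, ∀ e ∈ std, apW [D.h0] (wpow [0] j) (ap m e) = ap c.1 (apW [D.h0] (wpow [0] j) e)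
noncomputable instance (m : List ℕ) : Decidable (D.finB m) := by unfold finB; infer_instance
noncomputable def okB : Bool := srch D.q D.h0 (D.h0.map (ap D.h0)) D.bB D.lB [] false fun m => decide (D.finB m)
def finC (ms : List (List ℕ)) : Prop := Nt ms [2, 2] ∨ (∃ v ∈ D.fx, v < 256 ∧ qf D.q v = 1 ∧ ∀ l < 3, ap (lget ms [] l) v = v) ∨
  Nt ms (wpow [0, 2] 10) ∨ Nt ms (wpow [0, 1, 2] 7) ∨
  ∃ g ∈ D.gs, ∀ i < 7, ∀ e ∈ std, ap g (apW ms (τ i) e) = ap (EE i) (ap g e)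
noncomputable instance (ms : List (List ℕ)) : Decidable (D.finC ms) := by unfold finC; infer_instance
noncomputable def okC (c : List ℕ × List (ℕ × ℕ) × List ℕ) : Bool :=
  srch D.q c.1 c.1 c.2.2 c.2.1 [] true fun m => decide (D.finC [D.h0, c.1, m])
structure Ok : Prop where
  p : Pol D.q D.J
  w : D.okW
  a : D.okA = true
  b : D.okB = true
  c : ∀ c ∈ D.C, D.okC c = true
  g : (∀ g ∈ D.gs, okM D.q g) ∧ ∀ r ∈ D.h0, r < 256
end Dt

section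
variable {T : Type*} [Group T] {Z : T} {vl : T → ℕ} {mk : ℕ → T}

variable (vl mk) in
/-- the induced map on the quotient -/
def F (φ : MulAut T) (x : ℕ) : ℕ := vl (φ (mk x))
local notation "𝔽" => F vl mk

variable (vl mk) in
def M (φ : MulAut T) (m : List ℕ) : Prop := ∀ x < 256, 𝔽 φ x = ap m x

variable (vl mk) in
def Rl (ev : ℕ → MulAut T) : Prop := (∀ p ∈ prs, ∀ x < 256, 𝔽 (evw ev p.1) x = 𝔽 (evw ev p.2) x) ∧
  ∃ x < 256, 𝔽 (ev 0) (𝔽 (ev 0) x) ≠ x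

variable (vl mk) in
def Gd (D : Dt) (ev : ℕ → MulAut T) : Prop := (∃ v < 256, qf D.q v = 1 ∧ ∀ l < 3, 𝔽 (ev l) v = v) ∨
  D.gs ≠ [] ∧ ∃ γ, ∀ i < 7, M vl mk (γ * evw ev (τ i) * γ⁻¹) (EE i)

theorem evw_cj {G : Type*} [Group G] (ev : ℕ → G) (γ : G) (w : List ℕ) :
    evw (fun l => γ * ev l * γ⁻¹) w = γ * evw ev w * γ⁻¹ := by
  induction w with
  | nil => simp
  | cons x w ih => rw [evw_cons, evw_cons, ih, conj_mul]

namespace Es
section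
variable {q : ℕ} (E : Es Z vl mk q)
include E

theorem eqv {s t : T} (e : vl s = vl t) : s = t ∨ s = t * Z := by
  have := E.mul t (t⁻¹ * s)
  rw [mul_inv_cancel_left, e, eq_comm, ← Nat.xor_right_inj (x := vl t), Nat.xor_self, Nat.xor_xor_cancel_left] at this
  exact ((E.ker _).1 this).imp (fun e => (inv_mul_eq_one.1 e).symm) inv_mul_eq_iff_eq_mul.1
theorem vz (t : T) : vl (t * Z) = vl t := by rw [E.mul, (E.ker Z).2 (Or.inr rfl), Nat.xor_zero]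
theorem vcj (u t : T) : vl (u * t * u⁻¹) = vl t := by
  have := E.mul u u⁻¹
  rw [mul_inv_cancel, (E.ker 1).2 (Or.inl rfl), eq_comm, Nat.xor_eq_zero_iff] at this
  rw [E.mul, E.mul, ← this, Nat.xor_comm, Nat.xor_xor_cancel_left]
theorem vF (φ : MulAut T) (t : T) : vl (φ t) = 𝔽 φ (vl t) := by
  rcases E.eqv (E.sur _ (E.lt t)) with e | e <;> rw [F, e]
  rw [map_mul, E.aut, E.vz]
theorem mulF (φ ψ : MulAut T) (x : ℕ) : 𝔽 (φ * ψ) x = 𝔽 φ (𝔽 ψ x) := E.vF φ _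
theorem oneF {x : ℕ} (hx : x < 256) : 𝔽 1 x = x := E.sur x hx
theorem cjF (γ φ : MulAut T) (x : ℕ) : 𝔽 (γ * φ * γ⁻¹) x = 𝔽 γ (𝔽 φ (𝔽 γ⁻¹ x)) := by rw [E.mulF, E.mulF]
theorem invF (γ : MulAut T) {x : ℕ} (hx : x < 256) : 𝔽 γ (𝔽 γ⁻¹ x) = x := by rw [← E.mulF, mul_inv_cancel, E.oneF hx]
theorem invF' (γ : MulAut T) {x : ℕ} (hx : x < 256) : 𝔽 γ⁻¹ (𝔽 γ x) = x := by rw [← E.mulF, inv_mul_cancel, E.oneF hx]
theorem ltF (γ : MulAut T) (x : ℕ) : 𝔽 γ x < 256 := E.lt _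

theorem iso (φ : MulAut T) : Iso q (𝔽 φ) := ⟨fun _ _ => E.lt _, fun x hx y hy => by
    rw [F, F, F, ← E.mul, ← map_mul, E.vF, E.vF φ (_ * _), E.mul, E.sur _ hx, E.sur _ hy, E.sur _ (xlt hx hy)],
  fun x hx => by
    have := congrArg φ (E.sq (mk x))
    rw [map_mul, E.sq, map_pow, E.aut, E.sur x hx] at this
    have h1 := qf_lt q x
    have h2 := qf_lt q (𝔽 φ x)
    change Z ^ qf q (𝔽 φ x) = _ at this
    generalize qf q x = a at *
    generalize qf q (𝔽 φ x) = b at *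
    interval_cases a <;> interval_cases b <;> simp [E.z1, E.z1.symm] at this ⊢⟩

theorem liftM {m : List ℕ} (h : okM q m) : ∃ φ, M vl mk φ m :=
  (E.lift m h).imp fun _ e x hx => (e _).trans (by rw [E.sur x hx])

theorem word {ev : ℕ → MulAut T} {ms : List (List ℕ)} {k : ℕ} (h : ∀ l < k, M vl mk (ev l) (lget ms [] l)) {w : List ℕ}
    (hw : ∀ l ∈ w, l < k) {x : ℕ} (hx : x < 256) : 𝔽 (evw ev w) x = apW ms w x := by
  induction w with
  | nil => exact E.oneF hx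
  | cons l w ih =>
    rw [evw_cons, E.mulF, h l (hw l List.mem_cons_self) _ (E.ltF _ _), ih fun y hy => hw y (List.mem_cons_of_mem _ hy)]
    rfl

theorem cjM {γ φ : MulAut T} {m : List ℕ} (h : ∀ e ∈ std, 𝔽 γ (𝔽 φ e) = ap m (𝔽 γ e)) : M vl mk (γ * φ * γ⁻¹) m :=
  fun x hx => by
  have := Lin.ext (f := 𝔽 (γ * φ)) (g := fun y => ap m (𝔽 γ y)) (E.iso _).lin (fun x hx y hy => by
    simp only [(E.iso γ).lin x hx y hy, ap_xor]) (fun e he => (E.mulF _ _ _).trans (h e he)) (E.ltF γ⁻¹ x)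
  rwa [← E.mulF, E.invF γ hx] at this

theorem rcj {ev : ℕ → MulAut T} (h : Rl vl mk ev) (γ : MulAut T) : Rl vl mk fun l => γ * ev l * γ⁻¹ :=
  ⟨fun p hp x _ => by rw [evw_cj, evw_cj, E.cjF, E.cjF, h.1 p hp _ (E.ltF _ _)], by
    obtain ⟨x, hx, e⟩ := h.2
    refine ⟨_, E.ltF γ x, fun c => e ?_⟩
    rw [E.cjF, E.cjF, E.invF' γ hx, E.invF' γ (E.ltF _ _)] at c
    rw [← E.invF' γ (E.ltF _ _), c, E.invF' γ hx]⟩

theorem nt {ev : ℕ → MulAut T} (h : Rl vl mk ev) {ms : List (List ℕ)} {w : List ℕ} (hp : (w, []) ∈ prs)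
    (e : ∀ x < 256, 𝔽 (evw ev w) x = apW ms w x) : ¬ Nt ms w := fun ⟨x, hx, n⟩ =>
  n ((e x (std_lt x hx)).symm.trans ((h.1 _ hp x (std_lt x hx)).trans (E.oneF (std_lt x hx))))
end

variable {D : Dt} (E : Es Z vl mk D.q) (k : D.Ok) {ev : ℕ → MulAut T}
include E

theorem gcj (γ : MulAut T) (h : Gd vl mk D fun l => γ * ev l * γ⁻¹) : Gd vl mk D ev := by
  refine h.imp (fun ⟨v, hv, e, a⟩ => ⟨_, E.ltF γ⁻¹ v, ((E.iso _).q v hv).trans e, fun l hl => ?_⟩)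
    fun ⟨a, δ, b⟩ => ⟨a, δ * γ, fun i hi => ?_⟩
  · have := a l hl
    rw [E.cjF] at this
    rw [← E.invF' γ (E.ltF _ _), this]
  · have := b i hi
    rwa [evw_cj, show δ * (γ * evw ev (τ i) * γ⁻¹) * δ⁻¹ = δ * γ * evw ev (τ i) * (δ * γ)⁻¹ by group] at this

include k
theorem witt {ys : List ℕ} (h1 : ∀ y ∈ ys, y < 256) (h2 : ∀ x < 64, qf D.q (ap ys x) = qf D.q x) :
    ∃ γ, ∀ x < 64, 𝔽 γ (ap ys x) = x := by
  have l := ap_lt (k := 8) h1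
  have p6 : ∀ i < 6, 2 ^ i < 2 ^ 6 := by decide
  have : ∀ n ≤ 6, ∃ γ, ∀ i < n, 𝔽 γ (ap ys (2 ^ i)) = 2 ^ i := fun n => by
    induction n with
    | zero => exact fun _ => ⟨1, fun _ h => absurd h (by omega)⟩
    | succ n ih =>
      intro hn
      obtain ⟨γ, e⟩ := ih (by omega)
      obtain ⟨⟨j, hj, w1⟩, w2, w3⟩ := k.w n hn
      have a : ∀ x < 64, qf D.q (𝔽 γ (ap ys x)) = qf D.q x := fun x hx => ((E.iso γ).q _ (l x)).trans (h2 x hx)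
      have b : ∀ i < 6, qf D.q (𝔽 γ (ap ys (2 ^ n)) ^^^ 𝔽 γ (ap ys (2 ^ i))) = qf D.q (2 ^ n ^^^ 2 ^ i) := fun i hi => by
        rw [← (E.iso γ).lin _ (l _) _ (l _), ← ap_xor, a _ (Nat.xor_lt_two_pow (p6 n hn) (p6 i hi))]
      obtain c | ⟨p, hp, c⟩ := w3 _ (E.ltF _ _) (a _ (p6 n hn)) fun i hi => by rw [← b i (by omega), e i hi]
      · exact absurd (by rw [← b j hj, c, Nat.zero_xor, a _ (p6 j hj)]) w1
      obtain ⟨δ, d⟩ := E.liftM (w2 p hp).1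
      refine ⟨δ * γ, fun i hi => ?_⟩
      rw [E.mulF, d _ (E.ltF _ _)]
      rcases Nat.lt_succ_iff_lt_or_eq.1 hi with hi | rfl
      exacts [by rw [e i hi, (w2 p hp).2.2 i hi], by rw [← c, (w2 p hp).2.1]]
  obtain ⟨γ, e⟩ := this 6 le_rfl
  refine ⟨γ, fun x hx => ?_⟩
  have := map_ap (k := 6) (f := fun c => 𝔽 γ (ap ys c)) (bs := es) (fun x _ y _ => by
    simp only [ap_xor, (E.iso γ).lin _ (l _) _ (l _)]) (by decide) x
  rwa [show es = (List.range 6).map (2 ^ ·) from rfl, List.map_map,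
    List.map_congr_left (g := (2 ^ ·)) (f := (fun c => 𝔽 γ (ap ys c)) ∘ (2 ^ ·)) fun i hi => e i (List.mem_range.1 hi),
    (by decide +kernel : ∀ x < 64, ap ((List.range 6).map (2 ^ ·)) x = x) x hx] at this

theorem stC (h : Rl vl mk ev) (h0 : M vl mk (ev 0) D.h0) {c : List ℕ × List (ℕ × ℕ) × List ℕ} (hc : c ∈ D.C)
    (h1 : M vl mk (ev 1) c.1) : Gd vl mk D ev := by
  obtain ⟨m, h2, e⟩ := srch_ok (E.iso (ev 2)) (fun x hx => by
    have := h.1 ([2, 1], [1, 2]) (by decide) x hx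
    simp only [evw_cons, evw_nil, mul_one, E.mulF] at this
    rw [← h1 x hx, this, h1 _ (E.ltF _ _)]) forall_nil (fun _ x hx => by
    simpa only [evw_cons, evw_nil, mul_one, E.mulF, E.oneF hx] using h.1 ([2, 2], []) (by decide) x hx) (k.c c hc)
  have a : ∀ l < 3, M vl mk (ev l) (lget [D.h0, c.1, m] [] l) := fun l hl => by
    interval_cases l
    exacts [h0, h1, h2]
  have n := fun w hp hw => E.nt h (w := w) hp fun x hx => E.word a hw hx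
  obtain e | ⟨v, -, v1, v2, v3⟩ | e | e | ⟨g, hg, e⟩ := of_decide_eq_true e
  · exact absurd e (n _ (by decide) (by decide))
  · exact Or.inl ⟨v, v1, v2, fun l hl => (a l hl v v1).trans (v3 l hl)⟩
  · exact absurd e (n _ (by decide) (by decide))
  · exact absurd e (n _ (by decide) (by decide))
  obtain ⟨γ, d⟩ := E.liftM (k.g.1 g hg)
  refine Or.inr ⟨List.ne_nil_of_mem hg, γ, fun i hi => E.cjM fun x hx => ?_⟩
  rw [d _ (E.ltF _ _), d _ (std_lt x hx), E.word a ((by decide : ∀ i < 7, ∀ l ∈ τ i, l < 3) i hi) (std_lt x hx), e i hi x hx]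

theorem stB (h : Rl vl mk ev) (h0 : M vl mk (ev 0) D.h0) : Gd vl mk D ev := by
  obtain ⟨m, h1, e⟩ := srch_ok (E.iso (ev 1)) (fun x hx => by
    have := h.1 ([1, 0], [0, 0, 1]) (by decide) x hx
    simp only [evw_cons, evw_nil, mul_one, E.mulF] at this
    rw [← h0 x hx, this, h0 _ (E.ltF _ _), h0 _ (E.ltF _ _), (lin_ap _).map k.g.2]) forall_nil (by simp) k.b
  obtain e | ⟨j, -, c, hc, e⟩ := of_decide_eq_true e
  · refine absurd e (E.nt h (by decide) fun x hx => ?_)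
    simp only [evw_cons, evw_nil, mul_one, E.mulF]
    rw [h1 _ (E.ltF _ _), h1 _ (E.ltF _ _), h1 x hx]
    rfl
  have a : ∀ x < 256, 𝔽 (evw ev (wpow [0] j)) x = apW [D.h0] (wpow [0] j) x := fun x hx =>
    E.word (k := 1) (fun l hl => by rwa [show l = 0 by omega]) (by simp [wpow]) hx
  refine E.gcj (evw ev (wpow [0] j)) (E.stC k (E.rcj h _) ?_ hc (E.cjM fun x hx => ?_))
  · rwa [evw_wpow, evw_cons, evw_nil, mul_one, (Commute.self_pow _ j).eq.symm, mul_inv_cancel_right]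
  · rw [a _ (E.ltF _ _), a _ (std_lt x hx), h1 _ (std_lt x hx), e x hx]

theorem cls (h : Rl vl mk ev) : Gd vl mk D ev := by
  have h7 : ∀ {ev : ℕ → MulAut T} (n x : ℕ), x < 256 → 𝔽 (evw ev (wpow [0] n)) x = (𝔽 (ev 0))^[n] x := fun {ev} n => by
    rw [evw_wpow, evw_cons, evw_nil, mul_one]
    induction n with
    | zero => exact fun x hx => E.oneF hx
    | succ n ih => exact fun x hx => by rw [pow_succ, E.mulF, ih _ (E.ltF _ _)]; rfl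
  obtain ⟨ys, y1, y2, y3⟩ := k.p.seven (E.iso (ev 0)) (fun x hx => (h7 7 x hx).symm.trans
    ((h.1 (_, []) (by decide) x hx).trans (E.oneF hx))) h.2
  obtain ⟨γ, e⟩ := E.witt k y1 y2
  have h' := E.rcj h γ
  obtain ⟨m, h0, e⟩ := srch_ok (E.iso (γ * ev 0 * γ⁻¹)) (fun x hx => by
    simpa [ap_nil] using (E.iso (γ * ev 0 * γ⁻¹)).lin 0 (by decide) 0 (by decide)) (fun p hp => by
      obtain ⟨a1, a2, a3, a4⟩ := (by decide +kernel : ∀ p ∈ stA, p.1 ∈ es ∧ p.1 < 64 ∧ p.2 < 64 ∧ ap h6 p.1 = p.2) p hp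
      refine ⟨by omega, ?_⟩
      rw [E.cjF, ← e _ a2, E.invF' γ (ap_lt (k := 8) y1 _), y3 _ a1, a4, e _ a3]) (by simp) k.a
  refine E.gcj γ (E.stB k h' ?_)
  rcases of_decide_eq_true e with e | rfl
  · exact absurd e (E.nt h' (by decide) fun x hx => E.word (k := 1) (fun l hl => by rwa [show l = 0 by omega])
      (by decide) hx)
  · exact h0
end Es
end
end CfH1.Cls
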