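import Cfsg.Agent.OD.Pre
import Cfsg.Agent.H1.Cls2
/-! `Sp₆(2)` acts on an extraspecial group of order 512 naturally or by the spin representation. -/
set_option autoImplicit false
set_option maxRecDepth 100000
set_option synthInstance.maxSize 4096
set_option linter.unusedSectionVars false
open CfL hiding Tp Tm Zp Zm hZp hZm cZp cZm es_rels autp autm
open CfH6 CfH6.Co CfH9 Subgroup CfH8.C2
open CfH8.C3 (Sp A cA A_eq A_val A_gen)
namespace CfH1.Cls

section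
variable {T : Tab} {il : List ℕ} {rels : List (List ℕ)} {g : T.Good il rels}
noncomputable def el (g : T.Good il rels) (k : ℕ) : TE g := if h : k < T.N then ⟨k, h⟩ else 1
theorem el_val (a : TE g) : el g a.1 = a := dif_pos a.2
theorem one_val : (1 : TE g).1 / 2 = 0 := Nat.zero_div 2
theorem ap0 (m : List ℕ) : ap m 0 = 0 := by simpa using ap_xor m 0 0

theorem esOf {Z : TE g} {q : ℕ} (hn : T.N = 512) (hc : T.nc = 9) (z : Z.1 = 1)
    (hZ : ∀ t : TE g, t = 1 ∨ t = Z ∨ ∃ s, t * s * t⁻¹ * s⁻¹ = Z) (cZ : ∀ t : TE g, (∀ s, t * s = s * t) ∧ t ≠ 1 ↔ t = Z)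
    (c1 : ∀ x < 9, T.R x 0 = 2 ^ x ∧ il.getD x 0 = x ∧ qf q (2 ^ x / 2) = 0 ∧
      ∀ s : TE g, (s * el g (2 ^ x)).1 / 2 = s.1 / 2 ^^^ 2 ^ x / 2)
    (c2 : ∀ t : TE g, t * t = Z ^ qf q (t.1 / 2))
    (c3 : ∀ r ∈ rels, ∃ i < 9, ∃ j < 9, r = [i, j, i, j] ∧ qf q (2 ^ i / 2 ^^^ 2 ^ j / 2) = 0 ∨
      r = [i, j, i, j, 0] ∧ qf q (2 ^ i / 2 ^^^ 2 ^ j / 2) = 1) :
    Es Z (fun t => t.1 / 2) (fun x => el g (2 * x)) q := by
  have z1 : Z ≠ 1 := ((cZ Z).2 rfl).2
  have mul : ∀ s t : TE g, (s * t).1 / 2 = s.1 / 2 ^^^ t.1 / 2 := fun s t => TE.top_of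
    (subOf (fun t : TE g => ∀ s : TE g, (s * t).1 / 2 = s.1 / 2 ^^^ t.1 / 2) (fun s => by
      rw [mul_one, one_val, Nat.xor_zero]) fun a b ha hb s => by rw [← mul_assoc, hb, ha, hb, Nat.xor_assoc])
    (fun x hx a e s => by
      have := c1 x (hc ▸ hx)
      rw [← el_val a, ← e, this.1, this.2.2.2, ← this.1, e, el_val]) t s
  have sur : ∀ x < 256, (el g (2 * x)).1 / 2 = x := fun x hx => by
    rw [show (el g (2 * x)).1 = 2 * x from congrArg Subtype.val (dif_pos (show 2 * x < T.N by omega))]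
    exact Nat.mul_div_cancel_left x two_pos
  refine ⟨fun t => by have := t.2; omega, mul, fun t => ⟨fun e => ?_, ?_⟩, z1, c2, sur, aut_Z cZ, fun m hm => ?_⟩
  · exact (by omega : t.1 = 0 ∨ t.1 = Z.1).imp Subtype.ext Subtype.ext
  · rintro (rfl | rfl)
    exacts [Nat.zero_div 2, by rw [z]]
  let u : ℕ → TE g := fun x => if x = 0 then Z else el g (2 * ap m (2 ^ x / 2))
  have hu : ∀ x < 9, (u x).1 / 2 = ap m (2 ^ x / 2) := fun x hx => by
    simp only [u]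
    split_ifs with e
    · rw [e, z]; exact (ap0 m).symm
    · exact sur _ (hm x hx).1
  have k : ∀ i < 9, ∀ j < 9, u i * u j * (u i * u j) = Z ^ qf q (2 ^ i / 2 ^^^ 2 ^ j / 2) := fun i hi j hj => by
    rw [c2, mul, hu i hi, hu j hj, (hm i hi).2 j hj]
  obtain ⟨f, -, e⟩ := TE.exists_hom g u (fun x hx => by
    rw [hc] at hx
    have := (hm x hx).2 0 (by decide)
    rw [← hu 0 (by decide), show u 0 = Z from rfl, z, ← hu x hx] at this
    rw [(c1 x hx).2.1, eq_inv_iff_mul_eq_one, c2]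
    simp [(c1 x hx).2.2.1] at this
    rw [this, pow_zero]) fun r hr => by
    obtain ⟨i, hi, j, hj, ⟨rfl, e⟩ | ⟨rfl, e⟩⟩ := c3 r hr
    · simpa [e, mul_assoc] using k i hi j hj
    · have := k i hi j hj
      have z2 := c2 Z
      rw [z, show (1 / 2 : ℕ) = 2 ^ 0 / 2 from rfl, (c1 0 (by decide)).2.2.1, pow_zero] at z2
      rw [e, pow_one] at this
      simp only [evw_cons, evw_nil, mul_one]
      rw [← mul_assoc, ← mul_assoc, ← mul_assoc, mul_assoc (u i * u j), this]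
      exact z2
  have e0 : f Z = Z := e 0 Z (by omega) ((c1 0 (by decide)).1.trans z.symm)
  refine ⟨MulEquiv.ofBijective f (Finite.injective_iff_bijective.1 (inj_es hZ f (e0.symm ▸ z1))), TE.top_of
    (subOf (fun t : TE g => (f t).1 / 2 = ap m (t.1 / 2)) (by rw [map_one, one_val, ap0])
      fun a b ha hb => by rw [map_mul, mul, mul, ha, hb, ap_xor]) fun x hx a ha => ?_⟩
  change (f a).1 / 2 = _
  rw [e x a hx ha, hu x (hc ▸ hx), ← ha, (c1 x (hc ▸ hx)).1]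
end

theorem esp : Es Zp (fun t => t.1 / 2) (fun x => el tpg (2 * x)) Dp.q :=
  esOf rfl rfl rfl hZp cZp (by decide +kernel) (by decide +kernel) (by decide +kernel)
theorem esm : Es Zm (fun t => t.1 / 2) (fun x => el tmg (2 * x)) Dm.q :=
  esOf rfl rfl rfl hZm cZm (by decide +kernel) (by decide +kernel) (by decide +kernel)

theorem sp1 : ∀ p ∈ prs, cA (subst σ p.1) (subst σ p.2) = true := by decide +kernel
theorem sp2 : ∀ i < 7, cA (subst σ (τ i)) [i] = true ∧ ∀ x ∈ subst σ (τ i), x < 7 := by decide +kernel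
theorem sp3 : evw A (subst σ [0, 0, 0, 0]) ≠ 1 := fun e => by
  have := A_val (subst σ [0, 0, 0, 0]) (by decide +kernel)
  rw [e] at this
  revert this
  decide +kernel

section
variable {G T : Type*} [Group G] [Finite G] [Group T] [Finite T] {z : G} {Z : T} {ι : T →* G} {π : Cx(z) →* Sp}
  {vl : T → ℕ} {mk : ℕ → T} {D : Dt}

theorem gen (E : Es Z vl mk D.q) (k : D.Ok) (h : Sx z Z ι π) : Nat4 z ι ∨ D.gs ≠ [] ∧ ∃ (γ : MulAut T) (r : ℕ → Cx(z))
    (s : ℕ → MulAut T), ∀ i < 7, π (r i) = A i ∧ M vl mk (s i) (EE i) ∧ ∀ t, r i * ι (γ t) * (r i : G)⁻¹ = ι (γ (s i t)) := by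
  obtain ⟨θ, e⟩ := exists_theta h.inj Cx(z) fun k hk => h.nm k (mem_Cx.1 hk)
  choose r hr using fun i => h.sur (A i)
  have pw : ∀ w, π (evw r w) = evw A w := fun w => by rw [map_evw]; simp only [hr]
  have tw : ∀ w, evw (fun l => θ (byW r σ l)) w = θ (evw r (subst σ w)) := fun w => by rw [evw_subst, map_evw]
  have inn : ∀ g, π g = 1 → ∀ x < 256, F vl mk (θ g) x = x := fun g hg x hx => by
    obtain ⟨u, hu⟩ := (h.ker g).1 hg
    rw [F, show θ g (mk x) = u * mk x * u⁻¹ from h.inj (by rw [e, ← hu, map_mul, map_mul, map_inv]), E.vcj, E.sur x hx]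
  have eq : ∀ a b, π a = π b → ∀ x < 256, F vl mk (θ a) x = F vl mk (θ b) x := fun a b c x hx => by
    rw [← mul_inv_cancel_left b a, map_mul, E.mulF, inn _ (by rw [map_mul, map_inv, c, inv_mul_cancel]) x hx]
  have z2 : Z * Z = 1 := by rw [E.sq, (E.ker Z).2 (Or.inr rfl), k.p.z, pow_zero]
  rcases E.cls k (ev := fun l => θ (byW r σ l)) ⟨fun p hp => by
      rw [tw, tw]; exact eq _ _ (by rw [pw, pw, A_eq _ _ (sp1 p hp)]), by
      by_contra c
      refine sp3 ?_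
      have a : ∀ t, θ (evw r (subst σ [0, 0])) t = t ∨ θ (evw r (subst σ [0, 0])) t = t * Z := fun t => E.eqv (by
        rw [E.vF, ← tw, evw_cons, evw_cons, evw_nil, mul_one, E.mulF]
        by_contra n
        exact c ⟨_, E.lt t, n⟩)
      rw [← pw, h.ker]
      rcases h.ct (evw r (subst σ [0, 0, 0, 0]) : Cx(z)) fun t => mul_inv_eq_iff_eq_mul.1 ((e _ t).symm.trans (congrArg ι (by
        rw [show subst σ [0, 0, 0, 0] = subst σ [0, 0] ++ subst σ [0, 0] from rfl, evw_append, map_mul, MulAut.mul_apply]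
        rcases a t with b | b <;> rw [b]
        exacts [b, by rw [map_mul, E.aut, b, mul_assoc, z2, mul_one]]))) with b | b <;> rw [b]
      exacts [one_mem _, ⟨Z, h.z0⟩]⟩ with ⟨v, v1, v2, v3⟩ | ⟨a, γ, b⟩
  · have y2 : mk v * mk v = Z := by rw [E.sq, E.sur v v1, v2, pow_one]
    refine Or.inl ⟨mk v, by rw [← map_mul, y2, h.z0], fun g hg => ?_⟩
    let K := subOf (fun g : Cx(z) => F vl mk (θ g) v = v) (by rw [map_one, E.oneF v1])
      fun a b ha hb => by rw [map_mul, E.mulF, hb, ha]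
    obtain ⟨y, hy, c⟩ := (A_gen (K.map π) fun i hi => ⟨_, (evw_subst r σ (τ i)).symm ▸ evw_mem (k := 3) v3
      ((by decide : ∀ i < 7, ∀ l ∈ τ i, l < 3) i hi), by rw [pw, A_eq _ _ (sp2 i hi).1]; simp⟩).ge
      (mem_top (π ⟨g, mem_Cx.2 hg⟩))
    refine (E.eqv (((eq _ _ c v v1).symm.trans hy).trans (E.sur v v1).symm)).imp (fun c => ?_) fun c => ?_
    · rw [← e ⟨g, mem_Cx.2 hg⟩, c]
    · rw [← e ⟨g, mem_Cx.2 hg⟩, c, ← map_inv, ← y2, eq_comm, h.inj.eq_iff, inv_eq_iff_mul_eq_one, ← mul_assoc, y2, z2]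
  · refine Or.inr ⟨a, γ⁻¹, fun i => evw r (subst σ (τ i)), _, fun i hi => ⟨by rw [pw, A_eq _ _ (sp2 i hi).1]; simp, b i hi,
      fun t => ?_⟩⟩
    rw [← e, tw, MulAut.mul_apply, MulAut.mul_apply, MulAut.inv_apply_self]
end

theorem inner {s s' : S} (h : ∀ t, s t = s' t ∨ s t = s' t * Zp) : ∃ u, s = MulAut.conj u * s' := by
  have : ∀ n ≤ 9, ∃ u : Tp, ∀ x < n, s (s'⁻¹ (el tpg (2 ^ x))) = u * el tpg (2 ^ x) * u⁻¹ := fun n => by
    induction n with
    | zero => exact fun _ => ⟨1, fun _ h => absurd h (by omega)⟩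
    | succ n ih =>
      intro hn
      obtain ⟨u, e⟩ := ih (by omega)
      have a := h (s'⁻¹ (el tpg (2 ^ n)))
      rw [MulAut.apply_inv_self] at a
      rcases esp.eqv (s := s (s'⁻¹ (el tpg (2 ^ n)))) (t := u * el tpg (2 ^ n) * u⁻¹) (by
        rw [esp.vcj]; rcases a with a | a <;> rw [a]; exact esp.vz _) with c | c
      · exact ⟨u, fun x hx => (Nat.lt_succ_iff_lt_or_eq.1 hx).elim (e x) fun k => k ▸ c⟩
      rcases (by decide +kernel : ∀ n < 9, el tpg (2 ^ n) = Zp ∨ ∃ d : Tp, d * el tpg (2 ^ n) * d⁻¹ = el tpg (2 ^ n) * Zp ∧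
        ∀ x < n, d * el tpg (2 ^ x) * d⁻¹ = el tpg (2 ^ x)) n hn with k | ⟨d, d1, d2⟩
      · exact ⟨u, fun x hx => (Nat.lt_succ_iff_lt_or_eq.1 hx).elim (e x) fun k' => by
          rw [k', k, esp.aut, esp.aut, ← Zc, mul_inv_cancel_right]⟩
      refine ⟨u * d, fun x hx => ?_⟩
      rw [show ∀ y, u * d * y * (u * d)⁻¹ = u * (d * y * d⁻¹) * u⁻¹ from fun y => by group]
      rcases Nat.lt_succ_iff_lt_or_eq.1 hx with hx | rfl
      · rw [d2 x hx, e x hx]
      · rw [d1, c, mul_assoc _ _ Zp, ← Zc, mul_assoc, mul_assoc, mul_assoc]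
  obtain ⟨u, e⟩ := this 9 le_rfl
  refine ⟨u, mul_inv_eq_iff_eq_mul.1 (MulEquiv.ext (TE.top_of
    ((s * s'⁻¹).toMonoidHom.eqLocus (MulAut.conj u).toMonoidHom) fun x hx a ha => ?_))⟩
  rw [← el_val a, ← ha, (by decide +kernel : ∀ x < 9, tp.R x 0 = 2 ^ x) x hx]
  exact e x hx

theorem eRM (i : ℕ) (hi : i < 7) : M (fun t : Tp => t.1 / 2) (fun x => el tpg (2 * x)) (eR (9 + i)) (EE i) := fun x hx => by
  have a : ∀ t : Tp, ((eR (9 + i))⁻¹ t).1 / 2 = ap (EE i) (t.1 / 2) := fun t => by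
    rw [show ((eR (9 + i))⁻¹ t).1 = _ from (CfH8.C2.exA _).choose_spec (by omega) t]
    exact (by decide +kernel : ∀ i < 7, ∀ t : Tp, sR.R (9 + i) t.1 / 2 = ap (EE i) (t.1 / 2)) i hi t
  have := a (eR (9 + i) (el tpg (2 * x)))
  rw [MulAut.inv_apply_self, esp.sur x hx] at this
  nth_rewrite 2 [this]
  exact ((by decide +kernel : ∀ i < 7, ∀ y < 256, ap (EE i) (ap (EE i) y) = y) i hi _ (esp.lt _)).symm

variable {G : Type*} [Group G] [Finite G] {z : G} {π : Cx(z) →* Sp}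

theorem clsM {ι : Tm →* G} (h : Sx z Zm ι π) : Nat4 z ι := (gen esm okm h).resolve_right fun a => a.1 rfl

theorem clsP {ι : Tp →* G} (h : Sx z Zp ι π) : Nat4 z ι ∨ ∃ (ι' : Tp →* G) (r : ℕ → Cx(z)), Spin z ι' π r := by
  refine (gen esp okp h).imp_right fun ⟨_, γ, r, s, a⟩ => ?_
  have rg : (ι.comp γ.toMonoidHom).range = ι.range := by
    rw [MonoidHom.range_comp, MonoidHom.range_eq_top.2 γ.surjective, MonoidHom.range_eq_map]
  have : ∀ i, ∃ u, i < 7 → eR (9 + i) = MulAut.conj u * s i := fun i => by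
    by_cases hi : i < 7
    · exact (inner fun t => esp.eqv (by rw [esp.vF, esp.vF (s i), eRM i hi _ (esp.lt t), (a i hi).2.1 _ (esp.lt t)])).imp
        fun _ e _ => e
    · exact ⟨1, fun c => absurd c hi⟩
  choose u hu using this
  have m : ∀ t, ι t ∈ Cx(z) := fun t => mem_Cx.2 (by rw [← h.z0, ← map_mul, ← map_mul, Zc])
  refine ⟨ι.comp γ.toMonoidHom, fun i => ⟨_, m (γ (u i))⟩ * r i, ⟨h.inj.comp γ.injective, (congrArg ι (esp.aut γ)).trans h.z0,
    fun g hg t => rg.symm ▸ h.nm g hg _, fun g hg => h.ct g fun t => by simpa using hg (γ⁻¹ t), h.sur,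
    fun g => rg.symm ▸ h.ker g⟩, fun i hi => hu i hi ▸ (L.inn (ι := ι.comp γ.toMonoidHom) (u i)).mul (a i hi).2.2,
    fun i hi => by rw [map_mul, (h.ker _).2 ⟨_, rfl⟩, one_mul, (a i hi).1]⟩
end CfH1.Cls
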