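import Cfsg.Agent.H1.Ree7
import Cfsg.Agent.H1.ModSU
import Cfsg.Agent.H7.Sz2

/-! `S₃` and `S₄` in the rank one groups. -/

set_option autoImplicit false
set_option linter.unusedSectionVars false

namespace CfH1

open Cfsg Subgroup CfH9 CfH7 CfH8 Matrix
open scoped Pointwise commutatorElement MatrixGroups

section general
variable {G : Type*} [Group G] [Finite G]

theorem Involves.card_dvd {H : Type*} [Group H] (h : Involves H G) : Nat.card H ∣ Nat.card G := by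
  obtain ⟨K, π, hπ⟩ := involves_iff.1 h
  exact (card_dvd_of_surjective π hπ).trans (card_subgroup_dvd_card K)

theorem s4_elts (h : Involves (Equiv.Perm (Fin 4)) G) : ∃ (T : Subgroup G) (x y : G), IsPGroup 2 T ∧ x ∈ Nm(T) ∧
    y ∈ Nm(T) ∧ (∃ k, x ^ 2 ^ k = 1) ∧ ∀ k, (x⁻¹ * (y * x * y⁻¹)) ^ 2 ^ k ∉ Cz(T) := by
  haveI : Fact (Nat.Prime 3) := ⟨Nat.prime_three⟩
  obtain ⟨T, hT, h⟩ := exists_automizer_of_involves_S4 h
  obtain ⟨x, y, k, hx, hy, e⟩ := exists_inverts_of_involves_dihedral (p := 3) (by norm_num) (involves_S3_iff.1 h)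
  obtain ⟨x, rfl⟩ := QuotientGroup.mk_surjective x
  obtain ⟨y, rfl⟩ := QuotientGroup.mk_surjective y
  obtain ⟨m, j, hm, hj⟩ := exists_pow_pelt 2 x
  have e' := odd_pow_inverts e hm
  rw [← QuotientGroup.mk_pow] at e'
  generalize x ^ m = z at e' hj
  refine ⟨T, z, y, hT, z.2, y.2, ⟨j, by exact_mod_cast congrArg Subtype.val hj⟩, fun i hi => ?_⟩
  have h1 : (((z⁻¹ * (y * z * y⁻¹)) ^ 2 ^ i : Nm(T)) : Nm(T) ⧸ (Cz(T)).subgroupOf Nm(T)) = 1 :=
    (QuotientGroup.eq_one_iff _).2 hi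
  simp only [QuotientGroup.mk_pow, QuotientGroup.mk_mul, QuotientGroup.mk_inv] at h1
  generalize (z : Nm(T) ⧸ (Cz(T)).subgroupOf Nm(T)) = a at e' h1
  generalize (y : Nm(T) ⧸ (Cz(T)).subgroupOf Nm(T)) = b at e' h1 hy
  have h2 : a⁻¹ * (b * a * b⁻¹) = b := by
    have h3 : a⁻¹ * b * a = b⁻¹ := by
      rw [← _root_.inv_inj, inv_inv]
      calc _ = a⁻¹ * b⁻¹ * a := by group
        _ = b := by rw [← e']; group
    rw [← mul_assoc, ← mul_assoc, h3, ← _root_.mul_inv_rev, inv_eq_iff_mul_eq_one, ← pow_three', ← hy,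
      pow_orderOf_eq_one]
  rw [h2, ← orderOf_dvd_iff_pow_eq_one, hy] at h1
  exact absurd (Nat.prime_three.dvd_of_dvd_pow h1) (by norm_num)

theorem not_S4_of_comm (h : ∀ P : Subgroup G, IsPGroup 2 P → ∀ a ∈ P, ∀ b ∈ P, a * b = b * a) :
    ¬ Involves (Equiv.Perm (Fin 4)) G := fun h4 => by
  obtain ⟨T, x, y, hT, hx, hy, ⟨k, hk⟩, e⟩ := s4_elts h4
  have h1 : x ∈ Cz(T) := fun t ht => h (zpowers x ⊔ T) (IsPGroup.to_sup_of_normal_right' (isPGroup_zpowers hk) hT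
    (zpowers_le.2 hx)) _ (mem_sup_right ht) _ (mem_sup_left (mem_zpowers x))
  exact e 0 (by simpa using mul_mem (inv_mem h1) (conj_mem_of_mem_normalizer (mem_Nm_Cz hy) h1))

theorem not_S4_of_sylow {S : Subgroup G} (hS : SylIn 2 S ⊤) (h : IsMulCommutative S) :
    ¬ Involves (Equiv.Perm (Fin 4)) G := not_S4_of_comm fun P hP a ha b hb => by
  obtain ⟨g, -, hg⟩ := hS.exists_cj_le hP le_top
  have := comm_iff.1 h _ (hg (conj_mem_cj g ha)) _ (hg (conj_mem_cj g hb))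
  rwa [conj_mul, conj_mul, mul_left_inj, mul_right_inj] at this

theorem not_S4_of_TI {S : Subgroup G} (hS : SylIn 2 S ⊤)
    (h : ∀ u ∈ S, u ≠ 1 → ∀ x k, x ^ 2 ^ k = 1 → x * u * x⁻¹ ∈ S → x ∈ S) :
    ¬ Involves (Equiv.Perm (Fin 4)) G := fun h4 => by
  obtain ⟨T, x, y, hT, hx, hy, ⟨k, hk⟩, e⟩ := s4_elts h4
  obtain ⟨g, -, hg⟩ := hS.exists_cj_le hT le_top
  obtain ⟨u, hu, u1⟩ := exists_ne_one_of_ne_bot (show T ≠ ⊥ from fun f => e 0 fun a ha => by simp [mem_bot.1 (f ▸ ha)])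
  have key : ∀ z ∈ Nm(T), z ^ 2 ^ k = 1 → g * z * g⁻¹ ∈ S := fun z hz hk =>
    h _ (hg (conj_mem_cj g hu)) (by simpa using u1) _ k (by rw [conj_pow, hk]; simp) (by
      rw [conj_inv, conj_mul, conj_mul]; exact hg (conj_mem_cj g (conj_mem_of_mem_normalizer hz hu)))
  have h1 := mul_mem (inv_mem (key x hx hk)) (key (y * x * y⁻¹) (mul_mem (mul_mem hy hx) (inv_mem hy))
    (by rw [conj_pow, hk]; simp))
  obtain ⟨i, hi⟩ := hS.pgrp ⟨_, h1⟩
  have hi' := congrArg Subtype.val hi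
  simp only [SubmonoidClass.mk_pow, OneMemClass.coe_one] at hi'
  rw [conj_inv, conj_mul, conj_pow, conj_eq_one_iff] at hi'
  exact e i (hi' ▸ one_mem _)

theorem involves_D3_of_dvd {s c : G} (hs : s * s = 1) (e : s * c * s⁻¹ = c⁻¹) (h : 3 ∣ orderOf c) :
    Involves (DihedralGroup 3) G := by
  haveI : Fact (Nat.Prime 3) := ⟨Nat.prime_three⟩
  have ho := orderOf_pow_orderOf_div (orderOf_pos c).ne' h
  exact involves_dihedral_of_inverts (k := 1) (l := 1) (by norm_num) (by simpa [pow_two] using hs)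
    (by simpa using pow_eq_one_of_orderOf ho) (ne_one_of_orderOf_eq_prime ho) (inverts_pow e _)

theorem D3_of_S4 (h : Involves (Equiv.Perm (Fin 4)) G) : Involves (DihedralGroup 3) G := by
  refine Involves.trans (involves_D3_of_dvd (s := Equiv.swap 0 1) (c := Equiv.swap 0 1 * Equiv.swap 0 2)
    (by decide) (by decide) ?_) h
  haveI : Fact (Nat.Prime 3) := ⟨Nat.prime_three⟩
  rw [orderOf_eq_prime (p := 3) (by decide) (by decide)]

theorem Involves.equiv {H G' : Type*} [Group H] [Group G'] (e : G ≃* G') : Involves H G ↔ Involves H G' :=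
  ⟨fun h => Involves.of_injective h e.toMonoidHom e.injective, fun h => Involves.of_surjective h e.toMonoidHom e.surjective⟩

/-! ### Ree type -/

theorem exists_RT (h : IsReeType G) : ∃ (t : G) (K U H R : Subgroup G) (u v : G) (h m : ℕ), RT t K U H R u v h m := by
  obtain ⟨hs, hc, t, K, n, hn, ht, ho, ⟨-, hK, h1, h2, h3⟩, F, _, _, hF, ⟨e⟩⟩ := h
  haveI : Fact (Nat.Prime 3) := ⟨Nat.prime_three⟩
  haveI := charP_of_card hF
  obtain ⟨j, hj⟩ : ∃ j, 3 ^ (2 * n + 1) = 8 * j + 3 := by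
    refine ⟨3 ^ (2 * n + 1) / 8, ?_⟩
    have : 3 ^ (2 * n + 1) % 8 = 3 := by
      rw [pow_succ, pow_mul, Nat.mul_mod, Nat.pow_mod]; norm_num
    omega
  have h27 : 3 ^ 3 ≤ 3 ^ (2 * n + 1) := Nat.pow_le_pow_right (by norm_num) (by omega)
  obtain ⟨U, H, R, u, v, d⟩ := exists_l2S_of_equiv 3 (j := j) (by omega) (hF.trans hj) e
  have t2 : t * t = 1 := by rw [← pow_two, pow_eq_one_of_orderOf ht]
  have t1 := ne_one_of_orderOf_eq_prime ht
  have tK : ∀ k ∈ K, t * k = k * t := h1 t (mem_zpowers t)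
  refine ⟨t, K, U, H, R, u, v, _, _, d, t2, t1, tK, fun f => t1 (h2.le ⟨mem_zpowers t, f⟩), fun c hc => ?_, ho,
    by omega, ?_⟩
  · exact (mem_inv_sup t2 (centralizer_le_normalizer _ fun k hk => (tK k hk).symm)).1 (h3.ge (mem_Cx.2 hc))
  · refine (commutator_normal ⊤ ⊤).eq_bot_or_eq_top.resolve_left fun f => hc ⟨⟨fun a b => ?_⟩⟩
    exact commutatorElement_eq_one_iff_mul_comm.1 (f.le (commutator_mem_commutator (mem_top a) (mem_top b)))

theorem ree_D3 (h : IsReeType G) : Involves (DihedralGroup 3) G := by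
  obtain ⟨t, K, U, H, R, u, v, h, m, d⟩ := exists_RT h
  have := Fintype.ofFinite G
  exact d.involves

theorem ree_S4 (h : IsReeType G) : ¬ Involves (Equiv.Perm (Fin 4)) G := by
  obtain ⟨t, K, U, H, R, u, v, h, m, d⟩ := exists_RT h
  exact not_S4_of_comm fun P hP a ha b hb => d.comm_two hP ha hb

/-! ### Suzuki groups -/

theorem sz_D3 (h : Lie.IsoSuzuki G) : ¬ Involves (DihedralGroup 3) G := fun h3 => by
  haveI : Fact (Nat.Prime 3) := ⟨Nat.prime_three⟩
  obtain ⟨F, _, _, m, -, hF, ⟨e⟩⟩ := h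
  haveI := charP_of_card hF
  haveI := Finite.of_equiv _ e.toEquiv
  obtain ⟨ρ, hρ⟩ := exists_szM F (m + 1)
  obtain ⟨-, y, -, -, hy, -⟩ := exists_inverts_of_involves_dihedral (p := 3) (by norm_num) ((Involves.equiv e).1 h3)
  have y3 := pow_eq_one_of_orderOf hy
  have y4 : y ^ 4 ≠ 1 := by rw [pow_succ y 3, y3, one_mul]; exact ne_one_of_orderOf_eq_prime hy
  obtain ⟨l, v, -, h1, h2⟩ := hρ.basis y4
  have h3 : ∀ i, l i ^ 2 + l i + 1 = 0 := fun i => by
    have e1 := pow_mulVec (h1 i) 3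
    rw [← map_pow, y3, map_one, one_mulVec] at e1
    have e2 : l i ^ 3 = 1 := by
      by_contra f
      refine v.ne_zero i ((smul_eq_zero (r := l i ^ 3 - 1)).1 ?_ |>.resolve_left (sub_ne_zero.2 f))
      rw [sub_smul, ← e1, one_smul, sub_self]
    have e3 : l i - 1 ≠ 0 := sub_ne_zero.2 fun f => y4 (hρ.pow_four ⟨v i, v.ne_zero i, f ▸ h1 i⟩)
    apply mul_left_cancel₀ e3
    linear_combination e2
  have h4 : ∀ i j, i ≠ j → l i + l j + 1 = 0 := fun i j hij => by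
    have e3 : l i - l j ≠ 0 := sub_ne_zero.2 fun f => by
      obtain ⟨c, hc⟩ := h2 i (v j) (f ▸ h1 j)
      have := congrArg (v.repr · j) hc
      simp [hij] at this
    apply mul_left_cancel₀ e3
    linear_combination h3 i - h3 j
  have h5 : (2 : AlgebraicClosure F) = 0 := two_eq
  exact one_ne_zero (α := AlgebraicClosure F) (by
    linear_combination h4 0 1 (by decide) + h4 0 2 (by decide) + h4 1 2 (by decide) - (l 0 + l 1 + l 2 + 1) * h5)

end general

/-! ### `PSL₂(q)` -/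

section psl
variable {F : Type*} [Field F] [Fintype F]

theorem psl_D3 {q : ℕ} (hF : Fintype.card F = q) (h4 : 4 ≤ q) (h3 : ¬ 3 ∣ q) : Involves (DihedralGroup 3) PSL(2, F) := by
  obtain ⟨N, hN, h3N⟩ : ∃ N, (N = q + 1 ∨ N = q - 1) ∧ 3 ∣ N := by
    by_cases h : 3 ∣ q + 1
    · exact ⟨_, Or.inl rfl, h⟩
    · exact ⟨_, Or.inr rfl, by omega⟩
  obtain ⟨c, s, hc, s2, e, -⟩ := CfH3.exists_torus hF hN (by omega)
  refine involves_D3_of_dvd (c := c) s2 (by rwa [inv_eq_of_mul_eq_one_right s2]) ?_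
  rw [hc]
  rcases Nat.even_or_odd q with h | h
  · rwa [CfH3.gcd_two_of_even h (by omega), Nat.div_one]
  · rw [CfH3.gcd_two_of_odd h]
    obtain ⟨k, rfl⟩ := h
    omega

theorem psl_not_D3 {n : ℕ} (hF : Fintype.card F = 3 ^ (2 * n + 1)) : ¬ Involves (DihedralGroup 3) PSL(2, F) := fun h3 => by
  haveI : Fact (Nat.Prime 3) := ⟨Nat.prime_three⟩
  haveI := charP_of_card hF
  obtain ⟨x, y, -, -, hy, e⟩ := exists_inverts_of_involves_dihedral (p := 3) (by norm_num) h3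
  obtain ⟨g, b, rfl⟩ := psl2_unip (p := 3) (k := 1) (s := y) (by simpa using pow_eq_one_of_orderOf hy)
  have b0 : b ≠ 0 := by rintro rfl; simp [slT_zero] at hy
  obtain ⟨x, rfl⟩ := QuotientGroup.mk_surjective x
  have e1 : ((g⁻¹ * x * g * slT b : SL(2, F)) : PSL(2, F)) = (slT (-b) * (g⁻¹ * x * g) : SL(2, F)) := by
    simp only [← slT_inv, QuotientGroup.mk_mul, QuotientGroup.mk_inv] at e ⊢
    rw [← mul_inv_eq_iff_eq_mul, ← mul_left_inj (g : PSL(2, F))⁻¹, ← mul_right_inj (g : PSL(2, F))]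
    convert e using 1 <;> group
  generalize g⁻¹ * x * g = k at e1
  have hd := k.det_coe
  rw [det_fin_two] at hd
  have h2 : (2 : F) ≠ 0 := fun f => one_ne_zero (α := F) (by linear_combination CharP.cast_eq_zero F 3 - f)
  have hsq : ∀ a : F, a ^ 2 ≠ -1 := fun a ha => by
    have := FiniteField.isSquare_neg_one_iff (F := F)
    rw [hF] at this
    refine this.1 ⟨a, by rw [← ha, sq]⟩ ?_
    rw [pow_succ, pow_mul, Nat.mul_mod, Nat.pow_mod]; norm_num
  rcases CfH3.psl2_mk_eq_iff.1 e1 with e2 | e2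
  · have a0 := congrArg (fun M : SL(2, F) => M.1 0 0) e2
    have a1 := congrArg (fun M : SL(2, F) => M.1 0 1) e2
    simp [slT_val, mul_apply, Fin.sum_univ_two, b0] at a0 a1
    refine hsq (k.1 0 0) (mul_left_cancel₀ b0 ?_)
    linear_combination k.1 0 0 * a1 - b * hd - b * k.1 0 1 * a0
  · have a0 := congrArg (fun M : SL(2, F) => M.1 0 0) e2
    have a1 := congrArg (fun M : SL(2, F) => M.1 1 0) e2
    simp [slT_val, mul_apply, Fin.sum_univ_two, vecMul, dotProduct] at a0 a1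
    have a2 : k.1 1 0 = 0 := mul_left_cancel₀ h2 (by linear_combination a1)
    have a3 : k.1 0 0 = 0 := mul_left_cancel₀ h2 (by linear_combination a0 + b * a2)
    rw [a2, a3] at hd
    simp at hd

theorem psl_S4_even {n : ℕ} (hF : Fintype.card F = 2 ^ n) : ¬ Involves (Equiv.Perm (Fin 4)) PSL(2, F) :=
  not_S4_of_sylow (sylIn_slTs hF) (comm_map (comm_iff.2 fun a ha b hb => by
    obtain ⟨a, rfl⟩ := mem_slTs.1 ha
    obtain ⟨b, rfl⟩ := mem_slTs.1 hb
    rw [slT_mul, slT_mul, add_comm]) _)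

theorem psl_S4_odd {q : ℕ} (hF : Fintype.card F = q) (h : q % 8 = 3 ∨ q % 8 = 5) :
    ¬ Involves (Equiv.Perm (Fin 4)) PSL(2, F) := fun h4 => by
  have h1 := Involves.card_dvd h4
  have h2 := CfH3.card_PSL2 hF
  rw [CfH3.gcd_two_of_odd (Nat.odd_iff.2 (by omega))] at h2
  rw [Nat.card_perm, Nat.card_eq_fintype_card, Fintype.card_fin] at h1
  obtain ⟨c, hc⟩ := h1
  have h3 : (2 ^ 4).Coprime q := Nat.Coprime.pow_left _ (Nat.coprime_two_left.2 (Nat.odd_iff.2 (by omega)))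
  have h5 := h3.dvd_of_dvd_mul_left ⟨3 * c, by rw [← h2, hc]; norm_num [Nat.factorial]; ring⟩
  have h6 : q ^ 2 % 16 = 9 := by
    have : q % 16 = 3 ∨ q % 16 = 11 ∨ q % 16 = 5 ∨ q % 16 = 13 := by omega
    rw [Nat.pow_mod]
    rcases this with e | e | e | e <;> rw [e]
  omega

end psl

end CfH1
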