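import Cfsg.Agent.H1.Gold1
import Cfsg.Agent.H6.J1P
import Cfsg.Agent.OD.Helper1x1377b86467

/-! `S₃` and `S₄` in `U₃(2ⁿ)` and `J₁`; the Goldschmidt groups. -/

set_option autoImplicit false
set_option linter.unusedSectionVars false

namespace CfH1

open Cfsg Subgroup CfH9 CfH7 CfH8 Matrix
open scoped Pointwise commutatorElement MatrixGroups

namespace U3
variable {F : Type*} [Field F] [Fintype F] {q : ℕ}

theorem of_mem_SU (hF : Fintype.card F = q ^ 2) {g : SL(3, F)} (h : g ∈ SU 3 F q) :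
    g.1ᵀ * g.1.map (CfH2.frobQ hF) = 1 := by
  ext i j
  have := h (Pi.single i 1) (Pi.single j 1)
  have e : ∀ u v : Fin 3 → F, hermForm 3 F q u v = u ⬝ᵥ (CfH2.frobQ hF ∘ v) := fun u v => rfl
  rw [e, e] at this
  change (g.1 *ᵥ _) ⬝ᵥ (CfH2.frobQ hF ∘ (g.1 *ᵥ _)) = _ at this
  simpa [dotProduct, mul_apply, one_apply, Pi.single_apply, apply_ite (CfH2.frobQ hF), eq_comm] using this

theorem exists_rep' (hF : Fintype.card F = q ^ 2) : ∃ ψ : SU 3 F q →* Matrix (Fin 3) (Fin 3) F,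
    Hy (CfH2.frobQ hF) ψ ∧ ∀ g, (ψ g)ᵀ * J3 F * (ψ g).map (CfH2.frobQ hF) = J3 F ∧ (ψ g).det = 1 := by
  set σ := CfH2.frobQ hF
  have hσ : ∀ x, σ (σ x) = x := CfH2.frobQ_frobQ hF
  obtain ⟨ω, hω⟩ := exists_trace_one hF
  obtain ⟨ε, hε⟩ := CfH2.exists_norm_eq (CfH2.frobQ_ne_id hF) hσ (s := -1) (by simp)
  obtain ⟨P, hP⟩ : ∃ P : Matrix (Fin 3) (Fin 3) F, Pᵀ * P.map σ = J3 F := by
    refine ⟨!![1, 0, ω; ε, 0, -(σ ω * ε); 0, 1, 0], ?_⟩
    ext i j; fin_cases i <;> fin_cases j <;> simp [J3, mul_apply, Fin.sum_univ_three, hσ]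
    · linear_combination hε
    · linear_combination hω - ω * hε
    · linear_combination hω - σ ω * hε
    · linear_combination ω * σ ω * hε
  have hd : IsUnit P.det := by
    have := congrArg det hP
    rw [det_mul, det_transpose] at this
    refine isUnit_iff_ne_zero.2 fun h => ?_
    simp [h, J3, det_fin_three] at this
  have h1 := mul_nonsing_inv P hd
  have h2 := nonsing_inv_mul P hd
  set Q := P⁻¹
  refine ⟨⟨⟨fun g => Q * g.1.1 * P, by simp [h2]⟩, fun a b => ?_⟩, ⟨hσ, fun a b h => ?_, fun M hM hd => ?_⟩,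
    fun g => ⟨?_, ?_⟩⟩
  · change Q * (a.1.1 * b.1.1) * P = _
    calc _ = Q * a.1.1 * (P * Q) * b.1.1 * P := by rw [h1]; simp [mul_assoc]
      _ = _ := by simp only [mul_assoc]
  · refine Subtype.ext (Subtype.ext ?_)
    have h3 : P * (Q * a.1.1 * P) * Q = P * (Q * b.1.1 * P) * Q := congrArg (P * · * Q) h
    have h4 : ∀ M, P * (Q * M * P) * Q = M := fun M => by
      calc _ = (P * Q) * M * (P * Q) := by simp only [mul_assoc]
        _ = M := by rw [h1]; simp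
    rwa [h4, h4] at h3
  · refine ⟨⟨⟨P * M * Q, ?_⟩, mem_SU hF ?_⟩, ?_⟩
    · rw [det_mul, det_mul, hd, mul_one, ← det_mul, h1, det_one]
    · change (P * M * Q)ᵀ * (P * M * Q).map σ = 1
      rw [transpose_mul, transpose_mul, Matrix.map_mul, Matrix.map_mul]
      calc _ = Qᵀ * (Mᵀ * (Pᵀ * P.map σ) * M.map σ) * Q.map σ := by simp only [mul_assoc]
        _ = (P * Q)ᵀ * (P * Q).map σ := by
          rw [hP, hM, ← hP, transpose_mul, Matrix.map_mul]; simp only [mul_assoc]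
        _ = 1 := by rw [h1]; simp
    · change Q * (P * M * Q) * P = M
      calc _ = (Q * P) * M * (Q * P) := by simp only [mul_assoc]
        _ = M := by rw [h2]; simp
  · change (Q * g.1.1 * P)ᵀ * J3 F * (Q * g.1.1 * P).map σ = _
    rw [← hP, transpose_mul, transpose_mul, Matrix.map_mul, Matrix.map_mul]
    calc _ = Pᵀ * (g.1.1ᵀ * ((P * Q)ᵀ * (P * Q).map σ) * g.1.1.map σ) * P.map σ := by
          rw [transpose_mul, Matrix.map_mul]; simp only [mul_assoc]
      _ = _ := by rw [h1, transpose_one, Matrix.map_one _ (map_zero σ) (map_one σ), mul_one, mul_one,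
          of_mem_SU hF g.2, mul_one]
  · change (Q * g.1.1 * P).det = 1
    rw [det_mul, det_mul, g.1.det_coe, mul_one, ← det_mul, h2, det_one]

theorem Hy.mem_U {H : Type*} [Group H] {σ : F →+* F} {ψ : H →* Matrix (Fin 3) (Fin 3) F} (h : Hy σ ψ) {p : ℕ}
    [Fact p.Prime] [CharP F p] {u x : H} (hx : (ψ x)ᵀ * J3 F * (ψ x).map σ = J3 F) (hd : (ψ x).det = 1)
    (hu : u ∈ h.U) (u1 : u ≠ 1) {k : ℕ} (hk : x ^ p ^ k = 1) (e : x * u * x⁻¹ ∈ h.U) : x ∈ h.U := by
  obtain ⟨c, d, -, hu⟩ := hu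
  obtain ⟨a, b, -, e⟩ := e
  have e1 : ψ x * up c (σ c) d = up a (σ a) b * ψ x := by rw [← hu, ← e, ← map_mul, ← map_mul]; simp
  have ab : ¬ (a = 0 ∧ b = 0) := by
    rintro ⟨rfl, rfl⟩
    rw [map_zero, up_zero, ← map_one ψ] at e
    exact u1 (by simpa using h.inj e)
  have e2 := congrFun (congrFun e1 0) 0
  have e3 := congrFun (congrFun e1 1) 0
  have f := fun i j => congrFun (congrFun hx i) j
  have f00 := f 0 0
  have f01 := f 0 1
  have f02 := f 0 2
  have f12 := f 1 2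
  have f22 := f 2 2
  simp [up, J3, mul_apply, vecMul, dotProduct, Fin.sum_univ_three] at e2 e3 f00 f01 f02 f12 f22
  have x20 : ψ x 2 0 = 0 := e3.elim (fun a0 => by
    rw [a0, zero_mul, add_zero, left_eq_add, mul_eq_zero] at e2
    exact e2.resolve_left fun b0 => ab ⟨a0, b0⟩) id
  have x10 : ψ x 1 0 = 0 := by simpa [x20] using f00
  have x00 : ψ x 0 0 = 1 := by
    have : ∀ n : ℕ, (ψ x ^ n) 0 0 = ψ x 0 0 ^ n := fun n => by
      induction n with
      | zero => simp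
      | succ n ih => simp [pow_succ, mul_apply, Fin.sum_univ_three, x10, x20, ih]
    have h1 := this (p ^ k)
    rw [← map_pow, hk, map_one, one_apply_eq, eq_comm, ← sub_eq_zero, ← one_pow (p ^ k), ← sub_pow_char_pow] at h1
    exact sub_eq_zero.1 (pow_eq_zero_iff (pow_pos (Fact.out : p.Prime).pos k).ne' |>.1 h1)
  simp only [x00, x10, x20, zero_mul, zero_add, one_mul, map_eq_zero] at f01 f02
  have x22 : ψ x 2 2 = 1 := by rw [← h.inv (ψ x 2 2), f02, map_one]
  have x11 : ψ x 1 1 = 1 := by simpa [det_fin_three, x00, x10, x20, f01, x22] using hd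
  simp only [f01, x11, x22, map_one, zero_mul, one_mul, mul_one, zero_add] at f12 f22
  have x12 : ψ x 1 2 = -σ (ψ x 0 1) := by rw [← h.inv (ψ x 1 2), eq_neg_of_add_eq_zero_left f12, map_neg]
  refine ⟨ψ x 0 1, ψ x 0 2, ?_, ?_⟩
  · rw [x12, map_neg, h.inv] at f22
    linear_combination f22
  · ext i j; fin_cases i <;> fin_cases j <;> simp [up, x00, x10, x20, f01, x11, x22, x12]

theorem sylIn_U {p n : ℕ} [hp : Fact p.Prime] (hF : Fintype.card F = (p ^ n) ^ 2)
    {ψ : SU 3 F (p ^ n) →* Matrix (Fin 3) (Fin 3) F} (h : Hy (CfH2.frobQ hF) ψ) : SylIn p h.U ⊤ := by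
  haveI : CharP F p := charP_of_card (hF.trans (pow_mul p n 2).symm)
  obtain ⟨T, hT⟩ := exists_sylIn p (⊤ : Subgroup (SU 3 F (p ^ n)))
  refine hT.of_card_le (h.isPGroup_U p) le_top ?_
  refine le_trans (Nat.le_of_dvd (by have := hp.out.pos; positivity) ?_) (card_U hF h)
  obtain ⟨k, hk⟩ := IsPGroup.iff_card.1 hT.pgrp
  have h3 := (card_subgroup_dvd_card T).mul_left (p ^ n + 1)
  rw [CfH2.card_SU hF (by norm_num), hk] at h3
  rw [hk]
  refine Nat.Coprime.dvd_of_dvd_mul_right (Nat.Coprime.pow_left _ ?_) h3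
  have hn : n ≠ 0 := by
    rintro rfl
    have := Fintype.one_lt_card (α := F)
    simp [hF] at this
  refine Nat.Coprime.prod_right fun i _ => ?_
  have h4 : p ∣ (p ^ n) ^ (i + 1) := (dvd_pow_self p hn).trans (dvd_pow_self _ (by omega))
  rw [hp.out.coprime_iff_not_dvd]
  split_ifs
  · rw [Nat.dvd_add_right h4]; exact hp.out.not_dvd_one
  · rw [Nat.dvd_sub_iff_right (Nat.one_le_pow _ _ (pow_pos hp.out.pos n)) h4]; exact hp.out.not_dvd_one

theorem psu_S4 {n : ℕ} (hF : Fintype.card F = (2 ^ n) ^ 2) : ¬ Involves (Equiv.Perm (Fin 4)) (PSU 3 F (2 ^ n)) := by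
  haveI : CharP F 2 := charP_of_card (hF.trans (pow_mul 2 n 2).symm)
  obtain ⟨ψ, h, h'⟩ := exists_rep' hF
  exact fun h4 => not_S4_of_TI (sylIn_U hF h)
    (fun u hu u1 x k hk e => h.mem_U (h' x).1 (h' x).2 hu u1 hk e) (Involves.of_quotient h4)

theorem psu_D3 {n : ℕ} (hF : Fintype.card F = (2 ^ n) ^ 2) : Involves (DihedralGroup 3) (PSU 3 F (2 ^ n)) := by
  haveI : CharP F 2 := charP_of_card (hF.trans (pow_mul 2 n 2).symm)
  haveI : Fact (Nat.Prime 3) := ⟨Nat.prime_three⟩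
  obtain ⟨ψ, h, -⟩ := exists_rep' hF
  have h2 : (1 : F) + 1 = 0 := CharTwo.add_self_eq_zero 1
  obtain ⟨x, hx⟩ := h.exists_up (a := 0) (b := 1) (by simpa using h2)
  obtain ⟨w, hw⟩ := h.surj (J3 F) (by
    ext i j; fin_cases i <;> fin_cases j <;> simp [J3, mul_apply, Fin.sum_univ_three])
    (by simp [J3, det_fin_three, CharTwo.neg_eq])
  have x2 : x * x = 1 := h.inj (by rw [map_mul, hx, up_mul, map_one, ← up_zero]; simp [h2])
  have w2 : w * w = 1 := h.inj (by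
    rw [map_mul, hw, map_one]; ext i j; fin_cases i <;> fin_cases j <;> simp [J3, mul_apply, Fin.sum_univ_three])
  have y3 : (x * w) ^ 3 = 1 := h.inj (by
    rw [map_pow, map_mul, hx, hw, map_one, pow_three]
    ext i j; fin_cases i <;> fin_cases j <;> simp [J3, up, mul_apply, Fin.sum_univ_three, h2])
  have e : x * (x * w) * x⁻¹ = (x * w)⁻¹ := by
    rw [← mul_assoc, x2, one_mul, _root_.mul_inv_rev, inv_eq_of_mul_eq_one_right w2]
  set π := QuotientGroup.mk' (center (SU 3 F (2 ^ n)))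
  refine involves_dihedral_of_inverts (x := π x) (y := π (x * w)) (k := 1) (l := 1) (by norm_num)
    (by rw [← map_pow, pow_one, pow_two, x2, map_one]) (by rw [← map_pow, pow_one, y3, map_one]) (fun f => ?_)
    (by rw [← map_inv, ← map_mul, ← map_mul, e, map_inv])
  have h3 := congrArg (fun g => ψ g 0 0) (mem_center_iff.1 ((QuotientGroup.eq_one_iff _).1 f) x)
  simp [hx, hw, J3, up, mul_apply, vecMul, dotProduct, Fin.sum_univ_three] at h3

end U3

theorem j1_abs {G : Type*} [Group G] [Finite G] {t u s y g : G} (t2 : t * t = 1) (u2 : u * u = 1) (s2 : s * s = 1)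
    (r0 : y * y * y = 1) (r1 : u * y * u * y * u * y = 1) (r2 : s * y * s * y = 1) (r3 : s * u * s * u * s * u = 1)
    (r4 : t * u * t * u = 1) (r5 : t * y⁻¹ * t * y = 1) (r8 : g * t * g⁻¹ * u = 1)
    (r9 : g * u * g⁻¹ * y * u * y⁻¹ = 1) (r10 : g * y * u * y⁻¹ * g⁻¹ * t * u = 1) (r11 : y * g * y⁻¹ * g⁻¹ * g⁻¹ = 1)
    (hne : ¬ (t = 1 ∧ u = 1 ∧ s = 1 ∧ y = 1 ∧ g = 1)) (hc : ¬ 2 ^ 4 ∣ Nat.card G) :
    ¬ Involves (Equiv.Perm (Fin 4)) G ∧ Involves (DihedralGroup 3) G := by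
  haveI : Fact (Nat.Prime 3) := ⟨Nat.prime_three⟩
  have ti := inv_eq_of_mul_eq_one_right t2
  have ui := inv_eq_of_mul_eq_one_right u2
  have si := inv_eq_of_mul_eq_one_right s2
  have tu : t * u = u * t := by
    rwa [mul_assoc, mul_eq_one_iff_eq_inv, _root_.mul_inv_rev, ti, ui] at r4
  have ty : y * t * y⁻¹ = t := by
    rw [mul_assoc, mul_eq_one_iff_eq_inv, _root_.mul_inv_rev, ti] at r5
    rw [mul_assoc, r5, mul_inv_cancel_left]
  set w := y * u * y⁻¹ with hw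
  have w2 : w * w = 1 := by rw [hw, conj_mul, u2]; simp
  have wi := inv_eq_of_mul_eq_one_right w2
  have g1 : g * t * g⁻¹ = u := by rw [← ui]; exact eq_inv_of_mul_eq_one_left r8
  have g2 : g * u * g⁻¹ = w := by rw [← wi]; exact eq_inv_of_mul_eq_one_left (by simpa only [hw, mul_assoc] using r9)
  have g3 : g * w * g⁻¹ = t * u := by
    rw [← inv_eq_of_mul_eq_one_right (show t * u * (t * u) = 1 by simpa only [mul_assoc] using r4)]
    exact eq_inv_of_mul_eq_one_left (by simpa only [hw, mul_assoc] using r10)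
  have uw : u * w = w * u := by rw [← g2]; nth_rw 1 [← g1]; nth_rw 3 [← g1]; rw [conj_mul, conj_mul, tu]
  have tw : t * w = w * t := by rw [hw]; nth_rw 1 [← ty]; nth_rw 2 [← ty]; rw [conj_mul, conj_mul, tu]
  have t1 : t ≠ 1 := fun e => hne (by
    have u1 : u = 1 := by simpa [e] using g1.symm
    have s1 : s = 1 := by simpa [u1, s2] using r3
    have y1 : y = 1 := by
      simp only [s1, one_mul, mul_one] at r2
      simpa [r2] using r0
    exact ⟨e, u1, s1, y1, by simpa [y1] using r11⟩)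
  have u1 : u ≠ 1 := by simpa [← g1] using t1
  have w1 : w ≠ 1 := by simpa [← g2] using u1
  have tw' : t ≠ w := fun e => t1 (by rw [← e, g1] at g3; simpa using g3)
  have tu' : t ≠ u := fun e => tw' (by rw [← g2, ← e, g1, e])
  have uw' : u ≠ w := fun e => tu' (by rw [← g2] at e; nth_rw 1 [← g1] at e; simpa using e)
  have tuw : t ≠ u * w := fun e => tw' (by
    have := g1
    rw [e, ← conj_mul, g2, g3, ← mul_assoc, mul_eq_right, mul_eq_one_iff_inv_eq, wi] at this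
    exact this.symm)
  have n1 : u ∈ Nm(zpowers w) := centralizer_le_normalizer _ (by
    rintro _ ⟨k, rfl⟩; exact (Commute.zpow_left uw.symm k))
  have m1 : ∀ x, x ∈ zpowers u ⊔ zpowers w ↔ x = 1 ∨ x = w ∨ x = u ∨ x = u * w := fun x => by
    rw [mem_inv_sup u2 n1, mem_zpowers_inv w2, mem_zpowers_inv w2, or_assoc, mul_eq_one_iff_inv_eq, ui,
      eq_comm (a := u), ← eq_inv_mul_iff_mul_eq, ui]
  have c1 : ∀ x ∈ zpowers u ⊔ zpowers w, x * t = t * x ∧ x * x = 1 := fun x hx => by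
    rcases (m1 x).1 hx with rfl | rfl | rfl | rfl
    · simp
    · exact ⟨tw.symm, w2⟩
    · exact ⟨tu.symm, u2⟩
    · exact ⟨by rw [mul_assoc, ← tw, ← mul_assoc, ← tu, mul_assoc],
        by rw [mul_assoc, ← mul_assoc w, ← uw, mul_assoc, w2, mul_one, u2]⟩
  have n2 : t ∈ Nm(zpowers u ⊔ zpowers w) := centralizer_le_normalizer _ fun x hx => (c1 x hx).1
  have c2 : ∀ x ∈ zpowers t ⊔ (zpowers u ⊔ zpowers w), x * x = 1 := fun x hx => by
    rcases (mem_inv_sup t2 n2).1 hx with e | e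
    · exact (c1 x e).2
    · have := c1 _ e
      have h1 : t * x = x * t := by
        have h2 := this.1
        rwa [mul_assoc, mul_right_inj, eq_comm] at h2
      have h2 := this.2
      rwa [mul_assoc, ← mul_assoc x, ← h1, ← mul_assoc, ← mul_assoc, t2, one_mul] at h2
  have c3 : Nat.card (zpowers t ⊔ (zpowers u ⊔ zpowers w) : Subgroup G) = 2 ^ 3 := by
    rw [card_inv_sup t2 n2 (by simp [m1, t1, tw', tu', tuw]), card_inv_sup u2 n1 (by
      simp [mem_zpowers_inv w2, u1, uw']), Nat.card_zpowers, orderOf_inv2 w2 w1]; rfl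
  refine ⟨not_S4_of_sylow (S := zpowers t ⊔ (zpowers u ⊔ zpowers w)) (sylIn_top_iff.2 ⟨isPGroup_two_of_sq c2,
    fun e => hc ?_⟩) (comm_iff.2 fun a ha b hb => ?_), involves_dihedral_of_inverts (x := s) (y := y) (k := 1) (l := 1)
      (by norm_num) (by simpa [pow_two] using s2) (by simpa [pow_three'] using r0) (fun y1 => t1 ?_)
      (by rw [si]; exact eq_inv_of_mul_eq_one_left r2)⟩
  · rw [← (zpowers t ⊔ (zpowers u ⊔ zpowers w)).card_mul_index, c3, pow_succ]
    exact mul_dvd_mul_left _ e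
  · rw [← inv_eq_of_mul_eq_one_right (c2 _ (mul_mem ha hb)), _root_.mul_inv_rev, inv_eq_of_mul_eq_one_right (c2 _ ha),
      inv_eq_of_mul_eq_one_right (c2 _ hb)]
  · have g0 : g = 1 := by simpa [y1] using r11
    simp only [g0, hw, y1, one_mul, inv_one, mul_one] at g3
    simpa using g3

open CfH6 in
theorem j1_facts {G : Type*} [Group G] [Finite G] (h : Spor.IsoJ1 G) :
    ¬ Involves (Equiv.Perm (Fin 4)) G ∧ Involves (DihedralGroup 3) G := by
  obtain ⟨e⟩ := h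
  obtain ⟨e'⟩ := J1P.isoJ1
  have := J1P.fin
  have := J1P.simple
  rw [Involves.equiv (e.trans e'.symm), Involves.equiv (e.trans e'.symm)]
  have i0 : J1B.el 0 = (J1B.el 0)⁻¹ := J1B.hinv 0 (by decide)
  have i1 : J1B.el 1 = (J1B.el 1)⁻¹ := J1B.hinv 1 (by decide)
  have i2 : J1B.el 2 = (J1B.el 2)⁻¹ := J1B.hinv 2 (by decide)
  have i3 : J1B.el 4 = (J1B.el 3)⁻¹ := J1B.hinv 3 (by decide)
  have i5 : J1B.el 6 = (J1B.el 5)⁻¹ := J1B.hinv 5 (by decide)
  have h := J1B.hrel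
  simp only [J1B.rels, List.forall_mem_cons, evw_cons, evw_nil, mul_one, ← mul_assoc, i3, i5] at h
  obtain ⟨r0, r1, r2, r3, r4, r5, -, -, r8, r9, r10, r11, -⟩ := h
  refine j1_abs (mul_eq_one_iff_eq_inv.2 i0) (mul_eq_one_iff_eq_inv.2 i1) (mul_eq_one_iff_eq_inv.2 i2) r0 r1 r2 r3 r4
    r5 r8 r9 r10 r11 (fun ⟨a, b, c, d, f⟩ => (bot_ne_top (α := Subgroup J1P.P)) (eq_top_iff.2 ?_))
    (by rw [J1P.card]; norm_num)
  rw [← J1B.htop]
  refine gensub_le fun x hx => ?_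
  interval_cases x <;> simp only [i3, i5, a, b, c, d, f, inv_one, one_mem]

theorem goldschmidt {G : Type*} [Group G] [Finite G] (hG : IsGoldschmidtGroup G) :
    ¬ Involves (Equiv.Perm (Fin 4)) G ∧ (¬ Involves (Equiv.Perm (Fin 3)) G ↔ IsSuzukiOrPSL2OddPowerThree G) := by
  rw [involves_S3_iff]
  suffices ¬ Involves (Equiv.Perm (Fin 4)) G ∧ (Involves (DihedralGroup 3) G ∨ IsSuzukiOrPSL2OddPowerThree G) from
    ⟨this.1, this.2.resolve_left, by
      rintro (h | ⟨F, _, _, n, hF, ⟨e⟩⟩)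
      · exact sz_D3 h
      · rw [Involves.equiv e]; exact psl_not_D3 hF⟩
  rcases hG with h | ⟨F, _, _, n, hn, hF, ⟨e⟩⟩ | h | ⟨F, _, _, n, hn, hF, ⟨e⟩⟩ | ⟨F, _, _, q, hF, h5, h8, ⟨e⟩⟩ | h
  · exact ⟨ree_S4 h, Or.inl (ree_D3 h)⟩
  · rw [Involves.equiv e, Involves.equiv e]
    exact ⟨psl_S4_even hF, Or.inl (psl_D3 hF (le_trans (by norm_num) (Nat.pow_le_pow_right two_pos hn))
      fun f => absurd (Nat.prime_three.dvd_of_dvd_pow f) (by norm_num))⟩
  · exact ⟨fun f => sz_D3 h (D3_of_S4 f), Or.inr (Or.inl h)⟩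
  · rw [Involves.equiv e, Involves.equiv e]
    have hF' : Fintype.card F = (2 ^ n) ^ 2 := by rw [hF, ← pow_mul, mul_comm, pow_mul]; rfl
    exact ⟨U3.psu_S4 hF', Or.inl (U3.psu_D3 hF')⟩
  · refine ⟨by rw [Involves.equiv e]; exact psl_S4_odd hF h8, ?_⟩
    by_cases h3 : 3 ∣ q
    · obtain ⟨p, hp⟩ := CharP.exists F
      obtain ⟨k, hp', hk⟩ := FiniteField.card F p
      rw [hF] at hk
      obtain rfl : 3 = p := (Nat.prime_dvd_prime_iff_eq Nat.prime_three hp').1
        (Nat.prime_three.dvd_of_dvd_pow (hk ▸ h3))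
      rcases Nat.even_or_odd' (k : ℕ) with ⟨n, hn | hn⟩
      · rw [hk, hn, pow_mul, Nat.pow_mod] at h8
        simp at h8
      · exact Or.inr (Or.inr ⟨F, _, _, n, by rw [hF, hk, hn], ⟨e⟩⟩)
    · rw [Involves.equiv e]
      exact Or.inl (psl_D3 hF (by omega) h3)
  · exact ⟨(j1_facts h).1, Or.inl (j1_facts h).2⟩

end CfH1
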