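import Cfsg.Agent.OD.Pre
import Cfsg.Agent.H1.HNF
import Cfsg.Agent.OD.Helper1x7e0e650168
/-! Classes of involutions of `2.HS.2`; automorphisms of `HS`. -/
set_option autoImplicit false
set_option maxRecDepth 100000
open CfH6 CfL CfH9 MulAction Subgroup
namespace CfH1.HN

noncomputable abbrev bw : B := bu * bt
noncomputable abbrev bk : B := tk.val P.ev

/-- membership in the centre -/
def T2 (g : B) : Prop := g = 1 ∨ g = bt

theorem uu : bu * bu = 1 := P.E (tu * tu) 1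
theorem zz : bz * bz = 1 := P.E (tz * tz) 1
theorem vv : bv * bv = 1 := P.E (tv * tv) 1
theorem t_inn : bt ∈ K0 := I tt
theorem u_inn : bu ∈ K0 := I tu
theorem z_out : bz ∉ K0 := O tz
theorem v_out : bv ∉ K0 := O tv

theorem T2.one : T2 1 := Or.inl rfl
theorem T2.t : T2 bt := Or.inr rfl
theorem T2.comm {g : B} (h : T2 g) (a : B) : g * a = a * g := by
  rcases h with rfl | rfl
  · simp
  · exact t_comm a
theorem T2.sq {g : B} (h : T2 g) : g * g = 1 := by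
  rcases h with rfl | rfl
  · simp
  · exact tt1
theorem T2.mul {g k : B} (h : T2 g) (h' : T2 k) : T2 (g * k) := by
  rcases h with rfl | rfl
  · rwa [one_mul]
  · rcases h' with rfl | rfl
    · rw [mul_one]; exact T2.t
    · exact Or.inl tt1
theorem T2.conj {g : B} (a : B) : T2 (a * g * a⁻¹) ↔ T2 g := by
  refine ⟨fun h => ?_, fun h => by rwa [← h.comm, mul_inv_cancel_right]⟩
  have := h.comm a
  rw [inv_mul_cancel_right, mul_right_inj] at this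
  rwa [this]
theorem T2Y (a : GY) : T2 (ιY a) ↔ a = 1 ∨ a = yt :=
  or_congr (by rw [← map_one ιY]; exact SE.ι_inj.eq_iff) (by rw [← show ιY yt = bt from iyt]; exact SE.ι_inj.eq_iff)

theorem of_et {s s' : Tm} (h : et s s' = true) : T2 ((s'.val P.ev)⁻¹ * s.val P.ev) := by
  rw [et, Bool.or_eq_true] at h
  rcases h with h | h
  · exact Or.inl (by rw [P.of_eq h, inv_mul_cancel])
  · exact Or.inr (by rw [P.of_eq h, Tm.val_mul, inv_mul_cancel_left]; rfl)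

theorem of_nt {s s' : Tm} (h : nt s s' = true) : ¬ T2 ((s'.val P.ev)⁻¹ * s.val P.ev) := by
  rw [nt, Bool.and_eq_true] at h
  rintro (e | e)
  · exact P.of_ne h.1 (inv_mul_eq_one.1 e).symm
  · exact P.of_ne h.2 (inv_mul_eq_iff_eq_mul.1 e)

theorem conj_inn {a b : B} (h : IsConj a b) : a ∈ K0 ↔ b ∈ K0 := by
  obtain ⟨g, rfl⟩ := isConj_iff.1 h
  rw [MonoidHom.mem_ker, MonoidHom.mem_ker, map_mul, map_mul, map_inv, mul_comm (sgn g), mul_inv_cancel_right]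

theorem clsInv {g : B} (h : g * g = 1) :
    g = 1 ∨ g = bt ∨ IsConj bu g ∨ IsConj bw g ∨ IsConj bz g ∨ IsConj bv g := by
  obtain ⟨a, k, e⟩ := toY (g := g) (n := 1) (by rwa [pow_one, sq])
  obtain ⟨r, hr, e1⟩ := F1a a (SE.ι_inj (by rw [map_mul, e, map_one]; simp [mul_assoc, ← mul_assoc g, h]))
  obtain ⟨h1, h2⟩ := F1b r hr
  have h3 : IsConj ((lget std 1 r.2.1).val P.ev) g := by
    have := P.of_eq h2
    rw [tm_val, ← e1, map_mul, map_mul, e, map_inv, Tm.val_mul, Tm.val_mul, Tm.val_inv] at this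
    refine isConj_iff.2 ⟨k⁻¹ * ιY (cj a) * (bW r.2.2)⁻¹, ?_⟩
    calc _ = k⁻¹ * ιY (cj a) * ((bW r.2.2)⁻¹ * (lget std 1 r.2.1).val P.ev * bW r.2.2) * (ιY (cj a))⁻¹ * k := by group
      _ = g := by rw [← this]; group
  generalize r.2.1 = n at h1 h3
  interval_cases n
  · exact Or.inl (isConj_one_right.1 h3)
  · obtain ⟨c, rfl⟩ := isConj_iff.1 h3
    exact Or.inr (Or.inl (by change c * bt * c⁻¹ = _; rw [← t_comm, mul_inv_cancel_right]))
  · exact Or.inr (Or.inr (Or.inl h3))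
  · exact Or.inr (Or.inr (Or.inr (Or.inl h3)))
  · exact Or.inr (Or.inr (Or.inr (Or.inr (Or.inl h3))))
  · exact Or.inr (Or.inr (Or.inr (Or.inr (Or.inr h3))))

theorem sq_t {g : B} (h : g * g = bt) : g ∈ K0 := by
  obtain ⟨a, k, e⟩ := toY (g := g) (n := 2) (by rw [show 2 ^ 2 = 2 * 2 from rfl, pow_mul, sq g, h, sq, tt1])
  have := of_inn (F2 a (SE.ι_inj (by
    rw [map_mul, e, iyt]; change _ = bt; rw [conj_mul, h, ← t_comm, mul_inv_cancel_right])))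
  rw [tm_val, e] at this
  exact (conj_inn (isConj_iff.2 ⟨k, rfl⟩)).2 this

theorem pow4 {g : B} (hg : g ∈ K0) : g * g * (g * g) ≠ bt := fun h => by
  obtain ⟨a, k, e⟩ := toY (g := g) (n := 3) (by
    rw [show 2 ^ 3 = 2 * 2 * 2 from rfl, pow_mul, pow_mul, sq g, sq (g * g), h, sq, tt1])
  have := of_out (F3 a (SE.ι_inj (by
    rw [map_mul, map_mul, e, iyt]; change _ = bt; rw [conj_mul, conj_mul, h, ← t_comm, mul_inv_cancel_right])))
  rw [tm_val, e] at this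
  exact this ((conj_inn (isConj_iff.2 ⟨k, rfl⟩)).1 hg)

theorem u_ne_w : ¬ IsConj bu bw := fun h => by
  have := ncard_fix_conj (X := P.r.Pt) h
  rw [show {i : P.r.Pt | bu • i = i}.ncard = 128 from P.fixc tu 128 (by decide +kernel),
    show {i : P.r.Pt | bw • i = i}.ncard = 0 from P.fixc (tu * tt) 0 (by decide +kernel)] at this
  omega

theorem inY' {k : B} (h : T2 (k * bu * k⁻¹ * bu⁻¹)) : ∃ a : GY, ιY a = k := by
  rcases h with h | h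
  · exact inY (by rwa [mul_inv_eq_one, mul_inv_eq_iff_eq_mul] at h)
  · exact absurd (isConj_iff.2 ⟨k, by rw [mul_inv_eq_iff_eq_mul.1 h, t_comm]⟩) u_ne_w

theorem mE {K : Subgroup B} (s s' : Tm) (h : s'.val P.ev ∈ K) (e : P.eq s s' = true := by decide +kernel) :
    s.val P.ev ∈ K := P.of_eq e ▸ h

theorem nT (s : Tm) (e : nt s 1 = true := by decide +kernel) : ¬ T2 (s.val P.ev) := fun h =>
  of_nt e (by rwa [Tm.val_one, inv_one, one_mul])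

theorem K0_le {K : Subgroup B} (h1 : bx ∈ K) (h2 : by' ∈ K) (h3 : bz * by' * bz ∈ K) : K0 ≤ K := by
  let L : Subgroup B := closure {bx, by', bz * by' * bz}
  have hL : L ≤ K ⊓ K0 := (closure_le _).2 (by
    rintro _ (rfl | rfl | rfl)
    exacts [⟨h1, sgn_x⟩, ⟨h2, sgn_y⟩, ⟨h3, I (tz * ty * tz)⟩])
  have m1 : bx ∈ L := subset_closure (by simp)
  have m2 : by' ∈ L := subset_closure (by simp)
  have hz : ∀ g ∈ L, bz * g * bz⁻¹ ∈ L := fun g hg => (show L ≤ L.comap (MulAut.conj bz).toMonoidHom from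
    (closure_le _).2 (by
      rintro _ (rfl | rfl | rfl)
      · exact mE (tz * tx * tz⁻¹) tx⁻¹ (L.inv_mem m1)
      · exact mE (tz * ty * tz⁻¹) (tz * ty * tz) (subset_closure (by simp) : bz * by' * bz ∈ L)
      · exact mE (tz * (tz * ty * tz) * tz⁻¹) ty m2)) hg
  have zi : bz⁻¹ = bz := inv_eq_of_mul_eq_one_right zz
  let A : Subgroup B := subOf (fun g => g ∈ L ∨ g * bz ∈ L) (Or.inl L.one_mem) (by
    rintro a b (ha | ha) (hb | hb)
    · exact Or.inl (L.mul_mem ha hb)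
    · exact Or.inr (by rw [mul_assoc]; exact L.mul_mem ha hb)
    · exact Or.inr (by have := L.mul_mem ha (hz b hb); rwa [← mul_assoc, ← mul_assoc, mul_assoc a, zz, mul_one, zi] at this)
    · exact Or.inl (by
        have := L.mul_mem ha (hz _ hb)
        rwa [← mul_assoc, ← mul_assoc, mul_assoc a, zz, mul_one, ← mul_assoc, mul_inv_cancel_right] at this))
  have : A = ⊤ := top_of (Or.inl m1) (Or.inl m2) (Or.inr (by rw [zz]; exact L.one_mem))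
  intro k hk
  rcases (this ▸ mem_top k : k ∈ A) with h | h
  · exact (hL h).1
  · exact absurd ((K0.mul_mem_cancel_left hk).1 (hL h).2) z_out

theorem K0_le' {K : Subgroup B} (h1 : bf ∈ K) (h2 : bj ∈ K) (h3 : bk ∈ K) (h4 : bt ∈ K) : K0 ≤ K := by
  have h : ∀ s ∈ [tf, tf⁻¹, tj, tk, tt], s.val P.ev ∈ K := by
    simp only [List.forall_mem_cons]
    exact ⟨h1, K.inv_mem h1, h2, h3, h4, by simp⟩
  exact K0_le (mE tx _ (Tm.sub_mem h [0, 0, 2, 0, 3, 1, 2, 3, 1, 2, 1, 2, 3, 1, 3, 1]))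
    (mE ty _ (Tm.sub_mem h [1, 3, 1, 2, 0, 2, 1, 3, 0, 2, 3, 0, 3, 0, 0, 2, 1, 3, 4]))
    (mE (tz * ty * tz) _ (Tm.sub_mem h [3, 0, 2, 3, 1, 3, 0, 0, 2, 0, 2, 1, 2, 3, 0, 2, 3, 0]))

theorem centK {b : B} (h : ∀ k ∈ K0, T2 (b * k * b⁻¹ * k⁻¹)) : T2 b := by
  obtain ⟨a, rfl⟩ := inY' (h _ u_inn)
  have key : ∀ c : GY, ιY c ∈ K0 → a * c = c * a ∨ a * c = c * a * yt := fun c hc => by
    have := h _ hc
    rw [← map_inv, ← map_inv, ← map_mul, ← map_mul, ← map_mul, T2Y] at this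
    rcases this with e | e
    · exact Or.inl (by rwa [mul_inv_eq_one, mul_inv_eq_iff_eq_mul] at e)
    · refine Or.inr (SE.ι_inj ?_)
      rw [mul_inv_eq_iff_eq_mul, mul_inv_eq_iff_eq_mul] at e
      rw [e, map_mul, map_mul, map_mul, map_mul, iyt, mul_assoc]
      exact t_comm _
  rcases F8 a (key yf (iyf ▸ I tf)) (key yj (iyj ▸ I tj)) with e | e
  · refine absurd ?_ (of_nt e)
    have := (T2.conj (bk * ιY a)⁻¹).2 (h bk (I tk))
    change T2 ((bk * ιY a)⁻¹ * (ιY a * bk))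
    convert this using 1
    group
  · exact (T2Y a).2 e

/-- the graph of an automorphism of the quotient by the centre -/
structure AutR (Γ : Subgroup (B × B)) : Prop where
  ex : ∀ k ∈ K0, ∃ k', (k, k') ∈ Γ
  inn : ∀ p ∈ Γ, p.2 ∈ K0
  ker : ∀ p ∈ Γ, T2 p.1 ↔ T2 p.2
  ct : (1, bt) ∈ Γ

def cjR (Γ : Subgroup (B × B)) (b : B) : Subgroup (B × B) :=
  Γ.comap ((MonoidHom.id B).prodMap (MulAut.conj b).toMonoidHom)

theorem mem_cjR {Γ : Subgroup (B × B)} {b k k' : B} : (k, k') ∈ cjR Γ b ↔ (k, b * k' * b⁻¹) ∈ Γ := Iff.rfl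

namespace AutR
variable {Γ : Subgroup (B × B)} (h : AutR Γ)
include h

theorem conj (b : B) : AutR (cjR Γ b) :=
  ⟨fun k hk => let ⟨k', e⟩ := h.ex k hk; ⟨b⁻¹ * k' * b, mem_cjR.2 (by simpa [mul_assoc] using e)⟩,
    fun p hp => (conj_inn (isConj_iff.2 ⟨b, rfl⟩)).2 (h.inn _ (mem_cjR.1 hp)),
    fun p hp => (h.ker _ (mem_cjR.1 hp)).trans (T2.conj b),
    mem_cjR.2 (by rw [← t_comm, mul_inv_cancel_right]; exact h.ct)⟩

theorem adj {k k' c : B} (e : (k, k') ∈ Γ) (hc : T2 c) : (k, k' * c) ∈ Γ := by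
  rcases hc with rfl | rfl
  · rwa [mul_one]
  · simpa using Γ.mul_mem e h.ct

theorem adj' {k k' c : B} (e : (k, k') ∈ Γ) (hc : T2 (c⁻¹ * k')) : (k, c) ∈ Γ := by
  have := h.adj e hc
  rwa [← mul_inv_cancel_left c k', mul_assoc, inv_mul_cancel_left, hc.sq, mul_one] at this

theorem t1 : (bt, bt) ∈ Γ := by
  obtain ⟨k, e⟩ := h.ex _ t_inn
  exact h.adj' e (by
    rw [inv_eq_of_mul_eq_one_right tt1]; exact T2.t.mul ((h.ker _ e).1 T2.t))

theorem usq {c g a : B} (hc : c ∈ K0) (e1 : c * c = g * bt) (g2 : g * g = 1) (e : (g, a) ∈ Γ) : a * a = 1 := by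
  obtain ⟨k, hk⟩ := h.ex c hc
  have h2 : (g * bt, k * k) ∈ Γ := e1 ▸ Γ.mul_mem hk hk
  have h4 : k * k * (k * k) = 1 := ((h.ker _ (Γ.mul_mem h2 h2)).1 (Or.inl (by
    change g * bt * (g * bt) = 1
    rw [mul_assoc, ← mul_assoc bt, t_comm, mul_assoc, tt1, mul_one, g2]))).resolve_right (pow4 (h.inn _ hk))
  have h5 : T2 ((k * k)⁻¹ * a) := (h.ker _ (Γ.mul_mem (Γ.inv_mem h2) e)).1 (Or.inr (by
    change (g * bt)⁻¹ * g = bt
    rw [mul_inv_rev, inv_mul_cancel_right, inv_eq_of_mul_eq_one_right tt1]))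
  rw [← mul_inv_cancel_left (k * k) a, mul_assoc, ← mul_assoc _ (k * k), h5.comm, mul_assoc (k * k), h5.sq,
    mul_one, h4]

theorem com {a a' b b' : B} (e : (a, a') ∈ Γ) (e' : (b, b') ∈ Γ) (hc : a * b = b * a) : T2 (a' * b' * a'⁻¹ * b'⁻¹) :=
  (h.ker _ (Γ.mul_mem (Γ.mul_mem (Γ.mul_mem e e') (Γ.inv_mem e)) (Γ.inv_mem e'))).1 (Or.inl (by
    change a * b * a⁻¹ * b⁻¹ = 1
    rw [hc]; group))

theorem s1 : ∃ b, (bu, bu) ∈ cjR Γ b := by
  obtain ⟨a, e⟩ := h.ex _ u_inn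
  have a2 := h.usq (c := ιY yc1) (of_inn F5a.2.2.1) (by rw [← map_mul, F5a.2.1, iyw]; rfl) uu e
  have h1 : ¬ T2 a := fun c => absurd ((h.ker _ e).2 c) (nT tu)
  rcases clsInv a2 with c | c | c | c | c | c
  · exact absurd (Or.inl c) h1
  · exact absurd (Or.inr c) h1
  · obtain ⟨b, rfl⟩ := isConj_iff.1 c
    exact ⟨b, e⟩
  · obtain ⟨b, rfl⟩ := isConj_iff.1 c
    exact ⟨b, (h.conj b).adj' (k' := bw) e (by rw [inv_mul_cancel_left]; exact T2.t)⟩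
  · exact absurd ((conj_inn c).2 (h.inn _ e)) z_out
  · exact absurd ((conj_inn c).2 (h.inn _ e)) v_out

theorem s2 (e1 : (bu, bu) ∈ Γ) : ∃ b, (bu, bu) ∈ cjR Γ b ∧ (bf, bf) ∈ cjR Γ b := by
  obtain ⟨k, e⟩ := h.ex _ (I tf)
  have e6 : (bf, k ^ 6) ∈ Γ := by
    have := Γ.pow_mem e 6
    rwa [Prod.pow_mk, show (tf.val P.ev) ^ 6 = bf from (Tm.val_pow _ _ _).symm.trans (P.E (tf ^ 6) tf)] at this
  have k5 : T2 (k ^ 5) := (h.ker _ (Γ.pow_mem e 5)).1 (Or.inl ((Tm.val_pow _ _ _).symm.trans (P.E (tf ^ 5) 1)))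
  obtain ⟨a, ha⟩ := inY' (h.com e6 e1 (P.E (tf * tu) (tu * tf)))
  rcases F4 a (SE.ι_inj (by
    simp only [map_mul, ha, map_one]
    calc _ = (k ^ 5 * k ^ 5) ^ 3 := by group
      _ = 1 := by rw [k5.sq, one_pow])) with c | c
  · exact absurd ((h.ker _ e6).2 (Or.inl (by rw [← ha, c, map_one]))) (nT tf)
  · refine ⟨ιY (cj a), mem_cjR.2 ?_, mem_cjR.2 ?_⟩
    · rwa [mem_Cx'.1 (rangeY.le ⟨cj a, rfl⟩)]
    · rwa [show ιY (cj a) * bf * (ιY (cj a))⁻¹ = k ^ 6 by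
        rw [← show ιY yf = bf from iyf, ← c, map_mul, map_mul, map_inv, ha]; group]

theorem s3 (e1 : (bu, bu) ∈ Γ) (e2 : (bf, bf) ∈ Γ) :
    ∃ b, (bu, bu) ∈ cjR Γ b ∧ (bf, bf) ∈ cjR Γ b ∧ (bj, bj) ∈ cjR Γ b := by
  obtain ⟨k, e⟩ := h.ex _ (I tj)
  have k2 := h.usq (I (tn⁻¹ * mY yc1 * tn)) (P.E (tn⁻¹ * mY yc1 * tn * (tn⁻¹ * mY yc1 * tn)) (tj * tt))
    (P.E (tj * tj) 1) e
  obtain ⟨a, rfl⟩ := inY' (h.com e e1 (P.E (tj * tu) (tu * tj)))
  have e2' : (ιY yf, ιY yf) ∈ Γ := iyf ▸ e2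
  have e' : (ιY yj, ιY a) ∈ Γ := iyj ▸ e
  let D : Subgroup (GY × GY) := Γ.comap (ιY.prodMap ιY)
  have d1 : (yf, yf) ∈ D := e2'
  have d2 : (yj, a) ∈ D := by simpa only [D, mem_comap, MonoidHom.coe_prodMap, Prod.map] using e'
  have d3 : ∀ p ∈ D, (p6 p.1 = 1 ∨ p6 p.1 = yt) ↔ (p6 p.2 = 1 ∨ p6 p.2 = yt) := fun p hp => by
    rw [← T2Y, ← T2Y]
    exact h.ker _ (D.mul_mem (D.mul_mem (D.mul_mem hp hp) hp) (D.mul_mem (D.mul_mem hp hp) hp))
  rcases F6 a (SE.ι_inj (by rw [map_mul, k2, map_one])) ((d3 _ (D.mul_mem d1 d2)).1 F6a.1)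
    (fun c => F6a.2 ((d3 _ (D.mul_mem (D.mul_mem (D.mul_mem (D.mul_mem d1 d2) d1) d1) d2)).2 c)) with c | ⟨c1, c2⟩
  · exact absurd (h.inn _ e) (of_out c)
  · refine ⟨ιY (cj2 a), mem_cjR.2 ?_, mem_cjR.2 ?_, ?_⟩
    · rwa [mem_Cx'.1 (rangeY.le ⟨cj2 a, rfl⟩)]
    · rwa [← show ιY yf = bf from iyf, ← map_mul, c1, map_mul, mul_inv_cancel_right]
    · refine (h.conj _).adj' (k' := ιY ((cj2 a)⁻¹ * a * cj2 a)) (mem_cjR.2 (by
        rw [map_mul, map_mul, map_inv, ← mul_assoc, ← mul_assoc, mul_inv_cancel, one_mul, mul_inv_cancel_right]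
        exact e)) ?_
      rw [← show ιY yj = bj from iyj, ← map_inv, ← map_mul, T2Y]
      rcases c2 with c | c <;> rw [c] <;> simp

theorem s4 (e2 : (bf, bf) ∈ Γ) (e3 : (bj, bj) ∈ Γ) :
    ∃ b, (bf, bf) ∈ cjR Γ b ∧ (bj, bj) ∈ cjR Γ b ∧ (bk, bk) ∈ cjR Γ b := by
  obtain ⟨k, e⟩ := h.ex _ (I tk)
  obtain ⟨a, ha⟩ := inY' (k := bn * k * bn⁻¹) (by
    have := (T2.conj bn).2 (h.com e e3 (P.E (tk * tj) (tj * tk)))
    rw [show bj = bn⁻¹ * bu * bn from P.E tj (tn⁻¹ * tu * tn)] at this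
    convert this using 1
    group)
  have hk : (tn⁻¹ * mY a * tn).val P.ev = k := by
    change bn⁻¹ * ιY a * bn = k
    rw [ha]; group
  have r5 : ∀ s : Tm, (s.val P.ev, s.val P.ev) ∈ Γ → et ((s * tk) ^ 5) 1 = true →
      nt ((s * (tn⁻¹ * mY a * tn)) ^ 5) 1 ≠ true := fun s hs h1 h2 => of_nt h2 (by
    have := of_et h1
    rw [Tm.val_one, inv_one, one_mul, Tm.val_pow, Tm.val_mul] at this ⊢
    rw [hk]
    exact (h.ker _ (Γ.pow_mem (Γ.mul_mem hs e) 5)).1 this)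
  rcases F7 a (by
    rw [← T2Y, map_mul, ha, conj_mul, T2.conj]
    exact (h.ker _ (Γ.mul_mem e e)).1 (Or.inl (P.E (tk * tk) 1))) with c | c | c | c
  · exact absurd c (r5 tf e2 (by decide +kernel))
  · exact absurd c (r5 (tf * tj) (Γ.mul_mem e2 e3) (by decide +kernel))
  · have := of_et c
    rw [hk] at this
    exact ⟨1, mem_cjR.2 (by simpa using e2), mem_cjR.2 (by simpa using e3), mem_cjR.2 (by simpa using h.adj' e this)⟩
  · have := of_et c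
    rw [Tm.val_mul, Tm.val_mul, hk] at this
    refine ⟨bu⁻¹, mem_cjR.2 ?_, mem_cjR.2 ?_, (h.conj _).adj' (mem_cjR.2 ?_) this⟩
    · rwa [show bu⁻¹ * bf * bu⁻¹⁻¹ = bf from P.E (tu⁻¹ * tf * tu⁻¹⁻¹) tf]
    · rwa [show bu⁻¹ * bj * bu⁻¹⁻¹ = bj from P.E (tu⁻¹ * tj * tu⁻¹⁻¹) tj]
    · change (bk, bu⁻¹ * (bu * k * bu⁻¹) * bu⁻¹⁻¹) ∈ Γ
      simpa [mul_assoc] using e

theorem inner : ∃ b, ∀ k ∈ K0, (k, b * k * b⁻¹) ∈ Γ := by
  obtain ⟨b1, e1⟩ := h.s1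
  obtain ⟨b2, e1, e2⟩ := (h.conj b1).s2 e1
  obtain ⟨b3, e1, e2, e3⟩ := ((h.conj b1).conj b2).s3 e1 e2
  obtain ⟨b4, e2, e3, e4⟩ := (((h.conj b1).conj b2).conj b3).s4 e2 e3
  have h5 := ((((h.conj b1).conj b2).conj b3).conj b4).t1
  have h6 : ∀ {k k' : B}, (k, k') ∈ cjR (cjR (cjR (cjR Γ b1) b2) b3) b4 →
      (k, b1 * b2 * b3 * b4 * k' * (b1 * b2 * b3 * b4)⁻¹) ∈ Γ := fun {k k'} hk => by
    have := mem_cjR.1 (mem_cjR.1 (mem_cjR.1 (mem_cjR.1 hk)))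
    simpa [mul_assoc] using this
  generalize cjR (cjR (cjR (cjR Γ b1) b2) b3) b4 = Δ at e2 e3 e4 h5 h6
  exact ⟨_, fun k hk => h6 (K0_le' (K := Δ.comap ((MonoidHom.id B).prod (MonoidHom.id B))) (mem_comap.2 e2)
    (mem_comap.2 e3) (mem_comap.2 e4) (mem_comap.2 h5) hk)⟩
end AutR
end CfH1.HN
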