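import Cfsg.Agent.OD.Pre
import Cfsg.Agent.H1.PA
/-! Central extensions by a group of order two. -/
set_option autoImplicit false
open CfH6 CfL CfH9 MulAction Subgroup
namespace CfH1

section
variable {Γ : Type*} [Group Γ]

theorem odd_comm {c a b : Γ} (hc : ∀ g, c * g = g * c) (c2 : c * c = 1)
    (h : a * b * a⁻¹ * b⁻¹ = 1 ∨ a * b * a⁻¹ * b⁻¹ = c) {n : ℕ} (hn : Odd n) (hb : a * b ^ n = b ^ n * a) :
    a * b = b * a := by
  rcases h with h | h
  · rwa [mul_inv_eq_one, mul_inv_eq_iff_eq_mul] at h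
  · rw [mul_inv_eq_iff_eq_mul] at h
    have h1 : c ^ n * b ^ n = b ^ n := by
      rw [← (show Commute c b from hc b).mul_pow, ← h, conj_pow, hb, mul_inv_cancel_right]
    obtain ⟨k, rfl⟩ := hn
    rw [mul_eq_right, pow_succ, pow_mul, sq, c2, one_pow, one_mul] at h1
    rwa [h1, one_mul, mul_inv_eq_iff_eq_mul] at h

theorem not_mem_comm [Finite Γ] {c : Γ} (hc : ∀ g, c * g = g * c) (c2 : c * c = 1) {L S : Subgroup Γ}
    (hS : S ≤ L) (hcS : c ∈ S) (ho : Odd (S.relIndex L)) (h : c ∉ ⁅S, S⁆) : c ∉ ⁅L, L⁆ := fun hL => by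
  let S' := S.subgroupOf L
  let φ : S' →* Abelianization S' := Abelianization.of
  have h1 : MonoidHom.transfer φ ⟨c, hS hcS⟩ = 1 := by
    refine Abelianization.commutator_subset_ker _ ?_
    rw [← map_subtype_commutator] at hL
    obtain ⟨a, ha, e⟩ := hL
    rwa [show a = ⟨c, hS hcS⟩ from Subtype.ext e] at ha
  rw [MonoidHom.transfer_eq_pow φ _ fun k g _ => Subtype.ext (by
    change (g : Γ)⁻¹ * c ^ k * g = c ^ k
    rw [mul_assoc, ((show Commute c g from hc g).pow_left k).eq, inv_mul_cancel_left])] at h1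
  obtain ⟨k, hk⟩ := ho
  have h2 := (QuotientGroup.eq_one_iff _).1 h1
  have h3 := mem_map_of_mem (L.subtype.comp S'.subtype) h2
  rw [← map_map, map_subtype_commutator, map_commutator, subgroupOf_map_subtype, inf_eq_left.2 hS] at h3
  refine h ?_
  convert h3 using 1
  change c = c ^ S'.index
  rw [show S'.index = 2 * k + 1 from hk, pow_succ, pow_mul, sq, c2, one_pow, one_mul]

theorem comm_le_of {S D : Subgroup Γ} {s : Set Γ} (hS : S = closure s) (h1 : ∀ a ∈ s, ∀ d ∈ D, a * d * a⁻¹ ∈ D)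
    [Finite Γ] (h2 : ∀ a ∈ s, ∀ b ∈ s, a * b * a⁻¹ * b⁻¹ ∈ D) : ⁅S, S⁆ ≤ D := by
  subst hS
  have n : closure s ≤ subOf (fun a => ∀ d ∈ D, a * d * a⁻¹ ∈ D)
    (by simp) (fun a b ha hb d hd => by simpa [mul_assoc] using ha _ (hb d hd)) := (closure_le _).2 h1
  have k : ∀ t : Set Γ, (∀ a ∈ s, ∀ b ∈ t, a * b * a⁻¹ * b⁻¹ ∈ D) → ∀ a ∈ closure s, ∀ b ∈ t,
      a * b * a⁻¹ * b⁻¹ ∈ D := fun t hs a ha => by
    have : closure s ≤ subOf (fun a => a ∈ closure s ∧ ∀ b ∈ t, a * b * a⁻¹ * b⁻¹ ∈ D)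
      ⟨one_mem _, by simp [D.one_mem]⟩ (fun a a' ha ha' => ⟨mul_mem ha.1 ha'.1, fun b hb => by
        have := D.mul_mem (n ha.1 _ (ha'.2 b hb)) (ha.2 b hb)
        convert this using 1
        group⟩) := (closure_le _).2 fun a ha => (⟨subset_closure ha, hs a ha⟩ : _ ∧ _)
    exact (this ha).2
  refine commutator_le.2 fun a ha b hb => ?_
  refine k (closure s) (fun a ha b hb => ?_) a ha b hb
  have := D.inv_mem (k s h2 b hb a ha)
  convert this using 1
  group

theorem sd_comm [Finite Γ] {c a b : Γ} (hc : ∀ g, c * g = g * c) (c2 : c * c = 1) (c1 : c ≠ 1)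
    (h1 : b * a * b⁻¹ = a ^ 3 ∨ b * a * b⁻¹ = a ^ 3 * c) (h2 : b * b * a = a * (b * b)) (h3 : a ^ 2 ≠ c ∧ a ^ 4 ≠ c ∧ a ^ 6 ≠ c)
    (h4 : a ^ 2 ≠ 1 ∧ a ^ 6 ≠ 1) : c ∉ ⁅closure {a, b, c}, closure {a, b, c}⁆ := fun h => by
  obtain ⟨e, he, e2, h1, e1⟩ : ∃ e, (∀ g, e * g = g * e) ∧ e * e = 1 ∧ b * a * b⁻¹ = a ^ 3 * e ∧ (e = 1 ∨ e = c) :=
    h1.elim (fun h => ⟨1, by simp, by simp, by simpa using h, Or.inl rfl⟩) fun h => ⟨c, hc, c2, h, Or.inr rfl⟩
  have ce : ∀ g, Commute g e := fun g => (he g).symm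
  have be : b * e * b⁻¹ = e := by rw [← he, mul_inv_cancel_right]
  have a8 : a ^ 8 = 1 := by
    have : a = a ^ 9 := by
      calc a = b * (b * a * b⁻¹) * b⁻¹ := by rw [← mul_assoc, ← mul_assoc, h2]; group
        _ = (b * a * b⁻¹) ^ 3 * (b * e * b⁻¹) := by rw [conj_pow, h1]; group
        _ = a ^ 9 := by
          rw [be, h1, (ce _).mul_pow, ← pow_mul, mul_assoc, ← pow_succ, show 3 + 1 = 2 * 2 from rfl, pow_mul e, sq e, e2,
            one_pow, mul_one]
    rwa [pow_succ, right_eq_mul] at this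
  have d3 : (a ^ 2 * e) ^ 3 = a ^ 6 * e := by rw [(ce _).mul_pow, ← pow_mul, pow_succ e, sq e, e2, one_mul]
  have d2 : (a ^ 2 * e) ^ 2 = a ^ 4 := by rw [(ce _).mul_pow, ← pow_mul, sq e, e2, mul_one]
  have ba : b * a * b⁻¹ * a⁻¹ = a ^ 2 * e := by rw [h1, mul_assoc, he, ← mul_assoc]; group
  have cc : ∀ g, c * g * c⁻¹ = g := fun g => by rw [hc, mul_inv_cancel_right]
  have cg : ∀ g, g * c * g⁻¹ * c⁻¹ = 1 := fun g => by rw [← hc]; group
  have := comm_le_of (D := zpowers (a ^ 2 * e)) (s := {a, b, c}) rfl (by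
    rintro x (rfl | rfl | rfl) _ ⟨k, rfl⟩
    · refine ⟨k, ?_⟩
      change _ = x * (x ^ 2 * e) ^ k * x⁻¹
      rw [(((Commute.refl x).pow_right 2).mul_right (ce x)).zpow_right k |>.eq, mul_inv_cancel_right]
    · change x * (a ^ 2 * e) ^ k * x⁻¹ ∈ _
      rw [← conj_zpow]
      refine zpow_mem ?_ k
      rw [show x * (a ^ 2 * e) * x⁻¹ = (x * a * x⁻¹) ^ 2 * (x * e * x⁻¹) by rw [conj_pow]; group, be, h1,
        (ce _).mul_pow, sq e, e2, mul_one, ← pow_mul, ← d3]
      exact pow_mem (mem_zpowers _) 3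
    · rw [cc]; exact ⟨k, rfl⟩) (by
    rintro x (rfl | rfl | rfl) y (rfl | rfl | rfl)
    · simp [one_mem]
    · have := inv_mem (mem_zpowers (x ^ 2 * e))
      convert this using 1
      rw [← ba]; group
    · rw [cg]; exact one_mem _
    · rw [ba]; exact mem_zpowers _
    · simp [one_mem]
    · rw [cg]; exact one_mem _
    · rw [cc, mul_inv_cancel]; exact one_mem _
    · rw [cc, mul_inv_cancel]; exact one_mem _
    · rw [cc, mul_inv_cancel]; exact one_mem _) h
  have d4 : (a ^ 2 * e) ^ 4 = 1 := by rw [show 4 = 2 * 2 from rfl, pow_mul, d2, ← pow_mul, a8]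
  obtain ⟨k, hk⟩ := (mem_powers_iff_mem_zpowers.2 this : c ∈ Submonoid.powers _)
  change (a ^ 2 * e) ^ k = c at hk
  rw [pow_eq_pow_mod k d4] at hk
  have : k % 4 < 4 := Nat.mod_lt _ (by decide)
  generalize k % 4 = j at hk this
  interval_cases j
  · exact c1 (by rw [← hk, pow_zero])
  · rw [pow_one] at hk
    rcases e1 with rfl | rfl
    · exact h3.1 (by rwa [mul_one] at hk)
    · exact h4.1 (mul_eq_right.1 hk)
  · exact h3.2.1 (d2 ▸ hk)
  · rw [d3] at hk
    rcases e1 with rfl | rfl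
    · exact h3.2.2 (by rwa [mul_one] at hk)
    · exact h4.2 (mul_eq_right.1 hk)

/-- data for twisting the multiplication -/
structure TwD (Γ : Type*) [Group Γ] where
  s : Γ →* ℤˣ
  e : Γ
  hc : ∀ g, e * g = g * e
  e2 : e * e = 1
  se : s e = 1

def Tw (_ : TwD Γ) : Type _ := Γ

namespace TwD
variable (D : TwD Γ)

noncomputable def co (a b : Γ) : Γ := if D.s a = -1 ∧ D.s b = -1 then D.e else 1

theorem s_co (a b : Γ) : D.s (D.co a b) = 1 := by
  unfold co; split_ifs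
  exacts [D.se, map_one _]

theorem co_c (a b g : Γ) : D.co a b * g = g * D.co a b := by
  unfold co; split_ifs
  exacts [D.hc g, by simp]

theorem co_co (a b : Γ) : D.co a b * D.co a b = 1 := by
  unfold co; split_ifs
  exacts [D.e2, by simp]

theorem co_l (g a b c : Γ) : D.co (g * D.co a b) c = D.co g c := by rw [co, co.eq_def D g, map_mul, s_co, mul_one]
theorem co_r (g a b c : Γ) : D.co c (g * D.co a b) = D.co c g := by rw [co, co.eq_def D c g, map_mul, s_co, mul_one]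

def up (a : Γ) : Tw D := a
def dn (a : Tw D) : Γ := a

noncomputable instance : Mul (Tw D) := ⟨fun a b => D.up (D.dn a * D.dn b * D.co (D.dn a) (D.dn b))⟩
instance : One (Tw D) := ⟨D.up 1⟩
noncomputable instance : Inv (Tw D) := ⟨fun a => D.up ((D.dn a)⁻¹ * D.co (D.dn a) (D.dn a))⟩

theorem dn_mul (a b : Tw D) : D.dn (a * b) = D.dn a * D.dn b * D.co (D.dn a) (D.dn b) := rfl

noncomputable instance : Group (Tw D) := Group.ofLeftAxioms
  (fun a b c => by
    change D.dn (a * b * c) = D.dn (a * (b * c))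
    simp only [dn_mul]
    generalize D.dn a = a, D.dn b = b, D.dn c = c
    have : D.co a b * D.co (a * b * D.co a b) c = D.co b c * D.co a (b * c * D.co b c) := by
      rw [D.co_l, D.co_r]
      simp only [co, map_mul]
      rcases Int.units_eq_one_or (D.s a) with h1 | h1 <;> rcases Int.units_eq_one_or (D.s b) with h2 | h2 <;>
        rcases Int.units_eq_one_or (D.s c) with h3 | h3 <;> simp [h1, h2, h3, D.se]
    rw [mul_assoc (a * b), D.co_c a b c, ← mul_assoc, mul_assoc _ (D.co a b), this]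
    simp only [mul_assoc])
  (fun a => by change 1 * D.dn a * D.co 1 (D.dn a) = D.dn a; simp [co])
  (fun a => by
    change (D.dn a)⁻¹ * D.co _ _ * D.dn a * D.co ((D.dn a)⁻¹ * D.co (D.dn a) (D.dn a)) (D.dn a) = 1
    generalize D.dn a = a
    have : D.co (a⁻¹ * D.co a a) a = D.co a a := by
      rw [D.co_l]
      simp only [co, map_inv, Int.units_inv_eq_self]
    rw [this, mul_assoc a⁻¹, D.co_c, ← mul_assoc, inv_mul_cancel, one_mul, D.co_co])

/-- parity of the outer letters and of their pairs -/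
def par (o : ℕ → Bool) : List ℕ → Bool × Bool
  | [] => (false, false)
  | x :: w => (xor (o x) (par o w).1, xor (o x && (par o w).1) (par o w).2)

theorem evw_tw (ev : ℕ → Γ) (o : ℕ → Bool) (h : ∀ x, D.s (ev x) = if o x then -1 else 1) (w : List ℕ) :
    D.s (evw ev w) = (if (par o w).1 then -1 else 1) ∧
    D.dn (evw (fun x => D.up (ev x)) w) = evw ev w * if (par o w).2 then D.e else 1 := by
  induction w with
  | nil => exact ⟨by simp [par], by simp [par]; rfl⟩
  | cons x w ih =>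
    rw [evw_cons, evw_cons, dn_mul, ih.2, map_mul, ih.1, h]
    change _ ∧ ev x * _ * D.co (ev x) _ = _
    simp only [co, map_mul, ih.1, h, par]
    rcases Bool.eq_false_or_eq_true (o x) with h1 | h1 <;> rcases Bool.eq_false_or_eq_true (par o w).1 with h2 | h2 <;>
      rcases Bool.eq_false_or_eq_true (par o w).2 with h3 | h3 <;> simp [h1, h2, h3, D.se, mul_assoc, D.e2]
end TwD
end
end CfH1
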