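import Cfsg.Agent.OD.Pre
import Cfsg.Agent.H1.HN2
import Cfsg.Agent.H1.HNe
import Cfsg.Agent.OD.Helper1x036a7a1796
import Cfsg.Agent.OD.Helper1xdde84cf39a
/-! Central extensions of `2.HS.2` by a group of order two. -/
set_option autoImplicit false
set_option maxRecDepth 100000
open CfH6 CfL CfH9 MulAction Subgroup
namespace CfH1.HN

noncomputable def us : List Tm := [ty, ty⁻¹, tx⁻¹ * ty * tx, (tx⁻¹ * ty * tx)⁻¹]
noncomputable def UU : Subgroup B := closure {by', bx⁻¹ * by' * bx}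
theorem us_mem (w : List ℕ) : (Tm.sub us w).val P.ev ∈ UU := by
  have h1 : by' ∈ UU := subset_closure (by simp)
  have h2 : bx⁻¹ * by' * bx ∈ UU := subset_closure (by simp)
  refine Tm.sub_mem ?_ w
  simp only [us, List.forall_mem_cons]
  exact ⟨h1, inv_mem h1, h2, inv_mem h2, by simp⟩

theorem stab0 (s : Tm) (h : (s.ok P.T.nc && Nat.beq (s.app P.T true 0) 0) = true := by decide +kernel) :
    s.val P.ev ∈ stabilizer B (P.r.pt 0) := by
  rw [Bool.and_eq_true] at h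
  exact Subtype.ext ((P.app_eq s h.1 (P.r.pt 0)).2.symm.trans (Nat.eq_of_beq_eq_true h.2))

theorem UU_le : UU ≤ stabilizer B (P.r.pt 0) := (closure_le _).2 (by
  rintro _ (rfl | rfl)
  exacts [stab0 ty, stab0 (tx⁻¹ * ty * tx)])

noncomputable abbrev ta8 : Tm := Tm.sub us [0, 0, 0, 2, 0, 3]
noncomputable abbrev tb8 : Tm := Tm.sub us [1, 3, 1, 2, 1, 3, 1, 2]

theorem EP (s : Tm) (n : ℕ) (s' : Tm) (h : P.eq (s ^ n) s' = true := by decide +kernel) :
    s.val P.ev ^ n = s'.val P.ev := (Tm.val_pow _ _ _).symm.trans (P.of_eq h)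
theorem NP (s : Tm) (n : ℕ) (s' : Tm) (h : P.ne (s ^ n) s' = true := by decide +kernel) :
    s.val P.ev ^ n ≠ s'.val P.ev := fun e => P.of_ne h ((Tm.val_pow _ _ _).trans e)

theorem sd_dvd {T : Subgroup B} (h : T = closure {ta8.val P.ev, tb8.val P.ev, 1}) : 16 ∣ Nat.card T := by
  have o8 : orderOf (ta8.val P.ev) = 2 ^ 3 := orderOf_eq_prime_pow (NP ta8 4 1) (EP ta8 8 1)
  have ma : ta8.val P.ev ∈ T := h ▸ subset_closure (by simp)
  have mb : tb8.val P.ev ∈ T := h ▸ subset_closure (by simp)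
  have hn : T ≤ normalizer (zpowers (ta8.val P.ev) : Set B) := h ▸ (closure_le _).2 (by
    rintro _ (rfl | rfl | rfl)
    · exact le_normalizer (mem_zpowers _)
    · refine mem_normalizer_fintype ?_
      rintro _ ⟨k, rfl⟩
      change _ * (ta8.val P.ev) ^ k * _ ∈ zpowers _
      rw [← conj_zpow, show tb8.val P.ev * ta8.val P.ev * (tb8.val P.ev)⁻¹ = ta8.val P.ev ^ 3 from
        (EP ta8 3 (tb8 * ta8 * tb8⁻¹)).symm]
      exact zpow_mem (pow_mem (mem_zpowers _) 3) k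
    · exact one_mem _)
  have hle : zpowers (ta8.val P.ev) ≤ T := (zpowers_le).2 ma
  have := (normal_subgroupOf_iff_le_normalizer hle).2 hn
  have h2 : orderOf (QuotientGroup.mk ⟨_, mb⟩ : T ⧸ (zpowers (ta8.val P.ev)).subgroupOf T) = 2 := by
    refine orderOf_eq_prime ?_ fun e => ?_
    · rw [← QuotientGroup.mk_pow, show (⟨_, mb⟩ : T) ^ 2 = 1 from Subtype.ext (EP tb8 2 1)]; rfl
    · obtain ⟨k, hk⟩ := mem_subgroupOf.1 ((QuotientGroup.eq_one_iff _).1 e)
      refine absurd ?_ (P.N (tb8 * ta8) (ta8 * tb8))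
      change tb8.val P.ev * ta8.val P.ev = ta8.val P.ev * tb8.val P.ev
      rw [← show ta8.val P.ev ^ k = tb8.val P.ev from hk]
      exact (Commute.self_zpow _ k).symm
  have h3 := orderOf_dvd_natCard (QuotientGroup.mk ⟨_, mb⟩ : T ⧸ (zpowers (ta8.val P.ev)).subgroupOf T)
  rw [h2] at h3
  rw [card_eq_card_quotient_mul_card_subgroup ((zpowers (ta8.val P.ev)).subgroupOf T),
    Nat.card_congr (subgroupOfEquivOfLe hle).toEquiv, Nat.card_zpowers, o8]
  exact mul_dvd_mul_right h3 8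

theorem evw_cen {Γ : Type*} [Group Γ] {c : Γ} (hc : ∀ g, c * g = g * c) (c2 : c * c = 1) (ev : ℕ → Γ) (o : ℕ → Bool)
    (w : List ℕ) : evw (fun x => ev x * if o x then c else 1) w = evw ev w * if (TwD.par o w).1 then c else 1 := by
  induction w with
  | nil => simp [TwD.par]
  | cons x w ih =>
    rw [evw_cons, evw_cons, ih, TwD.par]
    rcases Bool.eq_false_or_eq_true (o x) with h1 | h1 <;> rcases Bool.eq_false_or_eq_true (TwD.par o w).1 with h2 | h2 <;>
      simp [h1, h2, mul_assoc, hc, c2]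

structure CE {Γ : Type*} [Group Γ] (π : Γ →* B) (c : Γ) : Prop where
  sur : Function.Surjective π
  pc : π c = 1
  c1 : c ≠ 1
  ker : ∀ g, π g = 1 → g = 1 ∨ g = c
  cen : ∀ g, T2 (π g) → g * g = 1 ∧ ∀ k, g * k = k * g

namespace CE
variable {Γ : Type*} [Group Γ] {π : Γ →* B} {c : Γ} (h : CE π c)
include h

theorem hc (g : Γ) : c * g = g * c := (h.cen c (Or.inl h.pc)).2 g
theorem c2 : c * c = 1 := (h.cen c (Or.inl h.pc)).1

theorem card_comap [Finite Γ] (T : Subgroup B) : Nat.card (T.comap π) = 2 * Nat.card T := by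
  have h1 : π.ker = zpowers c := le_antisymm (fun g hg => (h.ker g hg).elim (fun e => e ▸ one_mem _)
    fun e => e ▸ mem_zpowers _) (zpowers_le.2 h.pc)
  have h2 := π.ker.card_mul_index
  rw [index_ker, h1, Nat.card_zpowers, orderOf_eq_prime (by rw [sq, h.c2]) h.c1, MonoidHom.range_eq_top.2 h.sur,
    card_top] at h2
  have h3 := (T.comap π).card_mul_index
  rw [index_comap_of_surjective _ h.sur, ← h2, ← T.card_mul_index, ← mul_assoc] at h3
  exact Nat.eq_of_mul_eq_mul_right (Nat.pos_of_ne_zero index_ne_zero_of_finite) h3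

theorem nc [Finite Γ] : c ∉ ⁅UU.comap π, UU.comap π⁆ := by
  obtain ⟨a, ha⟩ := h.sur (ta8.val P.ev)
  obtain ⟨b, hb⟩ := h.sur (tb8.val P.ev)
  have hS : closure {a, b, c} ≤ UU.comap π := (closure_le _).2 (by
    rintro _ (rfl | rfl | rfl)
    exacts [mem_comap.2 (ha ▸ us_mem _), mem_comap.2 (hb ▸ us_mem _), mem_comap.2 (h.pc ▸ one_mem _)])
  have hcS : c ∈ closure {a, b, c} := subset_closure (by simp)
  have n1 : ∀ n : ℕ, P.ne (ta8 ^ n) 1 = true → a ^ n ≠ c ∧ a ^ n ≠ 1 := fun n hn =>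
    ⟨fun e => NP _ _ _ hn (by rw [← ha, ← map_pow, e, h.pc]; rfl),
      fun e => NP _ _ _ hn (by rw [← ha, ← map_pow, e, map_one]; rfl)⟩
  refine not_mem_comm h.hc h.c2 hS hcS ?_ (sd_comm h.hc h.c2 h.c1 ?_ ?_
    ⟨(n1 2 (by decide +kernel)).1, (n1 4 (by decide +kernel)).1, (n1 6 (by decide +kernel)).1⟩
    ⟨(n1 2 (by decide +kernel)).2, (n1 6 (by decide +kernel)).2⟩)
  · have h1 := sd_dvd (T := (closure {a, b, c}).map π) (by
      rw [MonoidHom.map_closure, Set.image_insert_eq, Set.image_insert_eq, Set.image_singleton, ha, hb, h.pc])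
    have h2 := h.card_comap ((closure {a, b, c}).map π)
    rw [comap_map_eq_self fun g hg => (h.ker g hg).elim (fun e => e ▸ one_mem _) fun e => e ▸ hcS] at h2
    have h3 := card_dvd_of_le UU_le
    rw [card_stab] at h3
    have h4 := ((closure {a, b, c}).subgroupOf (UU.comap π)).card_mul_index
    rw [Nat.card_congr (subgroupOfEquivOfLe hS).toEquiv, h.card_comap, h2, mul_assoc] at h4
    rw [← Nat.eq_of_mul_eq_mul_left (by decide) h4] at h3
    have h5 : 16 * _ ∣ 16 * 7875 := (mul_dvd_mul_right h1 _).trans h3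
    exact Odd.of_dvd_nat (by decide) (Nat.dvd_of_mul_dvd_mul_left (by decide) h5)
  · have := h.ker ((a ^ 3)⁻¹ * (b * a * b⁻¹)) (by
      rw [map_mul, map_mul, map_mul, map_inv, map_inv, map_pow, ha, hb, EP ta8 3 (tb8 * ta8 * tb8⁻¹)]
      exact inv_mul_cancel _)
    exact this.imp (fun e => (inv_mul_eq_one.1 e).symm) fun e => inv_mul_eq_iff_eq_mul.1 e
  · exact (h.cen (b * b) (Or.inl (by rw [map_mul, hb]; exact P.E (tb8 * tb8) 1))).2 a

/-- the letters -/
def lt (x y z : Γ) (i : ℕ) : Γ := [x, x⁻¹, y, y⁻¹, z].getD i 1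

omit h in
theorem pi_lt {x y z : Γ} (hx : π x = bx) (hy : π y = by') (hz : π z = bz) : ∀ r ∈ HSB.rels, π (evw (lt x y z) r) = 1 :=
  fun r hr => (hom_evw (nc := 5) (ev := HSB.el) (fun i hi => by
    interval_cases i
    exacts [hx.trans ex, (map_inv _ _).trans (hx ▸ eX), hy.trans ey, (map_inv _ _).trans (hy ▸ eY), hz.trans ez]) r
    (allLt_all (by decide : HSB.rels.all (allLt 5) = true) r hr)).trans (HSB.hrel r hr)

theorem rels8 [Finite Γ] : ∃ y, π y = by' ∧ ∀ x z, π x = bx → π z = bz → ∀ i < 8,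
    evw (lt x y z) (HSB.rels.getD i []) = if 6 ≤ i then z * z else 1 := by
  obtain ⟨p, hp⟩ := h.sur ((Tm.sub us [3, 0, 2, 2, 0, 2, 1, 3, 1]).val P.ev)
  obtain ⟨q, hq⟩ := h.sur ((Tm.sub us [0, 3, 3]).val P.ev)
  have hy : π (p * q * p⁻¹ * q⁻¹) = by' := by
    rw [map_mul, map_mul, map_mul, map_inv, map_inv, hp, hq]
    exact P.E (Tm.sub us [3, 0, 2, 2, 0, 2, 1, 3, 1] * Tm.sub us [0, 3, 3] * (Tm.sub us [3, 0, 2, 2, 0, 2, 1, 3, 1])⁻¹ *
      (Tm.sub us [0, 3, 3])⁻¹) ty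
  refine ⟨_, hy, fun x z hx hz => ?_⟩
  have m1 : p * q * p⁻¹ * q⁻¹ ∈ ⁅UU.comap π, UU.comap π⁆ :=
    commutator_mem_commutator (mem_comap.2 (hp ▸ us_mem _)) (mem_comap.2 (hq ▸ us_mem _))
  have m2 : x⁻¹ * (p * q * p⁻¹ * q⁻¹) * x ∈ ⁅UU.comap π, UU.comap π⁆ := by
    have := commutator_mem_commutator (H₁ := UU.comap π) (H₂ := UU.comap π) (g₁ := x⁻¹ * p * x) (g₂ := x⁻¹ * q * x)
      (mem_comap.2 (by
        rw [map_mul, map_mul, map_inv, hp, hx]
        exact mE (tx⁻¹ * Tm.sub us [3, 0, 2, 2, 0, 2, 1, 3, 1] * tx) _ (us_mem [1, 2, 0, 0, 2, 0, 3, 1, 3])))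
      (mem_comap.2 (by
        rw [map_mul, map_mul, map_inv, hq, hx]
        exact mE (tx⁻¹ * Tm.sub us [0, 3, 3] * tx) _ (us_mem [2, 1, 1])))
    convert this using 1
    rw [commutatorElement_def]; group
  generalize p * q * p⁻¹ * q⁻¹ = y at hy m1 m2
  have hr := pi_lt hx hy hz
  have key : ∀ r ∈ HSB.rels, evw (lt x y z) r ∈ ⁅UU.comap π, UU.comap π⁆ → evw (lt x y z) r = 1 := fun r h1 h2 =>
    (h.ker _ (hr r h1)).resolve_right fun e => h.nc (e ▸ h2)
  obtain ⟨τ2, τc⟩ := h.cen (x * x) (Or.inr (by rw [map_mul, hx, xx]))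
  have p4 : ∀ g, (x * x * g) ^ 4 = g ^ 4 := fun g => by
    rw [(show Commute (x * x) g from τc g).mul_pow, show 4 = 2 * 2 from rfl, pow_mul (x * x), sq (x * x), τ2, one_pow,
      one_mul]
  obtain ⟨ε2, εc⟩ := h.cen (z * z) (Or.inl (by rw [map_mul, hz, zz]))
  have r7 : z * x * (z * x) = z * z := by
    obtain ⟨k, hk⟩ := h.sur (bW 64395741499357061553669140)
    obtain ⟨d2, dc⟩ := h.cen ((k⁻¹ * z * k)⁻¹ * (x * z)) (Or.inl (by
      rw [map_mul, map_inv, map_mul, map_mul, map_mul, map_inv, hx, hz, hk, inv_mul_eq_one]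
      exact P.E ((tW 64395741499357061553669140)⁻¹ * tz * tW 64395741499357061553669140) (tx * tz)))
    have : x * z * (x * z) = z * z := by
      rw [← mul_inv_cancel_left (k⁻¹ * z * k) (x * z), mul_assoc, ← mul_assoc _ (k⁻¹ * z * k), dc, mul_assoc (k⁻¹ * z * k),
        d2, mul_one]
      calc _ = k⁻¹ * (z * z * k) := by group
        _ = _ := by rw [εc, inv_mul_cancel_left]
    calc _ = z * (x * z * (x * z)) * z⁻¹ := by group
      _ = _ := by rw [this]; group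
  intro i hi
  interval_cases i
  · refine key _ (by decide) ?_
    convert pow_mem m1 6 using 1
    simp [HSB.rels, lt, pow_succ, mul_assoc]
  · calc _ = x * x * y * (x * x) * y⁻¹ := by simp [HSB.rels, lt, mul_assoc]
      _ = 1 := by rw [τc, mul_assoc y, τ2, mul_one, mul_inv_cancel]
  · refine key _ (by decide) ?_
    convert pow_mem (mul_mem (inv_mem m2) m1) 3 using 1
    simp [HSB.rels, lt, pow_succ, mul_assoc]
  · refine key _ (by decide) ?_
    convert pow_mem (mul_mem (pow_mem m2 2) (pow_mem m1 3)) 3 using 1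
    simp [HSB.rels, lt, pow_succ, mul_assoc]
  · refine key _ (by decide) ?_
    convert pow_mem (mul_mem m2 m1) 4 using 1
    rw [← p4]
    simp [HSB.rels, lt, pow_succ, mul_assoc]
  · refine key _ (by decide) ?_
    convert pow_mem (mul_mem m2 (pow_mem m1 3)) 4 using 1
    rw [← p4]
    simp [HSB.rels, lt, pow_succ, mul_assoc]
  · simpa [HSB.rels, lt, mul_assoc] using r7
  · have hg : π (x⁻¹ * (y * x * y * x * y * y * x * y⁻¹)) = (tx⁻¹ * (ty * tx * ty * tx * ty * ty * tx * ty⁻¹)).val P.ev := by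
      simp only [map_mul, map_inv, hx, hy]; rfl
    generalize hk : x⁻¹ * (y * x * y * x * y * y * x * y⁻¹) = k at hg
    have zk : z * k = k * z := odd_comm h.hc h.c2 (h.ker _ (by
      rw [map_mul, map_mul, map_mul, map_inv, map_inv, hg, hz]
      exact P.E (tz * (tx⁻¹ * (ty * tx * ty * tx * ty * ty * tx * ty⁻¹)) * tz⁻¹ *
        (tx⁻¹ * (ty * tx * ty * tx * ty * ty * tx * ty⁻¹))⁻¹) 1)) (n := 7) (by decide)
      ((h.cen _ (Or.inr (by rw [map_pow, hg]; exact EP _ 7 tt))).2 z).symm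
    have xi : (x * x)⁻¹ = x * x := inv_eq_of_mul_eq_one_right τ2
    calc _ = z * k⁻¹ * (x * x)⁻¹ * (x * z * x) * k * (x * x)⁻¹ := by rw [← hk]; simp [HSB.rels, lt, mul_assoc]
      _ = k⁻¹ * (z * x * (z * x)) * k := by
        rw [xi, ← τc, ← mul_assoc, ← mul_assoc, ← τc (z * k⁻¹), ← mul_assoc (x * x) (x * x), τ2, one_mul,
          show z * k⁻¹ = k⁻¹ * z by rw [eq_inv_mul_iff_mul_eq, ← mul_assoc, ← zk, mul_inv_cancel_right]]
        group
      _ = z * z := by rw [r7, mul_assoc, εc, inv_mul_cancel_left]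

theorem lift [Finite Γ] : ∃ ε, (ε = 1 ∨ ε = c) ∧ ∃ Ψ : B → Γ, (∀ b, π (Ψ b) = b) ∧
    ∀ a b, Ψ (a * b) = Ψ a * Ψ b * if sgn a = -1 ∧ sgn b = -1 then ε else 1 := by
  obtain ⟨y, hy, h8⟩ := h.rels8
  obtain ⟨z, hz⟩ := h.sur bz
  have e1 : π (z * z) = 1 := by rw [map_mul, hz, zz]
  obtain ⟨ε2, εc⟩ := h.cen (z * z) (Or.inl e1)
  obtain ⟨x, hx, h9⟩ : ∃ x, π x = bx ∧ evw (lt x y z) (HSB.rels.getD 8 []) = 1 := by
    obtain ⟨x, hx⟩ := h.sur bx
    rcases h.ker _ (pi_lt hx hy hz (HSB.rels.getD 8 []) (by decide)) with a | a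
    · exact ⟨x, hx, a⟩
    refine ⟨x * c, by rw [map_mul, hx, h.pc, mul_one], ?_⟩
    rw [evw_congr (k := 5) (ev' := fun i => lt x y z i * if Nat.blt i 2 then c else 1) (fun i hi => by
      interval_cases i <;> simp [lt, Nat.blt, inv_eq_of_mul_eq_one_right h.c2, h.hc]) (by decide),
      evw_cen h.hc h.c2, if_pos (by decide), a, h.c2]
  let D : TwD Γ := ⟨sgn.comp π, z * z, εc, ε2, by simp [e1]⟩
  have hs : ∀ i, D.s (lt x y z i) = if Nat.beq i 4 then -1 else 1 := fun i => by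
    change sgn (π _) = _
    rcases i with _ | _ | _ | _ | _ | i <;> simp [lt, hx, hy, hz, sgn_x, sgn_y, sgn_z]
  obtain ⟨Ψ, hΨ⟩ := HSB.hhom (fun i => D.up (lt x y z i)) (fun i hi => by
    change lt x y z _ = (lt x y z i)⁻¹ * D.co (lt x y z i) (lt x y z i)
    rw [TwD.co, hs]
    interval_cases i <;> simp [lt, HSB.il, D]) (fun r hr => by
    obtain ⟨i, hi, rfl⟩ := List.getElem_of_mem hr
    refine (D.evw_tw _ _ hs _).2.trans ?_
    change _ = (1 : Γ)
    rw [← List.getD_eq_getElem _ [] hi]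
    have hi : i < 9 := hi
    by_cases h6 : i < 8
    · rw [h8 x z hx hz i h6]
      by_cases h7 : 6 ≤ i
      · rw [if_pos h7, if_pos (by interval_cases i <;> decide)]; exact ε2
      · rw [if_neg h7, if_neg (by interval_cases i <;> first | decide | omega), mul_one]
    · rw [show i = 8 by omega, h9, if_neg (by decide), mul_one])
  have pc : ∀ a b, π (D.co a b) = 1 := fun a b => by
    unfold TwD.co; split_ifs
    exacts [e1, map_one _]
  let π' : Tw D →* B := MonoidHom.mk' (fun a => π (D.dn a)) fun a b => by rw [D.dn_mul, map_mul, pc, mul_one, map_mul]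
  have id1 : π'.comp Ψ = MonoidHom.id B := by
    refine MonoidHom.eq_of_eqOn_dense HSB.htop ?_
    rintro _ ⟨i, hi, rfl⟩
    change π (D.dn (Ψ _)) = HSB.el i
    rw [hΨ i hi]
    have hi : i < 5 := hi
    interval_cases i
    exacts [hx.trans ex, (map_inv _ _).trans (hx ▸ eX), hy.trans ey, (map_inv _ _).trans (hy ▸ eY), hz.trans ez]
  have id2 : ∀ b, π (D.dn (Ψ b)) = b := fun b => DFunLike.congr_fun id1 b
  refine ⟨z * z, h.ker _ e1, fun b => D.dn (Ψ b), id2, fun a b => ?_⟩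
  simp only [map_mul, D.dn_mul, TwD.co, D, MonoidHom.comp_apply]
  rw [id2, id2]
end CE
end CfH1.HN
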