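import Cfsg.Agent.OD.Pre
import Cfsg.Agent.H1.HN3
import Cfsg.Agent.H6.LeHS
/-! The centraliser of the involution is `2.HS.2` up to a twist. -/
set_option autoImplicit false
set_option maxRecDepth 100000
open Cfsg CfH6 CfL CfH9 MulAction Subgroup
namespace CfH1.HN

theorem val_sub {G : Type*} [Group G] (ev : ℕ → G) (ts : List Tm) (w : List ℕ) :
    (Tm.sub ts w).val ev = evw (fun i => (lget ts 1 i).val ev) w := by
  induction w with
  | nil => rfl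
  | cons x w ih => rw [evw_cons, ← ih]; rfl

theorem mem_zt {g : B} : g ∈ zpowers bt ↔ T2 g := by
  refine ⟨fun h => ?_, fun h => h.elim (fun e => e ▸ one_mem _) fun e => e ▸ mem_zpowers _⟩
  exact (zpowers_le (H := subOf T2 T2.one fun _ _ => T2.mul)).2 T2.t h

instance : (zpowers bt).Normal := ⟨fun a ha g => mem_zt.2 ((T2.conj g).2 (mem_zt.1 ha))⟩

noncomputable def hs : List Tm := [tW 95851013788308549957, tW 58962273199156441905, tW 819, tW 4977378170194039635,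
  tW 57876694716174648401, tW 5228640923146871575495763]

theorem hsK : ∃ η : HiB.G →* B ⧸ zpowers bt, Function.Injective η ∧
    ∀ k, k ∈ K0 ↔ (k : B ⧸ zpowers bt) ∈ η.range := by
  have key : ∀ r, et (Tm.sub hs r) 1 = true →
      evw (fun i => (((lget hs 1 i).val P.ev : B) : B ⧸ zpowers bt)) r = 1 := fun r h => by
    have := of_et h
    rw [Tm.val_one, inv_one, one_mul, val_sub, ← mem_zt, ← QuotientGroup.eq_one_iff] at this
    rw [← this]
    exact (map_evw (QuotientGroup.mk' _) _ r).symm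
  obtain ⟨η, hη⟩ := HiB.hhom (fun i => (((lget hs 1 i).val P.ev : B) : B ⧸ zpowers bt)) (fun i hi => by
    have := key [i, i] ((by decide +kernel : ∀ i < 6, et (Tm.sub hs [i, i]) 1 = true) i hi)
    rw [evw_cons, evw_cons, evw_nil, mul_one] at this
    rw [show HiB.il.getD i 0 = i from (by decide : ∀ i < 6, HiB.il.getD i 0 = i) i hi]
    exact eq_inv_of_mul_eq_one_left this)
    (fun r hr => key r ((by decide +kernel : ∀ r ∈ HiB.rels, et (Tm.sub hs r) 1 = true) r hr))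
  have := HiG.simple
  have hi : Function.Injective η := (MonoidHom.ker_eq_bot_iff η).1 ((η.normal_ker.eq_bot_or_eq_top).resolve_right fun e => by
    have : η (HiB.el 2) = 1 := (e ▸ mem_top _ : _ ∈ η.ker)
    rw [hη 2 (by decide), QuotientGroup.eq_one_iff, mem_zt] at this
    exact nT (tW 819) (by decide +kernel) this)
  have hle : η.range.comap (QuotientGroup.mk' _) ≤ K0 := by
    have : η.range ≤ K0.map (QuotientGroup.mk' _) := by
      rw [range_hom hη HiB.htop]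
      exact gensub_le fun i hi => mem_map_of_mem (QuotientGroup.mk' _)
        (of_inn ((by decide +kernel : ∀ i < 6, inn (lget hs 1 i) = true) i hi))
    refine (comap_mono this).trans (comap_map_eq_self ?_).le
    rw [QuotientGroup.ker_mk']
    exact zpowers_le.2 t_inn
  have h1 := card_eq_card_quotient_mul_card_subgroup (zpowers bt)
  rw [cardB, Nat.card_zpowers, orderOf_eq_prime (by rw [sq, tt1]) t_ne] at h1
  have h2 := η.range.card_mul_index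
  rw [← Nat.card_congr (MonoidHom.ofInjective hi).toEquiv, HiG.card] at h2
  have h3 := (η.range.comap (QuotientGroup.mk' _)).card_mul_index
  rw [index_comap_of_surjective _ (QuotientGroup.mk'_surjective _), show η.range.index = 2 by omega, cardB] at h3
  have h4 := eq_of_le_of_card_ge hle (by rw [card_K0]; omega)
  exact ⟨η, hi, fun k => by rw [← h4]; rfl⟩

/-- the twisted identification -/
structure Pin {G : Type*} [Group G] (t : G) (Φ : B → G) (ε : G) : Prop where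
  e : ε = 1 ∨ ε = t
  inj : Function.Injective Φ
  rng : ∀ g, g * t = t * g ↔ ∃ b, Φ b = g
  pt : Φ bt = t
  mul : ∀ a b, Φ (a * b) = Φ a * Φ b * if sgn a = -1 ∧ sgn b = -1 then ε else 1

theorem pin0 {H : Type*} [Group H] [Finite H] (M : Subgroup H) [hn : M.Normal] (hM : M.index = 2) {t : H}
    (tc : ∀ g, t * g = g * t) (t2 : t * t = 1) (t1 : t ≠ 1) (Θ : Subgroup (H × B))
    (ha : ∀ m ∈ M, ∃ k, (m, k) ∈ Θ) (hb : ∀ k ∈ K0, ∃ m, (m, k) ∈ Θ)
    (hc : ∀ p ∈ Θ, p.1 ∈ M ∧ p.2 ∈ K0 ∧ (p.1 = 1 ∨ p.1 = t ↔ T2 p.2)) (hd : (1, bt) ∈ Θ) (he : (t, 1) ∈ Θ)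
    (hout : ∀ h, (∀ m ∈ M, h * m = m * h) → h = 1 ∨ h = t)
    (ns : ∀ L ≤ M, t ∉ L → (∀ m ∈ M, m ∈ L ∨ m * t ∈ L) → False) : ∃ Φ ε, Pin t Φ ε := by
  have cz : ∀ {m : H}, m = 1 ∨ m = t → (∀ g, m * g = g * m) ∧ (m, 1) ∈ Θ := by
    rintro _ (rfl | rfl)
    exacts [⟨by simp, Θ.one_mem⟩, ⟨tc, he⟩]
  let Q : Subgroup (H × B) := subOf (fun p => ∀ q ∈ Θ, p * q * p⁻¹ ∈ Θ) (by simp)
    fun a b ha hb q hq => by simpa [mul_assoc] using ha _ (hb q hq)
  have ΘQ : Θ ≤ Q := fun p hp q hq => Θ.mul_mem (Θ.mul_mem hp hq) (Θ.inv_mem hp)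
  have q1 : ∀ h, ∃ b, (h, b) ∈ Q := fun h => by
    let Γ : Subgroup (B × B) := subOf (fun p => ∃ m, (m, p.1) ∈ Θ ∧ (h * m * h⁻¹, p.2) ∈ Θ)
      ⟨1, Θ.one_mem, by rw [mul_one, mul_inv_cancel]; exact Θ.one_mem⟩ fun a b ⟨m, h1, h2⟩ ⟨m', h3, h4⟩ =>
        ⟨m * m', Θ.mul_mem h1 h3, by simpa [mul_assoc] using Θ.mul_mem h2 h4⟩
    have hΓ : AutR Γ := ⟨fun k hk => by
        obtain ⟨m, hm⟩ := hb k hk
        obtain ⟨k', hk'⟩ := ha _ (hn.conj_mem m (hc _ hm).1 h)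
        exact ⟨k', m, hm, hk'⟩,
      fun p ⟨m, _, h2⟩ => (hc _ h2).2.1,
      fun p ⟨m, h1, h2⟩ => by
        rw [← (hc _ h1).2.2, ← (hc _ h2).2.2]
        refine or_congr (by simp) ⟨fun e => ?_, fun e => ?_⟩
        · change m = t at e
          change h * m * h⁻¹ = t
          rw [e, ← tc, mul_inv_cancel_right]
        · change h * m * h⁻¹ = t at e
          rw [mul_inv_eq_iff_eq_mul, tc] at e
          exact mul_left_cancel e,
      ⟨1, Θ.one_mem, by simpa using hd⟩⟩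
    obtain ⟨b, hb'⟩ := hΓ.inner
    refine ⟨b, fun q hq => ?_⟩
    obtain ⟨m, h1, h2⟩ := hb' _ (hc _ hq).2.1
    obtain ⟨c1, c2⟩ := cz ((hc _ (Θ.mul_mem hq (Θ.inv_mem h1))).2.2.2 (Or.inl (mul_inv_cancel _)))
    convert Θ.mul_mem c2 h2 using 1
    refine Prod.ext ?_ (one_mul _).symm
    change h * q.1 * h⁻¹ = q.1 * m⁻¹ * (h * m * h⁻¹)
    rw [← mul_assoc, ← mul_assoc]
    erw [c1 h]
    change _ = h * (q.1 * m⁻¹) * m * h⁻¹
    group
  have q2 : ∀ h, (h, 1) ∈ Q → h = 1 ∨ h = t := fun h hq => by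
    let D : Subgroup B := subOf (fun k => ∃ m, (m, k) ∈ Θ ∧ h * m = m * h) ⟨1, Θ.one_mem, by simp⟩
      fun a b ⟨m, h1, h2⟩ ⟨m', h3, h4⟩ => ⟨m * m', Θ.mul_mem h1 h3, by rw [← mul_assoc, h2, mul_assoc, h4, mul_assoc]⟩
    have d5 : ∀ s : Tm, (inn s && et (s ^ 5) 1) = true → s.val P.ev ∈ D := fun s hs => by
      rw [Bool.and_eq_true] at hs
      obtain ⟨m, hm⟩ := hb _ (of_inn hs.1)
      have := of_et hs.2
      rw [Tm.val_one, inv_one, one_mul, Tm.val_pow] at this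
      refine ⟨m, hm, odd_comm tc t2 ((hc _ (Θ.mul_mem (hq _ hm) (Θ.inv_mem hm))).2.2.2 (Or.inl (by simp)))
        (n := 5) (by decide) ((cz ((hc _ (Θ.pow_mem hm 5)).2.2.2 this)).1 h).symm⟩
    have f1 : bf ∈ D := d5 tf (by decide +kernel)
    have f2 : bk ∈ D := (D.mul_mem_cancel_left f1).1 (d5 (tf * tk) (by decide +kernel))
    have f3 : bj ∈ D := (D.mul_mem_cancel_left f1).1 ((D.mul_mem_cancel_right f2).1 (d5 (tf * tj * tk) (by decide +kernel)))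
    refine hout h fun m hm => ?_
    obtain ⟨k, hk⟩ := ha m hm
    obtain ⟨m', h1, h2⟩ := K0_le' f1 f3 f2 ⟨1, hd, by simp⟩ (hc _ hk).2.1
    have c1 := (cz ((hc _ (Θ.mul_mem hk (Θ.inv_mem h1))).2.2.2 (Or.inl (mul_inv_cancel _)))).1 h
    change m * m'⁻¹ * h = h * (m * m'⁻¹) at c1
    rw [← inv_mul_cancel_right m m', ← mul_assoc, ← c1, mul_assoc, h2, ← mul_assoc]
  have tM : t ∈ M := (hc _ he).1
  have q3 : ∀ h b, (h, b) ∈ Q → T2 b → h = 1 ∨ h = t := fun h b hq hb => by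
    rcases hb with rfl | rfl
    · exact q2 h hq
    · exact q2 h (by simpa [tt1] using Q.mul_mem hq (ΘQ hd))
  have q4 : ∀ h b, (h, b) ∈ Q → b ∈ K0 → h ∈ M := fun h b hq hb' => by
    obtain ⟨m, hm⟩ := hb b hb'
    have : h * m⁻¹ ∈ M := (q2 (h * m⁻¹) (by simpa using Q.mul_mem hq (Q.inv_mem (ΘQ hm)))).elim (fun e => e ▸ M.one_mem)
      fun e => e ▸ tM
    exact (M.mul_mem_cancel_right (M.inv_mem (hc _ hm).1)).1 this
  have q5 : ∀ b, (1, b) ∈ Q → T2 b := fun b hq => centK fun k hk => by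
    obtain ⟨m, hm⟩ := hb k hk
    exact (hc _ (Θ.mul_mem (hq _ hm) (Θ.inv_mem hm))).2.2.1 (Or.inl (by simp))
  have q6 : ∀ b, ∃ h, (h, b) ∈ Q := fun b => by
    by_cases c : b ∈ K0
    · exact (hb b c).imp fun _ e => ΘQ e
    obtain ⟨h, hh⟩ : ∃ h, h ∉ M := by
      by_contra e
      rw [index_eq_one.2 (eq_top_iff.2 fun h _ => not_not.1 fun c => e ⟨h, c⟩)] at hM
      exact absurd hM (by decide)
    obtain ⟨b', hq⟩ := q1 h
    obtain ⟨m, hm⟩ := hb _ (mul_out c (K0.inv_mem_iff.not.2 fun e => hh (q4 h b' hq e)))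
    exact ⟨m * h, by simpa using Q.mul_mem (ΘQ hm) hq⟩
  let π : Q →* B := (MonoidHom.snd H B).comp Q.subtype
  have ce : CE π ⟨(t, 1), ΘQ he⟩ := ⟨fun b => (q6 b).elim fun h e => ⟨⟨_, e⟩, rfl⟩, rfl,
    fun e => t1 (congrArg (fun p : Q => p.1.1) e),
    fun g e => (q3 g.1.1 g.1.2 g.2 (Or.inl e)).imp (fun c => Subtype.ext (Prod.ext c e)) fun c => Subtype.ext (Prod.ext c e),
    fun g e => by
      have := q3 g.1.1 g.1.2 g.2 e
      refine ⟨Subtype.ext (Prod.ext ?_ e.sq), fun k => Subtype.ext (Prod.ext ((cz this).1 _) (e.comm _))⟩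
      change g.1.1 * g.1.1 = 1
      rcases this with c | c <;> rw [c]
      exacts [one_mul _, t2]⟩
  obtain ⟨ε, e1, Ψ, p1, p2⟩ := ce.lift
  have p3 : ∀ b, ((Ψ b).1.1, b) ∈ Q := fun b => by
    convert (Ψ b).2 using 1
    exact Prod.ext rfl (p1 b).symm
  have p4 : ∀ a b, (Ψ (a * b)).1.1 = (Ψ a).1.1 * (Ψ b).1.1 * if sgn a = -1 ∧ sgn b = -1 then ε.1.1 else 1 := fun a b => by
    rw [p2]; split_ifs <;> rfl
  have p5 : ∀ a ∈ K0, ∀ b, (Ψ (a * b)).1.1 = (Ψ a).1.1 * (Ψ b).1.1 := fun a ha b => by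
    rw [p4, if_neg (by rw [show sgn a = 1 from ha]; simp), mul_one]
  have p0 : (Ψ 1).1.1 = 1 := by simpa using p5 1 K0.one_mem 1
  have p6 : ∀ m k, (m, k) ∈ Q → m = (Ψ k).1.1 ∨ m * t = (Ψ k).1.1 := fun m k hk =>
    (q2 (m⁻¹ * (Ψ k).1.1) (by simpa using Q.mul_mem (Q.inv_mem hk) (p3 k))).imp inv_mul_eq_one.1
      fun e => (inv_mul_eq_iff_eq_mul.1 e).symm
  have pt : (Ψ bt).1.1 = t := (q3 _ _ (p3 bt) T2.t).resolve_left fun e => by
    let L : Subgroup H := subOf (fun h => ∃ k ∈ K0, (Ψ k).1.1 = h) ⟨1, K0.one_mem, p0⟩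
      fun a b ⟨k, h1, h2⟩ ⟨k', h3, h4⟩ => ⟨k * k', K0.mul_mem h1 h3, by rw [p5 k h1, h2, h4]⟩
    refine ns L (fun h ⟨k, h1, h2⟩ => h2 ▸ q4 _ k (p3 k) h1) (fun ⟨k, h1, h2⟩ => ?_) fun m hm => ?_
    · rcases q5 k (by simpa [h2, t2] using Q.mul_mem (ΘQ he) (p3 k)) with rfl | rfl
      exacts [t1 (h2.symm.trans p0), t1 (h2.symm.trans e)]
    · obtain ⟨k, hk⟩ := ha m hm
      exact (p6 m k (ΘQ hk)).imp (fun e => ⟨k, (hc _ hk).2.1, e.symm⟩) fun e => ⟨k, (hc _ hk).2.1, e.symm⟩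
  have p7 : ∀ b, (Ψ (bt * b)).1.1 = (Ψ b).1.1 * t := fun b => by rw [p5 _ t_inn, pt, tc]
  refine ⟨fun b => (Ψ b).1.1, ε.1.1, e1.imp (fun e => by rw [e]; rfl) fun e => by rw [e], fun a b e => ?_,
    fun g => ⟨fun _ => ?_, fun _ => (tc g).symm⟩, pt, p4⟩
  · change (Ψ a).1.1 = (Ψ b).1.1 at e
    rcases q5 (a * b⁻¹) (by simpa [e] using Q.mul_mem (p3 a) (Q.inv_mem (p3 b))) with c | c
    · exact mul_inv_eq_one.1 c
    · rw [mul_inv_eq_iff_eq_mul.1 c, p7] at e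
      exact absurd (mul_eq_left.1 e) t1
  · obtain ⟨b, hq⟩ := q1 g
    rcases p6 g b hq with e | e
    · exact ⟨b, e.symm⟩
    · exact ⟨bt * b, by rw [p7, ← e, mul_assoc, t2, mul_one]⟩

theorem pin {G : Type*} [Group G] [Finite G] (t : G) (ht : orderOf t = 2) (M : Subgroup Cx(t)) [M.Normal]
    (hM : M.index = 2) (hout : centralizer (M : Set Cx(t)) ≤ M) (hcov : IsNonsplitDoubleCover M Spor.HS) :
    ∃ Φ ε, Pin t Φ ε := by
  obtain ⟨c2, ⟨θ⟩, ns⟩ := hcov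
  obtain ⟨η, hi, hη⟩ := hsK
  obtain ⟨ι⟩ := Lee.isoHS
  let τ : Cx(t) := ⟨t, mem_Cx.2 rfl⟩
  have tc : ∀ g, τ * g = g * τ := fun g => Subtype.ext (mem_Cx.1 g.2).symm
  have t2 : τ * τ = 1 := Subtype.ext ((sq t).symm.trans (orderOf_dvd_iff_pow_eq_one.1 ht.dvd))
  have t1 : τ ≠ 1 := fun e => by
    rw [show t = 1 from congrArg Subtype.val e, orderOf_one] at ht
    exact absurd ht (by decide)
  have tM : τ ∈ M := hout fun m _ => (tc m).symm
  have zc : ∀ m : M, m ∈ center M ↔ m.1 = 1 ∨ m.1 = τ := fun m => by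
    refine ⟨fun hm => ?_, fun e => mem_center_iff.2 fun g => Subtype.ext ?_⟩
    · obtain ⟨y, -, hy⟩ := (Nat.card_eq_two_iff' (1 : center M)).1 c2
      by_cases e : m = 1
      · exact Or.inl (congrArg Subtype.val e)
      · have := (hy ⟨m, hm⟩ fun c => e (congrArg Subtype.val c)).trans
          (hy ⟨⟨τ, tM⟩, mem_center_iff.2 fun g => Subtype.ext (tc g).symm⟩
            fun c => t1 (congrArg (fun a : center M => a.1.1) c)).symm
        exact Or.inr (congrArg (fun a : center M => a.1.1) this)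
    · rcases e with e | e
      · simp [e]
      · simp [e, tc]
  let μ : M →* B ⧸ zpowers bt := η.comp (ι.symm.toMonoidHom.comp (θ.toMonoidHom.comp (QuotientGroup.mk' _)))
  have μ1 : ∀ m : M, μ m = 1 ↔ m.1 = 1 ∨ m.1 = τ := fun m => by
    rw [← zc, ← QuotientGroup.eq_one_iff]
    simp [μ, (MonoidHom.ker_eq_bot_iff η).2 hi, ← MonoidHom.mem_ker (f := η)]
  let Θ : Subgroup (Cx(t) × B) := subOf (fun p => ∃ h : p.1 ∈ M, μ ⟨p.1, h⟩ = p.2) ⟨M.one_mem, map_one μ⟩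
    fun a b ⟨h1, h2⟩ ⟨h3, h4⟩ => ⟨M.mul_mem h1 h3, by
      rw [Prod.snd_mul, QuotientGroup.mk_mul, ← h2, ← h4, ← map_mul]; rfl⟩
  obtain ⟨Φ, ε, h⟩ := pin0 M hM tc t2 t1 Θ (fun m hm => by
      obtain ⟨k, hk⟩ := QuotientGroup.mk_surjective (μ ⟨m, hm⟩)
      exact ⟨k, hm, hk.symm⟩)
    (fun k hk => by
      obtain ⟨a, ha⟩ := (hη k).1 hk
      obtain ⟨m, hm⟩ := QuotientGroup.mk_surjective (θ.symm (ι a))
      exact ⟨m, m.2, by simp [μ, hm, ha]⟩)
    (fun p ⟨h1, h2⟩ => ⟨h1, (hη _).2 ⟨_, h2⟩, by rw [← mem_zt, ← QuotientGroup.eq_one_iff, ← h2, μ1]⟩)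
    ⟨M.one_mem, (map_one μ).trans ((QuotientGroup.eq_one_iff _).2 (mem_zpowers _)).symm⟩
    ⟨tM, (μ1 _).2 (Or.inr rfl)⟩
    (fun h hh => (zc ⟨h, hout fun m hm => (hh m hm).symm⟩).1
      (mem_center_iff.2 fun g => Subtype.ext (hh g g.2).symm))
    (fun L _ h1 h2 => ns (L.subgroupOf M) (isComplement'_of_disjoint_and_mul_eq_univ
      (disjoint_def.2 fun {m} a b => Subtype.ext (((zc m).1 a).resolve_right fun e => h1 (e ▸ b)))
      (Set.eq_univ_of_forall fun m => (h2 m m.2).elim (fun e => ⟨1, one_mem _, m, e, one_mul m⟩)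
        fun e => ⟨⟨τ, tM⟩, (zc _).2 (Or.inr rfl), m * ⟨τ, tM⟩, e, Subtype.ext (by
          change τ * (m * τ) = m
          rw [← tc, ← mul_assoc, t2, one_mul])⟩)))
  refine ⟨fun b => Φ b, ε, h.e.imp (congrArg Subtype.val) (congrArg Subtype.val), Subtype.val_injective.comp h.inj,
    fun g => ⟨fun e => ?_, ?_⟩, congrArg Subtype.val h.pt, fun a b => ?_⟩
  · obtain ⟨b, hb⟩ := (h.rng ⟨g, mem_Cx.2 e⟩).1 (tc _).symm
    exact ⟨b, congrArg Subtype.val hb⟩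
  · rintro ⟨b, rfl⟩
    exact mem_Cx.1 (Φ b).2
  · simp only [h.mul]
    split_ifs <;> simp
end CfH1.HN
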