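import Cfsg.Agent.OD.Pre
import Cfsg.Agent.H1.HN4
import Cfsg.Agent.H4.ZStar
import Cfsg.Agent.OD.Helper1x42de85498d
/-! First fusion results: no twist, and the product class is not fused. -/
set_option autoImplicit false
set_option maxRecDepth 100000
open Cfsg CfH6 CfL CfH9 MulAction Subgroup
namespace CfH1.HN

theorem not_isolated {G : Type*} [Group G] [Finite G] [IsSimpleGroup G] {z : G} (hz : orderOf z = 2)
    (h : ∃ a b : G, a * b ≠ b * a) : ∃ w, IsConj z w ∧ w * z = z * w ∧ w ≠ z := by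
  by_contra hn
  have hi : IsIsolated z := fun g hg => by
    by_contra hne
    exact hn ⟨_, isConj_iff.2 ⟨g, rfl⟩, hg.symm, hne⟩
  have hZ := CfH4.zstar G z hz hi
  rcases (inferInstance : (pPrimeCore 2 G).Normal).eq_bot_or_eq_top with e | e
  · have c : ∀ g : G, g * z * g⁻¹ = z := fun g => mul_inv_eq_one.1 (by have := hZ g; rwa [e] at this)
    rcases (inferInstance : (center G).Normal).eq_bot_or_eq_top with e' | e'
    · have : z ∈ center G := mem_center_iff.2 fun g => mul_inv_eq_iff_eq_mul.1 (c g)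
      rw [e', mem_bot] at this
      rw [this, orderOf_one] at hz; omega
    · obtain ⟨a, b, hab⟩ := h
      exact hab (mem_center_iff.1 (e' ▸ mem_top b) a)
  · have := CfH7.coprime_card_pPrimeCore 2 G
    rw [e, card_top] at this
    exact absurd (Nat.Coprime.coprime_dvd_left (hz ▸ orderOf_dvd_natCard z) this) (by norm_num)

theorem four_cover {A : Type} [Group A] [Finite A] (ι : A →* B) (hi : Function.Injective ι) {s : B} (s2 : s * s = 1)
    (so : s ∉ K0) (h1 : ι.range ≤ Cx(s)) (h2 : ι.range ≤ K0) (h3 : ∀ a, ι a ≠ bt)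
    (hc : Nat.card Cx(s) ≤ 4 * Nat.card A) : Nat.card Cx(s) = 4 * Nat.card A ∧
      ∀ g, g * s = s * g → ∃ a, g = ι a ∨ g = bt * ι a ∨ g = s * ι a ∨ g = s * bt * ι a := by
  let f : Bool × Bool × A → Cx(s) := fun p => ⟨(if p.1 then s else 1) * (if p.2.1 then bt else 1) * ι p.2.2,
    mul_mem (mul_mem (by split_ifs; exacts [mem_Cx.2 rfl, one_mem _])
      (by split_ifs; exacts [mem_Cx.2 (t_comm s), one_mem _])) (h1 ⟨_, rfl⟩)⟩
  have k1 : ∀ a b, ι a ≠ bt * ι b := fun a b e => h3 (a * b⁻¹) (by rw [map_mul, map_inv, e, mul_inv_cancel_right])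
  have k2 : ∀ a b (c d : B), c ∈ K0 → d ∈ K0 → c * ι a ≠ s * d * ι b := fun a b c d hc hd e =>
    so ((K0.mul_mem_cancel_right hd).1 ((K0.mul_mem_cancel_right (h2 ⟨b, rfl⟩)).1 (e ▸ mul_mem hc (h2 ⟨a, rfl⟩))))
  have fi : Function.Injective f := by
    rintro ⟨i, j, a⟩ ⟨i', j', a'⟩ e
    have e := congrArg Subtype.val e
    have o := K0.one_mem
    cases i <;> cases i' <;> cases j <;> cases j' <;> simp only [f, if_true, if_false, Bool.false_eq_true] at e
    all_goals first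
      | (rw [mul_right_inj] at e; rw [hi e])
      | exact absurd e (k2 _ _ _ _ (mul_mem o (by first | exact o | exact t_inn)) (by first | exact o | exact t_inn))
      | exact absurd e.symm (k2 _ _ _ _ (mul_mem o (by first | exact o | exact t_inn)) (by first | exact o | exact t_inn))
      | exact absurd (by simpa [mul_assoc] using e) (k1 a a')
      | exact absurd (by simpa [mul_assoc] using e.symm) (k1 a' a)
  have hb := fi.bijective_of_nat_card_le (by simpa [← mul_assoc] using hc)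
  refine ⟨by simpa [← mul_assoc] using (Nat.card_eq_of_bijective f hb).symm, fun g hg => ?_⟩
  obtain ⟨⟨i, j, a⟩, e⟩ := hb.2 ⟨g, mem_Cx.2 hg⟩
  have e := (congrArg Subtype.val e).symm
  refine ⟨a, ?_⟩
  cases i <;> cases j <;> simp [f] at e <;> simp [e]

theorem range_inn {T : Tab} {o : ℕ} (g : Emb T fun x => P.ev (o + x))
    (h : ((List.range T.nc).all fun x => inn (Tm.l (o + x))) = true) : (SE.ι g).range ≤ K0 := by
  rw [SE.ι_range]
  exact gensub_le fun x hx => of_inn (List.all_eq_true.1 h x (List.mem_range.2 hx))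

theorem covA : Nat.card Cx(bz) = 4 * Nat.card GA ∧
    ∀ g, g * bz = bz * g → ∃ a, g = ιA a ∨ g = bt * ιA a ∨ g = bz * ιA a ∨ g = bz * bt * ιA a :=
  four_cover ιA SE.ι_inj zz z_out (range_le TAe tz (by decide +kernel)) (range_inn TAe (by decide +kernel))
    (fun a => P.of_ne ((by decide +kernel : ∀ a : GA, P.ne (mA a) tt = true) a)) (by
      have : 2200 * Nat.card Cx(bz) ≤ Nat.card B := clsz
      rw [cardB] at this
      rw [SE.card, show TA.N = 20160 from rfl]; omega)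

theorem covX : Nat.card Cx(bv) = 4 * Nat.card GX ∧
    ∀ g, g * bv = bv * g → ∃ a, g = ιX a ∨ g = bt * ιX a ∨ g = bv * ιX a ∨ g = bv * bt * ιX a :=
  four_cover ιX SE.ι_inj vv v_out (range_le TXe tv (by decide +kernel)) (range_inn TXe (by decide +kernel))
    (fun a => P.of_ne ((by decide +kernel : ∀ a : GX, P.ne (mX a) tt = true) a)) (by
      have : 46200 * Nat.card Cx(bv) ≤ Nat.card B := clsv
      rw [cardB] at this
      rw [SE.card, show TX.N = 960 from rfl]; omega)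

theorem card_Cz : Nat.card Cx(bz) = 80640 := by rw [covA.1, SE.card]; rfl
theorem card_Cv : Nat.card Cx(bv) = 3840 := by rw [covX.1, SE.card]; rfl
theorem cw_iff {g : B} : g * bw = bw * g ↔ g * bu = bu * g := by
  rw [bw, mul_assoc, t_comm, ← mul_assoc, ← mul_assoc, mul_left_inj]
theorem card_Cw : Nat.card Cx(bw) = 30720 := by
  rw [← card_Cu, show Cx(bw) = Cx(bu) from Subgroup.ext fun g => by rw [mem_Cx, mem_Cx, cw_iff]]

theorem card_conj {a b : B} (h : IsConj a b) : Nat.card Cx(a) = Nat.card Cx(b) := by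
  have h1 := ncard_class_mul a
  have h2 := ncard_class_mul b
  rw [show {c | IsConj b c} = {c | IsConj a c} from Set.ext fun c => ⟨h.trans, h.symm.trans⟩, ← h1] at h2
  exact (Nat.eq_of_mul_eq_mul_left ((Set.ncard_pos (Set.toFinite _)).2 ⟨a, IsConj.refl a⟩) h2).symm

namespace Pin
variable {G : Type*} [Group G] {t ε : G} {Φ : B → G} (h : Pin t Φ ε)
include h

theorem mul_l {a : B} (ha : a ∈ K0) (b : B) : Φ (a * b) = Φ a * Φ b := by
  rw [h.mul, if_neg (by rw [show sgn a = 1 from ha]; simp), mul_one]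
theorem mul_r (a : B) {b : B} (hb : b ∈ K0) : Φ (a * b) = Φ a * Φ b := by
  rw [h.mul, if_neg (by rw [show sgn b = 1 from hb]; simp), mul_one]
theorem one : Φ 1 = 1 := by simpa using h.mul_l K0.one_mem 1
theorem tc (b : B) : Φ b * t = t * Φ b := (h.rng _).2 ⟨b, rfl⟩
theorem t2 : t * t = 1 := by rw [← h.pt, ← h.mul_l t_inn, tt1, h.one]
theorem ec (b : B) : ε * Φ b = Φ b * ε := by
  rcases h.e with e | e <;> rw [e]
  exacts [by simp, (h.tc b).symm]
theorem e2 : ε * ε = 1 := by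
  rcases h.e with e | e <;> rw [e]
  exacts [one_mul _, h.t2]

theorem conj (g b : B) : Φ (g * b * g⁻¹) = Φ g * Φ b * (Φ g)⁻¹ := by
  have := h.mul (g * b * g⁻¹) g
  rw [inv_mul_cancel_right, h.mul, map_mul, map_mul, map_inv, mul_comm (sgn g), mul_inv_cancel_right] at this
  simp only [and_comm (a := sgn g = -1), mul_left_inj] at this
  rw [this, mul_inv_cancel_right]

theorem comm {a b : B} : Φ a * Φ b = Φ b * Φ a ↔ a * b = b * a := by
  rw [← mul_inv_eq_iff_eq_mul, ← h.conj, h.inj.eq_iff, mul_inv_eq_iff_eq_mul]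

theorem isConj {a b : B} (e : IsConj a b) : IsConj (Φ a) (Φ b) := by
  obtain ⟨g, rfl⟩ := isConj_iff.1 e
  exact isConj_iff.2 ⟨Φ g, (h.conj g a).symm⟩

theorem sq_out {a : B} (ha : a ∉ K0) : Φ (a * a) = Φ a * Φ a * ε := by
  have := (Int.units_eq_one_or (sgn a)).resolve_left ha
  rw [h.mul, if_pos ⟨this, this⟩]

theorem invol {b : B} (e : Φ b * Φ b = 1) : b * b = 1 ∧ (ε = t → b ∈ K0) := by
  by_cases c : b ∈ K0
  · exact ⟨h.inj (by rw [h.mul_l c, e, h.one]), fun _ => c⟩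
  have := h.sq_out c
  rw [e, one_mul] at this
  have k : ε = t → b ∈ K0 := fun e' => sq_t (h.inj (by rw [this, e', h.pt]))
  exact ⟨h.inj (by rw [this, h.one, h.e.resolve_right fun e' => c (k e')]), k⟩

theorem tr {g : G} {b b' : B} (h1 : g * Φ b * g⁻¹ = t) (h2 : g * t * g⁻¹ = Φ b') {c : B} (hc : c * b = b * c) :
    ∃ c', Φ c' = g * Φ c * g⁻¹ ∧ c' * b' = b' * c' := by
  obtain ⟨c', e⟩ := (h.rng (g * Φ c * g⁻¹)).1 (by rw [← h1, conj_mul, conj_mul, h.comm.2 hc])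
  exact ⟨c', e, h.comm.1 (by rw [e, ← h2, conj_mul, conj_mul, h.tc])⟩

theorem card_le {g : G} {b b' : B} (h1 : g * Φ b * g⁻¹ = t) (h2 : g * t * g⁻¹ = Φ b') :
    Nat.card Cx(b) ≤ Nat.card Cx(b') := by
  choose f f1 f2 using fun c : Cx(b) => h.tr h1 h2 (mem_Cx.1 c.2)
  refine Nat.card_le_card_of_injective (fun c => (⟨f c, mem_Cx.2 (f2 c)⟩ : Cx(b'))) fun c d e => Subtype.ext (h.inj ?_)
  have := congrArg Φ (congrArg Subtype.val e)
  simpa [f1] using this

theorem sw {b : B} (e : IsConj t (Φ b)) (hb : b ≠ bt) : ∃ g b', g * Φ b * g⁻¹ = t ∧ g * t * g⁻¹ = Φ b' ∧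
    (b' = bu ∨ b' = bw ∨ b' = bz ∨ b' = bv) ∧ Nat.card Cx(b) = Nat.card Cx(b') ∧ (ε = t → b' ∈ K0) := by
  obtain ⟨g, h1⟩ := isConj_iff.1 e.symm
  obtain ⟨b', h2⟩ := (h.rng (g * t * g⁻¹)).1 (by
    conv_lhs => rw [← h1]
    conv_rhs => rw [← h1]
    rw [h1, ← h1, conj_mul, conj_mul, h1, h.tc])
  obtain ⟨s1, s2⟩ := h.invol (b := b') (by rw [h2, conj_mul, h.t2]; simp)
  have key : ∀ r, IsConj r b' → ∃ g, g * Φ b * g⁻¹ = t ∧ g * t * g⁻¹ = Φ r ∧
      Nat.card Cx(b) = Nat.card Cx(r) ∧ (ε = t → r ∈ K0) := fun r hr => by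
    obtain ⟨k, rfl⟩ := isConj_iff.1 hr.symm
    have a1 : Φ k * g * Φ b * (Φ k * g)⁻¹ = t := by
      rw [mul_inv_rev, ← mul_assoc, mul_assoc (Φ k), mul_assoc (Φ k), h1, h.tc, mul_inv_cancel_right]
    have a2 : Φ k * g * t * (Φ k * g)⁻¹ = Φ (k * b' * k⁻¹) := by rw [h.conj, h2]; group
    exact ⟨_, a1, a2, le_antisymm (h.card_le a1 a2) (h.card_le (g := (Φ k * g)⁻¹) (by rw [← a2]; group)
      (by rw [← a1]; group)), fun e => (conj_inn hr).2 (s2 e)⟩
  rcases clsInv s1 with c | c | c | c | c | c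
  · rw [c, h.one, eq_comm, mul_inv_eq_one, mul_eq_left, ← h.pt, ← h.one] at h2
    exact absurd (h.inj h2) t_ne
  · rw [c, h.pt] at h2
    rw [h2, mul_left_inj, mul_right_inj, ← h.pt] at h1
    exact absurd (h.inj h1) hb
  · obtain ⟨g, a⟩ := key _ c; exact ⟨g, _, a.1, a.2.1, by simp, a.2.2⟩
  · obtain ⟨g, a⟩ := key _ c; exact ⟨g, _, a.1, a.2.1, by simp, a.2.2⟩
  · obtain ⟨g, a⟩ := key _ c; exact ⟨g, _, a.1, a.2.1, by simp, a.2.2⟩
  · obtain ⟨g, a⟩ := key _ c; exact ⟨g, _, a.1, a.2.1, by simp, a.2.2⟩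

theorem noSq {g : G} {b b' : B} (h1 : g * Φ b * g⁻¹ = t) (h2 : g * t * g⁻¹ = Φ b') (hb : b = bu ∨ b = bw)
    (hb' : b' = bu ∨ b' = bw) {c : GY} (hc : c * yf = yf * c) (e : Φ (ιY c) * Φ (ιY c) = Φ b) : False := by
  have cy : ∀ {b : B}, b = bu ∨ b = bw → ∀ k, k * b = b * k ↔ k * bu = bu * k := by
    rintro _ (rfl | rfl) k
    exacts [Iff.rfl, cw_iff]
  have tr' : ∀ {g : G}, g * Φ b * g⁻¹ = t → g * t * g⁻¹ = Φ b' → ∀ a : GY, ∃ a' : GY,
      Φ (ιY a') = g * Φ (ιY a) * g⁻¹ := fun h1 h2 a => by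
    obtain ⟨k, e1, e2⟩ := h.tr h1 h2 ((cy hb _).2 (mem_Cx.1 (rangeY.le ⟨a, rfl⟩)))
    obtain ⟨a', rfl⟩ := inY ((cy hb' _).1 e2)
    exact ⟨a', e1⟩
  have p5 : ∀ k, Φ (k * k * k * k * k) = Φ k ^ 5 := fun k => by
    have k2 : k * k ∈ K0 := by
      by_cases c : k ∈ K0
      exacts [mul_mem c c, mul_out c c]
    rw [mul_assoc (k * k), h.mul_l (mul_mem k2 k2), h.mul_l k2]
    by_cases c : k ∈ K0
    · rw [h.mul_l c]; simp only [pow_succ, pow_zero, one_mul, mul_assoc]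
    · rw [h.sq_out c, mul_assoc _ ε, ← mul_assoc ε, ← mul_assoc ε, h.ec, mul_assoc _ ε, h.ec, ← mul_assoc (Φ k),
        mul_assoc _ ε, h.e2]
      simp only [pow_succ, pow_zero, one_mul, mul_assoc, mul_one]
  obtain ⟨a, ha⟩ := tr' h1 h2 yf
  rcases F4 a (SE.ι_inj (h.inj (by
    simp only [map_mul, map_one]
    rw [p5, ha, conj_pow, ← p5, iyf, show Tm.val P.ev tf * Tm.val P.ev tf * Tm.val P.ev tf * Tm.val P.ev tf *
      Tm.val P.ev tf = 1 from P.E (tf * tf * tf * tf * tf) 1, h.one]; simp))) with c0 | c0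
  · rw [c0, map_one, h.one, eq_comm, mul_inv_eq_one, mul_eq_left, ← h.one, iyf] at ha
    exact P.N tf 1 (by decide +kernel) (h.inj ha)
  have k1 : Φ (ιY (cj a)⁻¹) * g * Φ (ιY yf) * (Φ (ιY (cj a)⁻¹) * g)⁻¹ = Φ (ιY yf) := by
    conv_rhs => rw [← c0, map_mul, map_mul, ← inv_inv (ιY (cj a)), ← map_inv, h.conj, ha]
    group
  obtain ⟨c', hc'⟩ := tr' (g := Φ (ιY (cj a)⁻¹) * g) (by
      rw [mul_inv_rev, ← mul_assoc, mul_assoc (Φ _), mul_assoc (Φ _), h1, h.tc, mul_inv_cancel_right]) (by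
      rw [mul_inv_rev, ← mul_assoc, mul_assoc (Φ _), mul_assoc (Φ _), h2, ← h.conj,
        (cy hb' _).2 (mem_Cx.1 (rangeY.le ⟨_, rfl⟩)), mul_inv_cancel_right]) c
  obtain ⟨f1, f2⟩ := F5 c' (SE.ι_inj (by
    rw [map_mul, map_mul, ← h.comm, hc', ← k1, conj_mul, conj_mul, h.comm.2 (by rw [← map_mul, hc, map_mul])]))
  have k2 : Φ (ιY c') * Φ (ιY c') = t := by
    rw [hc', conj_mul, e, mul_inv_rev, ← mul_assoc, mul_assoc (Φ _), mul_assoc (Φ _), h1, h.tc, mul_inv_cancel_right]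
  by_cases o : ιY c' ∈ K0
  · exact f1 (SE.ι_inj (h.inj (by rw [map_mul, h.mul_l o, k2, iyt]; exact h.pt.symm)))
  have k3 := h.sq_out o
  rw [k2] at k3
  rcases h.e with e' | e'
  · exact f1 (SE.ι_inj (h.inj (by rw [map_mul, k3, e', mul_one, iyt]; exact h.pt.symm)))
  · exact o (of_inn (f2 (SE.ι_inj (h.inj (by rw [map_mul, k3, e', h.t2, map_one, h.one])))))

theorem notw : ¬ IsConj t (Φ bw) := fun e => by
  obtain ⟨g, b', h1, h2, h3, h4, -⟩ := h.sw e (P.N (tu * tt) tt)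
  refine h.noSq h1 h2 (Or.inr rfl) ?_ F5a.1 (by rw [← h.mul_l (a := ιY yc1) (of_inn F5a.2.2.1), ← map_mul, F5a.2.1, iyw]; rfl)
  rw [card_Cw] at h4
  rcases h3 with rfl | rfl | rfl | rfl
  exacts [Or.inl rfl, Or.inr rfl, absurd (h4.trans card_Cz) (by decide), absurd (h4.trans card_Cv) (by decide)]

theorem fused [Finite G] [IsSimpleGroup G] : (ε = t → IsConj t (Φ bu)) ∧
    (IsConj t (Φ bu) ∨ IsConj t (Φ bz) ∨ IsConj t (Φ bv)) := by
  obtain ⟨y, h1, h2, h3⟩ := not_isolated (z := t) (orderOf_eq_prime (by rw [sq, h.t2]) fun e =>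
    t_ne (h.inj (by rw [h.pt, e, h.one]))) ⟨Φ bx, Φ by', fun e => P.N (tx * ty) (ty * tx) (by decide +kernel) (h.comm.1 e)⟩
  obtain ⟨b, rfl⟩ := (h.rng y).1 h2
  obtain ⟨g, hg⟩ := isConj_iff.1 h1
  obtain ⟨s1, s2⟩ := h.invol (b := b) (by rw [← hg, conj_mul, h.t2]; simp)
  rcases clsInv s1 with c | c | c | c | c | c
  · rw [c, h.one, mul_inv_eq_one, mul_eq_left, ← h.pt, ← h.one] at hg
    exact absurd (h.inj hg) t_ne
  · exact absurd (c ▸ h.pt) h3
  · exact ⟨fun _ => h1.trans (h.isConj c).symm, Or.inl (h1.trans (h.isConj c).symm)⟩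
  · exact absurd (h1.trans (h.isConj c).symm) h.notw
  · exact ⟨fun e => absurd ((conj_inn c).2 (s2 e)) z_out, Or.inr (Or.inl (h1.trans (h.isConj c).symm))⟩
  · exact ⟨fun e => absurd ((conj_inn c).2 (s2 e)) v_out, Or.inr (Or.inr (h1.trans (h.isConj c).symm))⟩

theorem typeA [Finite G] [IsSimpleGroup G] : ε = 1 := h.e.resolve_right fun e => by
  obtain ⟨g, b', h1, h2, h3, -, h4⟩ := h.sw (h.fused.1 e) (P.N tu tt)
  refine h.noSq h1 h2 (Or.inl rfl) ?_ F5a.2.2.2.1 ?_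
  · rcases h3 with rfl | rfl | rfl | rfl
    exacts [Or.inl rfl, Or.inr rfl, absurd (h4 e) z_out, absurd (h4 e) v_out]
  · have := h.sq_out (of_out F5a.2.2.2.2.2)
    rw [tm_val, ← map_mul, F5a.2.2.2.2.1, iyw, Tm.val_mul, h.mul_r _ (b := Tm.val P.ev tt) t_inn, e] at this
    exact mul_right_cancel (this.symm.trans (congrArg _ h.pt))
end Pin
end CfH1.HN
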