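import Cfsg.Agent.OD.Pre
import Cfsg.Agent.H1.HN5
import Cfsg.Agent.H1.HNF2
/-! Normalisers of the two four-groups; the outer class `v` is not fused to the central involution. -/
set_option autoImplicit false
set_option maxRecDepth 100000
open Cfsg CfH6 CfL CfH9 MulAction Subgroup
namespace CfH1

theorem SE.mk_val {T : Tab} {G : Type*} [Group G] {ev : ℕ → G} {g : Emb T ev} (a : SE g) : SE.mk g a.1 = a :=
  Subtype.ext (by change Bool.rec 0 a.1 (Nat.blt a.1 T.N) = a.1; rw [blt2 a.2])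

theorem SE.of_val {T : Tab} {G : Type*} [Group G] {ev : ℕ → G} {g : Emb T ev} {a : SE g} {n : ℕ} (h : a.1 = n) :
    a = SE.mk g n := h ▸ a.mk_val.symm

theorem SE.top_of {T : Tab} {G : Type*} [Group G] {ev : ℕ → G} {g : Emb T ev} {K : Subgroup (SE g)}
    (h : ∀ x < T.nc, SE.mk g (T.R x 0) ∈ K) : K = ⊤ := by
  have : (SE.ι g).range ≤ K.map (SE.ι g) := by
    rw [SE.ι_range]
    refine gensub_le fun x hx => ⟨_, h x hx, ?_⟩
    rw [← SE.of_val (a := ⟨_, g.lt x hx 0 g.pos⟩) rfl]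
    change evw ev (T.wl (T.R x 0)) = _
    rw [g.step x hx 0 g.pos, g.zero, one_mul]
  refine eq_top_iff.2 fun a _ => ?_
  obtain ⟨b, hb, e⟩ := this ⟨a, rfl⟩
  exact SE.ι_inj e ▸ hb

theorem memE {G : Type*} [Group G] {K : Subgroup G} {a b : G} (e : a = b) (h : b ∈ K) : a ∈ K :=
  e ▸ h

namespace HN

theorem cW {a b : Tm} {k : ℕ} (h : P.eq ((tW k)⁻¹ * a * tW k) b = true) : IsConj (a.val P.ev) (b.val P.ev) :=
  isConj_iff.2 ⟨(bW k)⁻¹, by rw [inv_inv]; exact P.of_eq h⟩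

structure Cov {A : Type} [Group A] (ι : A →* B) (s : B) : Prop where
  inj : Function.Injective ι
  c : ∀ a, ι a * s = s * ι a
  s2 : s * s = 1
  cov : ∀ g, g * s = s * g → ∃ a, g = ι a ∨ g = bt * ι a ∨ g = s * ι a ∨ g = s * bt * ι a
  gen : ∀ K : Subgroup A, (∀ a, a * a ∈ K) → K = ⊤

theorem CovA' {h : ∀ x < 8, ∃ p : ℕ × ℕ, kA (TA.R x 0) = kA p.1 * kA p.1 * (kA p.2 * kA p.2)} : Cov ιA bz :=
  ⟨SE.ι_inj, fun a => mem_Cx.1 (range_le TAe tz (by decide +kernel) ⟨a, rfl⟩), zz, covA.2, fun K hK =>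
    SE.top_of fun x hx => let ⟨_, e⟩ := h x hx; memE e (K.mul_mem (hK _) (hK _))⟩

theorem CovX : Cov ιX bv :=
  ⟨SE.ι_inj, fun a => mem_Cx.1 (range_le TXe tv (by decide +kernel) ⟨a, rfl⟩), vv, covX.2, fun K hK =>
    SE.top_of fun x hx => let ⟨_, _, e⟩ := X6 x hx; memE e (K.mul_mem (hK _) (hK _))⟩

variable {G : Type*} [Group G] {φ : B →* G}

abbrev Hy (φ : B →* G) : Prop := Pin (φ bt) φ 1

theorem Pin.hy {t : G} {Φ : B → G} (h : Pin t Φ 1) : ∃ φ : B →* G, Hy φ ∧ φ bt = t :=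
  ⟨MonoidHom.mk' Φ fun a b => by rw [h.mul, ite_self, mul_one], by
    change Pin (Φ bt) Φ 1
    rwa [h.pt], h.pt⟩

/-- the normaliser of the centraliser of the four-group -/
def NV (φ : B →* G) (s : B) (g : G) : Prop := ∀ x, x * φ bt = φ bt * x → x * φ s = φ s * x →
  g * x * g⁻¹ * φ bt = φ bt * (g * x * g⁻¹) ∧ g * x * g⁻¹ * φ s = φ s * (g * x * g⁻¹)

theorem cmul {x a b : G} (h1 : x * a = a * x) (h2 : x * b = b * x) : x * (a * b) = a * b * x :=
  Commute.mul_right h1 h2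

theorem ccj {x a b g : G} (h : x * a = a * x) (e : g * a * g⁻¹ = b) : g * x * g⁻¹ * b = b * (g * x * g⁻¹) := by
  rw [← e, conj_mul, conj_mul, h]

theorem cjφ {H : Type*} [Group H] (φ : H →* G) {g a b : H} (e : g * a * g⁻¹ = b) : φ g * φ a * (φ g)⁻¹ = φ b := by
  rw [← e, map_mul, map_mul, map_inv]

theorem icj {a b : G} (g : G) (e : g * a * g⁻¹ = b) : IsConj a b := isConj_iff.2 ⟨g, e⟩

theorem cj_inv {a b g : G} (e : g * a * g⁻¹ = b) : g⁻¹ * b * g⁻¹⁻¹ = a := by rw [← e]; group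

theorem cj_mul {a b c g k : G} (e : g * a * g⁻¹ = b) (e' : k * b * k⁻¹ = c) : k * g * a * (k * g)⁻¹ = c := by
  rw [← e', ← e]; group

theorem cj_pr {a b a' b' g : G} (e : g * a * g⁻¹ = b) (e' : g * a' * g⁻¹ = b') : g * (a * a') * g⁻¹ = b * b' := by
  rw [← e', ← e, conj_mul]

namespace Cov
variable {A : Type} [Group A] {ι : A →* B} {s : B} (hc : Cov ι s) (h : Hy φ)
include hc h

theorem sq {x : G} (c1 : x * φ bt = φ bt * x) (c2 : x * φ s = φ s * x) : ∃ a, x * x = φ (ι (a * a)) := by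
  obtain ⟨b, rfl⟩ := (h.rng x).1 c1
  obtain ⟨a, e⟩ := hc.cov b (h.comm.1 c2)
  refine ⟨a, ?_⟩
  have k : ∀ c : B, c * c = 1 → c * ι a = ι a * c → φ (c * ι a) * φ (c * ι a) = φ (ι (a * a)) := fun c c2 e => by
    rw [← map_mul, mul_assoc, ← mul_assoc (ι a), ← e, mul_assoc, ← mul_assoc, c2, one_mul, map_mul ι]
  rcases e with rfl | rfl | rfl | rfl
  · rw [map_mul, map_mul]
  · exact k _ tt1 (t_comm _)
  · exact k _ hc.s2 (hc.c a).symm
  · exact k _ (by rw [mul_assoc, ← mul_assoc bt, t_comm, mul_assoc, tt1, mul_one, hc.s2])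
      (cmul (hc.c a) (t_comm _).symm).symm

theorem aut [Finite A] {g : G} (hg : NV φ s g) : ∃ β : MulAut A, ∀ a, φ (ι (β a)) = g * φ (ι a) * g⁻¹ := by
  have hK := hc.gen (((φ.comp ι).range.comap (MulAut.conj g).toMonoidHom).comap (φ.comp ι)) fun a => by
    obtain ⟨c1, c2⟩ := hg _ (h.tc (ι a)) (h.comm.2 (hc.c a))
    obtain ⟨b, e⟩ := hc.sq h c1 c2
    exact ⟨b * b, e.symm.trans (by simp [mul_assoc])⟩
  have : ∀ a, ∃ b, φ (ι b) = g * φ (ι a) * g⁻¹ := fun a => (hK ▸ mem_top a : a ∈ (_ : Subgroup A))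
  choose f hf using this
  have i := h.inj.comp hc.inj
  let F : A →* A := MonoidHom.mk' f fun a b => i (by simp only [Function.comp, map_mul, hf, conj_mul])
  exact ⟨MulEquiv.ofBijective F (Finite.injective_iff_bijective.1 fun a b e => i (by
    have := (hf a).symm.trans ((congrArg (fun c => φ (ι c)) e).trans (hf b))
    simpa using this)), hf⟩

theorem fus [Finite A] {g : G} (h1 : g * φ s * g⁻¹ = φ bt) (h2 : g * φ bt * g⁻¹ = φ s) (Wt : A → Prop)
    (cl : ∀ a, a * a = 1 → a = 1 ∨ Wt a ∨ IsConj bw (bt * ι a)) (hW : ∀ a, Wt a → IsConj s (s * ι a))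
    {a : A} (a2 : a * a = 1) (a1 : a ≠ 1) : ∃ b, φ (ι b) = g * φ (ι a) * g⁻¹ ∧ b * b = 1 ∧ b ≠ 1 ∧
      (Wt a → Wt b) ∧ (IsConj bw (bt * ι a) → ¬ Wt b) := by
  obtain ⟨β, hβ⟩ := hc.aut h (g := g) fun x c1 c2 => ⟨ccj c2 h1, ccj c1 h2⟩
  have b2 : β a * β a = 1 := by rw [← map_mul, a2, map_one]
  have b1 : β a ≠ 1 := by simpa using a1
  have ts := icj g h2
  refine ⟨β a, hβ a, b2, b1, fun w => ?_, fun c w => h.notw ?_⟩
  · refine ((cl _ b2).resolve_left b1).resolve_right fun c => h.notw ?_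
    exact (ts.trans (h.isConj (hW a w))).trans ((icj g (by rw [map_mul, map_mul, cj_pr h1 (hβ a).symm])).trans
      (h.isConj c).symm)
  · exact (ts.trans (h.isConj (hW _ w))).trans ((icj g (by rw [map_mul, map_mul, cj_pr h2 (hβ a).symm])).symm.trans
      (h.isConj c).symm)
end Cov

namespace Pin
variable (h : Hy φ)
include h

theorem swp {s : B} (e : IsConj (φ bt) (φ s)) (hs : s = bu ∨ s = bz ∨ s = bv) :
    ∃ g, g * φ s * g⁻¹ = φ bt ∧ g * φ bt * g⁻¹ = φ s := by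
  obtain ⟨g, b, h1, h2, h3, h4, -⟩ := h.sw e (by
    rcases hs with rfl | rfl | rfl
    exacts [P.N tu tt, P.N tz tt, P.N tv tt])
  refine ⟨g, h1, h2.trans (congrArg φ ?_)⟩
  rcases h3 with rfl | rfl | rfl | rfl
  swap; · exact absurd (icj g h2) h.notw
  all_goals rcases hs with rfl | rfl | rfl
  all_goals first | rfl | (simp only [card_Cu, card_Cz, card_Cv] at h4; omega)

theorem pure {a b : G} (c : a * b = b * a) (ha : IsConj (φ bt) a) (hb : IsConj (φ bt) b)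
    (hab : IsConj (φ bt) (a * b)) : ∃ g, g * a * g⁻¹ = φ bt ∧ (g * b * g⁻¹ = φ bz ∨ g * b * g⁻¹ = φ bv) := by
  obtain ⟨g, h1⟩ := isConj_iff.1 ha.symm
  obtain ⟨k, h2⟩ := (h.rng (g * b * g⁻¹)).1 (ccj c.symm h1)
  have n1 : ¬ IsConj (φ bt) 1 := fun e => t_ne (h.inj ((isConj_one_left.1 e).trans (map_one φ).symm))
  have hk := hb.trans (icj g h2.symm)
  have hk' : IsConj (φ bt) (φ (k * bt)) := hab.trans (icj g (by rw [c, map_mul, cj_pr h2.symm h1]))
  have key : ∀ s, IsConj s k → ∃ g, g * a * g⁻¹ = φ bt ∧ g * b * g⁻¹ = φ s := fun s e => by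
    obtain ⟨n, e⟩ := isConj_iff.1 e.symm
    exact ⟨φ n * g, cj_mul h1 (by rw [h.tc, mul_inv_cancel_right]), cj_mul h2.symm (cjφ φ e)⟩
  obtain ⟨n, hn⟩ := isConj_iff.1 hk
  rcases clsInv (h.invol (b := k) (by rw [← hn, conj_mul, h.t2]; simp)).1 with e | e | e | e | e | e
  · exact absurd (by rwa [e, map_one] at hk) n1
  · exact absurd (by rwa [e, tt1, map_one] at hk') n1
  · obtain ⟨n, rfl⟩ := isConj_iff.1 e
    exact absurd (hk'.trans (h.isConj (icj n (cj_pr rfl (by rw [← t_comm, mul_inv_cancel_right]))).symm)) h.notw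
  · exact absurd (hk.trans (h.isConj e).symm) h.notw
  · obtain ⟨g, e1, e2⟩ := key _ e; exact ⟨g, e1, Or.inl e2⟩
  · obtain ⟨g, e1, e2⟩ := key _ e; exact ⟨g, e1, Or.inr e2⟩
end Pin
end HN
end CfH1
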