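import Cfsg.Agent.OD.Pre
import Cfsg.Agent.H1.HN6
import Cfsg.Agent.OD.Helper1x2b3b57a633
/-! If the class `v` is fused to the central involution then so is the class `z`. -/
set_option autoImplicit false
set_option maxRecDepth 100000
open Cfsg CfH6 CfL CfH9 MulAction Subgroup
namespace CfH1.HN
variable {G : Type*} [Group G] {φ : B →* G}

def Cy (φ : B →* G) (s : B) (ρ : G) : Prop := ρ * φ bt * ρ⁻¹ = φ s ∧ ρ * φ s * ρ⁻¹ = φ bt * φ s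

theorem cj_cm {g a : G} (h : g * a = a * g) : g * a * g⁻¹ = a := by rw [h, mul_inv_cancel_right]
theorem cm_cj {g a : G} (h : g * a * g⁻¹ = a) : g * a = a * g := mul_inv_eq_iff_eq_mul.1 h

theorem Cy.three (h : Hy φ) {s : B} (s2 : s * s = 1) {ρ : G} (c : Cy φ s ρ) : ρ * (φ bt * φ s) * ρ⁻¹ = φ bt := by
  rw [cj_pr c.1 c.2, ← mul_assoc, h.tc, mul_assoc, ← map_mul, s2, map_one, mul_one]

theorem Cy.nv (h : Hy φ) {s : B} (s2 : s * s = 1) {ρ : G} (c : Cy φ s ρ) : NV φ s ρ := fun _ c1 c2 =>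
  ⟨ccj (cmul c1 c2) (c.three h s2), ccj c1 c.1⟩

theorem Cy.mul (h : Hy φ) {s k : B} (e : k * s = s * k) {ρ : G} (c : Cy φ s ρ) : Cy φ s (φ k * ρ) :=
  ⟨cj_mul c.1 (cj_cm (h.comm.2 e)), cj_mul c.2 (cj_pr (cj_cm (h.tc k)) (cj_cm (h.comm.2 e)))⟩

theorem Cy.of (h : Hy φ) {s k : B} {g : G} (h1 : g * φ s * g⁻¹ = φ bt) (h2 : g * φ bt * g⁻¹ = φ s)
    (e : k * s * k⁻¹ = bt * s) : Cy φ s (g * φ k) :=
  ⟨cj_mul (cj_cm (h.tc k)) h2, cj_mul ((cjφ φ e).trans (map_mul _ _ _)) ((cj_pr h2 h1).trans (h.tc s))⟩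

local notation "ψ" a:max => φ (ιY a)
local notation "χ" a:max => φ (ιX a)

theorem eyt : ιY yt = bt := iyt
theorem eyv : ιY yv = bv := iyv

theorem Cy.step (h : Hy φ) (e : IsConj (φ bt) (φ bv)) (nz : ¬ IsConj (φ bt) (φ bz)) {ρ : G} (c : Cy φ bv ρ) :
    ∃ β : MulAut GX, (∀ a, χ (β a) = ρ * χ a * ρ⁻¹) ∧
      ∀ a ∈ [xw, xs, xr, xw * xs, xw * xr, xs * xr, xw * xs * xr], (β a).1 ∈ LW := by
  obtain ⟨β, hβ⟩ := CovX.aut h (c.nv h vv)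
  refine ⟨β, hβ, fun a ha => ?_⟩
  obtain ⟨a2, a1, r, hr, er⟩ := (by decide +kernel : ∀ a ∈ [xw, xs, xr, xw * xs, xw * xr, xs * xr, xw * xs * xr],
    a * a = 1 ∧ a ≠ 1 ∧ ∃ r ∈ LR, P.eq (mX a) (mY (kY r)) = true) a ha
  obtain ⟨n, -, en, -⟩ := (Y3 r hr).2.2.2.2.2
  refine ((X1 _ (by rw [← map_mul, a2, map_one])).resolve_left (by simpa using a1)).resolve_right fun ⟨k, ek⟩ => nz ?_
  have e1 : IsConj (φ bv) (φ bv * χ a) := by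
    have := cjφ (φ.comp ιY) en
    simp only [MonoidHom.comp_apply, map_mul, eyv] at this
    exact icj _ (this.trans (congrArg (fun b => φ bv * φ b) (P.of_eq er).symm))
  have e2 : IsConj (φ bt * φ bv * χ (β a)) (φ bt * φ bv * χ xu) := icj (χ k)
    (cj_pr (cj_pr (cj_cm (h.tc _)) (cj_cm (h.comm.2 (CovX.c k)))) (cjφ (φ.comp ιX) ek))
  refine ((e.trans e1).trans ((icj ρ (cj_pr c.2 (hβ a).symm)).trans e2)).trans ?_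
  rw [← map_mul, ← map_mul]
  exact (h.isConj (cW X9)).symm

theorem rhoX (h : Hy φ) (e : IsConj (φ bt) (φ bv)) (nz : ¬ IsConj (φ bt) (φ bz)) :
    ∃ ρ, Cy φ bv ρ ∧ ρ * ψ yw * ρ⁻¹ = ψ yw ∧ ρ * ψ ys * ρ⁻¹ = ψ ys ∧ ρ * ψ yr * ρ⁻¹ = ψ yr := by
  obtain ⟨g, h1, h2⟩ := h.swp e (by simp)
  have c0 := Cy.of h h1 h2 (k := ιY yh) (by rw [← eyv, ← eyt, cjφ ιY Y1.1, map_mul])
  have i : ∀ {a b : GX}, χ a = χ b → a = b := fun e => SE.ι_inj (h.inj e)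
  obtain ⟨β, hβ, hl⟩ := c0.step h e nz
  simp only [List.forall_mem_cons] at hl
  obtain ⟨n, e1⟩ := X2 (β xd) (by rw [← map_mul, X5.1]; exact hl.1)
  rw [← map_mul, X5.1] at e1
  have c1 := c0.mul h (CovX.c n)
  have w1 := cj_mul (hβ xw).symm (cjφ (φ.comp ιX) e1)
  generalize _ * (g * _) = ρ at c1 w1
  obtain ⟨β, hβ, hl⟩ := c1.step h e nz
  simp only [List.forall_mem_cons, map_mul] at hl
  have bw := i ((hβ xw).trans w1)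
  obtain ⟨n, e1, e2⟩ := X3 (β xs) hl.2.1 (by rw [← bw, ← map_mul, X5.2.1, map_mul, bw]) (bw ▸ hl.2.2.2.1)
  have c2 := c1.mul h (CovX.c n)
  have w2 := cj_mul w1 (cjφ (φ.comp ιX) e1)
  have s2 := cj_mul (hβ xs).symm (cjφ (φ.comp ιX) e2)
  generalize _ * ρ = ρ at c2 w2 s2
  obtain ⟨β, hβ, hl⟩ := c2.step h e nz
  simp only [List.forall_mem_cons, map_mul] at hl
  have bw := i ((hβ xw).trans w2)
  have bs := i ((hβ xs).trans s2)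
  rw [bw, bs] at hl
  obtain ⟨n, e1, e2, e3⟩ := X4 (β xr) hl.2.2.1 (by rw [← bw, ← map_mul, X5.2.2.1, map_mul, bw])
    (by rw [← bs, ← map_mul, X5.2.2.2, map_mul, bs]) hl.2.2.2.2.1 hl.2.2.2.2.2.1 hl.2.2.2.2.2.2.1
  have c3 := c2.mul h (CovX.c n)
  have w3 := cj_mul w2 (cjφ (φ.comp ιX) e1)
  have s3 := cj_mul s2 (cjφ (φ.comp ιX) e2)
  have r3 := e3.imp (fun e => cj_mul (hβ xr).symm (cjφ (φ.comp ιX) e)) fun e => cj_mul (hβ xr).symm (cjφ (φ.comp ιX) e)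
  generalize _ * ρ = ρ at c3 w3 s3 r3
  simp only [MonoidHom.comp_apply, map_mul, ixw, ixs, ixr] at w3 s3 r3
  have k : ∀ {a b : G}, ρ * ρ * a * (ρ * ρ)⁻¹ = b → (ρ * ρ)⁻¹ * b * (ρ * ρ)⁻¹⁻¹ = a := cj_inv
  refine ⟨(ρ * ρ)⁻¹, ⟨k (cj_mul c3.2 (c3.three h vv)), k (cj_mul (c3.three h vv) c3.1)⟩, k (cj_mul w3 w3),
    k (cj_mul s3 s3), k ?_⟩
  rcases r3 with r3 | r3
  · exact cj_mul r3 r3
  · rw [cj_mul r3 (cj_pr s3 r3), ← map_mul, ← map_mul, ← map_mul, ← map_mul, Y1.2.2.2.2.1]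

variable (φ) in
/-- the centraliser of the pure subgroup of order eight -/
def CR : Subgroup G := Cx(ψ yw) ⊓ Cx(ψ ys) ⊓ Cx(ψ yr)

theorem CR.of {y : GY} (hy : y ∈ [y1, y2, y3, yv, yt]) : ψ y ∈ CR φ := by
  obtain ⟨a, b, c⟩ := Y6.2.2.2.2.2.2.2.2.2.1 y hy
  refine ⟨⟨mem_Cx.2 ?_, mem_Cx.2 ?_⟩, mem_Cx.2 ?_⟩ <;> simp only [← map_mul, a, b, c]

theorem CR.r {x : G} (hx : x ∈ CR φ) {r : ℕ} (hr : r ∈ LR) : x * ψ (kY r) = ψ (kY r) * x := by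
  obtain ⟨i, -, j, -, k, -, e⟩ := (Y3 r hr).1
  rw [e]
  simp only [map_mul, map_pow]
  exact ((Commute.pow_right (mem_Cx.1 hx.1.1) i).mul_right (Commute.pow_right (mem_Cx.1 hx.1.2) j)).mul_right
    (Commute.pow_right (mem_Cx.1 hx.2) k)

theorem CR.r' {x : G} (hx : x ∈ CR φ) {r : GY} (hr : r.1 ∈ LR) : x * ψ r = ψ r * x :=
  (show kY r.1 = r from r.mk_val) ▸ CR.r hx hr

theorem CR.cj {x g : G} (hx : x ∈ CR φ) {a b c : GY} (ha : g * ψ a * g⁻¹ = ψ yw) (hb : g * ψ b * g⁻¹ = ψ ys)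
    (hc : g * ψ c * g⁻¹ = ψ yr) (l : a.1 ∈ LR ∧ b.1 ∈ LR ∧ c.1 ∈ LR) : g * x * g⁻¹ ∈ CR φ :=
  ⟨⟨mem_Cx.2 (ccj (CR.r' hx l.1) ha), mem_Cx.2 (ccj (CR.r' hx l.2.1) hb)⟩,
    mem_Cx.2 (ccj (CR.r' hx l.2.2) hc)⟩

theorem inJ (h : Hy φ) {x : G} (hx : x ∈ CR φ) (c : x * φ bt = φ bt * x) :
    ∃ r ∈ LR, ∃ c < 32, x = ψ (kY r * pr yt y1 y2 y3 c) := by
  obtain ⟨b, rfl⟩ := (h.rng x).1 c
  obtain ⟨a, rfl⟩ := inY (cw_iff.1 ((show ιY yw = bw from iyw) ▸ h.comm.1 (mem_Cx.1 hx.1.1)))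
  have k : ∀ {y : GY}, ψ a ∈ Cx(ψ y) → a * y = y * a := fun e =>
    SE.ι_inj (by rw [map_mul, map_mul]; exact h.comm.1 (mem_Cx.1 e))
  rcases F10 a (k hx.1.2) (k hx.2) with e | e
  · obtain ⟨r, hr, c, hc, e⟩ := (Y2 _ e).1
    exact ⟨r, hr, c, hc, congrArg (fun b => ψ b) (a.mk_val.symm.trans e)⟩
  · obtain ⟨r, hr, c, hc, e⟩ := (Y2 _ e).2
    exact ⟨r, hr, c, hc, congrArg (fun b => ψ b) (by rw [← e, show kY (a * yv).1 = a * yv from SE.mk_val _, mul_inv_cancel_right])⟩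

theorem cj_prc {y : G} {a0 a1 a2 a3 b0 b1 b2 b3 : GY} (e0 : y * ψ a0 * y⁻¹ = ψ b0) (e1 : y * ψ a1 * y⁻¹ = ψ b1)
    (e2 : y * ψ a2 * y⁻¹ = ψ b2) (e3 : y * ψ a3 * y⁻¹ = ψ b3) (e4 : y * ψ yv * y⁻¹ = ψ yv) (c : ℕ) :
    y * ψ (pr a0 a1 a2 a3 c) * y⁻¹ = ψ (pr b0 b1 b2 b3 c) := by
  simp only [pr, map_mul, map_pow]
  rw [← e0, ← e1, ← e2, ← e3]
  conv_rhs => rw [← e4]
  simp only [conj_pow, conj_mul]

theorem fake (h : Hy φ) (e : IsConj (φ bt) (φ bv)) : IsConj (φ bt) (φ bz) := by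
  by_contra nz
  obtain ⟨ρ, ⟨c1, c2⟩, hw, hs, hr⟩ := rhoX h e nz
  have c3 := Cy.three h vv ⟨c1, c2⟩
  have mρ : ρ ∈ CR φ := ⟨⟨mem_Cx'.2 hw, mem_Cx'.2 hs⟩, mem_Cx'.2 hr⟩
  rw [← eyt, ← eyv] at c1 c2 c3
  rw [← map_mul, ← map_mul] at c2 c3
  have i : ∀ {a b : GY}, ψ a = ψ b → a = b := fun e => SE.ι_inj (h.inj e)
  have cj : ∀ {g a b : GY}, g * a * g⁻¹ = b → ψ g * ψ a * (ψ g)⁻¹ = ψ b := fun e => cjφ (φ.comp ιY) e
  have mm : ∀ a b : GY, ψ (a * b) = ψ a * ψ b := fun a b => by rw [map_mul, map_mul]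
  have tc : ∀ a : GY, ψ a * ψ yt = ψ yt * ψ a := fun a => eyt ▸ h.tc _
  obtain ⟨f1, f2, f3, f4, f5, f6, f7, f8, f9, -, g1, g2, g3, g4, g5, g6⟩ := Y6
  have m1 : ψ y1 ∈ CR φ := CR.of (by simp)
  have mv : ψ yv ∈ CR φ := CR.of (by simp)
  have mt : ψ yt ∈ CR φ := CR.of (by simp)
  have sc : ∀ {g x a b c d : G}, g * a * g⁻¹ = b → g * c * g⁻¹ = d → x * a * x⁻¹ = c →
      g * x * g⁻¹ * b * (g * x * g⁻¹)⁻¹ = d := fun e1 e2 e3 => by rw [← e1, ← e2, ← e3]; group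
  obtain ⟨y, hy⟩ : ∃ y, y = ρ * ψ y1 * ρ⁻¹ := ⟨_, rfl⟩
  have my : y ∈ CR φ := hy ▸ mul_mem (mul_mem mρ m1) (inv_mem mρ)
  have yt' : y * ψ yt * y⁻¹ = ψ (yw * yt) := hy ▸ sc c3 (by rw [mm yw, mm yw, cj_pr hw c3]) (cj f4)
  have yv' : y * ψ yv * y⁻¹ = ψ yv := hy ▸ sc c1 c1 (cj_cm (tc _))
  have yy : y * y = ψ yw := by rw [hy, conj_mul, ← mm, f1, hw]
  have al : ∀ x ∈ CR φ, x * ψ yt = ψ yt * x → ∃ r ∈ LR, ∃ c < 32, y * x * y⁻¹ = ψ (kY r * pr yt y1 y2 y3 c) :=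
    fun x hx c => inJ h (mul_mem (mul_mem my hx) (inv_mem my)) (by
      have := ccj (cmul (mem_Cx.1 hx.1.1) c) (cj_pr (mem_Cx'.1 my.1.1) yt')
      rwa [← mm, ← mul_assoc, show yw * yw = 1 by decide +kernel, one_mul, eyt] at this)
  have aj : ∀ a ∈ [y1, y2, y3, yv, yt], ∀ b : GY, a * a = b → y * ψ b * y⁻¹ = ψ b → ∃ n : GY, y * ψ a * y⁻¹ = ψ n ∧
      (b = yw → n.1 ∈ LJ.getD 0 []) ∧ (b = ys → n.1 ∈ LJ.getD 1 []) ∧ (b = yr → n.1 ∈ LJ.getD 2 []) :=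
    fun a ha b e1 e2 => by
      obtain ⟨r, hr, c, hc, e⟩ := al _ (CR.of ha) (tc a)
      have := i (a := kY r * pr yt y1 y2 y3 c * (kY r * pr yt y1 y2 y3 c)) (b := b) (by rw [mm, ← e, conj_mul, ← mm, e1, e2])
      exact ⟨_, e, this ▸ Y5 r hr c hc⟩
  obtain ⟨n1, a1, l1, -⟩ := aj y1 (by simp) _ f1 (mem_Cx'.1 my.1.1)
  obtain ⟨n2, a2, -, l2, -⟩ := aj y2 (by simp) _ f2 (mem_Cx'.1 my.1.2)
  obtain ⟨n3, a3, -, -, l3⟩ := aj y3 (by simp) _ f3 (mem_Cx'.1 my.2)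
  have apr := cj_prc yt' a1 a2 a3 yv'
  have inv : ∀ k ∈ [k1, k2], ∀ a ∈ [y1, y2, y3, yv, yt], ∀ n x : GY, y * ψ a * y⁻¹ = ψ n →
      y * ψ (k * a * k⁻¹) * y⁻¹ = ψ x → k * n * k⁻¹ = x := fun k hk a ha n x e1 e2 => by
    obtain ⟨p1, -, -, -, p5⟩ := Y4 k hk
    have q : ∀ z ∈ CR φ, ψ k * z * (ψ k)⁻¹ ∈ CR φ := fun z hz => CR.cj hz (a := k⁻¹ * yw * k) (b := k⁻¹ * ys * k)
      (c := k⁻¹ * yr * k) (cj (by group)) (cj (by group)) (cj (by group)) ((by decide +kernel : ∀ k ∈ [k1, k2],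
        (k⁻¹ * yw * k).1 ∈ LR ∧ (k⁻¹ * ys * k).1 ∈ LR ∧ (k⁻¹ * yr * k).1 ∈ LR) k hk)
    obtain ⟨r, hr, c, hc, e⟩ := inJ h (mul_mem (inv_mem mρ) (q ρ mρ)) (eyt ▸ cm_cj (by
      have := cj_mul (sc (cj_cm (tc k)) (cj (cj_cm p1)) c1) (cj_inv c1)
      exact this))
    have e3 : ψ k * y * (ψ k)⁻¹ = ψ (kY r * pr yt y1 y2 y3 c * (k * y1 * k⁻¹) * (kY r * pr yt y1 y2 y3 c)⁻¹ * y1⁻¹) * y := by
      rw [hy, ← mul_assoc _ (ρ * _) ρ⁻¹, ← mul_assoc _ (ρ * _) ρ⁻¹, ← mul_assoc _ ρ, ← mul_assoc _ ρ,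
        ← CR.r' mρ (p5 r hr c hc), mul_assoc ρ, ← mm, inv_mul_cancel_right,
        ← cj (a := k * y1 * k⁻¹) rfl, ← e, ← cj (a := y1) rfl]
      group
    have mx : ψ x ∈ CR φ := e2 ▸ mul_mem (mul_mem my (cj (g := k) (a := a) rfl ▸ q _ (CR.of ha))) (inv_mem my)
    refine i ((cj rfl).symm.trans ((sc (cj rfl) rfl e1).symm.trans ?_))
    rw [e3]
    exact cj_mul e2 (cj_cm (CR.r' mx (p5 r hr c hc)).symm)
  have ar : ∀ r ∈ LR, ∀ c, y * ψ (kY r * pr yt y1 y2 y3 c) * y⁻¹ = ψ (kY r * pr (yw * yt) n1 n2 n3 c) := fun r hr c => by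
    rw [mm, mm, cj_pr (cj_cm (CR.r my hr)) (apr c)]
  have k0 : ∀ a : GY, kY a.1 = a := SE.mk_val
  obtain ⟨p, -, hp⟩ := Y7 _ (l1 rfl) (by rw [k0]; exact inv _ (by simp) _ (by simp) _ _ a1 (by rw [g5, a1]))
    (by rw [k0]; exact inv _ (by simp) _ (by simp) _ _ a1 (by rw [g6, a1])) _ (l2 rfl) _ (l3 rfl)
    (by simp only [k0]; exact inv _ (by simp) _ (by simp) _ _ a2 (by rw [g1, ar _ (by decide)]))
    (by simp only [k0]; exact inv _ (by simp) _ (by simp) _ _ a2 (by rw [g3, ar _ (by decide)]))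
    (by simp only [k0]; exact inv _ (by simp) _ (by simp) _ _ a3 (by rw [g2, ar _ (by decide)]))
    (by simp only [k0]; exact inv _ (by simp) _ (by simp) _ _ a3 (by rw [g4, ar _ (by decide)]))
  simp only [k0] at hp
  have cos : ∀ x ∈ CR φ, x * ψ yt * x⁻¹ = ψ (yw * yt) → x * x = 1 → ∃ r ∈ LR, ∃ c,
      x = ψ (kY r) * (ψ (pr yt y1 y2 y3 c) * y) ∧ (c = 1 ∨ c = 17 ∨ c = p.1 ∨ c = p.2) := fun x hx e1 e2 => by
    obtain ⟨r, hr, c, hc, e⟩ := inJ h (mul_mem hx (inv_mem my)) (eyt ▸ cm_cj (by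
      have q : ∀ {z}, z ∈ CR φ → z * ψ yt * z⁻¹ = ψ (yw * yt) → z * ψ (yw * yt) * z⁻¹ = ψ yt := fun hz e => by
        rw [mm, cj_pr (mem_Cx'.1 hz.1.1) e, ← mm, ← mul_assoc, show yw * yw = 1 by decide +kernel, one_mul]
      exact cj_mul (cj_inv (q my yt')) (q hx e1)))
    have e3 : x = ψ (kY r) * (ψ (pr yt y1 y2 y3 c) * y) := by rw [← mul_assoc, ← mm, ← e, inv_mul_cancel_right]
    refine ⟨r, hr, c, e3, hp c hc (i ?_)⟩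
    have e4 : ψ (kY r) * ψ (kY r) = 1 := by rw [← mm, (Y3 r hr).2.1, map_one, map_one]
    have e5 := CR.r hx hr
    rw [mm, mm, ← apr, ← yy, map_one, map_one, ← e2]
    calc _ = ψ (kY r) * (ψ (kY r) * (ψ (pr yt y1 y2 y3 c) * y)) * (ψ (kY r))⁻¹ * (ψ (kY r) *
        (ψ (pr yt y1 y2 y3 c) * y)) := by rw [← mul_assoc (ψ (kY r)), e4]; group
      _ = x * x := by rw [← e3, ← e5, mul_inv_cancel_right]
  have nT : ∀ σ ∈ CR φ, ∀ r : GY, r.1 ∈ LR → ∀ s, s = yv ∨ s = yt * yv →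
      ¬ IsConj (φ bt) (ψ r * (σ * ψ (y1 * s) * σ⁻¹)) := fun σ hσ r hr s hs c => nz (by
    obtain ⟨n, -, -, -, q1, q2⟩ := (Y3 _ hr).2.2.2.2.2
    rw [k0] at q1 q2
    refine (c.trans (icj σ (cj_pr (cj_cm (CR.r' hσ hr)) rfl)).symm).trans ?_
    rw [← mm, ← mul_assoc]
    rcases hs with rfl | rfl
    exacts [(icj _ (cj q1)).symm.trans (h.isConj (cW Y8)).symm, (icj _ (cj q2)).symm.trans (h.isConj (cW Y9)).symm])
  have m2 := mul_mem mρ mρ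
  have d1 := cj_mul c2 c3
  have d2 := cj_mul c3 c1
  have two : ∀ s, s = yv ∨ s = yt * yv → ∃ r ∈ LR, ∃ c, ρ * ρ * ψ (y1 * s) * (ρ * ρ)⁻¹ =
      ψ (kY r) * (ψ (pr yt y1 y2 y3 c) * y) ∧ (c = p.1 ∨ c = p.2) := fun s hs => by
    obtain ⟨q1, q2, q3⟩ : y1 * s * yv * (y1 * s)⁻¹ = yw * yv ∧ y1 * s * (y1 * s) = 1 ∧
        y1 * s * (yt * yv) * (y1 * s)⁻¹ = yw * (yt * yv) := by
      rcases hs with rfl | rfl <;> decide +kernel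
    obtain ⟨r, hr, c, e1, e2⟩ := cos _ (mul_mem (mul_mem m2 (a := ρ * ρ) (b := ψ (y1 * s)) (by
        rw [mm]; rcases hs with rfl | rfl
        exacts [mul_mem m1 mv, mul_mem m1 (mm _ _ ▸ mul_mem mt mv)])) (inv_mem m2))
      (sc d1 (by rw [mm yw, mm yw, cj_pr (mem_Cx'.1 m2.1.1) d1]) (cj q1))
      (by rw [conj_mul, ← mm, q2, map_one, map_one, mul_one, mul_inv_cancel])
    have q4 := sc d2 (cj_pr (mem_Cx'.1 m2.1.1) d2) ((cj q3).trans (mm _ _))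
    have q5 : ∀ a, a * yv * a⁻¹ = yv → pr yt y1 y2 y3 c ≠ a := fun a ea e => by
      rw [e1, e, cj_mul (cj_mul yv' (cj ea)) (cj_cm (CR.r mv hr).symm), ← mm] at q4
      exact absurd (i q4) (by decide +kernel)
    refine ⟨r, hr, c, e1, ?_⟩
    rcases e2 with rfl | rfl | e2
    exacts [absurd (by decide +kernel) (q5 yt (by decide +kernel)),
      absurd (by decide +kernel) (q5 (yt * yv) (by decide +kernel)), e2]
  obtain ⟨r1, hr1, u1, p1, t1⟩ := two _ (Or.inl rfl)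
  obtain ⟨r2, hr2, u2, p2, t2⟩ := two _ (Or.inr rfl)
  have dif : ∀ {x z : G} {r r' : ℕ} {a : G}, x = ψ (kY r) * a → z = ψ (kY r') * a → x = ψ (kY r * (kY r')⁻¹) * z :=
    fun e1 e2 => by rw [e1, e2, mm, map_inv, map_inv]; group
  have ne : u1 ≠ u2 := fun e => by
    have q := dif p1 (e ▸ p2)
    have l := (Y3 _ hr1).2.2.2.2.1 _ hr2
    rw [← cj_cm (CR.r' m2 l), conj_mul, mul_left_inj, mul_right_inj, ← mm] at q
    exact (by decide +kernel : ∀ r ∈ LR, y1 * yv ≠ kY r * (y1 * (yt * yv))) _ l (by rw [k0]; exact i q)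
  obtain ⟨o1, o2, o3, o4⟩ := Y11
  have l' : ∀ {a b : GY}, P.eq (tl⁻¹ * mY a * tl) (mY b) = true →
      φ (tl.val P.ev) * ψ b * (φ (tl.val P.ev))⁻¹ = ψ a := fun e => cjφ φ (by
    rw [← show _ = ιY _ from P.of_eq e, Tm.val_mul, Tm.val_mul, Tm.val_inv, tm_val]; group)
  have m3 : ψ (y2 * yv) ∈ CR φ := mm _ _ ▸ mul_mem (CR.of (by simp)) mv
  have tm : IsConj (φ bt) (φ (tl.val P.ev) * (ρ * ψ (y2 * yv) * ρ⁻¹) * (φ (tl.val P.ev))⁻¹) :=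
    (e.trans (h.isConj (cW Y10))).trans ((icj ρ rfl).trans (icj _ rfl))
  obtain ⟨r, hr, c, e1, e2⟩ := cos _ (CR.cj (mul_mem (mul_mem mρ m3) (inv_mem mρ)) (l' o2) (l' o3) (l' o4)
      (by decide +kernel))
    (sc (cj_cm (eyt ▸ h.tc _)) ((congrArg (fun z => _ * z * _) (mm ys yt)).trans ((cj_pr (cjφ φ (P.of_eq o1))
      (cj_cm (eyt ▸ h.tc _))).trans (mm yw yt).symm))
      (sc c3 (by rw [mm ys, mm ys, cj_pr hs c3]) (cj (b := ys * (yt * yv)) (by decide +kernel))))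
    (by rw [conj_mul, conj_mul, ← mm, f7]; simp)
  have fin : ∀ s s', s = yv ∨ s = yt * yv → ρ * ψ s * ρ⁻¹ = ψ s' → s * y1 = yw * (y1 * s) →
      pr yt y1 y2 y3 c ≠ s' := fun s s' hs q1 q2 q3 => nT ρ mρ (kY r * yw⁻¹) ((Y3 r hr).2.2.2.2.1 _ (by decide)) s hs (by
    rw [e1, q3, ← q1, hy, conj_mul, ← mm s, q2, mm yw, cj_pr hw rfl, ← mul_assoc, ← mm] at tm
    rwa [show yw⁻¹ = yw by decide +kernel])
  have l := (Y3 r hr).2.2.2.2.1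
  rcases e2 with rfl | rfl | e2
  · exact fin _ _ (Or.inr rfl) c3 (by decide +kernel) (by decide +kernel)
  · exact fin _ _ (Or.inl rfl) c2 (by decide +kernel) (by decide +kernel)
  · obtain rfl | rfl : c = u1 ∨ c = u2 := by omega
    exacts [nT _ m2 _ (l _ hr1) _ (Or.inl rfl) (dif e1 p1 ▸ tm), nT _ m2 _ (l _ hr2) _ (Or.inr rfl) (dif e1 p2 ▸ tm)]
end CfH1.HN
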