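import Cfsg.Agent.OD.Pre
import Cfsg.Agent.H1.HN7
import Cfsg.Agent.H1.HNF3
import Cfsg.Agent.H1.Carm
import Cfsg.Agent.H2.AltAut
import Cfsg.Agent.H4.D8b
/-! Fusion of involutions; the element of order three centralising `A₈`; the centraliser of `A₆`. -/
set_option autoImplicit false
set_option maxRecDepth 100000
open Cfsg CfH6 CfL CfH9 MulAction Subgroup
namespace CfH1.HN
variable {G : Type*} [Group G] {φ : B →* G}
local notation "ψ" a:max => φ (ιY a)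
local notation "α" a:max => φ (ιA a)

theorem CovA : Cov ιA bz := CovA' (h := fun x hx => let ⟨p, _, e⟩ := A10 x hx; ⟨p, e⟩)
theorem eaU : ιA aU = bu := iaU
theorem kA0 (a : GA) : kA a.1 = a := a.mk_val

theorem invA {a : GA} (h : a * a = 1) : a = 1 ∨ IsConj a aU ∨ IsConj a aW := by
  obtain ⟨p, hp, e⟩ := A1 a h
  rw [SE.of_val e]
  exact (A2 p hp).imp (fun e => by rw [e]; rfl) (Or.imp (icj _) (icj _))

theorem cjA {a b : GA} (e : IsConj a b) {s : B} (hs : s = bt ∨ s = bz) : IsConj (s * ιA b) (s * ιA a) := by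
  obtain ⟨n, e⟩ := isConj_iff.1 e
  refine (icj (ιA n) (cj_pr (cj_cm ?_) (cjφ ιA e))).symm
  rcases hs with rfl | rfl
  exacts [(t_comm _).symm, CovA.c n]

theorem clA (a : GA) (h : a * a = 1) : a = 1 ∨ (IsConj bz (bz * ιA a) ∧ IsConj bu (bt * ιA a)) ∨
    (IsConj bw (bt * ιA a) ∧ IsConj bv (bz * ιA a)) :=
  (invA h).imp_right fun e => e.symm.imp (fun e => ⟨(cW A15).trans (cjA e (Or.inr rfl)), (cW A14).trans (cjA e (Or.inl rfl))⟩)
    fun e => ⟨by have := cjA e (Or.inl rfl); rwa [eaU, t_comm] at this, (cW A16).trans (cjA e (Or.inr rfl))⟩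

theorem cU {a : GA} {n : GA} (e : n * a * n⁻¹ = aU) (hu : IsConj (φ bt) (φ bu)) : IsConj (φ bt) (α a) :=
  hu.trans (eaU ▸ (icj _ (cjφ (φ.comp ιA) e)).symm)

namespace Pin
variable (h : Hy φ)
include h

theorem tz [Finite G] [IsSimpleGroup G] : IsConj (φ bt) (φ bz) := by
  rcases h.fused.2 with e | e | e
  · obtain ⟨-, -, a1, -, a2, -, a3⟩ := A13
    obtain ⟨g, h1, h2⟩ := h.pure (a := α aU) (b := α ae0) (by simp only [← map_mul, a3]) (eaU ▸ e) (cU a1 e)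
      (by simp only [← map_mul]; exact cU a2 e)
    exact h2.elim (fun h2 => (cU a1 e).trans (icj g h2)) fun h2 => fake h ((cU a1 e).trans (icj g h2))
  exacts [e, fake h e]

variable (hz : IsConj (φ bt) (φ bz))
include hz

theorem tu_vw : IsConj (φ bt) (φ bu) ∧ IsConj (φ bw) (φ bv) := by
  obtain ⟨g, h1, h2⟩ := h.swp hz (by simp)
  have key := fun a => CovA.fus h h1 h2 (fun a => IsConj bz (bz * ιA a) ∧ IsConj bu (bt * ιA a))
    (fun a e => (clA a e).imp_right (Or.imp_right And.left)) (fun a e => e.1) (a := a)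
  constructor
  · obtain ⟨b, e1, -, -, e2, -⟩ := key aW (by decide +kernel) (by decide +kernel)
    exact (hz.trans (h.isConj (e2 ⟨cW A15, cW A14⟩).1)).trans
      ((icj g (by rw [map_mul, map_mul, cj_pr h2 e1.symm])).symm.trans (h.isConj (b := bt * ιA aW) (cW A14)).symm)
  · obtain ⟨b, e1, e2, e3, -, e4⟩ := key aU (by decide +kernel) (by decide +kernel)
    have k : IsConj bw (bt * ιA aU) := by rw [eaU, t_comm]
    exact ((h.isConj k).trans (icj g (by rw [map_mul, map_mul, cj_pr h2 e1.symm]))).trans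
      (h.isConj (((clA b e2).resolve_left e3).resolve_left (e4 k)).2).symm

theorem notv : ¬ IsConj (φ bt) (φ bv) := fun e => h.notw (e.trans (h.tu_vw hz).2.symm)

theorem pureZ {a b : G} (c : a * b = b * a) (ha : IsConj (φ bt) a) (hb : IsConj (φ bt) b)
    (hab : IsConj (φ bt) (a * b)) : ∃ g, g * a * g⁻¹ = φ bt ∧ g * b * g⁻¹ = φ bz := by
  obtain ⟨g, h1, h2⟩ := h.pure c ha hb hab
  exact ⟨g, h1, h2.resolve_right fun e => h.notv hz (hb.trans (icj g e))⟩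
end Pin

theorem cV (h : Hy φ) {x : G} (c1 : x * φ bt = φ bt * x) (c2 : x * φ bz = φ bz * x)
    (c3 : ∀ a, x * α a = α a * x) : x = 1 ∨ x = φ bt ∨ x = φ bz ∨ x = φ bt * φ bz := by
  obtain ⟨b, rfl⟩ := (h.rng x).1 c1
  obtain ⟨a, e⟩ := CovA.cov b (h.comm.1 c2)
  have k : ∀ c : B, (∀ a, c * ιA a = ιA a * c) → b = c * ιA a → φ b = φ c := fun c hc e => by
    have q : ∀ d, a * d = d * a := fun d => SE.ι_inj (by
      have := h.comm.1 (c3 d)
      rwa [e, mul_assoc, ← mul_assoc (ιA d), ← hc, mul_assoc, mul_right_inj, ← map_mul, ← map_mul] at this)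
    rw [e, A9 a (q _) (q _) (q _), map_one, mul_one]
  rcases e with e | e | e | e
  · exact Or.inl ((k 1 (by simp) (by simpa using e)).trans (map_one φ))
  · exact Or.inr (Or.inl (k _ (fun _ => t_comm _) e))
  · exact Or.inr (Or.inr (Or.inl (k _ (fun a => (CovA.c a).symm) e)))
  · exact Or.inr (Or.inr (Or.inr ((k _ (fun a => (cmul (CovA.c a) (t_comm _).symm).symm) e).trans
      ((map_mul _ _ _).trans (h.tc _)))))

theorem sA_gen (K : Subgroup GA) (h : ∀ i : Fin 6, sA i ∈ K) : K = ⊤ :=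
  SE.top_of fun x hx => memE (A11.2 x hx).1 (evw_mem (fun y hy => h ⟨y, hy⟩) (A11.2 x hx).2)

theorem autA (β : MulAut GA) : ∃ n, ∀ a, β (β (β (β a))) = n * a * n⁻¹ := by
  obtain ⟨f, hf⟩ := carmA (fun i : Fin 6 => sA i) (fun i => (pow_three' _).trans (A11.1 i i.2).1)
    (fun i j e => (sq _).trans ((A11.1 i i.2).2 j j.2 fun c => e (Fin.ext c))) (by decide +kernel) (by decide +kernel)
  have c := cg_card 6
  let e := MulEquiv.ofBijective f ((MonoidHom.range_eq_top.1 (sA_gen _ fun i => ⟨_, hf i⟩)).bijective_of_nat_card_le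
    (by rw [SE.card, show TA.N = 20160 from rfl]; simp only [Nat.factorial] at c; omega))
  obtain ⟨g, hg⟩ := CfH2.aut_pow_four (by simp) (e.trans (β.trans e.symm))
  refine ⟨e g, fun a => ?_⟩
  have := congrArg (fun γ : MulAut _ => e (γ (e.symm a))) hg
  simpa [pow_succ] using this

variable (φ) in
structure Rho (ρ : G) : Prop where
  cy : Cy φ bz ρ
  c3 : ρ * ρ * ρ = 1
  cA : ∀ a, ρ * α a = α a * ρ
  e : φ be * ρ * (φ be)⁻¹ = ρ⁻¹

theorem ez' : be * bz * be⁻¹ = bt * bz := P.E (te * tz * te⁻¹) (tt * tz)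

theorem rho (h : Hy φ) (hz : IsConj (φ bt) (φ bz)) : ∃ ρ, Rho φ ρ := by
  obtain ⟨g, h1, h2⟩ := h.swp hz (by simp)
  have c0 := Cy.of h h1 h2 ez'
  generalize g * _ = σ at c0
  obtain ⟨β, hβ⟩ := CovA.aut h (c0.nv h zz)
  obtain ⟨n, hn⟩ := autA β
  have c0' := c0.three h zz
  have c1 : Cy φ bz (σ * (σ * (σ * σ))) := ⟨cj_mul (cj_mul (cj_mul c0.1 c0.2) c0') c0.1,
    cj_mul (cj_mul (cj_mul c0.2 c0') c0.1) c0.2⟩
  have c2 := c1.mul h (CovA.c n⁻¹)
  have cA : ∀ a, α n⁻¹ * (σ * (σ * (σ * σ))) * α a = α a * (α n⁻¹ * (σ * (σ * (σ * σ)))) := fun a =>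
    cm_cj (cj_mul (cj_mul (cj_mul (cj_mul (hβ a).symm (hβ _).symm) (hβ _).symm) (hβ _).symm)
      (cjφ (φ.comp ιA) (by rw [hn]; group)))
  generalize _ * (σ * _) = ρ at c2 cA
  have c3 := c2.three h zz
  have n1 : φ bt ≠ φ bz := fun e => P.N tt tz (by decide +kernel) (h.inj e)
  have n2 : φ bz ≠ φ bt * φ bz := fun e => P.N tz (tt * tz) (by decide +kernel) (h.inj (e.trans (map_mul _ _ _).symm))
  have n3 : φ bt * φ bz ≠ φ bt := fun e => P.N (tt * tz) tt (by decide +kernel) (h.inj ((map_mul _ _ _).trans e))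
  have z2 : φ bz * φ bz = 1 := by rw [← map_mul, zz, map_one]
  have r3 : ρ * ρ * ρ = 1 := by
    have f : ρ * (ρ * ρ * ρ) * ρ⁻¹ = ρ * ρ * ρ := by group
    rcases cV h (x := ρ * ρ * ρ) (cm_cj (by simpa only [mul_assoc] using cj_mul (cj_mul c2.1 c2.2) c3))
      (cm_cj (by simpa only [mul_assoc] using cj_mul (cj_mul c2.2 c3) c2.1))
      (fun a => (cmul (cmul (cA a).symm (cA a).symm) (cA a).symm).symm) with e | e | e | e
    · exact e
    all_goals rw [e] at f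
    exacts [absurd (f.symm.trans c2.1) n1, absurd (f.symm.trans c2.2) n2, absurd (f.symm.trans c3) n3]
  have e1 : φ be * φ bt * (φ be)⁻¹ = φ bt := cj_cm (h.tc _)
  have e2 : φ be * φ bz * (φ be)⁻¹ = φ bt * φ bz := (cjφ φ ez').trans (map_mul _ _ _)
  have e3 : φ be * (φ bt * φ bz) * (φ be)⁻¹ = φ bz := by rw [cj_pr e1 e2, ← mul_assoc, h.t2, one_mul]
  have ee : φ be * φ be = 1 := by rw [← map_mul, show be * be = 1 from P.E (te * te) 1, map_one]
  have eA : ∀ a, ∃ b, φ be * α a * (φ be)⁻¹ = α b := fun a => by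
    obtain ⟨b, e⟩ := (SE.top_of (K := ((φ.comp ιA).range.comap (MulAut.conj (φ be)).toMonoidHom).comap (φ.comp ιA))
      (fun x hx => ⟨_, (cjφ φ ((congrArg (fun b => be * b * be⁻¹) (P.of_eq ((by decide +kernel : ∀ x < 8,
        P.eq (mA (kA (TA.R x 0))) (Tm.l (16 + x)) = true) x hx))).trans (P.of_eq (A22 x hx)))).symm⟩)).ge (mem_top a)
    exact ⟨b, e.symm⟩
  have f1 := cj_mul c2.2 e3
  rcases cV h (x := φ be * ρ * (φ be * ρ)) (cm_cj (cj_mul (cj_mul c2.1 e2) (cj_mul c3 e1))) (cm_cj (cj_mul f1 f1))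
    (fun a => cm_cj (by
      obtain ⟨b, e⟩ := eA a
      refine cj_mul (cj_mul (cj_cm (cA a)) e) (cj_mul (cj_cm (cA b)) ?_)
      rw [← e, ← mul_assoc, ← mul_assoc, ee, one_mul, mul_assoc, ← mul_inv_rev, ee, inv_one, mul_one]))
    with e | e | e | e
  · exact ⟨ρ, c2, r3, cA, by rw [inv_eq_of_mul_eq_one_right ee, eq_inv_iff_mul_eq_one, mul_assoc, e]⟩
  · exact absurd ((cj_mul c2.1 e2).symm.trans (by rw [← e]; group)) n3
  · refine ⟨φ bz * ρ * (φ bz)⁻¹, ⟨?_, ?_⟩, by rw [conj_mul, conj_mul, r3]; simp,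
      fun a => ccj (cA a) (cj_cm (h.comm.2 (CovA.c a)).symm), ?_⟩
    · exact cj_mul (cj_inv (cj_cm (h.tc _))) (cj_mul c2.1 (cj_cm rfl))
    · exact cj_mul (cj_inv (cj_cm rfl)) (cj_mul c2.2 (cj_pr (cj_cm (h.tc _)) (cj_cm rfl)))
    · have zi := inv_eq_of_mul_eq_one_right z2
      have q : φ be * ρ * (φ be)⁻¹ = φ bz * ρ⁻¹ := by
        rw [inv_eq_of_mul_eq_one_right ee, eq_mul_inv_iff_mul_eq, mul_assoc, e]
      have q1 : φ bt * ρ⁻¹ = ρ⁻¹ * φ bz := by rw [← c2.1]; group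
      have q2 : φ bz * ρ⁻¹ = ρ⁻¹ * (φ bt * φ bz) := by rw [← c2.2]; group
      rw [zi, cj_pr (cj_pr e2 q) e2, mul_inv_rev, mul_inv_rev, zi, ← mul_assoc (φ bz), mul_assoc (φ bt), ← mul_assoc (φ bz), z2,
        one_mul, q1, q2, mul_assoc, mul_assoc, mul_assoc, z2, mul_one, ← mul_assoc (φ bz), h.tc,
        mul_assoc, z2, mul_one]
  · exact absurd ((cj_mul c3 e1).symm.trans (by rw [← e]; group)) n3.symm

open DihedralGroup in
noncomputable def δ : CfH4.D4 →* GY :=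
  MonoidHom.mk' (fun | r i => (yz * ye) ^ i.val | sr i => yz * (yz * ye) ^ i.val) (by decide +kernel)

variable (φ) in
/-- subgroups of the centraliser of `3² : 2` containing enough fusion -/
structure D8 (X : Subgroup G) : Prop where
  le : X ≤ Cx(α ap) ⊓ Cx(α aP) ⊓ Cx(α aU)
  z : φ bz ∈ X
  e : φ be ∈ X
  cz : ∃ g ∈ X, g * φ bt * g⁻¹ = φ bz
  ce : ∃ g ∈ X, g * φ bt * g⁻¹ = φ be

theorem inD8 (h : Hy φ) {x : G} (hx : x ∈ Cx(α ap) ⊓ Cx(α aP) ⊓ Cx(α aU)) (c : x * φ bt = φ bt * x) :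
    ∃ d, ψ (δ d) = x := by
  obtain ⟨b, rfl⟩ := (h.rng x).1 c
  obtain ⟨a, rfl⟩ := inY (eaU ▸ h.comm.1 (mem_Cx.1 hx.2))
  rcases F9 a with e | e | ⟨i, hi, e | e⟩
  · exact P.of_ne e (by have := h.comm.1 (mem_Cx.1 hx.1.1); rwa [iap] at this) |>.elim
  · exact P.of_ne e (by have := h.comm.1 (mem_Cx.1 hx.1.2); rwa [iaP] at this) |>.elim
  · exact ⟨.r i, by rw [e]; interval_cases i <;> rfl⟩
  · exact ⟨.sr i, by rw [e]; interval_cases i <;> rfl⟩

open DihedralGroup in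
theorem D8.card [Finite G] (h : Hy φ) {X : Subgroup G} (d : D8 φ X) : Nat.card X = 168 ∨ Nat.card X = 360 := by
  have ez : ιY yz = bz := iyz
  have ee : ιY ye = be := iye
  have m : ∀ w, (φ.comp ιY).comp δ w ∈ X := by
    have : (φ.comp ιY) yz ∈ X ∧ (φ.comp ιY) ye ∈ X := ⟨memE (congrArg φ ez) d.z, memE (congrArg φ ee) d.e⟩
    rintro (i | i)
    · exact memE (map_pow (φ.comp ιY) _ _) (pow_mem (map_mul (φ.comp ιY) _ _ ▸ mul_mem this.1 this.2) _)
    · exact memE (map_mul (φ.comp ιY) _ _) (mul_mem this.1 (memE (map_pow (φ.comp ιY) _ _)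
        (pow_mem (map_mul (φ.comp ιY) _ _ ▸ mul_mem this.1 this.2) _)))
  have e1 : ψ (δ (r 2)) = φ bt := by rw [show δ (r 2) = yt by decide +kernel, eyt]
  have e2 : ψ (δ (sr 0)) = φ bz := by rw [show δ (sr 0) = yz by decide +kernel, ez]
  have e3 : ψ (δ (sr 1)) = φ be := by rw [show δ (sr 1) = ye by decide +kernel, ee]
  have cm : CfH4.CM (((φ.comp ιY).comp δ).codRestrict X m) (r 2) := ⟨fun a b e =>
    (by decide +kernel : ∀ a b, δ a = δ b → a = b) a b (SE.ι_inj (h.inj (congrArg Subtype.val e))), by decide,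
    fun g hg => let ⟨w, e⟩ := inD8 h (d.le g.2) (e1 ▸ congrArg Subtype.val hg); ⟨w, Subtype.ext e⟩⟩
  obtain ⟨g, hg, c1⟩ := d.cz
  obtain ⟨k, hk, c2⟩ := d.ce
  exact cm.d8_order (icj ⟨g, hg⟩ (Subtype.ext (by rw [← e1, ← e2] at c1; exact c1)))
    (icj ⟨k, hk⟩ (Subtype.ext (by rw [← e1, ← e3] at c2; exact c2)))

theorem D8.eq [Finite G] (h : Hy φ) {L X : Subgroup G} (d : D8 φ L) (le : L ≤ X)
    (hX : X ≤ Cx(α ap) ⊓ Cx(α aP) ⊓ Cx(α aU)) : L = X := by
  have h1 := d.card h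
  have h2 := D8.card h ⟨hX, le d.z, le d.e, d.cz.imp fun _ e => ⟨le e.1, e.2⟩, d.ce.imp fun _ e => ⟨le e.1, e.2⟩⟩
  have h3 := card_dvd_of_le le
  refine eq_of_le_of_card_ge le ?_
  rcases h1 with h1 | h1 <;> rcases h2 with h2 | h2 <;> rw [h1, h2] at h3 ⊢ <;> omega
end CfH1.HN
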