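import Cfsg.Agent.OD.Pre
import Cfsg.Agent.H1.HN8
/-! The subgroup `A₁₂`. -/
set_option autoImplicit false
set_option maxRecDepth 100000
open Cfsg CfH6 CfL CfH9 MulAction Subgroup
namespace CfH1.HN
variable {G : Type*} [Group G] {φ : B →* G}
local notation "α" a:max => φ (ιA a)

theorem mmA (a b : GA) : α (a * b) = α a * α b := by rw [map_mul, map_mul]
theorem tr_mul {g x y : G} {X Y : GA} (h1 : g * x * g⁻¹ = α X) (h2 : g * y * g⁻¹ = α Y) :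
    g * (x * y) * g⁻¹ = α (X * Y) := (cj_pr h1 h2).trans (mmA _ _).symm
theorem tr_one (g : G) : g * 1 * g⁻¹ = α 1 := by simp
theorem tr_eq (h : Hy φ) {g x y : G} {X Y : GA} (h1 : g * x * g⁻¹ = α X) (h2 : g * y * g⁻¹ = α Y) : X = Y ↔ x = y :=
  ⟨fun e => by rw [← cj_inv h1, ← cj_inv h2, e], fun e => SE.ι_inj (h.inj (by rw [← h1, ← h2, e]))⟩

theorem three {x c d : GA} (x3 : x * x * x = 1) (x1 : x ≠ 1) (e1 : c * x = x * c) (e2 : d * x = x * d)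
    (c2 : c * c = 1) (d2 : d * d = 1) (e : c * d = d * c) (c1 : c ≠ 1) (d1 : d ≠ 1) (ne : c ≠ d) :
    ∃ p ∈ L112, x = kA p.1 := by
  rcases A3 x x3 with ⟨p, hp, e⟩ | ⟨p, hp, e'⟩
  · exact ⟨p, hp, SE.of_val e⟩
  rcases A4 p hp with q | q
  · exact absurd (Subtype.ext (e'.trans q)) x1
  rw [show kA p.1 = x from (SE.of_val e').symm] at q
  have k : ∀ {c : GA}, c * x = x * c → c * c = 1 → (kA p.2 * c * (kA p.2)⁻¹).1 ∈ L4 := fun e c2 =>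
    A6 _ (ccj e q) (by rw [conj_mul, c2]; simp)
  have k1 : ∀ {c : GA}, (kA p.2 * c * (kA p.2)⁻¹).1 = 0 → c = 1 := fun {c} e =>
    conj_eq_one_iff.1 (Subtype.ext e : kA p.2 * c * (kA p.2)⁻¹ = 1)
  rcases A6a _ (k e1 c2) _ (k e2 d2) (by rw [kA0, kA0, conj_mul, conj_mul, e]) with q | q | q
  · exact absurd (k1 q) c1
  · exact absurd (k1 q) d1
  · exact absurd (mul_left_cancel (mul_right_cancel (show kA p.2 * c * (kA p.2)⁻¹ =
      kA p.2 * d * (kA p.2)⁻¹ from Subtype.ext q))) ne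

variable (φ) in
abbrev VI : Subgroup G := Cx(α ai) ⊓ Cx(α ai2)

section
variable (h : Hy φ) {g : G} (g1 : g * φ (ιA ai) * g⁻¹ = φ bt) (g2 : g * φ (ιA ai2) * g⁻¹ = φ bz)
include h g1 g2

theorem trA {x : G} (hx : x ∈ VI φ) (x3 : x * x * x = 1) : ∃ X, g * x * g⁻¹ = α X := by
  have := mul_mem hx hx
  obtain ⟨a, e⟩ := CovA.sq h (ccj (mem_Cx.1 this.1) g1) (ccj (mem_Cx.1 this.2) g2)
  exact ⟨_, by rwa [conj_mul, ← mul_assoc (x * x), x3, one_mul] at e⟩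

theorem cyc3 {x a b : G} (hx : x ∈ VI φ) (ha : a ∈ VI φ) (hb : b ∈ VI φ) (x3 : x * x * x = 1) (a3 : a * a * a = 1)
    (b3 : b * b * b = 1) (x1 : x ≠ 1) (e1 : x * a = a * x) (e2 : x * b = b * x) (c2 : a * b * (a * b) = 1)
    (d2 : b * a * (b * a) = 1) (e : a * b * (b * a) = b * a * (a * b)) (c1 : a * b ≠ 1) (d1 : b * a ≠ 1)
    (ne : a * b ≠ b * a) : ∃ p ∈ L112, g * x * g⁻¹ = α (kA p.1) := by
  obtain ⟨X, hX⟩ := trA h g1 g2 hx x3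
  obtain ⟨A, hA⟩ := trA h g1 g2 ha a3
  obtain ⟨B, hB⟩ := trA h g1 g2 hb b3
  have c := tr_mul hA hB
  have d := tr_mul hB hA
  have o := tr_one (φ := φ) g
  obtain ⟨p, hp, rfl⟩ := three ((tr_eq h (tr_mul (tr_mul hX hX) hX) o).2 x3) (mt (tr_eq h hX o).1 x1)
    ((tr_eq h (tr_mul c hX) (tr_mul hX c)).2 (cmul e1 e2).symm) ((tr_eq h (tr_mul d hX) (tr_mul hX d)).2 (cmul e2 e1).symm)
    ((tr_eq h (tr_mul c c) o).2 c2) ((tr_eq h (tr_mul d d) o).2 d2) ((tr_eq h (tr_mul c d) (tr_mul d c)).2 e)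
    (mt (tr_eq h c o).1 c1) (mt (tr_eq h d o).1 d1) (mt (tr_eq h c d).1 ne)
  exact ⟨p, hp, hX⟩
end

namespace Rho
variable (h : Hy φ) {ρ : G} (r : Rho φ ρ)
include h r
local notation "ς" => φ bt * ρ⁻¹ * φ bt

omit h in
theorem cd : ρ * ς = φ bz * φ bt := by rw [← r.cy.1]; group
theorem dc : ς * ρ = φ bz := by
  have := cj_inv (r.cy.three h zz)
  rw [inv_inv] at this
  rw [mul_assoc, mul_assoc, ← mul_assoc ρ⁻¹, this, ← mul_assoc, h.t2, one_mul]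
theorem d3 : ς * ς * ς = 1 := by
  rw [show ς = φ bt * ρ⁻¹ * (φ bt)⁻¹ by rw [inv_eq_of_mul_eq_one_right h.t2], conj_mul, conj_mul, ← mul_inv_rev,
    ← mul_inv_rev, ← mul_assoc ρ, r.c3]; simp
theorem dA (a : GA) : ς * α a = α a * ς :=
  (cmul (cmul (h.tc _) (Commute.inv_right (r.cA a).symm)) (h.tc _)).symm

theorem d8 : D8 φ (Cx(α ap) ⊓ Cx(α aq)) := by
  have k : ∀ s : Tm, (P.eq (s * mA ap) (mA ap * s) && P.eq (s * mA aq) (mA aq * s)) = true →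
      φ (s.val P.ev) ∈ Cx(α ap) ⊓ Cx(α aq) := fun s e => by
    rw [Bool.and_eq_true] at e
    exact ⟨mem_Cx.2 (h.comm.2 (P.of_eq e.1)), mem_Cx.2 (h.comm.2 (P.of_eq e.2))⟩
  refine ⟨fun x hx => ?_, k tz (by decide +kernel), k te (by decide +kernel),
    ⟨ρ, ⟨mem_Cx.2 (r.cA _), mem_Cx.2 (r.cA _)⟩, r.cy.1⟩, (φ bm)⁻¹ * ρ * (φ bm)⁻¹⁻¹, ⟨mem_Cx.2 (ccj (r.cA (kA 811))
      (cj_inv (cjφ φ (by rw [iap]; exact P.of_eq A20.1)))), mem_Cx.2 (ccj (r.cA (kA 4529))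
      (cj_inv (cjφ φ (by rw [iaq]; exact P.of_eq A20.2))))⟩, ?_⟩
  · have q : ∀ y < 4, g7 y ∈ Cx(x).comap (φ.comp ιA) := fun y hy => by
      have p1 : ap ∈ Cx(x).comap (φ.comp ιA) := mem_Cx.2 (mem_Cx.1 hx.1).symm
      have p2 : aq ∈ Cx(x).comap (φ.comp ιA) := mem_Cx.2 (mem_Cx.1 hx.2).symm
      interval_cases y
      exacts [p1, inv_mem p1, p2, inv_mem p2]
    have q1 : aP ∈ Cx(x).comap (φ.comp ιA) := memE A19.1 (evw_mem q (by decide))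
    have q2 : aU ∈ Cx(x).comap (φ.comp ιA) := memE A19.2 (evw_mem q (by decide))
    exact ⟨⟨hx.1, mem_Cx.2 (mem_Cx.1 q1).symm⟩, mem_Cx.2 (mem_Cx.1 q2).symm⟩
  · refine cj_mul (cj_inv (cj_inv (cj_cm (h.tc _)))) (cj_mul r.cy.1 ?_)
    rw [← map_inv]
    exact cjφ φ (P.E (tm⁻¹ * tz * tm⁻¹⁻¹) te)
end Rho

variable (φ) in
structure Sig (ρ σ : G) : Prop where
  c3 : σ * σ * σ = 1
  r1 : ρ * σ * (ρ * σ) = 1
  r2 : φ bt * ρ⁻¹ * φ bt * σ * (φ bt * ρ⁻¹ * φ bt * σ) = 1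
  c7 : ∀ w, α (evw g7 w) * σ = σ * α (evw g7 w)
  r3 : σ * α aV * σ * α aV * (σ * α aV * σ * α aV) = 1

theorem sig [Finite G] (h : Hy φ) (hz : IsConj (φ bt) (φ bz)) {ρ : G} (r : Rho φ ρ) : ∃ σ, Sig φ ρ σ := by
  have hu := (h.tu_vw hz).1
  obtain ⟨a1, a2, -, a3, -, a4, -⟩ := A13
  obtain ⟨g, g1, g2⟩ := h.pureZ hz (a := α ai) (b := α ai2) (by simp only [← mmA, a4]) (cU a1 hu) (cU a2 hu)
    (mmA (φ := φ) _ _ ▸ cU a3 hu)
  obtain ⟨b1, b2, b3, b4, b5, b6, b7, b8, b9, b10, b11, b12, b13, b14⟩ := A18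
  have o : α 1 = 1 := by simp
  have i : ∀ {a b : GA}, α a = α b → a = b := fun e => SE.ι_inj (h.inj e)
  have vρ : ρ ∈ VI φ := ⟨mem_Cx.2 (r.cA _), mem_Cx.2 (r.cA _)⟩
  have vς : φ bt * ρ⁻¹ * φ bt ∈ VI φ := ⟨mem_Cx.2 (r.dA h _), mem_Cx.2 (r.dA h _)⟩
  have vP : α aP ∈ VI φ := ⟨mem_Cx.2 (by simp only [← mmA, b10]), mem_Cx.2 (by simp only [← mmA, b11])⟩
  have vP2 : α aP2 ∈ VI φ := ⟨mem_Cx.2 (by simp only [← mmA, b12]), mem_Cx.2 (by simp only [← mmA, b13])⟩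
  have P3 : α aP * α aP * α aP = 1 := by simp only [← mmA, b1, o]
  have P3' : α aP2 * α aP2 * α aP2 = 1 := by simp only [← mmA, b2, o]
  have nb : ∀ s s' : Tm, P.ne s s' = true → φ (s.val P.ev) ≠ φ (s'.val P.ev) := fun _ _ e c => P.of_ne e (h.inj c)
  have cd2 : ρ * (φ bt * ρ⁻¹ * φ bt) * (ρ * (φ bt * ρ⁻¹ * φ bt)) = 1 := by
    rw [r.cd, ← map_mul, ← map_mul, show bz * bt * (bz * bt) = 1 from P.E (tz * tt * (tz * tt)) 1, map_one]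
  have ncd : ρ * (φ bt * ρ⁻¹ * φ bt) ≠ φ bt * ρ⁻¹ * φ bt * ρ := by
    rw [r.cd, r.dc h, ← map_mul]; exact nb (tz * tt) tz (by decide +kernel)
  obtain ⟨p, hp, e⟩ := cyc3 h g1 g2 vP vρ vς P3 r.c3 (r.d3 h) (fun e => b14 (i (e.trans o.symm))) (r.cA _).symm
    (r.dA h _).symm cd2 (by rw [r.dc h, ← map_mul, zz, map_one]) (by rw [r.cd, r.dc h, mul_assoc, h.tc])
    (by rw [r.cd, ← map_mul, ← map_one φ]; exact nb (tz * tt) 1 (by decide +kernel))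
    (by rw [r.dc h, ← map_one φ]; exact nb tz 1 (by decide +kernel)) ncd
  have g1 := cj_mul g1 (cj_cm (h.tc (ιA (kA p.2))))
  have g2 := cj_mul g2 (cj_cm (h.comm.2 (CovA.c (kA p.2))))
  have gP : _ = α aP := cj_mul e (cjφ (φ.comp ιA) (A5 p hp))
  generalize _ * g = g at g1 g2 gP
  have cy : ∀ x ∈ VI φ, x * x * x = 1 → (∀ a, x * α a = α a * x) → (∃ y, x * y ≠ y * x) →
      ∃ p ∈ L112, g * x * g⁻¹ = α (kA p.1) ∧ kA p.1 * aP = aP * kA p.1 := fun x hx x3 c n => by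
    obtain ⟨p, hp, e⟩ := cyc3 h g1 g2 hx vP vP2 x3 P3 P3' (by rintro rfl; simp at n) (c _) (c _)
      (by simp only [← mmA, b3, b4, o]) (by simp only [← mmA, b5, o]) (by simp only [← mmA, b3, b6])
      (by rw [← mmA, b3, ← o]; exact mt i b7) (by rw [← mmA, ← o]; exact mt i b8)
      (by rw [← mmA, ← mmA, b3]; exact mt i b9)
    exact ⟨p, hp, e, (tr_eq h (tr_mul e gP) (tr_mul gP e)).2 (c _)⟩
  obtain ⟨p, hp, s2, c2⟩ := cy ρ vρ r.c3 r.cA ⟨_, ncd⟩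
  obtain ⟨q, hq, s3, c3⟩ := cy _ vς (r.d3 h) (r.dA h) ⟨_, ncd.symm⟩
  have o' := tr_one (φ := φ) g
  obtain ⟨n, -, n1, n2, n3, n4, n5, n6⟩ := A8 p hp c2 q hq c3
    ((tr_eq h (tr_mul (tr_mul s2 s3) (tr_mul s2 s3)) o').2 cd2) (mt (tr_eq h (tr_mul s2 s3) (tr_mul s3 s2)).1 ncd)
  obtain ⟨σ, hσ⟩ : ∃ σ, g * σ * g⁻¹ = α (kA n) := ⟨g⁻¹ * α (kA n) * g, by group⟩
  have σ3 := (tr_eq h (tr_mul (tr_mul hσ hσ) hσ) o').1 n3
  have σ1 := (tr_eq h (tr_mul (tr_mul s2 hσ) (tr_mul s2 hσ)) o').1 n1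
  have σ2 := (tr_eq h (tr_mul (tr_mul s3 hσ) (tr_mul s3 hσ)) o').1 n2
  let K := Cx(σ).comap (φ.comp ιA)
  have ci : ∀ {a : GA} {b : B}, g * α a * g⁻¹ = φ b → ιA (kA n) * b = b * ιA (kA n) → a ∈ K := fun e1 e2 =>
    mem_Cx.2 (by have := ccj (h.comm.2 e2) (cj_inv e1); rw [cj_inv hσ] at this; exact this.symm)
  have k1 : ai ∈ K := ci g1 (t_comm _).symm
  have k2 : ai2 ∈ K := ci g2 (CovA.c _)
  have k3 : aP ∈ K := ci gP (by rw [← map_mul, n4, map_mul])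
  have step : ∀ k : GA, k⁻¹ * ai * k ∈ K → k⁻¹ * ai2 * k ∈ K → k⁻¹ * aP * k ∈ K → k ∈ K := fun k m1 m2 m3 => by
    have c : ∀ {a : GA}, k⁻¹ * a * k ∈ K → α k * σ * (α k)⁻¹ * α a = α a * (α k * σ * (α k)⁻¹) := fun m =>
      ccj (mem_Cx.1 m).symm (cjφ (φ.comp ιA) (by group))
    have x3 : α k * σ * (α k)⁻¹ * (α k * σ * (α k)⁻¹) * (α k * σ * (α k)⁻¹) = 1 := by
      rw [conj_mul, conj_mul, σ3]; simp
    obtain ⟨X, hX⟩ := trA h g1 g2 ⟨mem_Cx.2 (c m1), mem_Cx.2 (c m2)⟩ x3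
    have c' : ∀ {s : G} {S : GA}, g * s * g⁻¹ = α S → s * α k = α k * s → s * σ * (s * σ) = 1 →
        S * kA X.1 * (S * kA X.1) = 1 := fun e1 e2 e3 => by
      rw [kA0, tr_eq h (tr_mul (tr_mul e1 hX) (tr_mul e1 hX)) o', ← cj_cm e2.symm, conj_mul, conj_mul, e3]; simp
    have := n5 _ (A7 X ((tr_eq h (tr_mul hX gP) (tr_mul gP hX)).2 (c m3))
      ((tr_eq h (tr_mul (tr_mul hX hX) hX) o').2 x3)) (c' s2 (r.cA k) σ1) (c' s3 (r.dA h k) σ2)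
    exact mem_Cx'.2 ((tr_eq h hX hσ).1 (SE.of_val this))
  obtain ⟨d1, d2, d3, d4, d5, d6⟩ := A17
  have k4 : ap ∈ K := step _ (memE d1 (by first | exact k1 | exact k2 | exact mul_mem k1 k2))
    (memE d2 (by first | exact k1 | exact k2 | exact mul_mem k1 k2)) (memE d3 k3)
  have k5 : aU ∈ K := step _ (memE d4 (by first | exact k1 | exact k2 | exact mul_mem k1 k2))
    (memE d5 (by first | exact k1 | exact k2 | exact mul_mem k1 k2)) (memE d6 (inv_mem k3))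
  have k6 : aq ∈ K := mem_Cx.2 (mem_Cx.1 (((r.d8 h).eq h (r.d8 h).le le_rfl).ge
    ⟨⟨mem_Cx.2 (mem_Cx.1 k4).symm, mem_Cx.2 (mem_Cx.1 k3).symm⟩, mem_Cx.2 (mem_Cx.1 k5).symm⟩).2).symm
  refine ⟨σ, σ3, σ1, σ2, fun w => mem_Cx.1 (show evw g7 w ∈ K from ?_), ?_⟩
  · induction w with
    | nil => exact one_mem _
    | cons x w ih =>
      refine mul_mem ?_ ih
      rcases x with _ | _ | _ | _ | _ | x
      exacts [k4, inv_mem k4, k6, inv_mem k6, k1, one_mem _]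
  · obtain ⟨X, hX⟩ := trA h g1 g2 vP2 P3'
    have hU := tr_mul gP hX
    rw [← mmA, b3] at hU
    obtain ⟨u, hu, e⟩ := A1 _ ((tr_eq h (tr_mul hU hU) o').2 (by rw [← mmA, b4, o]))
    rw [show aP * X = kA u.1 from SE.of_val e] at hU
    have := tr_mul (tr_mul (tr_mul hσ hU) hσ) hU
    exact (tr_eq h (tr_mul this this) o').1 ((n6 u hu ((tr_eq h (tr_mul hU s2) (tr_mul s2 hU)).2 (r.cA _).symm)
      ((tr_eq h (tr_mul hU s3) (tr_mul s3 hU)).2 (r.dA h _).symm)).resolve_left fun c => b7 (i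
        (((tr_eq h hU o').1 (by rw [c]; rfl)).trans o.symm)))

variable (φ) in
/-- Carmichael's generators -/
noncomputable def ss (ρ σ : G) (i : ℕ) : G :=
  if i = 0 then ρ else if i = 1 then φ bt * ρ⁻¹ * φ bt else α (aj (i - 2)) * σ * (α (aj (i - 2)))⁻¹

theorem ss_rel (h : Hy φ) {ρ σ : G} (r : Rho φ ρ) (s : Sig φ ρ σ) : (∀ i, ss φ ρ σ i ^ 3 = 1) ∧
    ∀ i < 10, ∀ j < 10, i ≠ j → (ss φ ρ σ i * ss φ ρ σ j) ^ 2 = 1 := by
  have sw : ∀ {a b : G}, (a * b) ^ 2 = 1 → (b * a) ^ 2 = 1 := fun {a b} e => by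
    rw [show b * a = a⁻¹ * (a * b) * a⁻¹⁻¹ by group, conj_pow, e]; simp
  have k : ∀ {x : G} (a : GA), x * α a = α a * x → x * σ * (x * σ) = 1 → (x * (α a * σ * (α a)⁻¹)) ^ 2 = 1 :=
    fun a e1 e2 => by rw [← cj_cm e1.symm, conj_mul, conj_pow, sq, e2]; simp
  have cd : (ρ * (φ bt * ρ⁻¹ * φ bt)) ^ 2 = 1 := by
    rw [r.cd, ← map_mul, ← map_pow, sq, show bz * bt * (bz * bt) = 1 from P.E (tz * tt * (tz * tt)) 1, map_one]
  refine ⟨fun i => ?_, fun i hi j hj e => ?_⟩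
  · unfold ss; split_ifs
    exacts [(pow_three' _).trans r.c3, (pow_three' _).trans (r.d3 h), by rw [conj_pow, pow_three', s.c3]; simp]
  unfold ss; split_ifs
  any_goals omega
  any_goals first | exact cd | exact k _ (r.cA _) s.r1 | exact sw cd | exact k _ (r.dA h _) s.r2 | exact sw (k _ (r.cA _) s.r1) | exact sw (k _ (r.dA h _) s.r2)
  · have := A12 (i - 2) (by omega) (j - 2) (by omega) (by omega)
    generalize LP.getD _ _ = w at this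
    rw [inv_mul_eq_iff_eq_mul] at this
    have e1 := cj_cm (s.c7 w.1)
    have e2 := cj_cm (s.c7 w.2)
    have e3 : α aV * α aV = 1 := by rw [← mmA, A18.2.2.2.1, map_one, map_one]
    rw [this, mmA, mmA, mmA]
    calc _ = (α (aj (i - 2)) * (α (evw g7 w.1) * σ * (α (evw g7 w.1))⁻¹) * (α (aj (i - 2)))⁻¹ *
        (α (aj (i - 2)) * α (evw g7 w.1) * α aV * (α (evw g7 w.2) * σ * (α (evw g7 w.2))⁻¹) *
        (α (aj (i - 2)) * α (evw g7 w.1) * α aV)⁻¹)) ^ 2 := by rw [e1]; group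
      _ = (α (aj (i - 2)) * α (evw g7 w.1) * (σ * α aV * σ * (α aV)⁻¹) * (α (aj (i - 2)) * α (evw g7 w.1))⁻¹) ^ 2 := by
        rw [e2]; group
      _ = 1 := by rw [conj_pow, inv_eq_of_mul_eq_one_right e3, sq, s.r3]; simp

theorem hy {G : Type*} [Group G] [Finite G] [IsSimpleGroup G] (t : G) (ht : orderOf t = 2) (M : Subgroup Cx(t))
    [M.Normal] (hM : M.index = 2) (hout : centralizer (M : Set Cx(t)) ≤ M)
    (hcov : IsNonsplitDoubleCover M Spor.HS) : ∃ φ : B →* G, Hy φ ∧ IsConj (φ bt) (φ bz) := by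
  obtain ⟨Φ, ε, h⟩ := pin t ht M hM hout hcov
  obtain rfl := h.typeA
  obtain ⟨φ, h, -⟩ := h.hy
  exact ⟨φ, h, h.tz⟩

theorem a12 [Finite G] (h : Hy φ) (hz : IsConj (φ bt) (φ bz)) :
    ∃ H : Subgroup G, Nonempty (H ≃* alternatingGroup (Fin 12)) := by
  obtain ⟨ρ, r⟩ := rho h hz
  obtain ⟨σ, s⟩ := sig h hz r
  obtain ⟨h1, h2⟩ := ss_rel h r s
  refine carm12 (fun i => ss φ ρ σ i) (fun i => h1 i) (fun i j e => h2 i i.2 j j.2 fun c => e (Fin.ext c)) fun e => ?_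
  have := r.cy.1
  rw [show ρ = 1 from e, one_mul, inv_one, mul_one] at this
  exact P.N tt tz (by decide +kernel) (h.inj this)
end CfH1.HN
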