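import Cfsg.Agent.OD.Pre
import Cfsg.Agent.H1.HNF3
/-! Facts for the element of order five. -/
set_option autoImplicit false
set_option maxRecDepth 100000
set_option synthInstance.maxSize 4096
set_option Elab.async false
set_option linter.all false
open CfH6 CfL
namespace CfH1.HN
noncomputable abbrev oz : GA := sA 1 * sA 0
noncomputable abbrev ot : GA := sA 0 * sA 1 * (sA 1 * sA 0)
noncomputable abbrev oe : GA := sA 2 * sA 3 * (sA 3 * sA 2)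
noncomputable abbrev op : GA := kA 9878
noncomputable abbrev oτ : GA := kA 14854
theorem D1_0 : ∀ a : GA, a.1 / 2520 = 0 → a * ot = oe * a → a * a * a = 1 → oz * a * oz⁻¹ = a⁻¹ → a = op ∨ ot * a * ot⁻¹ = op := by decide +kernel
theorem D1_1 : ∀ a : GA, a.1 / 2520 = 1 → a * ot = oe * a → a * a * a = 1 → oz * a * oz⁻¹ = a⁻¹ → a = op ∨ ot * a * ot⁻¹ = op := by decide +kernel
theorem D1_2 : ∀ a : GA, a.1 / 2520 = 2 → a * ot = oe * a → a * a * a = 1 → oz * a * oz⁻¹ = a⁻¹ → a = op ∨ ot * a * ot⁻¹ = op := by decide +kernel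
theorem D1_3 : ∀ a : GA, a.1 / 2520 = 3 → a * ot = oe * a → a * a * a = 1 → oz * a * oz⁻¹ = a⁻¹ → a = op ∨ ot * a * ot⁻¹ = op := by decide +kernel
theorem D1_4 : ∀ a : GA, a.1 / 2520 = 4 → a * ot = oe * a → a * a * a = 1 → oz * a * oz⁻¹ = a⁻¹ → a = op ∨ ot * a * ot⁻¹ = op := by decide +kernel
theorem D1_5 : ∀ a : GA, a.1 / 2520 = 5 → a * ot = oe * a → a * a * a = 1 → oz * a * oz⁻¹ = a⁻¹ → a = op ∨ ot * a * ot⁻¹ = op := by decide +kernel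
theorem D1_6 : ∀ a : GA, a.1 / 2520 = 6 → a * ot = oe * a → a * a * a = 1 → oz * a * oz⁻¹ = a⁻¹ → a = op ∨ ot * a * ot⁻¹ = op := by decide +kernel
theorem D1_7 : ∀ a : GA, a.1 / 2520 = 7 → a * ot = oe * a → a * a * a = 1 → oz * a * oz⁻¹ = a⁻¹ → a = op ∨ ot * a * ot⁻¹ = op := by decide +kernel
theorem D1 : ∀ a : GA, a * ot = oe * a → a * a * a = 1 → oz * a * oz⁻¹ = a⁻¹ → a = op ∨ ot * a * ot⁻¹ = op :=
  chkA D1_0 D1_1 D1_2 D1_3 D1_4 D1_5 D1_6 D1_7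
theorem D2 : oe * oe = 1 ∧ oe * ot = ot * oe ∧ oe * oz ≠ oz * oe ∧ oe * sA 0 * oe⁻¹ = (sA 0)⁻¹ ∧ op * ot * op⁻¹ = oe ∧
  op = evw sA [1, 0, 2, 3] ∧ oτ = evw sA [1, 2, 0] ∧ oτ = sA 0 * op * oe * sA 0 * op * oz ∧ oτ = op * sA 0 * oz * op * sA 0 * oe ∧
  (oe * oz)⁻¹ * oτ * (oe * oz) = evw (fun i => [sA 0, sA 1, sA 3].getD i 1) [2, 1, 0, 2] ∧
  evw (fun i => [sA 0, sA 1, sA 2].getD i 1) [2, 1, 0, 2] * (oτ * oτ) = 1 ∧ oτ * (oτ * (oτ * (oτ * oτ))) = 1 ∧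
  oz * (oτ * (oz * (oτ * (oz * oτ)))) = 1 ∧ sA 0 = oτ * oτ * oz * oτ⁻¹ := by decide +kernel
noncomputable def us2 : List Tm := [tp, tp⁻¹, tq, tq⁻¹, ti, tm⁻¹ * tp * tm⁻¹⁻¹, (tm⁻¹ * tp * tm⁻¹⁻¹)⁻¹, tm⁻¹ * tq * tm⁻¹⁻¹,
  (tm⁻¹ * tq * tm⁻¹⁻¹)⁻¹, tm⁻¹ * ti * tm⁻¹⁻¹]
theorem D3 : P.eq ty (Tm.sub us2 [0, 4, 6, 7, 9, 4, 9, 3]) = true ∧ P.eq tx (Tm.sub us2 [0, 2, 6] * (te * tz * mA (aj 1))) = true ∧
  P.eq (tm⁻¹ * tm⁻¹) (mA (kA 143)) = true := by decide +kernel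
end CfH1.HN
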