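import Cfsg.Agent.OD.Pre
import Cfsg.Agent.H1.HN9
import Cfsg.Agent.H1.HNF4
import Cfsg.Agent.H6.HNG
import Cfsg.Agent.OD.Helper1x41ce709773
/-! The presented group embeds. -/
set_option autoImplicit false
set_option maxRecDepth 100000
open Cfsg CfH6 CfL CfH9 MulAction Subgroup
namespace CfH1.HN
variable {G : Type*} [Group G] {φ : B →* G}
local notation "α" a:max => φ (ιA a)

theorem simpleA : IsSimpleGroup GA := by
  obtain ⟨f, hf⟩ := carmA (fun i : Fin 6 => sA i) (fun i => (pow_three' _).trans (A11.1 i i.2).1)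
    (fun i j e => (sq _).trans ((A11.1 i i.2).2 j j.2 fun c => e (Fin.ext c))) (by decide +kernel) (by decide +kernel)
  have := alternatingGroup.isSimpleGroup (show 5 ≤ Nat.card (Fin (6 + 2)) by simp)
  have : Nontrivial GA := ⟨_, _, A18.2.2.2.2.2.2.1⟩
  exact IsSimpleGroup.isSimpleGroup_of_surjective f (MonoidHom.range_eq_top.1 (sA_gen _ fun i => ⟨_, hf i⟩))

theorem cj_evw {H : Type*} [Group H] (θ : H →* G) {g : G} {a b : ℕ → H} (h : ∀ i, g * θ (a i) * g⁻¹ = θ (b i))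
    (w : List ℕ) : g * θ (evw a w) * g⁻¹ = θ (evw b w) := by
  induction w with
  | nil => simp
  | cons x w ih => rw [evw_cons, evw_cons, map_mul, map_mul, cj_pr (h x) ih]

theorem tau [Finite G] (h : Hy φ) {ρ σ : G} (r : Rho φ ρ) (s : Sig φ ρ σ) : ∃ τ : G,
    τ * (τ * (τ * (τ * τ))) = 1 ∧ (φ bx)⁻¹ * τ * φ bx * (τ * τ) = 1 ∧ φ by' * τ = τ * φ by' ∧
    φ bz * (τ * (φ bz * (τ * (φ bz * τ)))) = 1 ∧ ρ = τ * τ * φ bz * τ⁻¹ := by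
  obtain ⟨h1, h2⟩ := ss_rel h r s
  obtain ⟨θ, hθ⟩ := carm (fun i : Fin 6 => ss φ ρ σ i) (fun i => sA i) (fun i => h1 i)
    (fun i j e => h2 i (by omega) j (by omega) fun c => e (Fin.ext c)) (fun i => (pow_three' _).trans (A11.1 i i.2).1)
    (fun i j e => (sq _).trans ((A11.1 i i.2).2 j j.2 fun c => e (Fin.ext c))) sA_gen (by rw [SE.card]; decide)
  have t0 : θ (sA 0) = ρ := hθ 0
  have t1 : θ (sA 1) = φ bt * ρ⁻¹ * φ bt := hθ 1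
  have t2 : θ (sA 2) = σ := (hθ 2).trans (by
    change α (aj 0) * σ * (α (aj 0))⁻¹ = σ
    rw [A21.2.2.1]; simp)
  have t3 : θ (sA 3) = α (aj 1) * σ * (α (aj 1))⁻¹ := hθ 3
  have tz : θ oz = φ bz := by rw [map_mul, t0, t1, r.dc h]
  have tt' : θ ot = φ bt := by
    rw [map_mul, tz, map_mul, t0, t1, r.cd, h.tc, mul_assoc, ← map_mul, zz, map_one, mul_one]
  have := simpleA
  have hi : Function.Injective θ := (MonoidHom.ker_eq_bot_iff θ).1 ((θ.normal_ker.eq_bot_or_eq_top).resolve_right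
    fun e => t_ne (h.inj (tt'.symm.trans ((e ▸ mem_top _ : _ ∈ θ.ker).trans (map_one φ).symm))))
  obtain ⟨d1, d2, d3, d4, d5, d6, d7, d8, d9, d10, d11, d12, d13, d14⟩ := D2
  have g7' : ∀ i, α (g7 i) * σ = σ * α (g7 i) := fun i => by simpa using s.c7 [i]
  have mX : ∀ i < 4, sA i ∈ (Cx(α ap) ⊓ Cx(α aq)).comap θ := fun i hi => by
    rw [mem_comap]
    interval_cases i
    · exact t0 ▸ ⟨mem_Cx.2 (r.cA _), mem_Cx.2 (r.cA _)⟩
    · exact t1 ▸ ⟨mem_Cx.2 (r.dA h _), mem_Cx.2 (r.dA h _)⟩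
    · exact t2 ▸ ⟨mem_Cx.2 (g7' 0).symm, mem_Cx.2 (g7' 2).symm⟩
    · exact t3 ▸ ⟨mem_Cx.2 (ccj (s.c7 _).symm (cjφ (φ.comp ιA) (by rw [← A21.1]; group))),
        mem_Cx.2 (ccj (s.c7 _).symm (cjφ (φ.comp ιA) (by rw [← A21.2.1]; group)))⟩
  have X := r.d8 h
  have me : θ oe ∈ Cx(α ap) ⊓ Cx(α aq) := mul_mem (mul_mem (mX 2 (by decide)) (mX 3 (by decide)))
    (mul_mem (mX 3 (by decide)) (mX 2 (by decide)))
  have te' : θ oe = φ be := by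
    obtain ⟨d, e⟩ := inD8 h (X.le me) (by rw [← tt', ← map_mul, d2, map_mul])
    have i : ∀ {a b : GY}, φ (ιY a) = φ (ιY b) → a = b := fun e => SE.ι_inj (h.inj e)
    rcases (by decide +kernel : ∀ d, δ d * δ d = 1 → δ d * yz = yz * δ d ∨ δ d = ye ∨ δ d = ye * yt) d
      (i (by rw [map_mul, map_mul, e, ← map_mul, d1]; simp)) with c | c | c
    · refine absurd (hi ?_) d3
      rw [map_mul, map_mul θ oz, ← e, tz, ← show ιY yz = bz from iyz]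
      simp only [← map_mul, c]
    · rw [← e, c]; exact congrArg φ iye
    · have q := cjφ θ d4
      rw [← e, c, map_mul, map_mul, eyt, show ιY ye = be from iye, map_inv, t0, ← r.e, mul_inv_rev, ← mul_assoc,
        mul_left_inj, mul_assoc, mul_assoc, mul_right_inj, ← mul_assoc] at q
      exact absurd (h.inj ((cj_cm (cm_cj q).symm).symm.trans r.cy.1)) (P.N tt HN.tz)
  have mp : θ op ∈ Cx(α ap) ⊓ Cx(α aq) := memE (K := (Cx(α ap) ⊓ Cx(α aq)).comap θ) d6 (evw_mem mX (by decide))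
  have hL : Cx(α ap) ⊓ Cx(α aq) ⊓ θ.range = Cx(α ap) ⊓ Cx(α aq) := D8.eq h ⟨inf_le_left.trans X.le, ⟨X.z, _, tz⟩,
    ⟨X.e, _, te'⟩, ⟨ρ, ⟨t0 ▸ mX 0 (by decide), _, t0⟩, r.cy.1⟩,
    ⟨_, ⟨mp, _, rfl⟩, by rw [← tt', ← te']; exact cjφ θ d5⟩⟩ inf_le_left X.le
  have n1 : φ bm⁻¹ * φ bt * (φ bm⁻¹)⁻¹ = φ bt := cj_cm (h.tc _)
  have n2 : φ bm⁻¹ * φ bz * (φ bm⁻¹)⁻¹ = φ be := cjφ φ (P.E (tm⁻¹ * HN.tz * tm⁻¹⁻¹) te)
  have n3 : φ bm⁻¹ * φ be * (φ bm⁻¹)⁻¹ = φ bz := cjφ φ (P.E (tm⁻¹ * te * tm⁻¹⁻¹) HN.tz)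
  have n4 : φ bm⁻¹ * (φ bm⁻¹ * ρ * (φ bm⁻¹)⁻¹) * (φ bm⁻¹)⁻¹ = ρ := by
    have := cj_cm (r.cA (kA 143)).symm
    rw [← show bm⁻¹ * bm⁻¹ = ιA (kA 143) from P.of_eq D3.2.2, map_mul] at this
    exact (cj_mul rfl rfl).symm.trans this
  obtain ⟨π, hπ⟩ : φ bm⁻¹ * ρ * (φ bm⁻¹)⁻¹ ∈ θ.range := (hL.ge ⟨mem_Cx.2 (ccj (r.cA (kA 811))
    (cjφ φ (cj_inv (by rw [iap]; exact P.of_eq A20.1)))), mem_Cx.2 (ccj (r.cA (kA 4529))
    (cjφ φ (cj_inv (by rw [iaq]; exact P.of_eq A20.2))))⟩).2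
  have sc : ∀ {g x a b c d : G}, g * a * g⁻¹ = b → g * c * g⁻¹ = d → x * a * x⁻¹ = c →
      g * x * g⁻¹ * b * (g * x * g⁻¹)⁻¹ = d := fun e1 e2 e3 => by rw [← e1, ← e2, ← e3]; group
  obtain ⟨c, hc, ν1⟩ : ∃ c, T2 c ∧ φ (c * bm⁻¹) * ρ * (φ (c * bm⁻¹))⁻¹ = θ op := by
    rcases D1 π (hi (by rw [map_mul θ π, map_mul θ oe, tt', te', hπ]; exact mul_inv_eq_iff_eq_mul.1 (sc n1 n2 r.cy.1)))
      (hi (by rw [map_mul, map_mul, hπ, conj_mul, conj_mul, r.c3]; simp))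
      (hi (by rw [map_mul, map_mul, map_inv, map_inv, tz, hπ]; exact (sc rfl rfl r.e ▸ n3 ▸ rfl :
        _ = φ bm⁻¹ * ρ⁻¹ * (φ bm⁻¹)⁻¹).trans conj_inv.symm)) with e | e
    · exact ⟨1, T2.one, by rw [one_mul, ← e, hπ]⟩
    · exact ⟨bt, T2.t, by rw [map_mul, ← e, ← cjφ θ rfl, tt', hπ]; group⟩
  have cc : ∀ b, φ (c * bm⁻¹) * φ b * (φ (c * bm⁻¹))⁻¹ = φ (bm⁻¹ * b * bm⁻¹⁻¹) := fun b =>
    cjφ φ (cj_mul rfl (cj_cm (hc.comm _)))
  have ν2 : φ (c * bm⁻¹) * θ op * (φ (c * bm⁻¹))⁻¹ = ρ := by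
    rw [← ν1]
    refine (cj_mul rfl rfl).symm.trans ?_
    rw [← map_mul, show c * bm⁻¹ * (c * bm⁻¹) = bm⁻¹ * bm⁻¹ by
      rw [mul_assoc, ← mul_assoc bm⁻¹, ← hc.comm, ← mul_assoc, ← mul_assoc, hc.sq, one_mul], map_mul]
    exact cj_mul rfl n4
  have ν3 := (cc bz).trans ((cjφ φ rfl).symm.trans n2)
  have ν4 := (cc be).trans ((cjφ φ rfl).symm.trans n3)
  have ν5 : φ (c * bm⁻¹) * θ oτ * (φ (c * bm⁻¹))⁻¹ = θ oτ := by
    conv_lhs => rw [d8]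
    conv_rhs => rw [d9]
    have mm : ∀ a b c d e f : GA, θ (a * b * c * d * e * f) = θ a * θ b * θ c * θ d * θ e * θ f := fun _ _ _ _ _ _ => by
      simp only [map_mul]
    rw [mm, mm, t0, tz, te']
    exact cj_pr (cj_pr (cj_pr (cj_pr (cj_pr ν1 ν2) ν4) ν1) ν2) ν3
  have c7 : ∀ i, α (g7 i) * θ oτ = θ oτ * α (g7 i) := fun i => mem_Cx.1
    (memE (K := Cx(α (g7 i)).comap θ) d7 (evw_mem (k := 3) (fun j hj => by
      rw [mem_comap]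
      interval_cases j
      exacts [t0 ▸ mem_Cx.2 (r.cA _), t1 ▸ mem_Cx.2 (r.dA h _), t2 ▸ mem_Cx.2 (g7' i).symm]) (by decide))) |>.symm
  have hU : ∀ u ∈ us2, u.val P.ev ∈ Cx(θ oτ).comap φ := by
    have k : ∀ i b, ιA (g7 i) = b → b ∈ Cx(θ oτ).comap φ ∧ bm⁻¹ * b * bm⁻¹⁻¹ ∈ Cx(θ oτ).comap φ := by
      rintro i _ rfl
      exact ⟨mem_Cx.2 (c7 i), mem_Cx.2 (by have := ccj (c7 i) ν5; rwa [cc] at this)⟩
    have k1 := k 0 _ iap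
    have k2 := k 2 _ iaq
    have k3 := k 4 _ iai
    simp only [us2, List.forall_mem_cons]
    exact ⟨k1.1, inv_mem k1.1, k2.1, inv_mem k2.1, k3.1, k1.2, inv_mem k1.2, k2.2, inv_mem k2.2, k3.2, by simp⟩
  refine ⟨θ oτ, by simp only [← map_mul, d12, map_one], ?_, mem_Cx.1 (memE (K := Cx(θ oτ).comap φ) (P.of_eq D3.1) (Tm.sub_mem hU _)),
    by simp only [← tz, ← map_mul, d13, map_one], by rw [← t0, ← tz, d14]; simp⟩
  have e1 := cj_inv (mem_Cx'.1 (Tm.sub_mem hU [0, 2, 6]))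
  have e2 : (α (aj 1))⁻¹ * θ ((oe * oz)⁻¹ * oτ * (oe * oz)) * (α (aj 1))⁻¹⁻¹ = _ := d10 ▸ cj_evw θ
    (b := fun i => [sA 0, sA 1, sA 2].getD i 1) (fun i => by
      rcases i with _ | _ | _ | i
      exacts [cj_inv (cj_cm ((t0.symm ▸ r.cA _ : θ (sA 0) * _ = _ * θ (sA 0)).symm)),
        cj_inv (cj_cm ((t1.symm ▸ r.dA h _ : θ (sA 1) * _ = _ * θ (sA 1)).symm)),
        cj_inv (t2 ▸ t3.symm), by simp]) _
  have e3 := congrArg θ d11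
  rw [map_mul, ← e2, map_one, map_mul, map_mul, map_mul, map_inv, map_mul, te', tz, ← e1] at e3
  have e4 : φ bx = φ (Tm.val P.ev (Tm.sub us2 [0, 2, 6])) * (φ be * φ bz * α (aj 1)) := by
    rw [show bx = _ from P.of_eq D3.2.1, ← map_mul, ← map_mul, ← map_mul]; rfl
  rw [e4, ← e3, map_mul θ oτ oτ]
  group

theorem chi [Finite G] (h : Hy φ) (hz : IsConj (φ bt) (φ bz)) : ∃ χ : HNB.G →* G, Function.Injective χ ∧
    (∀ b, φ b ∈ χ.range) ∧ ∃ g ∈ χ.range, g * φ bt * g⁻¹ = φ bz := by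
  obtain ⟨ρ, r⟩ := rho h hz
  obtain ⟨σ, s⟩ := sig h hz r
  obtain ⟨τ, h1, h2, h3, h4, h5⟩ := tau h r s
  let ε : Shrink.{0} G ≃* G := Shrink.mulEquiv
  let ev : ℕ → G := fun x => if x < 5 then φ (HSB.el x) else if x = 5 then τ else τ⁻¹
  obtain ⟨χ, hχ⟩ := HNB.hhom (fun x => ε.symm (ev x)) (fun x hx => by
    rw [← map_inv]; congr 1
    by_cases c : x < 5
    · have := HSB.hinv x c
      interval_cases x <;> exact (congrArg φ this).trans (map_inv _ _)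
    · interval_cases x <;> simp [ev, HNB.il]) fun w hw => by
    refine (map_evw ε.symm.toMonoidHom ev w).symm.trans ((congrArg _ ?_).trans (map_one _))
    rcases (by decide : ∀ w ∈ HNB.rels, w ∈ HSB.rels ∧ (∀ x ∈ w, x < 5) ∨ w = [5, 5, 5, 5, 5] ∨ w = [1, 5, 0, 5, 5] ∨
      w = [6, 3, 5, 2] ∨ w = [4, 5, 4, 5, 4, 5]) w hw with ⟨c, c'⟩ | rfl | rfl | rfl | rfl
    · rw [← map_one φ, ← HSB.hrel w c, map_evw]
      exact evw_congr (fun x hx => if_pos hx) c'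
    · simpa [ev] using h1
    · simpa [ev, ← ex, ← eX, mul_assoc] using h2
    · simp [ev, ← ey, ← eY, ← h3]
    · simpa [ev, ← ez] using h4
  have e : ∀ x < 7, ev x ∈ (ε.toMonoidHom.comp χ).range := fun x hx => ⟨HNB.el x, by simp [hχ x hx]⟩
  have e1 : ∀ b, φ b ∈ (ε.toMonoidHom.comp χ).range := fun b =>
    (top_of (K := (ε.toMonoidHom.comp χ).range.comap φ) (ex ▸ e 0 (by decide)) (ey ▸ e 2 (by decide))
      (ez ▸ e 4 (by decide))).ge (mem_top b)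
  have := HNG.simple
  refine ⟨ε.toMonoidHom.comp χ, (MonoidHom.ker_eq_bot_iff _).1 (((MonoidHom.normal_ker _).eq_bot_or_eq_top).resolve_right
    fun c => t_ne (h.inj ?_)), e1, ρ, ?_, r.cy.1⟩
  · obtain ⟨g, hg⟩ := e1 bt
    rw [← hg, map_one]; exact c.ge (mem_top g)
  · have : τ ∈ _ := e 5 (by decide)
    exact h5 ▸ mul_mem (mul_mem (mul_mem this this) (e1 _)) (inv_mem this)
end CfH1.HN
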