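import Cfsg.Agent.OD.Pre
import Cfsg.Agent.H1.HN8
import Cfsg.Agent.H1.HNF5
import Cfsg.Agent.OD.Helper1x2462848a26
/-! The centraliser of the second class of involutions: the extraspecial subgroup. -/
set_option autoImplicit false
set_option maxRecDepth 100000
set_option synthInstance.maxSize 4096
open Cfsg CfH6 CfL CfH9 MulAction Subgroup
namespace CfH1.HN
variable {G : Type*} [Group G] {φ : B →* G}
local notation "ψ" a:max => φ (ιY a)
local notation "W" => φ bw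

theorem eyw : ιY yw = bw := iyw
theorem mmY (a b : GY) : ψ (a * b) = ψ a * ψ b := by rw [map_mul, map_mul]
theorem ofv {a : GY} {k : ℕ} (e : a.1 = k) : a = kY k := SE.of_val e
theorem wY (a : GY) : ιY a * bw = bw * ιY a := cw_iff.2 (mem_Cx.1 (rangeY.le ⟨a, rfl⟩))
theorem ww : bw * bw = 1 := P.E (tu * tt * (tu * tt)) 1
theorem W2 : W * W = 1 := by rw [← map_mul, ww, map_one]
theorem WY (a : GY) : ψ a * W = W * ψ a := by rw [← map_mul, wY, map_mul]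
theorem Wm (n : ℕ) : W ^ n = W ^ (n % 2) := pow_eq_pow_mod n ((sq _).trans W2)

theorem clsY {l : List ℕ} {a : GY} (h : tg' l a) : ∃ n ∈ l, IsConj ((lget std 1 n).val P.ev) (ιY a) := by
  obtain ⟨r, hr, e, hl⟩ := h
  exact ⟨_, hl, (icj (bW r.2.2)⁻¹ (by rw [inv_inv]; exact (P.of_eq (F1b r hr).2).symm)).trans
    (icj (ιY (cj a)⁻¹) (cjφ ιY (by rw [inv_inv]; exact e))).symm⟩

variable (φ) in
/-- the conjugates of `t` whose product with `w` is again conjugate to `t` -/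
def TT (a : G) : Prop := IsConj (φ bt) a ∧ IsConj (φ bt) (a * W) ∧ a * W = W * a

theorem TT.cj {a g : G} (h : TT φ a) (e : g * W * g⁻¹ = W) : TT φ (g * a * g⁻¹) :=
  ⟨h.1.trans (icj g rfl), h.2.1.trans (icj g (cj_pr rfl e)), ccj h.2.2 e⟩

theorem TT.mul {a : G} (h : TT φ a) : TT φ (a * W) :=
  ⟨h.2.1, by rw [mul_assoc, W2, mul_one]; exact h.1, by rw [← mul_assoc, h.2.2]⟩

theorem ccj' {x y g a b : G} (e1 : g * x * g⁻¹ = a) (e2 : g * y * g⁻¹ = b) : a * b = b * a ↔ x * y = y * x := by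
  rw [← cj_pr e1 e2, ← cj_pr e2 e1, mul_left_inj, mul_right_inj]

theorem pet {F : ℕ → ℕ → Prop} (h1 : ∀ i < 10, ∃ j < 10, F i j)
    (h3 : ∀ {i j k l}, i < 10 → j < 10 → k < 10 → l < 10 → F i j → F k l → pm i k = pm j l)
    (h2 : ∀ {i j}, F i j → F j i) (h4 : ∀ {i j k}, j < 10 → k < 10 → F i j → F i k → j = k) :
    (∃ i < 10, F i i) ∧ ∀ i < 10, (∀ j < 10, pm i j = true → F j j) → ∀ j < 10, F j j := by
  have A : ∀ i < 10, ∀ j < 10, pm i j = true → i ≠ j → F i j ∨ F i i ∧ F j j → ∀ d < 10, pm d i = false →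
      pm d j = false → F d d := fun i hi j hj e ne c d hd d1 d2 => by
    obtain ⟨k, hk, f⟩ := h1 d hd
    have := (by decide +kernel : ∀ i < 10, ∀ j < 10, pm i j = true → i ≠ j → ∀ d < 10, pm d i = false →
      pm d j = false → ∀ k < 10, pm k i = false → pm k j = false → k = d) i hi j hj e ne d hd d1 d2 k hk
    rcases c with c | c
    · exact this (h3 hd hk hj hi f (h2 c) ▸ d2) (h3 hd hk hi hj f c ▸ d1) ▸ f
    · exact this (h3 hd hk hi hi f c.1 ▸ d1) (h3 hd hk hj hj f c.2 ▸ d2) ▸ f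
  have A' : ∀ i < 10, ∀ j < 10, pm i j = true → F i j → ∃ d < 10, F d d := fun i hi j hj e c => by
    obtain rfl | ⟨d, hd, d1, d2⟩ := (by decide +kernel : ∀ i < 10, ∀ j < 10, pm i j = true → i = j ∨
      ∃ d < 10, pm d i = false ∧ pm d j = false) i hi j hj e
    · exact ⟨i, hi, c⟩
    · by_cases ne : i = j
      exacts [⟨j, hj, ne ▸ c⟩, ⟨d, hd, A i hi j hj e ne (Or.inl c) d hd d1 d2⟩]
  refine ⟨?_, fun i hi h j hj => ?_⟩
  · obtain ⟨j, hj, c⟩ := h1 0 (by decide)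
    obtain e | ⟨k, hk, k1, k2, k3⟩ := (by decide +kernel : ∀ j < 10, pm 0 j = true ∨ ∃ k < 10, pm k 0 = false ∧ k ≠ j ∧
      ∀ l < 10, pm l j = false → l = 0 ∨ pm k l = true) j hj
    · exact A' 0 (by decide) j hj e c
    obtain ⟨l, hl, f⟩ := h1 k hk
    rcases k3 l hl (h3 hk hl (by decide) hj f c ▸ k1) with rfl | e
    exacts [absurd (h4 hk hj (h2 f) c) k2, A' k hk l hl e f]
  · obtain e | ⟨x, hx, y, hy, e1, e2, e3, e4, e5, e6⟩ := (by decide +kernel : ∀ i < 10, ∀ j < 10, pm i j = true ∨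
      ∃ x < 10, ∃ y < 10, pm i x = true ∧ pm i y = true ∧ pm x y = true ∧ x ≠ y ∧ pm j x = false ∧ pm j y = false) i hi j hj
    exacts [h j hj e, A x hx y hy e3 e4 (Or.inr ⟨h x hx e1, h y hy e2⟩) j hj e5 e6]

theorem N14' : ∀ m ∈ LM, (kY m.2.1).1 = m.2.1 := by decide +kernel

noncomputable def z4 : List GY := [1, yw, yt, yt * yw]
theorem Pl_iff {a b : GY} : Pl a b ↔ ∃ s ∈ z4, b = a * s := by simp [Pl, z4, mul_assoc]
theorem z4m : ∀ s ∈ z4, s * s = 1 ∧ ∀ s' ∈ z4, s * s' ∈ z4 := by decide +kernel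
theorem z4c {s : GY} (h : s ∈ z4) (a : GY) : a * s = s * a := by
  have h1 : a * yw = yw * a := SE.ι_inj (by rw [map_mul, map_mul, eyw, wY])
  have h2 : a * yt = yt * a := SE.ι_inj (by rw [map_mul, map_mul, eyt, t_comm])
  simp only [z4, List.mem_cons, List.not_mem_nil, or_false] at h
  rcases h with rfl | rfl | rfl | rfl
  exacts [by simp, h1, h2, cmul h2 h1]

variable (φ) in
/-- the signs of the action on the basis -/
def Sg (a : G) (l : ℕ) : Prop := ∀ i < 7, a * ψ (qs.getD i 1) * a⁻¹ = ψ (qs.getD i 1) * W ^ (l / 2 ^ i % 2)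

theorem Sg.pl {a : G} {l : ℕ} (h : Sg φ a l) (c : ℕ) : a * ψ (pl qs c) * a⁻¹ = ψ (pl qs c) * W ^ par 7 l c := by
  have := pl_cj (a := a) (gs := qs.map (φ.comp ιY)) (fun g hg => by
    obtain ⟨y, -, rfl⟩ := List.mem_map.1 hg
    exact WY y) l (fun i hi => by rw [← map_one (φ.comp ιY), List.getD_map]; exact h i hi) c
  rwa [← map_pl] at this

theorem Sg.q {a : G} {l c : ℕ} (h : Sg φ a l) (hw : a * W = W * a) {y : GY} (e : y = CfH1.pl qs c ∨ y = CfH1.pl qs c * yw) :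
    a * ψ y * a⁻¹ = ψ y * W ^ par 7 l c := by
  rcases e with rfl | rfl
  · exact h.pl c
  · rw [mmY, eyw, cj_pr (h.pl c) (cj_cm hw), mul_assoc, mul_assoc, ← pow_succ, pow_succ']

theorem Sg.cj {a : G} {l l' : ℕ} (h : Sg φ a l) (hw : a * W = W * a) (y : GY)
    (e : ∀ i < 7, ∃ p ∈ LQ, (y⁻¹ * qs.getD i 1 * y).1 = p.1 ∧ par 7 l p.2 % 2 = l' / 2 ^ i % 2) :
    Sg φ (ψ y * a * (ψ y)⁻¹) l' := fun i hi => by
  obtain ⟨p, hp, e1, e2⟩ := e i hi
  have := h.q hw (ofv e1 ▸ (N9b p hp).2)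
  rw [Wm, e2, mmY, mmY, map_inv, map_inv] at this
  have h2 := cj_cm (Commute.pow_right (WY (φ := φ) y) (l' / 2 ^ i % 2))
  rw [← h2]
  calc _ = ψ y * (a * ((ψ y)⁻¹ * ψ (qs.getD i 1) * ψ y) * a⁻¹) * (ψ y)⁻¹ := by group
    _ = _ := by rw [this]; group

namespace Pin
variable (h : Hy φ) (hz : IsConj (φ bt) (φ bz))
include h

theorem iY {a b : GY} (e : ψ a = ψ b) : a = b := SE.ι_inj (h.inj e)
theorem W1 : W ≠ 1 := fun e => P.N (tu * tt) 1 (by decide +kernel) (h.inj (e.trans (map_one φ).symm))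
theorem n1 : ¬ IsConj (φ bt) 1 := fun e => t_ne (h.inj ((isConj_one_left.1 e).trans (map_one φ).symm))
theorem sqT {a : G} (e : IsConj (φ bt) a) : a * a = 1 := sq_of_isConj e h.t2
theorem toY' {x : G} (c1 : x * φ bt = φ bt * x) (c2 : x * W = W * x) : ∃ a, ψ a = x := by
  obtain ⟨b, rfl⟩ := (h.rng x).1 c1
  obtain ⟨a, rfl⟩ := inY (cw_iff.1 (h.comm.1 c2))
  exact ⟨a, rfl⟩
theorem Wpar {x : G} {n m : ℕ} (e : x * W ^ n = x * W ^ m) : n % 2 = m % 2 := by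
  rw [mul_right_inj, Wm, Wm m] at e
  have := h.W1
  generalize W = w at e this
  rcases Nat.mod_two_eq_zero_or_one n with c | c <;> rcases Nat.mod_two_eq_zero_or_one m with c' | c' <;>
    simp [c, c', this, this.symm] at e ⊢

include hz
theorem tgN {a : GY} (e : tg' [0, 3, 5] a) : ¬ IsConj (φ bt) (ψ a) := fun c => by
  obtain ⟨n, hn, e⟩ := clsY e
  have := c.trans (h.isConj e).symm
  simp only [List.mem_cons, List.not_mem_nil, or_false] at hn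
  rcases hn with rfl | rfl | rfl
  exacts [h.n1 (map_one φ ▸ this), h.notw this, h.notv hz this]

theorem tgT {a : GY} (e : tg' [1, 2, 4] a) : IsConj (φ bt) (ψ a) := by
  obtain ⟨n, hn, e⟩ := clsY e
  simp only [List.mem_cons, List.not_mem_nil, or_false] at hn
  rcases hn with rfl | rfl | rfl
  exacts [h.isConj e, (h.tu_vw hz).1.trans (h.isConj e), hz.trans (h.isConj e)]

theorem ofN {a : GY} (e : inN a) : TT φ (ψ a) := by
  obtain ⟨p, hp, e⟩ := e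
  rw [ofv e]
  exact ⟨h.tgT hz (N2 p hp).1, by rw [← eyw, ← mmY]; exact h.tgT hz (N2 p hp).2.1, WY _⟩

theorem toN {a : GY} (e : TT φ (ψ a)) : inN a := by
  rcases N1 a (h.iY (by rw [mmY, h.sqT e.1]; simp)) with c | c | c
  exacts [c, absurd e.1 (h.tgN hz c), absurd (by rw [mmY, eyw]; exact e.2.1) (h.tgN hz c)]

theorem toN' {x : G} (e : TT φ x) (c : x * φ bt = φ bt * x) : ∃ p ∈ LN, x = ψ (kY p.1) := by
  obtain ⟨a, rfl⟩ := h.toY' c e.2.2
  obtain ⟨p, hp, e⟩ := h.toN hz e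
  exact ⟨p, hp, by rw [ofv e]⟩

theorem frame {x y : G} (hx : IsConj (φ bt) x) (c : y * x = x * y) (y2 : y * y = 1) (y1 : y ≠ 1)
    (hy : ¬ IsConj (φ bt) y) (hxy : IsConj (φ bt) (x * y)) : ∃ g, g * y * g⁻¹ = W ∧ g * x * g⁻¹ = φ bt := by
  obtain ⟨g, h1⟩ := isConj_iff.1 hx.symm
  obtain ⟨k, h2⟩ := (h.rng (g * y * g⁻¹)).1 (ccj c h1)
  have n : ∀ s, IsConj (φ bt) (φ s) → ¬ IsConj s k := fun s e c => hy ((e.trans (h.isConj c)).trans (icj g h2.symm).symm)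
  rcases clsInv (h.invol (b := k) (by rw [h2, conj_mul, y2]; simp)).1 with e | e | e | e | e | e
  · exact absurd (conj_eq_one_iff.1 (by rw [← h2, e, map_one])) y1
  · exact absurd (e ▸ IsConj.refl _) (n bt (IsConj.refl _))
  · exact absurd e (n _ (h.tu_vw hz).1)
  · obtain ⟨m, e⟩ := isConj_iff.1 e.symm
    exact ⟨φ m * g, cj_mul h2.symm (cjφ φ e), cj_mul h1 (cj_cm (h.tc _))⟩
  · exact absurd e (n _ hz)
  · obtain ⟨m, e⟩ := isConj_iff.1 e.symm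
    refine absurd (((hxy.trans (icj g (cj_pr h1 h2.symm))).trans (icj (φ m) (cj_pr (cj_cm (h.tc _)) (cjφ φ e)))).trans
      (icj (ψ yh) ?_).symm) (h.notv hz)
    rw [← eyv, ← eyt]; exact (cjφ (φ.comp ιY) Y1.1).trans (mmY _ _)

theorem trT {a : G} (e : TT φ a) : ∃ g, g * W * g⁻¹ = W ∧ g * a * g⁻¹ = φ bt :=
  h.frame hz e.1 e.2.2.symm W2 h.W1 h.notw e.2.1

theorem NN {c x y : G} (hc : TT φ c) (hx : TT φ x) (hy : TT φ y) (e1 : x * c = c * x) (e2 : y * c = c * y) :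
    x * y = y * x ∨ x * y = y * x * W := by
  obtain ⟨g, g1, g2⟩ := h.trT hz hc
  obtain ⟨p, hp, p1⟩ := h.toN' hz (hx.cj g1) (ccj e1 g2)
  obtain ⟨q, hq, q1⟩ := h.toN' hz (hy.cj g1) (ccj e2 g2)
  refine (N4 p hp q hq).imp (fun e => (ccj' p1 q1).1 (by simp only [← mmY, e])) fun e => ?_
  rw [← cj_inv (cj_pr p1 q1), ← cj_inv (cj_pr (cj_pr q1 p1) g1), ← eyw, ← mmY, ← mmY, ← mmY, e]

theorem CN {c x y : G} (hc : TT φ c) (hx : TT φ x) (hy : TT φ y) (e1 : x * c = c * x) (e2 : y * c = c * y)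
    (n : x * y ≠ y * x) : ∃ d, TT φ d ∧ TT φ (d * c) ∧ d * x = x * d ∧ d * y = y * d := by
  obtain ⟨g, g1, g2⟩ := h.trT hz hc
  obtain ⟨p, hp, p1⟩ := h.toN' hz (hx.cj g1) (ccj e1 g2)
  obtain ⟨q, hq, q1⟩ := h.toN' hz (hy.cj g1) (ccj e2 g2)
  obtain e | ⟨j, hj, e, he, d1, d2⟩ := N5 p hp q hq
  · exact absurd ((ccj' p1 q1).1 (by simp only [← mmY, e])) n
  refine ⟨_, (h.ofN hz (N6 j hj e he).1).cj (cj_inv g1), ?_, ccj (by simp only [← mmY, d1]) (cj_inv p1),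
    ccj (by simp only [← mmY, d2]) (cj_inv q1)⟩
  have := (h.ofN hz (N6 j hj e he).2).cj (cj_inv g1)
  rwa [mmY, eyt, cj_pr rfl (cj_inv g2)] at this

theorem pets {a : G} (a2 : a * a = 1) (aw : a * W = W * a) (at' : a * φ bt * a⁻¹ = φ bt * W) :
    (∃ j < 10, ∃ e < 2, a * ψ (rp j * yt ^ e) = ψ (rp j * yt ^ e) * a) ∧
    (TT φ a → ∀ j < 10, a * ψ (rp j) * a⁻¹ = ψ (rp j) ∨ a * ψ (rp j) * a⁻¹ = ψ (rp j) * W) := by
  have aw' := cj_cm aw
  have a3 : a * (φ bt * W) * a⁻¹ = φ bt := by rw [cj_pr at' aw', mul_assoc, W2, mul_one]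
  have ai : ∀ {x y}, a * x * a⁻¹ = y → a * y * a⁻¹ = x := fun e => by
    have := cj_inv e
    rwa [inv_eq_of_mul_eq_one_right a2] at this
  have az : ∀ s ∈ z4, ∃ s' ∈ z4, a * ψ s * a⁻¹ = ψ s' := by
    simp only [z4, List.forall_mem_cons, List.exists_mem_cons_iff, mmY, eyw, eyt, map_one]
    exact ⟨Or.inl (by simp), Or.inr (Or.inl aw'), Or.inr (Or.inr (Or.inr (Or.inl at'))), Or.inr (Or.inr (Or.inl a3)),
      by simp⟩
  let F : ℕ → ℕ → Prop := fun i j => ∃ s ∈ z4, a * ψ (rp i) * a⁻¹ = ψ (rp j * s)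
  have fix : ∀ j, F j j → a * ψ (rp j) * a⁻¹ = ψ (rp j) ∨ a * ψ (rp j) * a⁻¹ = ψ (rp j) * W := fun j ⟨s, hs, e⟩ => by
    have e' := ai e
    have nw : ∀ {x : G}, x * W ≠ x := fun e => h.W1 (mul_eq_left.1 e)
    simp only [z4, List.mem_cons, List.not_mem_nil, or_false] at hs
    rcases hs with rfl | rfl | rfl | rfl
    · exact Or.inl (by rw [e, mul_one])
    · exact Or.inr (by rw [e, mmY, eyw])
    · rw [mmY, eyt] at e e'
      rw [cj_pr e at', mul_assoc, ← mul_assoc (φ bt), h.t2, one_mul] at e'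
      exact absurd e' nw
    · rw [mmY, mmY, eyt, eyw] at e e'
      rw [cj_pr e a3, mul_assoc, mul_assoc, h.tc, ← mul_assoc (φ bt), h.t2, one_mul] at e'
      exact absurd e' nw
  obtain ⟨⟨i, hi, fi⟩, h2⟩ := pet (F := F) (fun i hi => by
      have k := N6 i hi 0 (by decide)
      rw [pow_zero, mul_one] at k
      obtain ⟨y, hy⟩ := h.toY' (x := a * ψ (rp i) * a⁻¹) (ccj (cmul (h.tc _) (WY _)) a3) (ccj (WY _) aw')
      obtain ⟨p, hp, e⟩ := h.toN hz (hy ▸ (h.ofN hz k.1).cj aw')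
      obtain ⟨j, hj, e'⟩ := N7 p hp (h.toN hz (by
        have := ((h.ofN hz k.2).cj aw').mul
        rwa [mmY, eyt, cj_pr hy.symm at', ← mul_assoc, mul_assoc _ W, W2, mul_one, ← eyt, ← mmY, ofv e] at this))
      obtain ⟨s, hs, e'⟩ := Pl_iff.1 e'
      exact ⟨j, hj, s, hs, by rw [← hy, ofv e, ← e']⟩)
    (fun {i j k l} hi hj hk hl ⟨s, hs, e⟩ ⟨s', hs', e'⟩ => by
      rw [Bool.eq_iff_iff, ← (N8 i hi k hk).1, ← (N8 j hj l hl).1, ← h.inj.comp SE.ι_inj |>.eq_iff,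
        ← h.inj.comp SE.ι_inj |>.eq_iff (a := rp j * rp l)]
      simp only [Function.comp, mmY]
      rw [← ccj' e e', ← mmY, ← mmY, ← mmY, ← mmY, mul_assoc, mul_assoc, ← z4c hs, ← z4c hs', ← mul_assoc, ← mul_assoc,
        ← mul_assoc, ← mul_assoc, mul_assoc _ s, z4c hs' s, ← mul_assoc, mmY, mmY, mmY _ s, mmY _ s', mul_left_inj,
        mul_left_inj])
    (fun {i j} ⟨s, hs, e⟩ => by
      obtain ⟨s', hs', e'⟩ := az s hs
      refine ⟨s', hs', ?_⟩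
      rw [mmY, ← cj_pr (ai e) e', ← mmY, mul_assoc (rp j), (z4m s hs).1, mul_one])
    (fun {i j k} hj hk ⟨s, hs, e⟩ ⟨s', hs', e'⟩ => (N8 j hj k hk).2 (Pl_iff.2 ⟨_, (z4m s hs).2 s' hs', by
      rw [← mul_assoc, h.iY (e.symm.trans e'), mul_assoc, (z4m s' hs').1, mul_one]⟩))
  have nb : ∃ e < 2, a * ψ (rp i * yt ^ e) = ψ (rp i * yt ^ e) * a := by
    rcases fix i fi with e | e
    · exact ⟨0, by decide, by rw [pow_zero, mul_one, cm_cj e]⟩
    · refine ⟨1, by decide, cm_cj ?_⟩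
      rw [pow_one, mmY, eyt, cj_pr e at', mul_assoc, ← mul_assoc W, h.tc, mul_assoc, W2, mul_one]
  refine ⟨⟨i, hi, nb⟩, fun ta j hj => fix j (h2 i hi (fun j hj e => ?_) j hj)⟩
  obtain ⟨e', he, c⟩ := nb
  have k := (N6 j hj 0 (by decide)).1
  rw [pow_zero, mul_one] at k
  rcases h.NN hz (h.ofN hz (N6 i hi e' he).1) ta (h.ofN hz k) c (by
    rw [mmY, map_pow, map_pow, eyt]
    exact cmul (by simp only [← mmY, (N8 i hi j hj).1.2 e]) (Commute.pow_right (h.tc _) _)) with c | c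
  · exact ⟨1, by simp [z4], by rw [mul_one, cj_cm c]⟩
  · exact ⟨yw, by simp [z4], by rw [mmY, eyw, c, mul_assoc (ψ _), aw, ← mul_assoc, mul_inv_cancel_right]⟩

theorem sg {a : G} (ta : TT φ a) (at' : a * φ bt * a⁻¹ = φ bt * W) : ∃ m ∈ L24, Sg φ a m.1 := by
  have : ∀ i, ∃ e < 2, i < 7 → a * ψ (qs.getD i 1) * a⁻¹ = ψ (qs.getD i 1) * W ^ e := fun i => by
    by_cases hi : i < 7
    swap; · exact ⟨0, by decide, fun c => absurd c hi⟩
    obtain rfl | ⟨j, hj, e⟩ := N16.2.1 i hi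
    · exact ⟨1, by decide, fun _ => by rw [pow_one, show qs.getD 0 1 = yt from rfl, eyt, at']⟩
    rcases (h.pets hz (h.sqT ta.1) ta.2.2 at').2 ta j hj with c | c
    exacts [⟨0, by decide, fun _ => by rw [e, c, pow_zero, mul_one]⟩, ⟨1, by decide, fun _ => by rw [e, c, pow_one]⟩]
  choose f f1 f2 using this
  have s : Sg φ a (f 0 + 2 * f 1 + 4 * f 2 + 8 * f 3 + 16 * f 4 + 32 * f 5 + 64 * f 6) := fun i hi => by
    rw [f2 i hi]; congr 2
    have := f1 0; have := f1 1; have := f1 2; have := f1 3; have := f1 4; have := f1 5; have := f1 6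
    interval_cases i <;> omega
  have hl : f 0 + 2 * f 1 + 4 * f 2 + 8 * f 3 + 16 * f 4 + 32 * f 5 + 64 * f 6 < 128 := by
    have := f1 0; have := f1 1; have := f1 2; have := f1 3; have := f1 4; have := f1 5; have := f1 6
    omega
  generalize f 0 + _ + _ + _ + _ + _ + _ = l at s hl
  have nc : a * φ bt ≠ φ bt * a := fun e => h.W1 (mul_eq_left.1 (at'.symm.trans (cj_cm e)))
  obtain e | ⟨m, hm, rfl⟩ | ⟨m, hm, rfl⟩ := N13 l hl
  · have := s 0 (by decide)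
    rw [pow_zero, Nat.div_one, e, pow_zero, mul_one, show qs.getD 0 1 = yt from rfl, eyt] at this
    exact absurd (cm_cj this) nc
  · exact ⟨m, hm, s⟩
  obtain ⟨m1, m2, m3⟩ := N14 m hm
  have k := s.q ta.2.2 (N2 _ m1).2.2.2
  rw [Wm, m2, pow_zero, mul_one] at k
  obtain ⟨d, d1, d2, d3, d4⟩ := h.CN hz (h.ofN hz ⟨_, m1, (N14' m hm)⟩) (eyt ▸ h.ofN hz (N16.2.2.2.2 yt (by simp [qs])))
    ta (h.tc _).symm (cm_cj k) nc.symm
  obtain ⟨p, hp, rfl⟩ := h.toN' hz d1 d3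
  refine (m3 p hp ?_ (h.toN hz (mmY (φ := φ) _ _ ▸ d2))).elim
  exact h.Wpar (m := 0) ((s.q ta.2.2 (N2 p hp).2.2.2).symm.trans (by rw [cj_cm d4.symm, pow_zero, mul_one]))
end Pin
end CfH1.HN
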