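import Cfsg.Agent.OD.Pre
import Cfsg.Agent.H1.HN11
/-! The conjugates of `t` in the extraspecial subgroup commute modulo its centre. -/
set_option autoImplicit false
set_option maxRecDepth 100000
set_option linter.unusedSectionVars false
open Cfsg CfH6 CfL CfH9 MulAction Subgroup
namespace CfH1

theorem pl_app {M : Type*} [Monoid M] (a : M) (gs : List M) :
    ∀ c, pl (gs ++ [a]) c = pl gs c * a ^ (c / 2 ^ gs.length % 2) := by
  induction gs with
  | nil => intro c; simp [pl]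
  | cons g gs ih =>
    intro c
    rw [List.cons_append, pl, pl, ih, List.length_cons, pow_succ', Nat.div_div_eq_div_mul, mul_assoc]

theorem pl_add {M : Type*} [Monoid M] (gs : List M) : ∀ c, pl gs (2 ^ gs.length + c) = pl gs c := by
  induction gs with
  | nil => exact fun _ => rfl
  | cons g gs ih =>
    intro c
    rw [pl, pl, List.length_cons, pow_succ', Nat.mul_add_mod, Nat.mul_add_div (by decide), ih]

theorem AL3 {G : Type*} [Group G] [Finite G] (W : G) (W2 : W * W = 1) (T : G → Prop)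
    (hT : ∀ a, T a → a * a = 1 ∧ a * W = W * a ∧ T (a * W)) (hc : ∀ a, T a → ∀ g, g * W * g⁻¹ = W → T (g * a * g⁻¹))
    (gs : List G) (hg : ∀ a ∈ gs, T a ∧ ∀ b ∈ gs, a * b = b * a ∨ a * b = b * a * W)
    (tr : ∀ a, T a → ∃ g, g * W * g⁻¹ = W ∧ g * a * g⁻¹ = pl gs 1)
    (h0 : ∀ c < 256, pl gs c = 1 ∨ pl gs c = W → c = 0) (hD : ∀ c < 256, T (pl gs c) ↔ c ∈ LD)
    (hB : ∀ a, T a → pl gs 1 * a = a * pl gs 1 ∨ pl gs 1 * a = a * pl gs 1 * W →
      ∃ c < 256, a = pl gs c ∨ a = pl gs c * W) (a : G) (ha : T a) : ∃ c < 256, a = pl gs c ∨ a = pl gs c * W := by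
  lift gs to List Cx(W) using fun b hb => mem_Cx.2 (hT b (hg b hb).1).2.1
  have P : ∀ c, pl (gs.map (↑)) c = ((pl gs c : Cx(W)) : G) := fun c => (map_pl (Cx(W)).subtype gs c).symm
  simp only [P, List.forall_mem_map] at hg tr h0 hD hB ⊢
  simpa only [Subtype.ext_iff, coe_mul] using AL2 (G := Cx(W)) ⟨W, mem_Cx.2 rfl⟩ (fun g => Subtype.ext (mem_Cx.1 g.2))
    (Subtype.ext W2) {x | T x.1} (fun b hb => ⟨Subtype.ext (hT _ hb).1, (hT _ hb).2.2⟩)
    (fun b hb g => hc _ hb _ (mem_Cx'.1 g.2)) gs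
    (fun b hb => ⟨Subtype.ext (hT _ (hg b hb).1).1, fun d hd => ((hg b hb).2 d hd).imp Subtype.ext Subtype.ext⟩)
    (fun b hb => by
      obtain ⟨g, g1, g2⟩ := tr _ hb
      exact (isConj_iff.2 ⟨⟨g, mem_Cx'.2 g1⟩, Subtype.ext g2⟩ : IsConj b _).symm)
    (fun c hc e => h0 c hc (e.imp (congrArg Subtype.val) (congrArg Subtype.val))) hD
    (fun b hb e => by
      simpa only [Subtype.ext_iff, coe_mul] using hB _ hb (e.imp (congrArg Subtype.val) (congrArg Subtype.val)))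
    ⟨a, mem_Cx.2 (hT a ha).2.1⟩ ha

namespace HN
variable {G : Type*} [Group G] {φ : B →* G}
local notation "ψ" a:max => φ (ιY a)
local notation "W" => φ bw

theorem Sg.zero {a : G} {l : ℕ} (s : Sg φ a l) : a * φ bt * a⁻¹ = φ bt * W ^ (l % 2) := by
  have := s 0 (by decide)
  rwa [pow_zero, Nat.div_one, show qs.getD 0 1 = yt from rfl, eyt] at this

theorem Sg.mul {a b : G} {l l' : ℕ} (s : Sg φ a l) (s' : Sg φ b l') (hw : a * W = W * a) (i : ℕ) (hi : i < 7) :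
    a * b * ψ (qs.getD i 1) * (a * b)⁻¹ = ψ (qs.getD i 1) * W ^ (l' / 2 ^ i % 2 + l / 2 ^ i % 2) :=
  cj_mul (s' i hi) (by rw [cj_pr (s i hi) (cj_cm (Commute.pow_right hw _)), mul_assoc, ← pow_add, add_comm])

theorem Sg.mulW {a : G} {l : ℕ} (s : Sg φ a l) : Sg φ (a * W) l := fun i hi => cj_mul (cj_cm (WY _).symm) (s i hi)

theorem sgP {c : ℕ} (hc : c < 128) : Sg φ (ψ (pl qs c)) (sgl.getD c 0) := fun i hi => by
  rw [cjφ φ (cjφ ιY ((N10 c hc).1 i hi)), mmY, map_pow, map_pow, eyw]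

theorem anti {a x : G} (hw : a * W = W * a) : a * x * a⁻¹ = x * W ↔ a * x = x * a * W := by
  rw [mul_inv_eq_iff_eq_mul, mul_assoc, ← hw, mul_assoc]

theorem symW {a x : G} (e : a * x = x * a * W) : x * a = a * x * W := by rw [e, mul_assoc _ W, W2, mul_one]

namespace Pin
variable (h : Hy φ) (hz : IsConj (φ bt) (φ bz))
include h hz

theorem Tt : TT φ (φ bt) := eyt ▸ h.ofN hz (N16.2.2.2.2 yt (by simp [qs]))

theorem Tb : TT φ (ψ (rp 0)) ∧ TT φ (ψ (rp 0) * φ bt) := by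
  have k := N6 0 (by decide) 0 (by decide)
  rw [pow_zero, mul_one] at k
  exact ⟨h.ofN hz k.1, by rw [← eyt, ← mmY]; exact h.ofN hz k.2⟩

theorem a0 : ∃ a, TT φ a ∧ Sg φ a 3 := by
  obtain ⟨g, g1, g2⟩ := h.trT hz (h.Tb hz).1
  obtain ⟨p, hp, p1⟩ := h.toN' hz ((h.Tt hz).cj g1) (ccj (h.tc _).symm g2)
  obtain e | e | ⟨q, hq, n⟩ := N12 p hp
  · rw [e, eyt] at p1
    replace p1 := p1.trans g2.symm
    rw [mul_left_inj, mul_right_inj, ← eyt] at p1
    exact absurd (h.iY p1) (by decide +kernel)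
  · rw [e, mmY, eyt, eyw, ← cj_pr g2 g1, mul_left_inj, mul_right_inj, ← eyt, ← eyw, ← mmY] at p1
    exact absurd (h.iY p1) (by decide +kernel)
  have tq : TT φ (ψ (kY q.1)) := ⟨h.tgT hz (N2 q hq).1, by rw [← eyw, ← mmY]; exact h.tgT hz (N2 q hq).2.1, WY _⟩
  have ta := tq.cj (cj_inv g1)
  rcases h.NN hz (h.Tb hz).1 ta (h.Tt hz) (ccj (h.tc _) (cj_inv g2)) (h.tc _).symm with c | c
  · exact absurd (h.iY (by rw [mmY, mmY, ((ccj' rfl (cj_inv p1)).1 c)])) n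
  obtain ⟨m, hm, s⟩ := h.sg hz ta ((anti ta.2.2).2 c)
  exact ⟨_, ta.cj (cj_cm (WY _)), s.cj ta.2.2 _ fun i hi => ((N11 m hm).2 i hi).2⟩

theorem dec {a b : G} {l : ℕ} (ta : TT φ a) (sa : Sg φ a 3) (tb : TT φ b) (sb : Sg φ b l) (hl : l % 2 = 1) :
    ∃ c < 128, b = ψ (pl qs c) * a ∨ b * W = ψ (pl qs c) * a := by
  have k := sb.mul sa tb.2.2
  obtain ⟨y, hy⟩ := h.toY' (x := b * a) (cm_cj (by
    have := k 0 (by decide)
    rwa [pow_zero, Nat.div_one, Nat.div_one, hl, Wm, pow_zero, mul_one, show qs.getD 0 1 = yt from rfl, eyt] at this))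
    (cmul tb.2.2.symm ta.2.2.symm).symm
  obtain ⟨p, hp, e⟩ := N9 y fun i hi => by
    have := k i hi
    rw [← hy, cjφ φ (cjφ ιY rfl), Wm] at this
    rcases Nat.mod_two_eq_zero_or_one (3 / 2 ^ i % 2 + l / 2 ^ i % 2) with c | c <;> rw [c] at this
    exacts [Or.inl (h.iY (by rw [this, pow_zero, mul_one])), Or.inr (h.iY (by rw [this, pow_one, mmY, eyw]))]
  have eb : b = ψ y * a := by rw [hy, mul_assoc, h.sqT ta.1, mul_one]
  refine ⟨p.2, (N9b p hp).1, (N9b p hp).2.imp (fun c => by rw [eb, ofv e, c]) fun c => ?_⟩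
  rw [eb, ofv e, c, mmY, eyw, mul_assoc, mul_assoc, ta.2.2, ← mul_assoc W, W2, one_mul]

theorem key {a : G} {c : ℕ} {m : ℕ × ℕ × ℕ} (ta : TT φ a) (sa : Sg φ a 3) (hc : c < 128) (hm : m ∈ L24)
    (tb : TT φ (ψ (pl qs c) * a)) (sb : Sg φ (ψ (pl qs c) * a) m.1) : c = m.2.2 := by
  refine N15 m hm c hc (fun i hi => ?_) (h.Wpar (x := 1) (m := 0) ?_)
  · rw [← h.Wpar ((sb i hi).symm.trans ((sgP hc).mul sa (WY _) i hi)), Nat.mod_mod]
  · have := sa.pl c
    rw [inv_eq_of_mul_eq_one_right (h.sqT ta.1)] at this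
    rw [pow_zero, one_mul, one_mul, ← h.sqT tb.1, mul_assoc, ← mul_assoc a, this, ← mul_assoc, ← mmY, (N10 c hc).2.1,
      map_pow, map_pow, eyw, pow_add]

theorem allT [Finite G] {b : G} (tb : TT φ b) : b * φ bt = φ bt * b ∨ b * φ bt * b⁻¹ = φ bt * W := by
  obtain ⟨a, ta, sa⟩ := h.a0 hz
  have A1 : ∀ c < 128, pl (qs.map (φ.comp ιY) ++ [a]) c = ψ (pl qs c) := fun c hc => by
    rw [pl_app, ← map_pl, show c / 2 ^ (qs.map (φ.comp ιY)).length = 0 from Nat.div_eq_of_lt hc, Nat.zero_mod, pow_zero,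
      mul_one]; rfl
  have A2 : ∀ c < 128, pl (qs.map (φ.comp ιY) ++ [a]) (128 + c) = ψ (pl qs c) * a := fun c hc => by
    rw [pl_app, ← map_pl, show (128 + c) / 2 ^ (qs.map (φ.comp ιY)).length % 2 = 1 by change _ / 128 % 2 = 1; omega,
      pow_one, show pl qs (128 + c) = _ from pl_add qs c]; rfl
  have A3 : pl (qs.map (φ.comp ιY) ++ [a]) 1 = φ bt := by
    rw [A1 1 (by decide), show pl qs 1 = yt by decide +kernel, eyt]
  have sp : ∀ c < 256, c < 128 ∨ ∃ d < 128, c = 128 + d := fun c hc => by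
    by_cases e : c < 128
    exacts [Or.inl e, Or.inr ⟨c - 128, by omega, by omega⟩]
  have at' : a * φ bt * a⁻¹ = φ bt * W := by rw [sa.zero, show 3 % 2 = 1 from rfl, pow_one]
  have an : ∀ y, ψ y * a * φ bt * (ψ y * a)⁻¹ = φ bt * W := fun y =>
    cj_mul at' (cj_pr (cj_cm (h.tc _)) (cj_cm (WY _)))
  have nw : ∀ {x}, x * φ bt * x⁻¹ = φ bt * W → x * φ bt ≠ φ bt * x := fun e c =>
    h.W1 (mul_eq_left.1 (e.symm.trans (cj_cm c)))
  have R : ∀ q ∈ qs, a * ψ q = ψ q * a ∨ a * ψ q = ψ q * a * W := fun q hq => by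
    obtain ⟨p, hp, e⟩ := N16.2.2.2.2 q hq
    have := sa.q ta.2.2 (ofv e ▸ (N2 p hp).2.2.2 : q = _ ∨ q = _)
    rw [Wm] at this
    rcases Nat.mod_two_eq_zero_or_one (par 7 3 p.2) with c | c <;> rw [c] at this
    exacts [Or.inl (cm_cj (by rw [this, pow_zero, mul_one])), Or.inr ((anti ta.2.2).1 (by rw [this, pow_one]))]
  obtain ⟨c, hc, e⟩ := AL3 W W2 (TT φ) (fun x hx => ⟨h.sqT hx.1, hx.2.2, hx.mul⟩) (fun x hx g e => hx.cj e)
    (qs.map (φ.comp ιY) ++ [a]) (by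
      have tq := fun q hq => h.ofN hz (N16.2.2.2.2 q hq)
      simp only [List.forall_mem_append, List.forall_mem_map, List.forall_mem_singleton, MonoidHom.comp_apply]
      exact ⟨fun q hq => ⟨tq q hq, fun r hr => h.NN hz (h.Tt hz) (tq q hq) (tq r hr) (h.tc _) (h.tc _),
        (R q hq).imp Eq.symm symW⟩, ta, R, Or.inl trivial⟩)
    (fun x hx => A3 ▸ h.trT hz hx)
    (fun c hc e => by
      obtain hc | ⟨d, hd, rfl⟩ := sp c hc
      · rw [A1 c hc] at e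
        exact (N10 c hc).2.2 (e.imp (fun e => h.iY (by rw [e, map_one, map_one])) fun e => h.iY (by rw [e, eyw]))
      · rw [A2 d hd] at e
        refine absurd ?_ (nw (an (pl qs d)))
        rcases e with e | e <;> rw [e]
        exacts [by simp, h.tc _])
    (fun c hc => by
      obtain hc | ⟨d, hd, rfl⟩ := sp c hc
      · rw [A1 c hc, ← N3 c hc]
        exact ⟨h.toN hz, h.ofN hz⟩
      rw [A2 d hd]
      refine ⟨fun t => ?_, fun e => ?_⟩
      · obtain ⟨m, hm, s⟩ := h.sg hz t (an _)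
        exact h.key hz ta sa hd hm t s ▸ (N11 m hm).1
      · obtain ⟨m, hm, rfl⟩ := N16.1 d hd e
        have t1 := ta.cj (cj_cm (WY (kY m.2.1)))
        have s1 := sa.cj ta.2.2 _ fun i hi => ((N11 m hm).2 i hi).1
        obtain ⟨c, hc, e | e⟩ := h.dec hz ta sa t1 s1 (N16.2.2.1 m hm)
        · rw [e] at t1 s1
          exact h.key hz ta sa hc hm t1 s1 ▸ t1
        · exact h.key hz ta sa hc hm (e ▸ t1.mul) (e ▸ s1.mulW) ▸ e ▸ t1.mul)
    (fun x hx e => by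
      rw [A3] at e
      rcases e with e | e
      · obtain ⟨p, hp, rfl⟩ := h.toN' hz hx e.symm
        have := (by decide : ∀ c ∈ NC, c < 128) _ (N2 p hp).2.2.1
        refine ⟨p.2, by omega, ?_⟩
        rw [A1 _ this, ← eyw, ← mmY]
        exact (N2 p hp).2.2.2.imp (congrArg _ ∘ congrArg _) (congrArg _ ∘ congrArg _)
      · obtain ⟨m, hm, s⟩ := h.sg hz hx ((anti hx.2.2).2 (symW e))
        obtain ⟨c, hc, e⟩ := h.dec hz ta sa hx s (N16.2.2.1 m hm)
        refine ⟨128 + c, by omega, ?_⟩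
        rw [A2 c hc]
        exact e.imp_right fun e => by rw [← e, mul_assoc, W2, mul_one]) b tb
  obtain hc | ⟨d, hd, rfl⟩ := sp c hc
  · rw [A1 c hc] at e
    rcases e with rfl | rfl
    exacts [Or.inl (h.tc _), Or.inl (cmul (h.tc _).symm (h.tc _).symm).symm]
  · rw [A2 d hd] at e
    rcases e with rfl | rfl
    exacts [Or.inr (an _), Or.inr (cj_mul (cj_cm (h.tc _)) (an _))]

theorem allR [Finite G] {x y : G} (hx : TT φ x) (hy : TT φ y) : x * y = y * x ∨ x * y * x⁻¹ = y * W := by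
  obtain ⟨g, g1, g2⟩ := h.trT hz hy
  refine (h.allT hz (hx.cj g1)).imp (ccj' rfl g2).1 fun e => ?_
  rw [← cj_pr g2 g1, ← g2] at e
  calc _ = g⁻¹ * (g * x * g⁻¹ * (g * y * g⁻¹) * (g * x * g⁻¹)⁻¹) * g := by group
    _ = _ := by rw [e]; group
end Pin
end HN
end CfH1
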