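import Cfsg.Agent.OD.Pre
import Cfsg.Agent.H1.HN10
import Cfsg.Agent.H1.HN12
import Cfsg.Agent.L.SE
/-! Recognition of the Harada–Norton group. -/
set_option autoImplicit false
set_option maxRecDepth 100000
set_option linter.unusedSectionVars false
open Cfsg CfH6 CfL CfH9 MulAction Subgroup
namespace CfH1.HN
variable {G : Type*} [Group G] [Finite G] {φ : B →* G}
local notation "ψ" a:max => φ (ιY a)
local notation "W" => φ bw

theorem dih {x y : G} (x2 : x * x = 1) (y2 : y * y = 1) (n : ¬ IsConj x y) :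
    ∃ z, z * z = 1 ∧ z ≠ 1 ∧ x * z = z * x ∧ y * z = z * y := by
  rcases Nat.even_or_odd (orderOf (y * x)) with e | e
  · obtain ⟨z, hz, z2, z1⟩ := exists_invol_of_even e
    exact ⟨z, z2, z1, (comm_of_mem_zpowers y2 x2 hz z2).symm⟩
  · obtain ⟨j, j2, e⟩ := invol_conj_of_odd x2 y2 e
    exact absurd (icj j (by rwa [inv_eq_of_mul_eq_one_right j2])) n

omit [Finite G] in
theorem bil {x y x' y' w : G} (w2 : w * w = 1) (c1 : x * w = w * x) (c2 : y' * w = w * y') {e : ℕ}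
    (h1 : x * x' * x⁻¹ = x' * w) (h2 : y * y' * y⁻¹ = y' * w) (h3 : x * y' * x⁻¹ = y' * w ^ e)
    (h4 : y * x' * y⁻¹ = x' * w ^ e) : x * y * (x' * y') = x' * y' * (x * y) := by
  refine cm_cj (cj_mul (cj_pr h4 h2) ?_)
  have c3 : ∀ n, w ^ n * y' = y' * w ^ n := fun n => (Commute.pow_right c2 n).symm
  rw [cj_pr (cj_pr h1 (cj_cm (Commute.pow_right c1 e))) (cj_pr h3 (cj_cm c1)), mul_assoc x', ← pow_succ',
    mul_assoc y', ← pow_succ, mul_assoc, ← mul_assoc (w ^ _), c3, mul_assoc, ← pow_add, ← two_mul, pow_mul, sq, w2,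
    one_pow, mul_one]

namespace Pin
variable (h : Hy φ) (hz : IsConj (φ bt) (φ bz))
include h hz

theorem fix {i : G} (i2 : i * i = 1) (iw : i * W = W * i) : ∃ x, IsConj (φ bt) x ∧ i * x = x * i := by
  have ii := inv_eq_of_mul_eq_one_right i2
  have ai : ∀ {x y}, i * x * i⁻¹ = y → i * y * i⁻¹ = x := fun e => by
    have := cj_inv e
    rwa [ii] at this
  obtain ⟨x, tx, c⟩ : ∃ x, TT φ x ∧ x * (i * x * i⁻¹) = i * x * i⁻¹ * x := by
    obtain ⟨tb, tb'⟩ := h.Tb hz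
    have tt := h.Tt hz
    rcases h.allR hz tb (tb.cj (cj_cm iw)) with c1 | c1
    · exact ⟨_, tb, c1⟩
    rcases h.allR hz tt (tt.cj (cj_cm iw)) with c2 | c2
    · exact ⟨_, tt, c2⟩
    refine ⟨_, tb', ?_⟩
    rw [cj_pr rfl rfl]
    rcases h.allR hz tb (tt.cj (cj_cm iw)) with c3 | c3
    · exact bil (e := 0) W2 tb.2.2 (tt.cj (cj_cm iw)).2.2 c1 c2 (by rw [cj_cm c3, pow_zero, mul_one])
        (by rw [cj_cm ((ccj' rfl (ai rfl)).2 c3).symm, pow_zero, mul_one])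
    · refine bil (e := 1) W2 tb.2.2 (tt.cj (cj_cm iw)).2.2 c1 c2 (by rw [c3, pow_one]) ?_
      rw [pow_one, anti tt.2.2]
      refine symW ?_
      rw [← cj_pr rfl (ai rfl), (anti tb.2.2).1 c3, cj_pr (cj_pr (ai rfl) rfl) (cj_cm iw)]
  have x' : IsConj (φ bt) (i * x * i⁻¹) := tx.1.trans (icj i rfl)
  have x2 := h.sqT tx.1
  have c' : i * (x * (i * x * i⁻¹)) = x * (i * x * i⁻¹) * i := cm_cj (by rw [cj_pr rfl (ai rfl), c])
  by_cases e1 : x * (i * x * i⁻¹) = 1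
  · exact ⟨x, tx.1, cm_cj (by rw [← inv_eq_of_mul_eq_one_right e1, inv_eq_of_mul_eq_one_right x2])⟩
  by_cases e2 : IsConj (φ bt) (x * (i * x * i⁻¹))
  · exact ⟨_, e2, c'⟩
  have e3 : x * (x * (i * x * i⁻¹)) = i * x * i⁻¹ := by rw [← mul_assoc, x2, one_mul]
  obtain ⟨g, g1, g2⟩ := h.frame hz tx.1 (cmul rfl c).symm
    (by rw [mul_assoc, ← mul_assoc _ x, ← c, mul_assoc x, h.sqT x', mul_one, x2]) e1 e2 (e3.symm ▸ x')
  obtain ⟨j, hj, e, he, k⟩ := (h.pets hz (a := g * i * g⁻¹) (by rw [conj_mul, i2]; simp) (ccj c' g1)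
    (by rw [← cj_pr g2 g1, e3, ← g2]; group)).1
  exact ⟨_, (h.ofN hz (N6 j hj e he).1).1.trans (icj g⁻¹ rfl), (ccj' (cj_inv rfl) rfl).2 k⟩

variable {K : Subgroup G} (k1 : ∀ b, φ b ∈ K) (k2 : ∃ g ∈ K, g * φ bt * g⁻¹ = φ bz)
include k1 k2

theorem c1 {x : G} (x2 : x * x = 1) (x1 : x ≠ 1) (c : x * φ bt = φ bt * x) :
    (∃ g ∈ K, g * φ bt * g⁻¹ = x) ∨ ∃ g ∈ K, g * W * g⁻¹ = x := by
  obtain ⟨b, rfl⟩ := (h.rng x).1 c
  let φ0 := φ.codRestrict K k1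
  have h0 : Hy φ0 := ⟨Or.inl rfl, fun a b e => h.inj (congrArg Subtype.val e), fun g => by
    rw [Subtype.ext_iff]
    exact (h.rng g.1).trans (exists_congr fun b => (Subtype.ext_iff (a1 := φ0 b)).symm), rfl, fun a b => by simp⟩
  have z0 : IsConj (φ0 bt) (φ0 bz) := by
    obtain ⟨g, hg, e⟩ := k2
    exact icj ⟨g, hg⟩ (Subtype.ext e)
  have key : ∀ {s s'}, IsConj (φ0 s) (φ0 s') → ∃ g ∈ K, g * φ s * g⁻¹ = φ s' := fun e => by
    obtain ⟨g, e⟩ := isConj_iff.1 e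
    exact ⟨g.1, g.2, congrArg Subtype.val e⟩
  rcases clsInv (h.invol x2).1 with e | e | e | e | e | e
  · exact absurd (by rw [e, map_one]) x1
  · exact Or.inl (key (e ▸ IsConj.refl _))
  · exact Or.inl (key ((h0.tu_vw z0).1.trans (h0.isConj e)))
  · exact Or.inr (key (h0.isConj e))
  · exact Or.inl (key (z0.trans (h0.isConj e)))
  · exact Or.inr (key ((h0.tu_vw z0).2.trans (h0.isConj e)))

omit hz k2 in
theorem c2 {x y : G} (e : ∃ g ∈ K, g * φ bt * g⁻¹ = x) (c : y * x = x * y) : y ∈ K := by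
  obtain ⟨g, hg, e⟩ := e
  obtain ⟨b, hb⟩ := (h.rng _).1 (ccj c (cj_inv e))
  exact memE (cj_inv hb.symm).symm (K.mul_mem (K.mul_mem (K.inv_mem (K.inv_mem hg)) (k1 b))
    (K.inv_mem (K.inv_mem (K.inv_mem hg))))

theorem c3 {x y : G} (e : ∃ g ∈ K, g * φ bt * g⁻¹ = x) (c : y * x = x * y) (hy : IsConj (φ bt) y) :
    ∃ g ∈ K, g * φ bt * g⁻¹ = y := by
  obtain ⟨g, hg, e⟩ := e
  have hy' : IsConj (φ bt) (g⁻¹ * y * g⁻¹⁻¹) := hy.trans (icj _ rfl)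
  obtain ⟨k, hk, e'⟩ | ⟨k, -, e'⟩ := h.c1 hz k1 k2 (h.sqT hy') (fun e => h.n1 (e ▸ hy')) (ccj c (cj_inv e))
  · exact ⟨g * k, K.mul_mem hg hk, cj_mul e' (by group)⟩
  · exact absurd (hy'.trans (icj k e').symm) h.notw

theorem c5 {y : G} (c : y * W = W * y) : y ∈ K := by
  have ta := (h.Tt hz).cj (cj_cm c)
  have o : ∃ g ∈ K, g * φ bt * g⁻¹ = φ bt := ⟨1, K.one_mem, by simp⟩
  obtain ⟨g, hg, e⟩ : ∃ g ∈ K, g * φ bt * g⁻¹ = y * φ bt * y⁻¹ := by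
    rcases h.allT hz ta with e | e
    · exact h.c3 hz k1 k2 o e ta.1
    obtain ⟨j, hj, n, hn, e⟩ := (h.pets hz (h.sqT ta.1) ta.2.2 e).1
    exact h.c3 hz k1 k2 (h.c3 hz k1 k2 o (h.tc _) (h.ofN hz (N6 j hj n hn).1).1) e ta.1
  exact (K.mul_mem_cancel_left (K.inv_mem hg)).1 (h.c2 k1 o (cm_cj (cj_mul rfl (cj_inv e))))

theorem top [IsSimpleGroup G] : K = ⊤ := by
  refine top_le_iff.1 (((normalClosure_normal (s := {W})).eq_bot_or_eq_top.resolve_left fun e =>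
    h.W1 (mem_bot.1 (e ▸ subset_normalClosure rfl))).ge.trans (closure_le _ |>.2 fun x hx => ?_))
  obtain ⟨_, rfl, hx⟩ := Group.mem_conjugatesOfSet_iff.1 hx
  obtain ⟨z, z2, z1, c, c'⟩ := dih h.t2 (sq_of_isConj hx W2) fun e => h.notw (e.trans hx.symm)
  obtain e | ⟨g, hg, e⟩ := h.c1 hz k1 k2 z2 z1 c.symm
  · exact h.c2 k1 e c'
  · exact memE (cj_inv (g := g⁻¹) rfl).symm (K.mul_mem (K.mul_mem (K.inv_mem (K.inv_mem hg))
      (h.c5 hz k1 k2 (ccj c' (cj_inv e)))) (K.inv_mem (K.inv_mem (K.inv_mem hg))))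

omit k1 k2 in
theorem two {i : G} (i2 : i * i = 1) (i1 : i ≠ 1) : IsConj i (φ bt) ∨ IsConj i W := by
  have k2 : ∃ g ∈ (⊤ : Subgroup G), g * φ bt * g⁻¹ = φ bz := by simpa using isConj_iff.1 hz
  have d1 : ∀ {x}, IsConj (φ bt) x → i * x = x * i → IsConj i (φ bt) ∨ IsConj i W := fun e c => by
    obtain ⟨g, e⟩ := isConj_iff.1 e.symm
    refine (h.c1 hz (fun _ => mem_top _) k2 (by rw [conj_mul, i2]; simp) (fun e => i1 (conj_eq_one_iff.1 e))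
      (ccj c e)).imp ?_ ?_ <;> exact fun ⟨k, _, e⟩ => (icj g rfl).trans (icj k e).symm
  by_cases n : IsConj (φ bt) i
  · exact Or.inl n.symm
  obtain ⟨z, z2, z1, c, c'⟩ := dih h.t2 i2 n
  obtain ⟨g, -, e⟩ | ⟨g, -, e⟩ := h.c1 hz (fun _ => mem_top _) k2 z2 z1 c.symm
  · exact d1 (icj g e) c'
  obtain ⟨x, hx, e'⟩ := h.fix hz (i := g⁻¹ * i * g⁻¹⁻¹) (by rw [conj_mul, i2]; simp) (ccj c' (cj_inv e))
  exact d1 (hx.trans (icj g rfl)) ((ccj' rfl (cj_inv rfl)).1 e')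
end Pin

theorem iso [IsSimpleGroup G] (h : Hy φ) (hz : IsConj (φ bt) (φ bz)) : Nonempty (G ≃* HNB.G) := by
  obtain ⟨χ, h1, h2, h3⟩ := chi h hz
  exact ⟨(MulEquiv.ofBijective χ ⟨h1, MonoidHom.range_eq_top.1 (h.top hz h2 h3)⟩).symm⟩

theorem main [IsSimpleGroup G] (h : Hy φ) (hz : IsConj (φ bt) (φ bz)) : IsHN G ∧ ∃ x y : G, orderOf x = 2 ∧
    orderOf y = 2 ∧ ¬ IsConj x y ∧ ∀ z : G, orderOf z = 2 → IsConj z x ∨ IsConj z y := by
  obtain ⟨e⟩ := iso h hz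
  exact ⟨⟨inferInstance, (Nat.card_congr e.toEquiv).trans HNG.big.1⟩, φ bt, W,
    orderOf_eq_prime ((sq _).trans h.t2) (fun e => h.n1 (e ▸ IsConj.refl _)), orderOf_eq_prime ((sq _).trans W2) h.W1,
    h.notw, fun z e => h.two hz (by rw [← sq, ← e, pow_orderOf_eq_one]) (by rintro rfl; simp at e)⟩
end CfH1.HN
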