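import Cfsg.Agent.H3.Jw0
import Cfsg.Agent.H6.Iso2
import Cfsg.Agent.H6.LT1
import Cfsg.Agent.H1.JXT
import Cfsg.Agent.OD.Helper1x2b0da90313
import Cfsg.Agent.OD.Helper1xc9b9a3d27e
/-! Central extensions of `M₂₂` by a group of order at most two. -/
set_option autoImplicit false
set_option maxRecDepth 100000
namespace CfH1.JX
open CfH6 CfH3.J4 Function Subgroup
open CfH3.He (frc frc_eq)
attribute [local instance] M22A.act

noncomputable def s8 (g x : ℕ) : ℕ :=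
  cond (Nat.blt x 352) (cond (Nat.blt g 5) (st g x) (cond (Nat.beq g 5) (Nat.xor x 1) x)) x
noncomputable def sw (w : List ℕ) : ℕ → ℕ := List.rec (fun x => x) (fun g _ ih x => frc (s8 g x) ih) w
theorem sw_cons (g : ℕ) (w : List ℕ) (x : ℕ) : sw (g :: w) x = sw w (s8 g x) := frc_eq _ _
def rels : List (List ℕ) := JXT.rels ++ (List.range 8).map fun x => [x, JXT.il.getD x 0]
theorem F1 : ∀ g < 6, ∀ x < 352, s8 g x < 352 ∧ s8 g (s8 g x) = x := by decide +kernel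
theorem F2 : ∀ r ∈ rels, ∀ x < 352, sw r x = x := by decide +kernel
theorem s8_ge {x : ℕ} (g : ℕ) (h : ¬ x < 352) : s8 g x = x := by
  rw [s8, show Nat.blt x 352 = false from Bool.eq_false_iff.2 fun e => h (Nat.blt_eq.mp e)]; rfl
theorem s8_lt {g x : ℕ} (hg : g < 5) (h : x < 352) : s8 g x = st g x := by
  rw [s8, Nat.blt_eq.mpr h, Nat.blt_eq.mpr hg]; rfl
theorem s8_inv (g : ℕ) : Involutive (s8 g) := fun x => by
  by_cases h : x < 352
  · by_cases hg : g < 6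
    · exact (F1 g hg x h).2
    · have : ∀ y, s8 g y = y := fun y => by
        rw [s8, show Nat.blt g 5 = false from Bool.eq_false_iff.2 fun e => by have := Nat.blt_eq.mp e; omega,
          show Nat.beq g 5 = false from Bool.eq_false_iff.2 fun e => by have := Nat.eq_of_beq_eq_true e; omega]
        simp
      rw [this, this]
  · rw [s8_ge g h, s8_ge g h]
noncomputable def pm (g : ℕ) : Equiv.Perm ℕ := (s8_inv g).toPerm
theorem pm_sw (w : List ℕ) (x : ℕ) : (evw pm w)⁻¹ x = sw w x := by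
  induction w generalizing x with
  | nil => rfl
  | cons g w ih => rw [evw_cons, mul_inv_rev, Equiv.Perm.mul_apply, sw_cons, ← ih]; rfl
theorem sw_ge (w : List ℕ) {x : ℕ} (h : ¬ x < 352) : sw w x = x := by
  induction w with
  | nil => rfl
  | cons g w ih => rw [sw_cons, s8_ge g h, ih]
theorem pm_rel : ∀ r ∈ rels, evw pm r = 1 := fun r hr => inv_eq_one.1 (Equiv.ext fun x => by
  rw [pm_sw]
  exact if h : x < 352 then F2 r hr x h else sw_ge r h)
theorem sw_sgp (w : List ℕ) (hw : ∀ g ∈ w, g < 5) {x : ℕ} (h : x < 352) : sw w x = sgp w x := by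
  induction w generalizing x with
  | nil => rfl
  | cons g w ih =>
    have hg := hw g List.mem_cons_self
    rw [sw_cons, sgp_cons, ih (fun a ha => hw a (List.mem_cons_of_mem _ ha)) (F1 g (by omega) x h).1, s8_lt hg h]

def cl : List (List ℕ × List ℕ) := [([0], []), ([1], [2, 1, 0, 2]), ([2], [0, 2]), ([3], [2, 3, 0, 2]), ([4], [3, 4, 2, 3, 0, 2]),
  ([0, 1], [2, 3, 2, 1, 0, 2, 3, 2, 1, 3, 2]), ([0, 3], [1, 2, 1, 3, 1, 0, 2, 1, 3, 1, 2]), ([0, 4], [2, 1, 0, 2, 3, 4, 1, 2, 3, 0, 2]),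
  ([1, 4], [3, 4, 1, 2, 3, 0, 2]), ([2, 4], [1, 2, 3, 4, 1, 2, 3, 0, 2]), ([1, 3, 1, 3], [4, 3, 2, 1, 0, 2]),
  ([0, 1, 4], [3, 4, 2, 1, 3, 1, 0, 2, 1, 3, 1, 2])]
theorem cj : ∀ p ∈ cl, evw M22B.el p.1 = evw M22B.el p.2 * M22B.el 0 * (evw M22B.el p.2)⁻¹ := fun p hp => by
  have a := M22A.L0.rels_one' M22G.base (cl.map fun p => p.2 ++ [0] ++ p.2.reverse ++ p.1.reverse) (by decide +kernel) _
    (List.mem_map.2 ⟨p, hp, rfl⟩)
  have b := M22A.L0.rels_one' M22G.base (cl.map fun p => p.2 ++ p.2.reverse) (by decide +kernel) _ (List.mem_map.2 ⟨p, hp, rfl⟩)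
  have c := M22A.L0.rels_one' M22G.base (cl.map fun p => p.1 ++ p.1.reverse) (by decide +kernel) _ (List.mem_map.2 ⟨p, hp, rfl⟩)
  simp only [evw_append, evw_cons, evw_nil, mul_one] at a b c
  rw [← inv_eq_of_mul_eq_one_right b, ← inv_eq_of_mul_eq_one_right c, mul_inv_eq_one] at a
  exact a.symm
theorem fr : ∀ r ∈ rels, evw M22B.el (r.filter (· < 5)) = 1 := fun r hr =>
  M22A.L0.rels_one' M22G.base (rels.map fun r => r.filter (· < 5)) (by decide +kernel) _ (List.mem_map.2 ⟨r, hr, rfl⟩)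

variable {Γ : Type*} [Group Γ] {z : Γ}

theorem q3 (z2 : z * z = 1) (cen : ∀ g, g * z = z * g) {a b e : Γ} (ha : a * a = z) (hb : b * b = z) (he : e * e = z)
    (ab : a * b * (a * b) = z) (ae : a * e * (a * e) = z) (be : b * e * (b * e) = z) (h : a * (b * e) * (a * (b * e)) = z) : z = 1 := by
  have an : ∀ {a b : Γ}, a * a = z → b * b = z → a * b * (a * b) = z → b * a = a * b * z := fun {a b} ha hb ab => by
    rw [← mul_right_inj a, ← mul_left_inj b]
    calc _ = z * z * z := by rw [z2, one_mul, ← ab]; simp only [mul_assoc]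
      _ = a * a * (b * (b * z)) := by rw [ha, ← mul_assoc b, hb, mul_assoc]
      _ = _ := by rw [cen b]; simp only [mul_assoc]
  calc z = a * b * (e * a) * b * e := by rw [← h]; simp only [mul_assoc]
    _ = a * (b * a) * e * (z * b) * e := by rw [an ha he ae]; simp only [mul_assoc]
    _ = a * (a * b * z) * (e * b) * z * e := by rw [an ha hb ab, ← cen b]; simp only [mul_assoc]
    _ = a * a * b * (z * b) * e * (z * z) * e := by rw [an hb he be]; simp only [mul_assoc]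
    _ = a * a * (b * b) * (z * (e * e)) := by rw [← cen b, z2]; simp only [mul_assoc, mul_one]
    _ = 1 := by rw [ha, hb, he, z2, mul_one]

theorem twist (cen : ∀ g, g * z = z * g) (x : ℕ → Γ) (s : ℕ → ℕ) (w : List ℕ) :
    evw (fun i => (if i < 5 then x i else 1) * z ^ s i) w = evw x (w.filter (· < 5)) * z ^ (w.map s).sum := by
  induction w with
  | nil => simp
  | cons a w ih =>
    rw [evw_cons, ih, List.map_cons, List.sum_cons, pow_add, mul_assoc, ← mul_assoc (z ^ s a),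
      ← (Commute.pow_right (cen _) (s a)).eq, List.filter_cons]
    by_cases h : a < 5 <;> simp [h, mul_assoc]

theorem main (π : Γ →* M22B.G) (hs : Surjective π) (z2 : z * z = 1) (cen : ∀ g, g * z = z * g)
    (ker : ∀ g, π g = 1 → g = 1 ∨ g = z) (πz : π z = 1) : ∃ (ev : ℕ → Γ) (ε : ℕ), ε < 2 ∧
    (∀ x < 5, π (ev x) = M22B.el x ∧ ev x * ev x = 1) ∧
    ∀ w : List ℕ, (∀ x ∈ w, x < 5) → evw M22B.el w = 1 → evw ev w = z ^ (ε * sg w) := by
  classical
  obtain ⟨x, hx⟩ : ∃ x : ℕ → Γ, ∀ i, π (x i) = M22B.el i := ⟨fun i => surjInv hs _, fun i => surjInv_eq hs _⟩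
  have px : ∀ w, π (evw x w) = evw M22B.el w := fun w => by rw [map_evw, funext hx]
  have a2 := ker (x 0 * x 0) (by rw [map_mul, hx, mul_eq_one_iff_eq_inv]; exact M22B.hinv 0 (by decide))
  have sq : ∀ p ∈ cl, evw x p.1 * evw x p.1 = x 0 * x 0 := fun p hp => by
    have k : evw x p.2 * x 0 * (evw x p.2)⁻¹ * (evw x p.2 * x 0 * (evw x p.2)⁻¹) = x 0 * x 0 := by
      rw [conj_mul]
      rcases a2 with e | e <;> rw [e]
      · simp
      · rw [cen, mul_inv_cancel_right]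
    rcases ker ((evw x p.2 * x 0 * (evw x p.2)⁻¹)⁻¹ * evw x p.1) (by
      rw [map_mul, map_inv, map_mul, map_mul, map_inv, px, px, hx, cj p hp, inv_mul_cancel]) with e | e <;>
      rw [inv_mul_eq_iff_eq_mul] at e <;> rw [e]
    · rwa [mul_one]
    · rw [mul_assoc _ z, ← mul_assoc z, ← cen, mul_assoc _ z, z2, mul_one, k]
  have a1 : x 0 * x 0 = 1 := a2.elim id fun e => e.trans (by
    simp only [cl, List.forall_mem_cons, evw_cons, evw_nil, mul_one, e] at sq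
    exact q3 z2 cen e sq.2.1 sq.2.2.2.2.1 sq.2.2.2.2.2.1 sq.2.2.2.2.2.2.2.1 sq.2.2.2.2.2.2.2.2.1 sq.2.2.2.2.2.2.2.2.2.2.2.1)
  obtain ⟨α, h0, hα⟩ : ∃ α : List ℕ → ℕ, (∀ w, evw x w = 1 → α w = 0) ∧ ∀ w, evw M22B.el w = 1 → evw x w = z ^ α w :=
    ⟨fun w => if evw x w = 1 then 0 else 1, fun w h => if_pos h, fun w h => by
      beta_reduce
      split_ifs with c
      · rw [c, pow_zero]
      · rw [pow_one]; exact (ker _ (px w ▸ h)).resolve_left c⟩
  have h1 : ∀ p ∈ cl, α (p.1 ++ p.1) = 0 := fun p hp => h0 _ (by rw [evw_append, sq p hp, a1])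
  obtain ⟨s, s5, hr⟩ : ∃ s : ℕ → ℕ, s 5 < 2 ∧ ∀ r ∈ rels, (α (r.filter (· < 5)) + (r.map s).sum) % 2 = 0 := by
    have h2 := h0 [] rfl
    simp only [cl, List.forall_mem_cons, List.cons_append, List.nil_append] at h1
    obtain ⟨d, hd⟩ : ∃ d, d = α [1, 2, 3, 1, 2, 3, 1, 2, 3, 1, 2, 3, 1, 2, 3] + α [1, 2, 1, 2, 1, 2] := ⟨_, rfl⟩
    obtain ⟨c, hc⟩ : ∃ c, c = α [2, 3, 2, 3, 2, 3] + d := ⟨_, rfl⟩
    obtain ⟨b, hb⟩ : ∃ b, b = α [1, 2, 1, 2, 1, 2] + c := ⟨_, rfl⟩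
    obtain ⟨a, ha⟩ : ∃ a, a = α [0, 2, 0, 2, 0, 2] + c := ⟨_, rfl⟩
    obtain ⟨e, he⟩ : ∃ e, e = α [3, 4, 3, 4, 3, 4] + d := ⟨_, rfl⟩
    refine ⟨fun i => [a, b, c, d, e, (α [0, 1, 2, 3, 2, 0, 1, 2, 3, 2, 0, 1, 2, 3, 2, 1, 0, 2, 3, 2, 1, 0, 2, 3, 2] + a + b + d) % 2,
      α [0, 1, 2, 0, 1, 3, 1, 2, 0, 1, 3, 1, 2, 1, 3, 1, 0, 2, 1, 3, 1, 0, 2, 1, 3] + a + c + d,
      α [1, 3, 1, 3, 4, 3, 1, 3, 4] + b].getD i 0, Nat.mod_lt _ two_pos, ?_⟩
    simp [rels, JXT.rels, JXT.il, List.range_succ, List.filter]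
    omega
  obtain ⟨ev, hev⟩ : ∃ ev : ℕ → Γ, ev = fun i => (if i < 5 then x i else 1) * z ^ s i := ⟨_, rfl⟩
  have er : ∀ r ∈ rels, evw ev r = 1 := fun r h => by
    obtain ⟨k, e⟩ := Nat.dvd_of_mod_eq_zero (hr r h)
    rw [hev, twist cen, hα _ (fr r h), ← pow_add, e, pow_mul, _root_.sq, z2, one_pow]
  have pe : ∀ i < 5, π (ev i) = M22B.el i := fun i hi => by simp [hev, hi, hx, πz]
  let E : ℕ → Γ × Equiv.Perm ℕ := fun i => (ev i, pm i)
  have E1 : ∀ w, evw E w = (evw ev w, evw pm w) := fun w =>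
    Prod.ext (map_evw (MonoidHom.fst _ _) E w) (map_evw (MonoidHom.snd _ _) E w)
  have Er : ∀ r ∈ rels, evw E r = 1 := fun r h => by rw [E1, er r h, pm_rel r h]; rfl
  have Ei := inv_of_rels fun r h => Er r (List.mem_append_right _ h)
  have Er' := fun r h => Er r (List.mem_append_left _ h)
  obtain ⟨fin, cD⟩ := (JXT.covers E _ Ei Er' (words_mem E JXT.subs)).card_le ((cov_step E Ei Er' JXT.subs [] 0 4
    (fun ev H => LT1.covers ev H) (by decide +kernel)).card_le (gensub_zero _))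
  let φ : gensub E 8 →* M22B.G := (π.comp (MonoidHom.fst _ _)).comp (gensub E 8).subtype
  have c2 : Nat.card φ.ker ≤ 2 := by
    have := φ.ker.card_mul_index
    rw [index_ker, show φ.range = ⊤ from eq_top_iff.2 (M22B.htop.ge.trans (gensub_le fun i hi =>
      ⟨⟨E i, mem_gensub (by omega)⟩, pe i hi⟩)), card_top, M22G.card] at this
    omega
  refine ⟨ev, s 5, s5, fun i hi => ⟨pe i hi, ?_⟩, fun w hw h => ?_⟩
  · rw [mul_eq_one_iff_eq_inv]
    have := congrArg Prod.fst (Ei i (by omega))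
    interval_cases i <;> exact this
  haveI := Fintype.ofFinite φ.ker
  have e5 : ev 5 = z ^ s 5 := by simp [hev]
  have p5 : (pm 5)⁻¹ 0 = 1 := show s8 5 0 = 1 by decide +kernel
  have k : evw E w = 1 ∨ evw E w = E 5 := by
    by_contra! n
    refine absurd ((Fintype.two_lt_card_iff (α := φ.ker)).2 ⟨⟨⟨evw E w, evw_mem (fun _ hx => mem_gensub (by omega)) hw⟩, ?_⟩, 1,
      ⟨⟨E 5, mem_gensub (by omega)⟩, ?_⟩, fun e => n.1 (congrArg (·.1.1) e), fun e => n.2 (congrArg (·.1.1) e), fun e => ?_⟩)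
      (by rw [← Nat.card_eq_fintype_card]; exact c2.not_gt)
    · show π (evw E w).1 = 1
      rw [E1, map_evw, evw_congr pe hw, h]
    · show π (ev 5) = 1
      rw [e5, map_pow, πz, one_pow]
    · rw [show pm 5 = 1 from (congrArg (·.1.1.2) e).symm] at p5
      exact absurd p5 (by decide)
  rw [E1] at k
  have g : sg w = (evw pm w)⁻¹ 0 := by rw [pm_sw, sw_sgp w hw (by decide), sg]
  rcases k with k | k <;> obtain ⟨k1, k2⟩ := Prod.ext_iff.1 k <;> simp only [E] at k1 k2 <;> rw [g, k1, k2]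
  · simp
  · rw [p5, mul_one, e5]

universe u
theorem m22x : M22X.{u} := fun z π hs z2 cen ker => by
  by_cases h : π z = 1
  · exact main π hs z2 cen ker h
  obtain ⟨ev, ε, -, a, b⟩ := main (z := 1) π hs (mul_one _) (by simp)
    (fun g e => Or.inl ((ker g e).resolve_right fun c => h (c ▸ e))) (map_one _)
  exact ⟨ev, 0, two_pos, a, fun w hw e => by simpa using b w hw e⟩
end CfH1.JX
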