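import Cfsg.Agent.H9.Alperin
/-! General counting lemmas for the step `PB1` in the recognition of `M₂₂`. -/
set_option autoImplicit false
set_option linter.all false
open Subgroup CfH9
namespace CfH1.MB1
variable {G : Type*} [Group G] [Finite G]

/-- free conjugation action -/
theorem free (P : Subgroup G) (S : Set G) (hS : ∀ u ∈ P, ∀ y ∈ S, u * y * u⁻¹ ∈ S)
    (hf : ∀ u ∈ P, ∀ y ∈ S, u * y = y * u → u = 1) : Nat.card P ∣ S.ncard := by
  letI : MulAction P S :=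
    { smul := fun u y => ⟨u.1 * y.1 * u.1⁻¹, hS _ u.2 _ y.2⟩
      one_smul := fun y => Subtype.ext (by change (1 : G) * y.1 * 1⁻¹ = y; simp)
      mul_smul := fun a b y => Subtype.ext (by
        change (a.1 * b.1) * y.1 * (a.1 * b.1)⁻¹ = a.1 * (b.1 * y.1 * b.1⁻¹) * a.1⁻¹; group) }
  have := Nat.card_congr (MulAction.selfEquivOrbitsQuotientProd (G := P) (X := S) fun y => (eq_bot_iff_forall _).2
    fun u hu => Subtype.ext (hf _ u.2 _ y.2 (mul_inv_eq_iff_eq_mul.1 (congrArg Subtype.val hu))))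
  rw [Nat.card_prod, Nat.card_coe_set_eq] at this
  exact this ▸ dvd_mul_left _ _

theorem cnt {P X : Subgroup G} (hN : P ≤ Nm(X)) (Y : Set G) (h1 : Y ⊆ X)
    (h2 : ∀ y ∈ X, y ∈ Y ↔ ∃ u ∈ P, u ≠ 1 ∧ u * y = y * u) : ∃ k, Nat.card X = Y.ncard + Nat.card P * k := by
  obtain ⟨k, hk⟩ := free P ((X : Set G) \ Y) (fun u hu y hy => ⟨conj_mem_of_mem_normalizer (hN hu) hy.1, fun h => by
    obtain ⟨w, hw, w1, e⟩ := (h2 _ (conj_mem_of_mem_normalizer (hN hu) hy.1)).1 h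
    refine hy.2 ((h2 _ hy.1).2 ⟨u⁻¹ * w * u, mul_mem (mul_mem (inv_mem hu) hw) hu, fun e' => w1 ?_, ?_⟩)
    · rw [← conj_eq_one_iff (a := u⁻¹), inv_inv, e']
    · calc u⁻¹ * w * u * y = u⁻¹ * (w * (u * y * u⁻¹)) * u := by group
        _ = _ := by rw [e]; group⟩)
    fun u hu y hy e => by_contra fun u1 => hy.2 ((h2 _ hy.1).2 ⟨u, hu, u1, e⟩)
  exact ⟨k, by rw [← hk, add_comm, Set.ncard_sdiff_add_ncard_of_subset h1]; rfl⟩

/-- Burnside's normal complement, with a complement of order dividing 128 -/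
theorem burn {S H : Subgroup G} (hS : SylIn 3 S H) {m : ℕ} (hm : Nat.card H = m * Nat.card S) (h2 : m ∣ 128)
    (h : H ⊓ Nm(S) ≤ Cz(S)) : ∃ K : Subgroup G, Nat.card K = m ∧ (∀ g, g ∈ K ↔ g ∈ H ∧ g ^ 128 = 1) ∧
      ∀ g ∈ H, ∃ f ∈ K, ∃ s ∈ S, g = f * s := by
  have : Fact (Nat.Prime 3) := ⟨by norm_num⟩
  have hP : normalizer (hS.toSylow : Set H) ≤ centralizer (hS.toSylow : Set H) := fun g hg x hx => by
    have hg' : g ∈ Nm(S.subgroupOf H) := hg
    rw [← subgroupOf_normalizer_eq hS.le] at hg'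
    exact Subtype.ext (h ⟨g.2, hg'⟩ x.1 hx)
  have hc := MonoidHom.ker_transferSylow_isComplement' hS.toSylow hP
  have c1 := hc.card_mul
  rw [show Nat.card (hS.toSylow : Subgroup H) = Nat.card S from card_subgroupOf hS.le, hm] at c1
  have c2 := Nat.eq_of_mul_eq_mul_right Nat.card_pos c1
  refine ⟨(MonoidHom.transferSylow hS.toSylow hP).ker.map H.subtype, by rw [card_map_subtype, c2], fun g => ⟨?_, ?_⟩, ?_⟩
  · rintro ⟨x, hx, rfl⟩
    refine ⟨x.2, ?_⟩
    obtain ⟨c, hc⟩ := h2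
    have := congrArg Subtype.val (pow_card_eq_one' (x := (⟨x, hx⟩ : (MonoidHom.transferSylow hS.toSylow hP).ker)))
    rw [c2] at this
    rw [hc, pow_mul]
    exact (congrArg (· ^ c) (congrArg Subtype.val this)).trans (one_pow _)
  · rintro ⟨g1, g2⟩
    refine ⟨⟨g, g1⟩, ?_, rfl⟩
    obtain ⟨k, hk⟩ := hS.toSylow.2 (MonoidHom.transferSylow hS.toSylow hP ⟨g, g1⟩)
    have : (MonoidHom.transferSylow hS.toSylow hP ⟨g, g1⟩) ^ 128 = 1 := by
      rw [← map_pow, show (⟨g, g1⟩ : H) ^ 128 = 1 from Subtype.ext g2, map_one]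
    exact orderOf_eq_one_iff.1 (Nat.eq_one_of_dvd_coprimes (Nat.Coprime.pow_left k (by norm_num : Nat.Coprime 3 128))
      (orderOf_dvd_of_pow_eq_one hk) (orderOf_dvd_of_pow_eq_one this))
  · intro g hg
    obtain ⟨⟨f, s⟩, e⟩ := hc.2 ⟨g, hg⟩
    exact ⟨f.1, ⟨_, f.2, rfl⟩, s.1, s.2, (congrArg Subtype.val e).symm⟩

theorem four {H : Subgroup G} (h : Nat.card H = 4) {a b c : G} (ha : a ∈ H) (hb : b ∈ H) (hc : c ∈ H) (a1 : a ≠ 1)
    (b1 : b ≠ 1) (c1 : c ≠ 1) (ab : a ≠ b) (ac : a ≠ c) (bc : b ≠ c) {g : G} (hg : g ∈ H) :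
    g = 1 ∨ g = a ∨ g = b ∨ g = c := by
  have : ({1, a, b, c} : Set G) = H := Set.eq_of_subset_of_ncard_le (by
    rintro _ (rfl | rfl | rfl | rfl); exacts [one_mem _, ha, hb, hc]) (by
    rw [Set.ncard_insert_of_notMem (by simp [a1.symm, b1.symm, c1.symm]), Set.ncard_insert_of_notMem (by simp [ab, ac]),
      Set.ncard_pair bc]; exact h.le)
  exact (Set.ext_iff.1 this g).2 hg

theorem klein {H : Subgroup G} (h : Nat.card H = 4) {a b c : G} (ha : a ∈ H) (hb : b ∈ H) (hc : c ∈ H) (a1 : a ≠ 1)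
    (b1 : b ≠ 1) (c1 : c ≠ 1) (ab : a ≠ b) (ac : a ≠ c) (bc : b ≠ c) (a2 : a * a = 1) : a * b = c := by
  rcases four h ha hb hc a1 b1 c1 ab ac bc (mul_mem ha hb) with e | e | e | e
  · exact (ab (mul_left_cancel (a2.trans e.symm))).elim
  · exact (b1 (mul_eq_left.1 e)).elim
  · exact (a1 (mul_eq_right.1 e)).elim
  · exact e

theorem un {Y : Set G} {A : Subgroup G} {m n : ℕ} (hY : Y.ncard = m) (hA : Nat.card A = n + 1) (h1 : (1 : G) ∈ Y)
    (h : ∀ g ∈ Y, g ∈ A → g = 1) : (Y ∪ A).ncard = m + n := by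
  have := Set.ncard_union_add_ncard_inter Y A
  rw [show Y ∩ A = {1} from Set.eq_singleton_iff_unique_mem.2 ⟨⟨h1, one_mem _⟩, fun g hg => h g hg.1 hg.2⟩,
    Set.ncard_singleton, hY, show (A : Set G).ncard = n + 1 from hA] at this
  omega

theorem zp {a b : G} (ha : orderOf a = 3) (hb : b ∈ zpowers a) : b = 1 ∨ b = a ∨ b = a⁻¹ := by
  have a3 : a ^ 3 = 1 := ha ▸ pow_orderOf_eq_one a
  obtain ⟨n, rfl⟩ := (mem_powers_iff_mem_zpowers).2 hb
  show a ^ n = 1 ∨ a ^ n = a ∨ a ^ n = a⁻¹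
  rw [pow_eq_pow_mod n a3]
  have : n % 3 < 3 := Nat.mod_lt _ (by norm_num)
  interval_cases n % 3
  · simp
  · simp
  · exact .inr (.inr (eq_inv_of_mul_eq_one_left (by rw [← pow_succ, a3])))

theorem zsym {a b : G} (ha : orderOf a = 3) (hb : b ∈ zpowers a) (b1 : b ≠ 1) : a ∈ zpowers b := by
  rcases zp ha hb with rfl | rfl | rfl
  exacts [(b1 rfl).elim, mem_zpowers _, by simp]

theorem ne1 {a : G} (ha : orderOf a = 3) : a ≠ 1 := by rintro rfl; simp at ha

theorem comm_zp {a b g : G} (hb : b ∈ zpowers a) (h : g * a = a * g) : g * b = b * g := by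
  obtain ⟨n, rfl⟩ := hb
  exact Commute.zpow_right h n

theorem ord_conj (n a : G) : orderOf (n * a * n⁻¹) = orderOf a := by
  simpa using (MulAut.conj n).orderOf_eq a

/-- a large normal `2`-subgroup of a group of order 384 -/
theorem core384 {H : Subgroup G} (h : Nat.card H = 384) :
    ∃ Q : Subgroup G, IsPGroup 2 Q ∧ Q ≤ H ∧ H ≤ Nm(Q) ∧ 64 ≤ Nat.card Q := by
  have : Fact (Nat.Prime 2) := ⟨by norm_num⟩
  obtain ⟨S, hS⟩ := Sylow.exists_subgroup_card_pow_prime (G := H) 2 (n := 7) (by rw [h]; norm_num)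
  have i3 : S.index = 3 := by have := S.card_mul_index; rw [hS, h] at this; omega
  have h6 : S.normalCore.index ∣ Nat.factorial S.index := by
    rw [normalCore_eq_ker, index_ker, index_eq_card, ← Nat.card_perm]
    exact card_subgroup_dvd_card (MulAction.toPermHom H (H ⧸ S)).range
  have := Nat.le_of_dvd (Nat.factorial_pos _) h6
  have c := S.normalCore.card_mul_index
  rw [i3] at this
  refine ⟨S.normalCore.map H.subtype, ((IsPGroup.of_card hS).to_le S.normalCore_le).map _, map_subtype_le _,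
    (normal_subgroupOf_iff_le_normalizer (map_subtype_le _)).1 (by
      rw [subgroupOf, comap_map_eq_self_of_injective H.subtype_injective]; infer_instance), ?_⟩
  rw [card_map_subtype]
  rw [h] at c
  simp only [Nat.factorial] at this
  nlinarith
end CfH1.MB1
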