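import Cfsg.Agent.H1.MB1a
import Cfsg.Agent.H4.Mb0
/-! Step `PB1` in the recognition of `M₂₂`, first half: the four-groups `W a` and the groups `F a`. -/
set_option autoImplicit false
set_option linter.all false
open Subgroup CfH9 CfH4.M22
namespace CfH1.MB1
variable {G : Type*} [Group G] [Finite G]

def W (a : G) : Subgroup G := closure {g | g * a = a * g ∧ g ^ 128 = 1}
def F (a : G) : Subgroup G := closure {g | g ∈ Cz(W a) ∧ g ^ 128 = 1}

omit [Finite G] in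
theorem cj_clo (n : G) {A B : Subgroup G} (h : cj n A = B) :
    cj n (closure {g | g ∈ A ∧ g ^ 128 = 1}) = closure {g | g ∈ B ∧ g ^ 128 = 1} := by
  rw [cj_closure, ← h]
  congr 1
  ext g
  constructor
  · rintro ⟨y, ⟨h1, h2⟩, rfl⟩
    exact ⟨conj_mem_cj n h1, by rw [conj_pow, h2]; simp⟩
  · rintro ⟨⟨y, h1, rfl⟩, h2⟩
    exact ⟨y, ⟨h1, by rwa [show (MulAut.conj n).toMonoidHom y = n * y * n⁻¹ from rfl, conj_pow, conj_eq_one_iff] at h2⟩, rfl⟩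

omit [Finite G] in
theorem cj_W (n a : G) : cj n (W a) = W (n * a * n⁻¹) := by
  have := cj_clo n (cj_Cx n a)
  simp only [mem_Cx] at this
  exact this

omit [Finite G] in
theorem Nm_F {g a : G} (h : g ∈ Nm(W a)) : g ∈ Nm(F a) :=
  mem_normalizer_iff_cj.2 (cj_clo g (mem_normalizer_iff_cj.1 (mem_Nm_Cz h)))

theorem W_zp {a b : G} (ha : orderOf a = 3) (hb : b ∈ zpowers a) (b1 : b ≠ 1) : W b = W a := by
  unfold W
  congr 1
  ext g
  exact and_congr_left fun _ => ⟨comm_zp (zsym ha hb b1), comm_zp hb⟩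

omit [Finite G] in
theorem W_le (a : G) : W a ≤ Cx(a) := (closure_le _).2 fun _ hg => mem_Cx.2 hg.1

omit [Finite G] in
theorem tw_of {X : Subgroup G} (h : ∀ g ∈ X, g ^ 128 = 1) : IsPGroup 2 X := isPGroup_iff_mem.2 fun a ha => ⟨7, h a ha⟩

structure St (T : Subgroup G) : Prop where
  L : Loc G
  card : Nat.card T = 9

instance : Fact (Nat.Prime 3) := ⟨by norm_num⟩

namespace St
variable {T : Subgroup G} (h : St T)
include h

theorem c128 {X : Subgroup G} (hX : IsPGroup 2 X) : Nat.card X ∣ 128 := by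
  obtain ⟨k, hk⟩ := hX.exists_card_eq
  have := X.card_subgroup_dvd_card
  rw [h.L.card, hk] at this
  rw [hk]
  exact (Nat.Coprime.pow_left k (by norm_num : Nat.Coprime 2 3465)).dvd_of_dvd_mul_right (m := 128) this

theorem tw {X : Subgroup G} (hX : IsPGroup 2 X) {g : G} (hg : g ∈ X) : g ^ 128 = 1 :=
  orderOf_dvd_iff_pow_eq_one.1 ((X.orderOf_dvd_natCard hg).trans (h.c128 hX))

theorem syl {H : Subgroup G} (hH : T ≤ H) : SylIn 3 T H := by
  refine (sylIn_top_iff.2 ⟨IsPGroup.of_card (n := 2) h.card, ?_⟩).mono hH le_top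
  have := T.card_mul_index
  rw [h.card, h.L.card] at this
  omega

theorem comm {a b : G} (ha : a ∈ T) (hb : b ∈ T) : a * b = b * a :=
  comm_iff.1 (IsPGroup.isMulCommutative_of_card_eq_prime_sq (p := 3) h.card) a ha b hb

theorem TC {a : G} (ha : a ∈ T) : T ≤ Cx(a) := fun _ hb => mem_Cx.2 (h.comm hb ha)

theorem p9 {a : G} (ha : a ∈ T) : a ^ 9 = 1 := orderOf_dvd_iff_pow_eq_one.1 (h.card ▸ T.orderOf_dvd_natCard ha)

theorem pw3 {u : G} (hu : u ∈ T) (u1 : u ≠ 1) : ∃ n : ℕ, orderOf (u ^ n) = 3 :=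
  exists_pow_orderOf_eq_prime (p := 3) (k := 2) (h.p9 hu) u1

theorem noinv {g : G} (g1 : g ≠ 1) (g2 : g ^ 128 = 1) : ¬ T ≤ Cx(g) := fun e => by
  obtain ⟨n, hn⟩ := exists_pow_orderOf_eq_prime (p := 2) (k := 7) g2 g1
  have := card_dvd_of_le (show T ≤ Cx(g ^ n) from fun t ht => mem_Cx.2 (Commute.pow_right (mem_Cx.1 (e ht)) n))
  rw [h.card, h.L.c2 _ hn] at this
  omega

section
variable {a : G} (ha : a ∈ T) (a3 : orderOf a = 3)
include ha a3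

theorem gen {u : G} (hu : u ∈ T) (ua : u ∉ zpowers a) {K : Subgroup G} (h1 : a ∈ K) (h2 : u ∈ K) : T ≤ K := by
  have l := card_lt_of_lt (lt_of_le_of_ne (show zpowers a ≤ T ⊓ K from zpowers_le.2 ⟨ha, h1⟩) fun e => ua (e ▸ ⟨hu, h2⟩))
  have d := card_dvd_of_le (inf_le_left : T ⊓ K ≤ T)
  rw [Nat.card_zpowers, a3] at l
  rw [h.card] at d
  have := Nat.le_of_dvd (by norm_num) d
  refine inf_eq_left.1 (eq_of_le_of_card_ge inf_le_left ?_)
  rw [h.card]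
  generalize Nat.card (T ⊓ K : Subgroup G) = n at *
  interval_cases n <;> omega

theorem out : ∃ y ∈ T, y ∉ zpowers a := by
  by_contra! e
  have := card_le_of_le (show T ≤ zpowers a from e)
  rw [h.card, Nat.card_zpowers, a3] at this
  omega

theorem reg0 : Cx(a) ⊓ Nm(T) ≤ T := by
  have hS := h.syl (h.TC ha)
  have c := h.L.c3 a a3
  have h1 := card_sylow_modEq_one 3 Cx(a)
  rw [Sylow.card_eq_index_normalizer hS.toSylow] at h1
  change (normalizer ((T.subgroupOf Cx(a) : Subgroup Cx(a)) : Set Cx(a))).index ≡ 1 [MOD 3] at h1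
  rw [← subgroupOf_normalizer_eq hS.le, ← inf_subgroupOf_left] at h1
  have h2 := card_mul_relIndex (inf_le_left : Cx(a) ⊓ Nm(T) ≤ Cx(a))
  have hle : T ≤ Cx(a) ⊓ Nm(T) := le_inf hS.le le_normalizer
  obtain ⟨k, hk⟩ := card_dvd_of_le hle
  rw [h.card] at hk
  rw [hk, c, relIndex] at h2
  generalize ((Cx(a) ⊓ Nm(T)).subgroupOf Cx(a)).index = i at h1 h2
  have i4 : i ∣ 4 := ⟨k, by nlinarith⟩
  have := Nat.le_of_dvd (by norm_num) i4
  have k14 : k = 1 ∨ k = 4 := by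
    interval_cases i
    · omega
    · omega
    · simp [Nat.ModEq] at h1
    · omega
    · omega
  rcases k14 with rfl | rfl
  · exact (eq_of_le_of_card_ge hle (by rw [hk, h.card])).ge
  obtain ⟨P0, hP⟩ := Sylow.exists_subgroup_card_pow_prime (G := (Cx(a) ⊓ Nm(T) : Subgroup G)) 2 (n := 2) (by rw [hk]; norm_num)
  have hP' : P0.map (Cx(a) ⊓ Nm(T)).subtype ≤ Cx(a) ⊓ Nm(T) := map_subtype_le _
  have := free (P0.map (Cx(a) ⊓ Nm(T)).subtype) ((T : Set G) \ zpowers a) (fun u hu y hy =>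
    ⟨conj_mem_of_mem_normalizer (hP' hu).2 hy.1, fun e => hy.2 (by
      have := comm_zp e (mem_Cx.1 (hP' hu).1)
      rwa [show u * y * u⁻¹ = y from mul_left_cancel (a := u) (by rw [this]; group)] at e)⟩) fun u hu y hy e => by_contra fun u1 => h.noinv u1 (h.tw ((IsPGroup.of_card hP).map _) hu)
        (h.gen ha a3 hy.1 hy.2 (mem_Cx.2 (mem_Cx.1 (hP' hu).1).symm) (mem_Cx.2 e.symm))
  have e := Set.ncard_sdiff_add_ncard_of_subset (show (zpowers a : Set G) ⊆ T from zpowers_le.2 ha)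
  rw [show (T : Set G).ncard = 9 from h.card, show (zpowers a : Set G).ncard = 3 from (Nat.card_zpowers a).trans a3] at e
  rw [card_map_subtype, hP] at this
  omega
end

theorem reg {g u : G} (hg : g ∈ Nm(T)) (hu : u ∈ T) (u1 : u ≠ 1) (e : g * u = u * g) : g ∈ T := by
  obtain ⟨n, hn⟩ := h.pw3 hu u1
  exact h.reg0 (pow_mem hu n) hn ⟨mem_Cx.2 (Commute.pow_right e n), hg⟩

section
variable {a : G} (ha : a ∈ T) (a3 : orderOf a = 3)
include ha a3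

theorem Wspec : Nat.card (W a) = 4 ∧ (∀ g, g ∈ W a ↔ g * a = a * g ∧ g ^ 128 = 1) ∧
    ∀ g ∈ Cx(a), ∃ w ∈ W a, ∃ s ∈ T, g = w * s := by
  obtain ⟨K, h1, h2, h3⟩ := burn (h.syl (h.TC ha)) (m := 4) (by rw [h.L.c3 a a3, h.card]) (by norm_num)
    fun g hg t ht => h.comm ht (h.reg0 ha a3 hg)
  simp only [mem_Cx] at h2
  have : W a = K := by rw [← closure_eq K]; exact congrArg Subgroup.closure (Set.ext fun g => (h2 g).symm)
  rw [this]
  exact ⟨h1, h2, h3⟩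

theorem cW : Nat.card (W a) = 4 := (h.Wspec ha a3).1
theorem mW {g : G} : g ∈ W a ↔ g * a = a * g ∧ g ^ 128 = 1 := (h.Wspec ha a3).2.1 g
theorem pW : IsPGroup 2 (W a) := IsPGroup.of_card (n := 2) (h.cW ha a3)
theorem Wne : W a ≠ ⊥ := fun e => by simpa [e] using h.cW ha a3

theorem TW : T ≤ Nm(W a) := fun t ht => by
  rw [mem_normalizer_iff_cj, cj_W, h.comm ht ha, mul_inv_cancel_right]

theorem tc {u z : G} (hu : u ∈ T) (hz : z ∈ W a) (z1 : z ≠ 1) (e : u * z = z * u) : u ∈ zpowers a :=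
  by_contra fun ua => h.noinv z1 ((h.mW ha a3).1 hz).2
    (h.gen ha a3 hu ua (mem_Cx.2 ((h.mW ha a3).1 hz).1.symm) (mem_Cx.2 e))

theorem orb {u z : G} (hu : u ∈ T) (ua : u ∉ zpowers a) (hz : z ∈ W a) (z1 : z ≠ 1) :
    u * z * u⁻¹ ∈ W a ∧ u * (u * z * u⁻¹) * u⁻¹ ∈ W a ∧ u * z * u⁻¹ ≠ 1 ∧ u * (u * z * u⁻¹) * u⁻¹ ≠ 1 ∧
      z ≠ u * z * u⁻¹ ∧ z ≠ u * (u * z * u⁻¹) * u⁻¹ ∧ u * z * u⁻¹ ≠ u * (u * z * u⁻¹) * u⁻¹ := by
  have c := fun {y} => conj_mem_of_mem_normalizer (x := y) (h.TW ha a3 hu)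
  have n1 : z ≠ u * z * u⁻¹ := fun e => ua (h.tc ha a3 hu hz z1 (eq_mul_inv_iff_mul_eq.1 e).symm)
  refine ⟨c hz, c (c hz), by simpa using z1, by simpa using z1, n1, fun e => ua ?_, by simpa using n1⟩
  have := h.tc ha a3 (mul_mem hu hu) hz z1 (by nth_rewrite 2 [e]; group)
  have e2 : u = (u * u) ^ 5 := by rw [← sq, ← pow_mul, show 2 * 5 = 9 + 1 from rfl, pow_succ, h.p9 hu, one_mul]
  exact e2 ▸ pow_mem this 5

theorem W2 {g : G} (hg : g ∈ W a) : g * g = 1 := by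
  obtain ⟨z, hz, z2⟩ := exists_orderOf_eq_prime (p := 2) (Q := W a) (by rw [h.cW ha a3]; norm_num)
  have z1 : z ≠ 1 := by rintro rfl; simp at z2
  have zz : z * z = 1 := by rw [← sq, ← z2, pow_orderOf_eq_one]
  obtain ⟨u, hu, ua⟩ := h.out ha a3
  obtain ⟨b1, b2, b3, b4, b5, b6, b7⟩ := h.orb ha a3 hu ua hz z1
  rcases four (h.cW ha a3) hz b1 b2 z1 b3 b4 b5 b6 b7 hg with rfl | rfl | rfl | rfl <;> simp [conj_mul, zz]

theorem Wab : W a ≤ Cz(W a) := fun x hx y hy => by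
  have e := h.W2 ha a3 (mul_mem hy hx)
  rw [← mul_right_inj y, ← mul_left_inj x, ← mul_assoc, h.W2 ha a3 hy, one_mul, h.W2 ha a3 hx, ← e]; group

theorem Wsub {X : Subgroup G} (hX : T ≤ Nm(X)) {z : G} (hz : z ∈ W a) (z1 : z ≠ 1) (zX : z ∈ X) : W a ≤ X := fun g hg => by
  obtain ⟨u, hu, ua⟩ := h.out ha a3
  obtain ⟨b1, b2, b3, b4, b5, b6, b7⟩ := h.orb ha a3 hu ua hz z1
  have c := fun {y} => conj_mem_of_mem_normalizer (x := y) (hX hu)
  rcases four (h.cW ha a3) hz b1 b2 z1 b3 b4 b5 b6 b7 hg with rfl | rfl | rfl | rfl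
  exacts [one_mem _, zX, c zX, c (c zX)]

/-- orders of `a`-invariant `2`-groups containing `W a` -/
theorem md {X : Subgroup G} (hX : IsPGroup 2 X) (hN : a ∈ Nm(X)) (hW : W a ≤ X) :
    Nat.card X = 4 ∨ Nat.card X = 16 ∨ Nat.card X = 64 := by
  obtain ⟨k, hk⟩ := cnt (zpowers_le.2 hN) (W a) hW fun y hy => ⟨fun e => ⟨a, mem_zpowers a, ne1 a3, (mem_Cx.1 (W_le a e)).symm⟩,
    fun ⟨u, hu, u1, e⟩ => (h.mW ha a3).2 ⟨comm_zp (zsym a3 hu u1) e.symm, h.tw hX hy⟩⟩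
  rw [Nat.card_zpowers, a3, show (W a : Set G).ncard = 4 from h.cW ha a3] at hk
  obtain ⟨i, hi, e⟩ := (Nat.dvd_prime_pow (p := 2) (m := 7) (by norm_num)).1 (h.c128 hX)
  rw [e] at hk ⊢
  interval_cases i <;> omega

theorem exP {z : G} (hz : z ∈ W a) (z1 : z ≠ 1) :
    ∃ P : Subgroup G, IsPGroup 2 P ∧ Nat.card P = 64 ∧ W a ≤ P ∧ a ∈ Nm(P) ∧ P ≤ Cx(z) := by
  obtain ⟨Q, h1, h2, h3, h4⟩ := core384 (h.L.c2 z (orderOf_eq_prime (by rw [sq, h.W2 ha a3 hz]) z1))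
  have hW : W a ≤ Cx(z) := (h.Wab ha a3).trans (Cz_le_Cx hz)
  have hp := isPGroup_sup (h.pW ha a3) h1 (hW.trans h3)
  have hN := mem_Nm_sup (h.TW ha a3 ha) (h3 (mem_Cx.2 (mem_Cx.1 (W_le a hz)).symm))
  have := card_le_of_le (le_sup_right : Q ≤ W a ⊔ Q)
  exact ⟨_, hp, by have := h.md ha a3 hp hN le_sup_left; omega, le_sup_left, hN, sup_le hW h2⟩

theorem exC {P : Subgroup G} (hP : IsPGroup 2 P) (c : Nat.card P = 64) (hW : W a ≤ P) (hN : a ∈ Nm(P)) :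
    ¬ P ⊓ Cz(W a) ≤ W a := fun e => by
  refine (lt_inf_Nm hP (lt_of_le_of_ne hW fun e => by rw [← e, h.cW ha a3] at c; omega)).not_ge fun g hg => ?_
  have aw : ∀ w ∈ W a, a * w * a⁻¹ = w := fun w hw => by rw [← mem_Cx.1 (W_le a hw), mul_inv_cancel_right]
  have hw : a * g * a⁻¹ * g⁻¹ ∈ W a := e ⟨mul_mem (conj_mem_of_mem_normalizer hN hg.1) (P.inv_mem hg.1),
    mem_centralizer_of_conj_eq fun x hx => by
      have h1 := aw _ (conj_mem_of_mem_normalizer' hg.2 hx)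
      calc _ = a * (g * (a⁻¹ * (g⁻¹ * x * g) * a) * g⁻¹) * a⁻¹ := by group
        _ = _ := by rw [← h1, show a⁻¹ * (a * (g⁻¹ * x * g) * a⁻¹) * a = g⁻¹ * x * g by group, show g * (g⁻¹ * x * g) * g⁻¹ = x by group, aw x hx]⟩
  generalize hw' : a * g * a⁻¹ * g⁻¹ = w at hw
  have e1 : a * g * a⁻¹ = w * g := by rw [← hw']; group
  have e3 : a * (a * (a * g * a⁻¹) * a⁻¹) * a⁻¹ = g := by
    have : a ^ 3 = 1 := a3 ▸ pow_orderOf_eq_one a
    calc _ = a ^ 3 * g * (a ^ 3)⁻¹ := by rw [pow_three]; group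
      _ = g := by rw [this]; group
  rw [e1, ← conj_mul (a := w) (b := a), aw w hw, e1, ← mul_assoc w, h.W2 ha a3 hw, one_mul] at e3
  exact (h.mW ha a3).2 ⟨(mul_inv_eq_iff_eq_mul.1 e3).symm, h.tw hP hg.1⟩

theorem Fspec : (∀ g, g ∈ F a ↔ g ∈ Cz(W a) ∧ g ^ 128 = 1) ∧ ∀ g ∈ Cz(W a), ∃ f ∈ F a, ∃ s ∈ zpowers a, g = f * s := by
  obtain ⟨z, hz, z1⟩ := (W a).bot_or_exists_ne_one.resolve_left (h.Wne ha a3)
  have hle : zpowers a ≤ Cz(W a) := zpowers_le.2 fun w hw => mem_Cx.1 (W_le a hw)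
  have d := card_dvd_of_le (Cz_le_Cx hz)
  have c := card_mul_relIndex hle
  rw [h.L.c2 z (orderOf_eq_prime (by rw [sq, h.W2 ha a3 hz]) z1), ← c, Nat.card_zpowers, a3] at d
  have d' : (zpowers a).relIndex Cz(W a) ∣ 128 := Nat.dvd_of_mul_dvd_mul_left (by norm_num : 0 < 3) d
  obtain ⟨K, -, h2, h3⟩ := burn (sylIn_of_not_dvd hle (isPGroup_zpowers_of_orderOf (k := 1) a3)
    fun e => absurd (e.trans d') (by norm_num)) (c.symm.trans (mul_comm _ _)) d' fun g hg => by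
      rw [Cz_zpowers, mem_Cx']
      refine (zp a3 (conj_mem_of_mem_normalizer hg.2 (mem_zpowers a))).elim (fun e => (ne1 a3 (conj_eq_one_iff.1 e)).elim)
        fun e => e.elim id fun e => ?_
      obtain ⟨n, hn, x, hx, e1⟩ := (h.syl (h.TC ha)).frattini (Cz_zpowers a ▸ mem_Nm_Cz hg.2)
      obtain ⟨w, hw, s, hs, rfl⟩ := (h.Wspec ha a3).2.2 n hn
      have hc : w⁻¹ * g ∈ Nm(T) := by rw [e1, mul_assoc, inv_mul_cancel_left]; exact mul_mem (le_normalizer hs) hx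
      have hc' : w⁻¹ * g ∈ Cz(W a) := mul_mem (h.Wab ha a3 (inv_mem hw)) hg.1
      have hi : w⁻¹ * g * a * (w⁻¹ * g)⁻¹ = a⁻¹ := by
        have : Commute w a := mem_Cx.1 (W_le a hw)
        calc _ = w⁻¹ * (g * a * g⁻¹) * w := by group
          _ = _ := by rw [e, this.inv_left.inv_right.eq, inv_mul_cancel_right]
      generalize w⁻¹ * g = c at hc hc' hi
      obtain ⟨y, hy, ya⟩ := h.out ha a3
      have hk : c * y * c⁻¹ * y⁻¹ ∈ zpowers a := h.tc ha a3 (mul_mem (conj_mem_of_mem_normalizer hc hy) (inv_mem hy)) hz z1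
        ((show c * y * c⁻¹ * y⁻¹ ∈ Cz(W a) by
          rw [mul_assoc, mul_assoc, ← mul_assoc y]
          exact mul_mem hc' (conj_mem_of_mem_normalizer (mem_Nm_Cz (h.TW ha a3 hy)) (inv_mem hc'))) z hz).symm
      generalize hk' : c * y * c⁻¹ * y⁻¹ = k at hk
      have a33 : a ^ 3 = 1 := a3 ▸ pow_orderOf_eq_one a
      have k1 : c * k⁻¹ * c⁻¹ = k ∧ k * k = k⁻¹ := by
        rcases zp a3 hk with rfl | rfl | rfl
        · simp
        · exact ⟨by rw [← conj_inv, hi, inv_inv], eq_inv_of_mul_eq_one_left (by rw [← a33, pow_three'])⟩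
        · exact ⟨by rw [inv_inv, hi], eq_inv_of_mul_eq_one_left (by rw [← inv_one, ← a33]; group)⟩
      have cT := h.reg hc (mul_mem (inv_mem (zpowers_le.2 ha hk)) hy) (fun e => ya (inv_mul_eq_one.1 e ▸ hk)) (by
        rw [← mul_inv_eq_iff_eq_mul, ← conj_mul, k1.1, ← k1.2, mul_assoc k k, ← hk']; group)
      rw [h.comm cT ha, mul_inv_cancel_right] at hi
      have := orderOf_dvd_of_pow_eq_one (show a ^ 2 = 1 by rw [sq]; nth_rewrite 1 [hi]; simp)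
      rw [a3] at this
      omega
  have : F a = K := by rw [← closure_eq K]; exact congrArg Subgroup.closure (Set.ext fun g => (h2 g).symm)
  rw [this]
  exact ⟨h2, h3⟩

theorem mF {g : G} : g ∈ F a ↔ g ∈ Cz(W a) ∧ g ^ 128 = 1 := (h.Fspec ha a3).1 g
theorem pF : IsPGroup 2 (F a) := tw_of fun _ hg => ((h.mF ha a3).1 hg).2
theorem FC : F a ≤ Cz(W a) := fun _ hg => ((h.mF ha a3).1 hg).1
theorem leF {X : Subgroup G} (hX : IsPGroup 2 X) (hC : X ≤ Cz(W a)) : X ≤ F a :=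
  fun _ hg => (h.mF ha a3).2 ⟨hC hg, h.tw hX hg⟩
theorem TF : T ≤ Nm(F a) := fun _ ht => Nm_F (h.TW ha a3 ht)
end

theorem cnt9 {X : Subgroup G} (hX : IsPGroup 2 X) (hN : T ≤ Nm(X)) (Y : Set G) {m : ℕ} (hm : Y.ncard = m) (h1 : (1 : G) ∈ Y)
    (h2 : ∀ y ∈ Y, y = 1 ∨ ∃ u ∈ T, orderOf u = 3 ∧ W u ≤ X ∧ y ∈ W u)
    (h3 : ∀ u ∈ T, orderOf u = 3 → W u ≤ X → (W u : Set G) ⊆ Y) : ∃ i ≤ 7, Nat.card X = 2 ^ i ∧ ∃ k, 2 ^ i = m + 9 * k := by
  obtain ⟨k, hk⟩ := cnt hN Y (fun y hy => by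
    rcases h2 y hy with rfl | ⟨u, -, -, b, c⟩
    exacts [one_mem _, b c]) fun y hy => ⟨fun e => by
      rcases h2 y e with rfl | ⟨u, hu, u3, -, c⟩
      · obtain ⟨u, hu, u1⟩ := T.bot_or_exists_ne_one.resolve_left fun e => by simpa [e] using h.card
        exact ⟨u, hu, u1, by simp⟩
      · exact ⟨u, hu, ne1 u3, (mem_Cx.1 (W_le u c)).symm⟩, fun ⟨u, hu, u1, e⟩ => by
      obtain ⟨n, hn⟩ := h.pw3 hu u1
      have hy' := (h.mW (pow_mem hu n) hn).2 ⟨(Commute.pow_left e n).symm, h.tw hX hy⟩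
      by_cases y1 : y = 1
      · exact y1 ▸ h1
      · exact h3 _ (pow_mem hu n) hn (h.Wsub (pow_mem hu n) hn hN hy' y1 hy) hy'⟩
  obtain ⟨i, hi, e⟩ := (Nat.dvd_prime_pow (p := 2) (m := 7) (by norm_num)).1 (h.c128 hX)
  exact ⟨i, hi, e, k, by rw [← e, hk, hm, h.card]⟩
end St
end CfH1.MB1
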