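import Cfsg.Agent.H1.MB1b
/-! Step `PB1` in the recognition of `M₂₂`, second half: the self-centralizing `2⁴`. -/
set_option autoImplicit false
set_option linter.all false
open Subgroup CfH9 CfH4.M22
namespace CfH1.MB1
universe u
variable {G : Type*} [Group G] [Finite G]

/-- elements of order three of `T` -/
def O (T : Subgroup G) (a : G) : Prop := a ∈ T ∧ orderOf a = 3
def Adj (T : Subgroup G) (a b : G) : Prop := O T a ∧ O T b ∧ b ∉ zpowers a ∧ W b ≤ Cz(W a)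

theorem nsym {T : Subgroup G} {a b : G} (ha : O T a) (hb : O T b) (h : b ∉ zpowers a) : a ∉ zpowers b :=
  fun e => h (zsym hb.2 e (ne1 ha.2))

theorem Adj.symm {T : Subgroup G} {a b : G} (h : Adj T a b) : Adj T b a :=
  ⟨h.2.1, h.1, nsym h.1 h.2.1 h.2.2.1, le_centralizer_iff.1 h.2.2.2⟩

theorem Adj.rep {T : Subgroup G} {a b c : G} (h : Adj T a b) (hc : O T c) (e : b ∈ zpowers c) : Adj T a c :=
  ⟨h.1, hc, fun e' => h.2.2.1 (zpowers_le.2 e' e), W_zp hc.2 e (ne1 h.2.1.2) ▸ h.2.2.2⟩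

theorem O.cj {T : Subgroup G} {a n : G} (h : O T a) (hn : n ∈ Nm(T)) : O T (n * a * n⁻¹) :=
  ⟨conj_mem_of_mem_normalizer hn h.1, (ord_conj n a).trans h.2⟩

theorem cj_zp {a b : G} (n : G) (h : b ∉ zpowers a) : n * b * n⁻¹ ∉ zpowers (n * a * n⁻¹) := by
  rwa [← cj_zpowers, conj_mem_cj_iff]

theorem Adj.cj {T : Subgroup G} {a b n : G} (h : Adj T a b) (hn : n ∈ Nm(T)) : Adj T (n * a * n⁻¹) (n * b * n⁻¹) :=
  ⟨h.1.cj hn, h.2.1.cj hn, cj_zp n h.2.2.1, by rw [← cj_W, ← cj_W, ← cj_centralizer]; exact cj_mono n h.2.2.2⟩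

theorem zdis {T : Subgroup G} {a b g : G} (ha : O T a) (hb : O T b) (h : b ∉ zpowers a) (h1 : g ∈ zpowers a)
    (h2 : g ∈ zpowers b) : g = 1 := by_contra fun g1 => h (zpowers_le.2 h1 (zsym hb.2 h2 g1))

theorem c3 {T : Subgroup G} {a : G} (ha : O T a) : Nat.card (zpowers a) = 2 + 1 := (Nat.card_zpowers a).trans ha.2

namespace St
variable {T : Subgroup G} (h : St T)
include h

theorem wdis {a b g : G} (ha : O T a) (hb : O T b) (e : b ∉ zpowers a) (h1 : g ∈ W a) (h2 : g ∈ W b) : g = 1 :=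
  by_contra fun g1 => e (h.tc ha.1 ha.2 hb.1 h1 g1 (mem_Cx.1 (W_le b h2)).symm)

theorem WF {a : G} (ha : O T a) : W a ≤ F a := h.leF ha.1 ha.2 (h.pW ha.1 ha.2) (h.Wab ha.1 ha.2)
theorem aF {a b : G} (e : Adj T a b) : W b ≤ F a := h.leF e.1.1 e.1.2 (h.pW e.2.1.1 e.2.1.2) e.2.2.2
theorem Fa {a b : G} (ha : O T a) (hb : O T b) (e : W b ≤ F a) : b ∈ zpowers a ∨ Adj T a b :=
  (em _).imp_right fun n => ⟨ha, hb, n, e.trans (h.FC ha.1 ha.2)⟩

theorem exadj {a : G} (ha : O T a) : ∃ b, Adj T a b := by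
  by_contra! n
  obtain ⟨i, hi, e, k, hk⟩ := h.cnt9 (h.pF ha.1 ha.2) (h.TF ha.1 ha.2) (W a) (h.cW ha.1 ha.2) (one_mem _)
    (fun y hy => .inr ⟨a, ha.1, ha.2, h.WF ha, hy⟩) fun u hu u3 e =>
      (W_zp ha.2 ((h.Fa ha ⟨hu, u3⟩ e).resolve_right (n u)) (ne1 u3)).le
  obtain ⟨z, hz, z1⟩ := (W a).bot_or_exists_ne_one.resolve_left (h.Wne ha.1 ha.2)
  obtain ⟨P, p1, p2, p3, p4, -⟩ := h.exP ha.1 ha.2 hz z1
  refine h.exC ha.1 ha.2 p1 p2 p3 p4 ((h.leF ha.1 ha.2 (p1.to_le inf_le_left) inf_le_right).trans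
    (eq_of_le_of_card_ge (h.WF ha) ?_).ge)
  rw [e, h.cW ha.1 ha.2]
  interval_cases i <;> omega

theorem e3 {a b : G} (e : Adj T a b) {g : G} (hg : g ∈ T) : g ^ 3 = 1 := by
  let K : Subgroup G :=
    { carrier := {g | g ∈ T ∧ g ^ 3 = 1}
      mul_mem' := fun x y => ⟨mul_mem x.1 y.1, by rw [Commute.mul_pow (h.comm x.1 y.1), x.2, y.2, one_mul]⟩
      one_mem' := ⟨one_mem _, one_pow _⟩
      inv_mem' := fun x => ⟨inv_mem x.1, by rw [inv_pow, x.2, inv_one]⟩ }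
  exact (h.gen e.1.1 e.1.2 e.2.1.1 e.2.2.1 (K := K) ⟨e.1.1, e.1.2 ▸ pow_orderOf_eq_one a⟩
    ⟨e.2.1.1, e.2.1.2 ▸ pow_orderOf_eq_one b⟩ hg).2

section
variable {a b c d : G} (ha : O T a) (hb : O T b) (hc : O T c) (ab : b ∉ zpowers a) (ac : c ∉ zpowers a) (bc : c ∉ zpowers b)
include ha hb hc ab ac bc

omit h in
theorem z3 : ((zpowers a : Set G) ∪ zpowers b ∪ zpowers c).ncard = 3 + 2 + 2 :=
  un (un (c3 ha) (c3 hb) (one_mem _) fun _ => zdis ha hb ab) (c3 hc) (.inl (one_mem _))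
    fun _ e => e.elim (zdis ha hc ac) (zdis hb hc bc)

theorem cover (hd : O T d) (ad : d ∉ zpowers a) (bd : d ∉ zpowers b) (cd : d ∉ zpowers c) {u : G} (hu : u ∈ T) :
    ((u ∈ zpowers a ∨ u ∈ zpowers b) ∨ u ∈ zpowers c) ∨ u ∈ zpowers d := by
  have := Set.eq_of_subset_of_ncard_le (s := (zpowers a : Set G) ∪ zpowers b ∪ zpowers c ∪ zpowers d) (t := T)
    (by rintro x (((e | e) | e) | e); exacts [zpowers_le.2 ha.1 e, zpowers_le.2 hb.1 e, zpowers_le.2 hc.1 e, zpowers_le.2 hd.1 e])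
    (by rw [un (z3 ha hb hc ab ac bc) (c3 hd) (.inl (.inl (one_mem _))) fun _ e => e.elim (fun e => e.elim (zdis ha hd ad)
      (zdis hb hd bd)) (zdis hc hd cd)]; exact h.card.le)
  exact (Set.ext_iff.1 this u).2 hu

theorem fourth : ∃ d ∈ T, d ∉ zpowers a ∧ d ∉ zpowers b ∧ d ∉ zpowers c := by
  by_contra! n
  have := Set.ncard_le_ncard (s := T) (t := (zpowers a : Set G) ∪ zpowers b ∪ zpowers c) fun x hx => by
    by_contra e
    exact e (.inr (n x hx (fun e' => e (.inl (.inl e'))) fun e' => e (.inl (.inr e'))))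
  rw [z3 ha hb hc ab ac bc, show (T : Set G).ncard = 9 from h.card] at this
  omega
end

theorem not3 {a b c d : G} (ab : Adj T a b) (ac : Adj T a c) (ad : Adj T a d) (bc : c ∉ zpowers b) (bd : d ∉ zpowers b)
    (cd : d ∉ zpowers c) : False := by
  have ha := ab.1
  have hb := ab.2.1
  have hc := ac.2.1
  have hd := ad.2.1
  obtain ⟨i, hi, -, k, hk⟩ := h.cnt9 (h.pF ha.1 ha.2) (h.TF ha.1 ha.2) ((W a : Set G) ∪ W b ∪ W c ∪ W d)
    (un (un (un (n := 3) (h.cW ha.1 ha.2) (h.cW hb.1 hb.2) (one_mem _) fun _ => h.wdis ha hb ab.2.2.1) (n := 3) (h.cW hc.1 hc.2)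
      (.inl (one_mem _)) fun _ e => e.elim (h.wdis ha hc ac.2.2.1) (h.wdis hb hc bc)) (n := 3) (h.cW hd.1 hd.2)
      (.inl (.inl (one_mem _))) fun _ e => e.elim (fun e => e.elim (h.wdis ha hd ad.2.2.1) (h.wdis hb hd bd)) (h.wdis hc hd cd))
    (.inr (one_mem _)) (by
      rintro y (((e | e) | e) | e)
      exacts [.inr ⟨a, ha.1, ha.2, h.WF ha, e⟩, .inr ⟨b, hb.1, hb.2, h.aF ab, e⟩, .inr ⟨c, hc.1, hc.2, h.aF ac, e⟩,
        .inr ⟨d, hd.1, hd.2, h.aF ad, e⟩]) fun u hu u3 _ y hy => by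
      rcases h.cover ha hb hc ab.2.2.1 ac.2.2.1 bc hd ad.2.2.1 bd cd hu with ((e | e) | e) | e
      exacts [.inl (.inl (.inl (W_zp ha.2 e (ne1 u3) ▸ hy))), .inl (.inl (.inr (W_zp hb.2 e (ne1 u3) ▸ hy))),
        .inl (.inr (W_zp hc.2 e (ne1 u3) ▸ hy)), .inr (W_zp hd.2 e (ne1 u3) ▸ hy)]
  interval_cases i <;> omega

theorem trans {a b : G} (ha : O T a) (hb : O T b) : ∃ n ∈ Nm(T), n * a * n⁻¹ = b := by
  obtain ⟨g, hg⟩ := isConj_iff.1 (h.L.j3 a b ha.2 hb.2)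
  obtain ⟨n, -, h1, h2⟩ := burnside_fusion_elem (h.syl le_top) (mem_top g) (le_Cx_iff.1 (h.TC ha.1))
    (by rw [hg]; exact le_Cx_iff.1 (h.TC hb.1))
  exact ⟨n, h1, h2 ▸ hg⟩

theorem uniq {a b c : G} (ab : Adj T a b) (ac : Adj T a c) : c ∈ zpowers b := by
  by_contra bc
  have ha := ab.1
  have hb := ab.2.1
  have hc := ac.2.1
  obtain ⟨d, hd, ad, bd, cd⟩ := h.fourth ha hb hc ab.2.2.1 ac.2.2.1 bc
  have hd : O T d := ⟨hd, orderOf_eq_prime (h.e3 ab hd) fun e => ad (e ▸ one_mem _)⟩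
  have nad : ¬ Adj T a d := fun e => h.not3 ab ac e bc bd cd
  have cov := fun {u} => h.cover (u := u) ha hb hc ab.2.2.1 ac.2.2.1 bc hd ad bd cd
  obtain ⟨n, hn, e⟩ := h.trans ha hd
  have k : ∀ {x}, Adj T d x → x ∈ zpowers b ∨ x ∈ zpowers c := fun e => by
    rcases cov e.2.1.1 with ((f | f) | f) | f
    exacts [(nad (e.rep ha f).symm).elim, .inl f, .inr f, (e.2.2.1 f).elim]
  have d1 : Adj T d (n * b * n⁻¹) := e ▸ ab.cj hn
  have d2 : Adj T d (n * c * n⁻¹) := e ▸ ac.cj hn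
  have d3 := cj_zp n bc
  have : Adj T d b ∧ Adj T d c := by
    rcases k d1 with f | f <;> rcases k d2 with f' | f'
    · exact (d3 (zpowers_le.2 (zsym hb.2 f (ne1 d1.2.1.2)) f')).elim
    · exact ⟨d1.rep hb f, d2.rep hc f'⟩
    · exact ⟨d2.rep hb f', d1.rep hc f⟩
    · exact (d3 (zpowers_le.2 (zsym hc.2 f (ne1 d1.2.1.2)) f')).elim
  obtain ⟨db, dc⟩ := this
  have nbc : ¬ Adj T b c := fun e => h.not3 ab.symm e db.symm ac.2.2.1 ad cd
  have pD : IsPGroup 2 (F b ⊓ F c : Subgroup G) := (h.pF hb.1 hb.2).to_le inf_le_left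
  have aD : W a ≤ F b ⊓ F c := le_inf (h.aF ab.symm) (h.aF ac.symm)
  have dD : W d ≤ F b ⊓ F c := le_inf (h.aF db.symm) (h.aF dc.symm)
  have TD : T ≤ Nm(F b ⊓ F c) := fun t ht => mem_Nm_inf (h.TF hb.1 hb.2 ht) (h.TF hc.1 hc.2 ht)
  have na : ¬ W a ≤ Cz(F b ⊓ F c) := fun e => nad (Adj.symm ⟨hd, ha, nsym ha hd ad, e.trans (Cz_anti dD)⟩)
  obtain ⟨i, hi, e1, k, hk⟩ := h.cnt9 (X := F b ⊓ F c ⊓ Cz(F b ⊓ F c)) (pD.to_le inf_le_left)
    (fun t ht => mem_Nm_inf (TD ht) (mem_Nm_Cz (TD ht))) {1} (Set.ncard_singleton _) rfl (fun y hy => .inl hy)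
    fun u hu u3 e => by
      rcases cov hu with ((f | f) | f) | f <;> rw [W_zp (by first | exact ha.2 | exact hb.2 | exact hc.2 | exact hd.2) f (ne1 u3)] at e
      · exact (na (e.trans inf_le_right)).elim
      · exact ((h.Fa hc hb (e.trans (inf_le_left.trans inf_le_right))).elim (nsym hb hc bc) fun e => nbc e.symm).elim
      · exact ((h.Fa hb hc (e.trans (inf_le_left.trans inf_le_left))).elim bc nbc).elim
      · exact (nad ⟨ha, hd, ad, (e.trans inf_le_right).trans (Cz_anti aD)⟩).elim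
  obtain ⟨x, hx, x1, x2⟩ := exists_mem_center_of_normal pD pD le_normalizer fun e => h.Wne ha.1 ha.2 (eq_bot_iff.2 (e ▸ aD))
  have := (one_lt_card_iff_ne_bot (F b ⊓ F c ⊓ Cz(F b ⊓ F c))).2 fun e => x1 ((eq_bot_iff_forall _).1 e x ⟨hx, x2⟩)
  have m := h.md ha.1 ha.2 pD (TD ha.1) aD
  refine na (aD.trans (inf_eq_left.1 (eq_of_le_of_card_ge inf_le_left ?_)))
  rw [e1] at this ⊢
  interval_cases i <;> omega

theorem c16 {a b : G} (ab : Adj T a b) {X : Subgroup G} (h1 : W a ⊔ W b ≤ X) (h2 : X ≤ F a) (hN : T ≤ Nm(X)) :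
    Nat.card X = 16 := by
  have ha := ab.1
  have hb := ab.2.1
  obtain ⟨i, hi, e, k, hk⟩ := h.cnt9 ((h.pF ha.1 ha.2).to_le h2) hN ((W a : Set G) ∪ W b)
    (un (n := 3) (h.cW ha.1 ha.2) (h.cW hb.1 hb.2) (one_mem _) fun _ => h.wdis ha hb ab.2.2.1) (.inl (one_mem _)) (by
      rintro y (e | e)
      exacts [.inr ⟨a, ha.1, ha.2, le_sup_left.trans h1, e⟩, .inr ⟨b, hb.1, hb.2, le_sup_right.trans h1, e⟩])
    fun u hu u3 e y hy => (h.Fa ha ⟨hu, u3⟩ (e.trans h2)).elim (fun f => .inl (W_zp ha.2 f (ne1 u3) ▸ hy))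
      fun f => .inr (W_zp hb.2 (h.uniq ab f) (ne1 u3) ▸ hy)
  rw [e]
  interval_cases i <;> omega

theorem FE {a b : G} (ab : Adj T a b) : W a ⊔ W b = F a ∧ Nat.card (F a) = 16 := by
  have l := sup_le (h.WF ab.1) (h.aF ab)
  have c := h.c16 ab l le_rfl (h.TF ab.1.1 ab.1.2)
  exact ⟨eq_of_le_of_card_ge l (by rw [c, h.c16 ab le_rfl l fun t ht => mem_Nm_sup (h.TW ab.1.1 ab.1.2 ht)
    (h.TW ab.2.1.1 ab.2.1.2 ht)]), c⟩

theorem exV {a b z : G} (ab : Adj T a b) (hz : z ∈ W a) (z1 : z ≠ 1) :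
    ∃ v ∈ Nm(F a), v ∉ F a ∧ v * z = z * v ∧ v * v ∈ F a ∧ (v * a) ^ 3 ∈ F a := by
  have ha := ab.1
  obtain ⟨P, p1, p2, p3, p4, p5⟩ := h.exP ha.1 ha.2 hz z1
  have c := (h.FE ab).2
  have l := h.leF ha.1 ha.2 (p1.to_le inf_le_left) (inf_le_right : P ⊓ Cz(W a) ≤ _)
  have aF := h.TF ha.1 ha.2 ha.1
  have EP : F a ≤ P := (eq_of_le_of_card_ge l (by
    have w := le_inf p3 (h.Wab ha.1 ha.2)
    have := card_lt_of_lt (lt_of_le_not_ge w (h.exC ha.1 ha.2 p1 p2 p3 p4))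
    have := h.md ha.1 ha.2 (p1.to_le inf_le_left) (mem_Nm_inf p4 (mem_Nm_Cz (h.TW ha.1 ha.2 ha.1))) w
    have := h.cW ha.1 ha.2
    omega)).ge.trans inf_le_left
  have lt : F a < P := lt_of_le_of_ne EP fun e => by rw [e] at c; omega
  have PN : P ≤ Nm(F a) := inf_eq_left.1 (eq_of_le_of_card_ge inf_le_left (by
    have := card_lt_of_lt (lt_inf_Nm p1 lt)
    have := h.md ha.1 ha.2 (p1.to_le (inf_le_left : P ⊓ Nm(F a) ≤ P)) (mem_Nm_inf p4 (mem_Nm_Nm aF))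
      ((h.WF ha).trans (lt_inf_Nm p1 lt).le)
    omega))
  have fpf : ∀ g ∈ P, ∀ k ∈ zpowers a, k ≠ 1 → k * g * k⁻¹ * g⁻¹ ∈ F a → g ∈ F a := fun g hg k hk k1 e => by
    by_contra n
    have kN := zpowers_le.2 aF hk
    have o : zpowers k = zpowers a := le_antisymm (zpowers_le.2 hk) (zpowers_le.2 (zsym ha.2 hk k1))
    have := free (zpowers a) ((· * g) '' F a) (by
      have : ∀ u, u * g * u⁻¹ * g⁻¹ ∈ F a → u ∈ Nm(F a) → ∀ y ∈ (· * g) '' F a, u * y * u⁻¹ ∈ (· * g) '' F a := by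
        rintro u h1 h2 _ ⟨y, hy, rfl⟩
        exact ⟨_, mul_mem (conj_mem_of_mem_normalizer h2 hy) h1, by group⟩
      intro u hu
      rcases zp (b := u) (by rw [← Nat.card_zpowers, o, Nat.card_zpowers, ha.2] : orderOf k = 3) (o ▸ hu) with rfl | rfl | rfl
      · simp
      · exact this _ e kN
      · exact this _ (by convert conj_mem_of_mem_normalizer' kN (inv_mem e) using 1; group) (inv_mem kN)) (by
      rintro u hu _ ⟨y, hy, rfl⟩ e
      by_contra u1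
      exact n ((mul_mem_cancel_left hy).1 (h.WF ha ((h.mW ha.1 ha.2).2 ⟨comm_zp (zsym ha.2 hu u1) e.symm,
        h.tw p1 (mul_mem (EP hy) hg)⟩))))
    rw [Set.ncard_image_of_injective _ (mul_left_injective g), Nat.card_zpowers, ha.2, show (F a : Set G).ncard = 16 from c] at this
    omega
  obtain ⟨v, hv, v1, v2⟩ : ∃ v ∈ P, v ∉ F a ∧ v * v ∈ F a := by
    by_contra! n
    obtain ⟨g, hg, g1⟩ := SetLike.exists_of_lt lt
    have : ∀ k : ℕ, g ^ 2 ^ k ∉ F a := fun k => by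
      induction k with
      | zero => simpa using g1
      | succ k ih => rw [pow_succ, pow_mul, sq]; exact n _ (pow_mem hg _) ih
    exact this 7 (by rw [show 2 ^ 7 = 128 from rfl, h.tw p1 hg]; exact one_mem _)
  refine ⟨v, PN hv, v1, mem_Cx.1 (p5 hv), v2, ?_⟩
  have nr := (normal_subgroupOf_iff_le_normalizer EP).2 PN
  have cq : Nat.card (⊤ : Subgroup (P ⧸ (F a).subgroupOf P)) = 4 := by
    have := card_mul_relIndex EP
    rw [c, p2] at this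
    rw [card_top, ← index_eq_card, ← relIndex]; omega
  have a33 : a ^ 3 = 1 := ha.2 ▸ pow_orderOf_eq_one a
  have ai : a⁻¹ = a * a := (eq_inv_of_mul_eq_one_left (by rw [← a33, pow_three'])).symm
  have cP := fun {y} => conj_mem_of_mem_normalizer (x := y) p4
  have cF : ∀ {y}, a * y * a⁻¹ ∈ F a ↔ y ∈ F a := fun {y} => (mem_normalizer_iff.1 aF y).symm
  let π := QuotientGroup.mk' ((F a).subgroupOf P)
  have q1 : ∀ x : P, π x = 1 ↔ x.1 ∈ F a := fun x => QuotientGroup.eq_one_iff x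
  have q2 : ∀ x y : P, π x = π y → y.1 * x.1⁻¹ ∈ F a := fun x y e => (q1 (y * x⁻¹)).1 (by rw [map_mul, map_inv, e, mul_inv_cancel])
  have kl := klein cq (mem_top (π ⟨v, hv⟩)) (mem_top (π ⟨_, cP hv⟩)) (mem_top (π ⟨_, cP (cP hv)⟩)) (mt (q1 _).1 v1)
    (mt (q1 _).1 (mt cF.1 v1)) (mt (q1 _).1 (mt cF.1 (mt cF.1 v1)))
    (fun e => v1 (fpf v hv a (mem_zpowers a) (ne1 ha.2) (q2 _ _ e)))
    (fun e => v1 (fpf v hv a⁻¹ (inv_mem (mem_zpowers a)) (inv_ne_one.2 (ne1 ha.2)) (by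
      convert q2 _ _ e using 1; nth_rewrite 1 2 [ai]; group)))
    (fun e => v1 (cF.1 (fpf _ (cP hv) a (mem_zpowers a) (ne1 ha.2) (q2 _ _ e)))) ((map_mul π _ _).symm.trans ((q1 _).2 v2))
  have := (q1 (⟨v, hv⟩ * ⟨_, cP hv⟩ * ⟨_, cP (cP hv)⟩)).1 (by
    rw [map_mul, map_mul, kl, ← map_mul, q1]
    exact (by simpa only [conj_mul] using cF.2 (cF.2 v2) : a * (a * v * a⁻¹) * a⁻¹ * (a * (a * v * a⁻¹) * a⁻¹) ∈ F a))
  convert this using 1
  change _ = v * (a * v * a⁻¹) * (a * (a * v * a⁻¹) * a⁻¹)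
  rw [← mul_one (_ * (a * (a * v * a⁻¹) * a⁻¹)), ← a33, pow_three, pow_three]; group

theorem exB {a u : G} (au : Adj T a u) : ∃ b : G, b * a * b⁻¹ = u ∧ b * u * b⁻¹ = a⁻¹ ∧ b ^ 4 = 1 := by
  obtain ⟨g, hg, e⟩ := h.trans au.1 au.2.1
  have e2 : g * u * g⁻¹ = a⁻¹ := by
    have n : g ∉ T := fun f => au.2.2.1 (by rw [← e, h.comm f au.1.1, mul_inv_cancel_right]; exact mem_zpowers a)
    rcases zp au.1.2 (h.uniq au.symm (e ▸ au.cj hg)) with f | f | f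
    · exact (ne1 au.2.1.2 (conj_eq_one_iff.1 f)).elim
    · refine (n (h.reg hg (mul_mem au.1.1 au.2.1.1) (fun k => au.2.2.1 (by rw [eq_inv_of_mul_eq_one_right k]; simp)) ?_)).elim
      rw [← mul_inv_eq_iff_eq_mul, ← conj_mul, e, f, h.comm au.1.1 au.2.1.1]
    · exact f
  have g4 : g ^ 4 ∈ T := h.reg (pow_mem hg 4) au.1.1 (ne1 au.1.2) (by
    rw [← mul_inv_eq_iff_eq_mul, show g ^ 4 * a * (g ^ 4)⁻¹ = g * (g * (g * (g * a * g⁻¹) * g⁻¹)⁻¹ * g⁻¹)⁻¹ * g⁻¹ by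
      simp only [pow_succ, pow_zero, mul_inv_rev, inv_inv, one_mul, mul_assoc], e, e2, inv_inv, e, ← conj_inv, e2, inv_inv])
  have k : ∀ x ∈ T, g ^ 9 * x * (g ^ 9)⁻¹ = g * x * g⁻¹ := fun x hx => by
    rw [show g ^ 9 = g * (g ^ 4) ^ 2 by rw [← pow_mul, ← pow_succ'], mul_assoc g, h.comm (pow_mem g4 2) hx]; group
  exact ⟨g ^ 9, (k a au.1.1).trans e, (k u au.2.1.1).trans e2, by
    rw [← pow_mul, show 9 * 4 = 4 * 9 from rfl, pow_mul, h.p9 g4]⟩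
end St

theorem pb1 : PB1.{u} := fun {G} _ _ L => by
  obtain ⟨T, hT⟩ := Sylow.exists_subgroup_card_pow_prime (G := G) 3 (n := 2) (by rw [L.card]; norm_num)
  have h : St T := ⟨L, hT⟩
  obtain ⟨a, ha, a3⟩ := exists_orderOf_eq_prime (p := 3) (Q := T) (by rw [hT]; norm_num)
  obtain ⟨t, au⟩ := h.exadj ⟨ha, a3⟩
  obtain ⟨b, b1, b2, b4⟩ := h.exB au
  obtain ⟨ht, t3⟩ := au.2.1
  have c1 : cj b (W a) = W t := by rw [cj_W, b1]
  have c2 : cj b (W t) = W a := by rw [cj_W, b2, W_zp a3 (inv_mem (mem_zpowers a)) (inv_ne_one.2 (ne1 a3))]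
  obtain ⟨p, hp, p1, pb⟩ := exists_mem_center_of_normal (T := zpowers (b * b))
    (isPGroup_zpowers (k := 1) (by rw [← b4, ← sq, ← pow_mul]; rfl)) (h.pW ha a3)
    (zpowers_le.2 (mem_normalizer_iff_cj.2 (by rw [cj_mul, c1, c2]))) (h.Wne ha a3)
  replace pb := conj_eq_of_mem_centralizer (le_centralizer_iff.1 (zpowers_le.2 pb) (mem_zpowers _)) (mem_zpowers p)
  obtain ⟨o1, o2, o3, o4, o5, o6, o7⟩ := h.orb ha a3 ht au.2.2.1 hp p1
  have kl := klein (h.cW ha a3) hp o1 o2 p1 o3 o4 o5 o6 o7 (h.W2 ha a3 hp)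
  have f4 := fun {g} => four (g := g) (h.cW ha a3) hp o1 o2 p1 o3 o4 o5 o6 o7
  rw [← kl] at f4
  have bs : b * (b * (t * p * t⁻¹) * b⁻¹) * b⁻¹ = p * (t * p * t⁻¹) := by
    have t33 : t ^ 3 = 1 := t3 ▸ pow_orderOf_eq_one t
    have ti : t⁻¹ = t * t := (eq_inv_of_mul_eq_one_left (by rw [← t33, pow_three'])).symm
    calc _ = (b * (b * t * b⁻¹) * b⁻¹) * (b * b * p * (b * b)⁻¹) * (b * (b * t * b⁻¹) * b⁻¹)⁻¹ := by group
      _ = _ := by rw [b2, pb, ← conj_inv, b1, kl]; nth_rewrite 1 2 [ti]; group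
  generalize hq : t * p * t⁻¹ = q at *
  have hr : b * p * b⁻¹ ∈ W t := c1 ▸ conj_mem_cj b hp
  have hs : b * q * b⁻¹ ∈ W t := c1 ▸ conj_mem_cj b o1
  obtain ⟨E1, E2⟩ := h.FE au
  have cl : closure ({p, q, b * p * b⁻¹, b * q * b⁻¹} : Set G) = F a := by
    rw [← E1]
    refine le_antisymm ((closure_le _).2 ?_) (sup_le (fun g hg => ?_) fun g hg => ?_)
    · rintro _ (rfl | rfl | rfl | rfl)
      exacts [mem_sup_left hp, mem_sup_left o1, mem_sup_right hr, mem_sup_right hs]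
    · rcases f4 hg with rfl | rfl | rfl | rfl
      exacts [one_mem _, subset_closure (by simp), subset_closure (by simp),
        mul_mem (subset_closure (by simp)) (subset_closure (by simp))]
    · obtain ⟨y, hy, rfl⟩ := mem_cj'.1 (c1 ▸ hg : g ∈ cj b (W a))
      rcases f4 hy with rfl | rfl | rfl | rfl
      exacts [by simp [one_mem], subset_closure (by simp), subset_closure (by simp),
        conj_mul (b := b) ▸ mul_mem (subset_closure (by simp)) (subset_closure (by simp))]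
  obtain ⟨v, v1, v2, v3, v4, v5⟩ := h.exV au hp p1
  have cW : ∀ {g x y : G} {u : G}, g * x = x * g → g * y = y * g → (∀ w ∈ W u, w = 1 ∨ w = x ∨ w = y ∨ w = x * y) →
      g ∈ Cz(W u) := fun {g x y u} e1 e2 k w hw => by
    rcases k w hw with rfl | rfl | rfl | rfl
    exacts [by simp, e1.symm, e2.symm, (Commute.mul_right e1 e2).symm]
  refine ⟨p, q, b * p * b⁻¹, b * q * b⁻¹, t, b, v, h.W2 ha a3 hp, h.W2 ha a3 o1, h.Wab ha a3 o1 p hp,
    au.2.2.2 hr p hp, au.2.2.2 hs p hp, au.2.2.2 hr q o1, au.2.2.2 hs q o1, cl ▸ E2, fun g g1 g2 g3 g4 => ?_, rfl, rfl,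
    Eq.trans (by group) pb, bs, b4, hq, kl.symm, mul_inv_eq_iff_eq_mul.2 (mem_Cx.1 (W_le t hr)).symm,
    mul_inv_eq_iff_eq_mul.2 (mem_Cx.1 (W_le t hs)).symm,
    fun e he => cl ▸ conj_mem_of_mem_normalizer v1 (cl ▸ he), cl ▸ v2, v3, cl ▸ v4, ?_⟩
  · obtain ⟨f, hf, k, hk, rfl⟩ := (h.Fspec ha a3).2 g (cW g1 g2 fun w => f4)
    have fC : f ∈ Cz(W t) := (E1 ▸ sup_le au.symm.2.2.2 (h.Wab ht t3) : F a ≤ _) hf
    have := h.tc ht t3 (zpowers_le.2 ha hk) hr (by simpa using p1) (mul_left_cancel (a := f) (by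
      rw [← mul_assoc, g3, ← mul_assoc, fC _ hr, mul_assoc]))
    rw [zdis au.1 au.2.1 au.2.2.1 hk this, mul_one, cl]
    exact hf
  · rw [cl, ← b1, show b⁻¹ * (b * a * b⁻¹) * b = a by group]
    exact v5
end CfH1.MB1
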