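import Cfsg.Agent.H4.Mb0
import Cfsg.Agent.OD.Helper1x52ed6113cc
/-! Step `PB2` in the recognition of `M₂₂`: the subgroup `2⁴ : A₆`. -/
set_option autoImplicit false
set_option linter.all false
open Subgroup CfH6 CfH4.M22
namespace CfH1.MB2
universe u

abbrev Mt := ℕ × ℕ × ℕ × ℕ
def app (M : Mt) (c : ℕ) : ℕ :=
  M.1 * (c % 2) ^^^ M.2.1 * (c / 2 % 2) ^^^ M.2.2.1 * (c / 4 % 2) ^^^ M.2.2.2 * (c / 8 % 2)
def mm (M N : Mt) : Mt := (app M N.1, app M N.2.1, app M N.2.2.1, app M N.2.2.2)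
def I4 : Mt := (1, 2, 4, 8)
def mp (M : Mt) : ℕ → Mt
  | 0 => I4
  | n + 1 => mm M (mp M n)
def Bd (M : Mt) : Prop := M.1 < 16 ∧ M.2.1 < 16 ∧ M.2.2.1 < 16 ∧ M.2.2.2 < 16

theorem x16 {a b : ℕ} (ha : a < 16) (hb : b < 16) : a ^^^ b < 16 := Nat.xor_lt_two_pow (n := 4) ha hb
theorem m16 {a : ℕ} (ha : a < 16) (k : ℕ) : a * (k % 2) < 16 := by
  rcases Nat.mod_two_eq_zero_or_one k with h | h <;> rw [h] <;> omega
theorem app_lt {M : Mt} (h : Bd M) (c : ℕ) : app M c < 16 :=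
  x16 (x16 (x16 (m16 h.1 _) (m16 h.2.1 _)) (m16 h.2.2.1 _)) (m16 h.2.2.2 _)
theorem mp_bd {M : Mt} (h : Bd M) : ∀ n, Bd (mp M n)
  | 0 => by unfold mp I4 Bd; decide
  | _ + 1 => ⟨app_lt h _, app_lt h _, app_lt h _, app_lt h _⟩

variable {G : Type*} [Group G]

/-- four commuting involutions generating a self-centralizing group of order 16 -/
structure E4 (p q r s : G) : Prop where
  p2 : p * p = 1
  q2 : q * q = 1
  r2 : r * r = 1
  s2 : s * s = 1
  pq : Commute p q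
  pr : Commute p r
  ps : Commute p s
  qr : Commute q r
  qs : Commute q s
  rs : Commute r s
  card : Nat.card (closure ({p, q, r, s} : Set G)) = 16

def el (p q r s : G) (c : ℕ) : G := p ^ (c % 2) * q ^ (c / 2 % 2) * r ^ (c / 4 % 2) * s ^ (c / 8 % 2)

theorem pw {x : G} (h : x * x = 1) {a b c : ℕ} (e : (a + b) % 2 = c) : x ^ a * x ^ b = x ^ c := by
  rw [← pow_add, ← e]; exact pow_eq_pow_mod _ (by rw [sq, h])

def Act (p q r s g : G) (M : Mt) : Prop :=
  Bd M ∧ g * p * g⁻¹ = el p q r s M.1 ∧ g * q * g⁻¹ = el p q r s M.2.1 ∧ g * r * g⁻¹ = el p q r s M.2.2.1 ∧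
    g * s * g⁻¹ = el p q r s M.2.2.2

variable {p q r s : G}
theorem el0 : el p q r s 0 = 1 := by simp [el]
theorem el1 : el p q r s 1 = p := by simp [el]
theorem el2 : el p q r s 2 = q := by simp [el]
theorem el3 : el p q r s 3 = p * q := by simp [el]
theorem el4 : el p q r s 4 = r := by simp [el]
theorem el7 : el p q r s 7 = p * q * r := by simp [el]
theorem el8 : el p q r s 8 = s := by simp [el]
theorem el14 : el p q r s 14 = q * r * s := by simp [el]

namespace E4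
variable (h : E4 p q r s)
include h

theorem mul {c d : ℕ} (hc : c < 16) (hd : d < 16) : el p q r s c * el p q r s d = el p q r s (c ^^^ d) := by
  obtain ⟨e1, e2, e3, e4⟩ := (by decide +kernel : ∀ c < 16, ∀ d < 16, (c % 2 + d % 2) % 2 = (c ^^^ d) % 2 ∧
    (c / 2 % 2 + d / 2 % 2) % 2 = (c ^^^ d) / 2 % 2 ∧ (c / 4 % 2 + d / 4 % 2) % 2 = (c ^^^ d) / 4 % 2 ∧
    (c / 8 % 2 + d / 8 % 2) % 2 = (c ^^^ d) / 8 % 2) c hc d hd
  unfold el
  rw [Commute.mul_mul_mul_comm (((h.ps.symm.pow_pow _ _).mul_right (h.qs.symm.pow_pow _ _)).mul_right (h.rs.symm.pow_pow _ _)),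
    Commute.mul_mul_mul_comm ((h.pr.symm.pow_pow _ _).mul_right (h.qr.symm.pow_pow _ _)),
    Commute.mul_mul_mul_comm (h.pq.symm.pow_pow _ _), pw h.p2 e1, pw h.q2 e2, pw h.r2 e3, pw h.s2 e4]

theorem sq {c : ℕ} (hc : c < 16) : el p q r s c * el p q r s c = 1 := by rw [h.mul hc hc, Nat.xor_self, el0]

theorem ex {g : G} (hg : g ∈ closure ({p, q, r, s} : Set G)) : ∃ c < 16, g = el p q r s c := by
  induction hg using closure_induction with
  | mem x hx =>
    rcases hx with rfl | rfl | rfl | rfl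
    exacts [⟨1, by norm_num, el1.symm⟩, ⟨2, by norm_num, el2.symm⟩, ⟨4, by norm_num, el4.symm⟩, ⟨8, by norm_num, el8.symm⟩]
  | one => exact ⟨0, by norm_num, el0.symm⟩
  | mul x y _ _ a b =>
    obtain ⟨c, hc, rfl⟩ := a
    obtain ⟨d, hd, rfl⟩ := b
    exact ⟨_, x16 hc hd, h.mul hc hd⟩
  | inv x _ a =>
    obtain ⟨c, hc, rfl⟩ := a
    exact ⟨c, hc, (eq_inv_of_mul_eq_one_right (h.sq hc)).symm⟩

omit h in
theorem mem (c : ℕ) : el p q r s c ∈ closure ({p, q, r, s} : Set G) :=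
  mul_mem (mul_mem (mul_mem (pow_mem (subset_closure (by simp)) _) (pow_mem (subset_closure (by simp)) _))
    (pow_mem (subset_closure (by simp)) _)) (pow_mem (subset_closure (by simp)) _)

theorem inj {c d : ℕ} (hc : c < 16) (hd : d < 16) (e : el p q r s c = el p q r s d) : c = d := by
  have : Function.Bijective fun i : Fin 16 => (⟨el p q r s i, mem _⟩ : closure ({p, q, r, s} : Set G)) :=
    Function.Surjective.bijective_of_nat_card_le (fun g => by
      obtain ⟨c, hc, e⟩ := h.ex g.2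
      exact ⟨⟨c, hc⟩, Subtype.ext e.symm⟩) (by rw [h.card]; simp)
  exact congrArg Fin.val (this.1 (a₁ := ⟨c, hc⟩) (a₂ := ⟨d, hd⟩) (Subtype.ext e))

theorem pw2 (m k : ℕ) : el p q r s m ^ (k % 2) = el p q r s (m * (k % 2)) := by
  rcases Nat.mod_two_eq_zero_or_one k with e | e <;> rw [e] <;> simp [el0]

theorem act {g : G} {M : Mt} (a : Act p q r s g M) (c : ℕ) : g * el p q r s c * g⁻¹ = el p q r s (app M c) := by
  obtain ⟨⟨b1, b2, b3, b4⟩, a1, a2, a3, a4⟩ := a
  have : g * el p q r s c * g⁻¹ = (g * p * g⁻¹) ^ (c % 2) * (g * q * g⁻¹) ^ (c / 2 % 2) * (g * r * g⁻¹) ^ (c / 4 % 2) *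
      (g * s * g⁻¹) ^ (c / 8 % 2) := by simp only [conj_pow, el]; group
  rw [this, a1, a2, a3, a4, h.pw2, h.pw2, h.pw2, h.pw2, h.mul (m16 b1 _) (m16 b2 _),
    h.mul (x16 (m16 b1 _) (m16 b2 _)) (m16 b3 _), h.mul (x16 (x16 (m16 b1 _) (m16 b2 _)) (m16 b3 _)) (m16 b4 _), app]

theorem amul {g k : G} {M N : Mt} (a : Act p q r s g M) (b : Act p q r s k N) : Act p q r s (g * k) (mm M N) := by
  have e : ∀ x, g * k * x * (g * k)⁻¹ = g * (k * x * k⁻¹) * g⁻¹ := fun x => by group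
  refine ⟨⟨app_lt a.1 _, app_lt a.1 _, app_lt a.1 _, app_lt a.1 _⟩, ?_, ?_, ?_, ?_⟩
  · rw [e, b.2.1, h.act a]; rfl
  · rw [e, b.2.2.1, h.act a]; rfl
  · rw [e, b.2.2.2.1, h.act a]; rfl
  · rw [e, b.2.2.2.2, h.act a]; rfl

theorem aI {g : G} : Act p q r s g I4 ↔ g * p = p * g ∧ g * q = q * g ∧ g * r = r * g ∧ g * s = s * g := by
  simp only [Act, I4, el1, el2, el4, el8, mul_inv_eq_iff_eq_mul, Bd]; simp

theorem aE {g : G} (hg : g ∈ closure ({p, q, r, s} : Set G)) : Act p q r s g I4 := by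
  obtain ⟨c, hc, rfl⟩ := h.ex hg
  have : ∀ d < 16, el p q r s c * el p q r s d = el p q r s d * el p q r s c := fun d hd => by
    rw [h.mul hc hd, h.mul hd hc, Nat.xor_comm]
  exact h.aI.2 ⟨by simpa [el1] using this 1, by simpa [el2] using this 2, by simpa [el4] using this 4,
    by simpa [el8] using this 8⟩

theorem apow {g : G} {M : Mt} (a : Act p q r s g M) : ∀ n, Act p q r s (g ^ n) (mp M n)
  | 0 => h.aE (by rw [pow_zero]; exact one_mem _)
  | n + 1 => by rw [pow_succ']; exact h.amul a (apow a n)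

theorem ainv {g : G} {M N : Mt} (a : Act p q r s g M) (hN : Bd N) (e : mm M N = I4) : Act p q r s g⁻¹ N := by
  have k : ∀ x c d, app M c = d → el p q r s d = x → g⁻¹ * x * g⁻¹⁻¹ = el p q r s c := fun x c d e1 e2 => by
    rw [← e2, ← e1, ← h.act a]; group
  simp only [mm, I4, Prod.mk.injEq] at e
  exact ⟨hN, k _ _ _ e.1 el1, k _ _ _ e.2.1 el2, k _ _ _ e.2.2.1 el4, k _ _ _ e.2.2.2 el8⟩

theorem uniq {g : G} {M N : Mt} (a : Act p q r s g M) (b : Act p q r s g N) : M = N :=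
  Prod.ext (h.inj a.1.1 b.1.1 (a.2.1.symm.trans b.2.1)) (Prod.ext (h.inj a.1.2.1 b.1.2.1 (a.2.2.1.symm.trans b.2.2.1))
    (Prod.ext (h.inj a.1.2.2.1 b.1.2.2.1 (a.2.2.2.1.symm.trans b.2.2.2.1))
      (h.inj a.1.2.2.2 b.1.2.2.2 (a.2.2.2.2.symm.trans b.2.2.2.2))))
end E4

def mT : Mt := (2, 3, 4, 8)
def mB : Mt := (4, 8, 1, 3)
def mA : Mt := (14, 4, 2, 7)
def mw (V : Mt) : List ℕ → Mt
  | [] => I4
  | x :: w => mm (if x = 0 then V else if x = 1 then mT else mB) (mw V w)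
def Bad (M : Mt) : Prop :=
  (mp M 7 = I4 ∧ mp M 2 ≠ I4 ∧ ∃ c < 16, c ≠ 0 ∧ app M c = c) ∨ (mp M 15 = I4 ∧ mp M 6 ≠ I4 ∧ mp M 5 ≠ I4)
instance (M : Mt) : Decidable (Bad M) := by unfold Bad; infer_instance

def Good (M : Mt) : Prop := ∃ k < 15, mm M (mp M k) = I4 ∧ mm (mm M (mm mB mB)) (mp M k) = mA
instance (M : Mt) : Decidable (Good M) := by unfold Good; infer_instance
def Key (V : Mt) : Prop := V ≠ I4 → mm V V = I4 → mp (mm V (mm (mm (mp mB 3) mT) mB)) 3 = I4 →
    (∃ w ∈ [[0, 2], [0, 1, 2], [0, 2, 1], [0, 1, 1, 2]], Bad (mw V w)) ∨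
    ∃ w ∈ [[0, 2, 1, 0, 2, 1], [1, 0, 1, 0], [0, 1, 2, 1]], Good (mw V w)
instance (M : Mt) : Decidable (Key M) := by unfold Key; infer_instance

theorem key : ∀ a < 16, ∀ b < 16, ∀ c < 16, Key (1, a, b, c) := by decide +kernel

theorem cpow [Finite G] {x y : G} {n : ℕ} (hn : n.Prime)
    (hc : ∀ u : G, orderOf u = n → Nat.card (centralizer ({u} : Set G)) = n) (h1 : x ^ n = 1) (h2 : x ≠ 1)
    (c : x * y = y * x) : y ^ n = 1 := by
  have := Fact.mk hn
  have := pow_card_eq_one' (x := (⟨y, mem_centralizer_singleton_iff.2 c.symm⟩ : centralizer ({x} : Set G)))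
  rw [hc x (orderOf_eq_prime h1 h2)] at this
  exact congrArg Subtype.val this

theorem pb2 : PB2.{u} := fun {G} _ _ L p q r s t b v F => by
  have cj : ∀ {x y z w : G}, x * y = z * w → b * x * b⁻¹ * (b * y * b⁻¹) = b * z * b⁻¹ * (b * w * b⁻¹) := fun e => by
    simp only [conj_mul, e]
  have h : E4 p q r s := ⟨F.p2, F.q2, by rw [← F.bp, conj_mul, F.p2]; simp, by rw [← F.bq, conj_mul, F.q2]; simp,
    F.pq, F.pr, F.ps, F.qr, F.qs, by rw [← F.bp, ← F.bq]; exact cj F.pq, F.card⟩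
  have sf : ∀ {g}, Act p q r s g I4 → g ∈ closure ({p, q, r, s} : Set G) := fun a =>
    F.self _ (h.aI.1 a).1 (h.aI.1 a).2.1 (h.aI.1 a).2.2.1 (h.aI.1 a).2.2.2
  have s2 : ∀ {g}, Act p q r s g I4 → g * g = 1 := fun a => by
    obtain ⟨c, hc, rfl⟩ := h.ex (sf a)
    exact h.sq hc
  have aT : Act p q r s t mT := ⟨by unfold Bd mT; decide, F.tp.trans el2.symm, F.tq.trans el3.symm, F.tr.trans el4.symm,
    F.ts.trans el8.symm⟩
  have aB : Act p q r s b mB := ⟨by unfold Bd mB; decide, F.bp.trans el4.symm, F.bq.trans el8.symm, F.br.trans el1.symm,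
    F.bs.trans el3.symm⟩
  obtain ⟨c2, h2, e2⟩ := h.ex (F.vN q (subset_closure (by simp)))
  obtain ⟨c4, h4, e4⟩ := h.ex (F.vN r (subset_closure (by simp)))
  obtain ⟨c8, h8, e8⟩ := h.ex (F.vN s (subset_closure (by simp)))
  have aV : Act p q r s v (1, c2, c4, c8) := ⟨⟨by norm_num, h2, h4, h8⟩, by rw [F.vp, el1]; simp, e2, e4, e8⟩
  have aW : ∀ w, Act p q r s (evw (fun x => if x = 0 then v else if x = 1 then t else b) w) (mw (1, c2, c4, c8) w) := by
    intro w
    induction w with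
    | nil => exact h.aE (one_mem _)
    | cons x w ih =>
      rw [evw_cons]
      refine h.amul ?_ ih
      split_ifs
      exacts [aV, aT, aB]
  have ne : ∀ {g M}, Act p q r s g M → M ≠ I4 → g ≠ 1 := fun a b e => b (h.uniq a (h.aE (e ▸ one_mem _)))
  rcases key c2 h2 c4 h4 c8 h8 (fun e => F.vE (sf (e ▸ aV))) (h.uniq (h.amul aV aV) (h.aE F.v2))
    (h.uniq (h.apow (h.amul aV (h.amul (h.amul (h.ainv aB (mp_bd aB.1 3) (by decide)) aT) aB)) 3) (h.aE F.v3)) with
    ⟨w, -, bad⟩ | ⟨w, -, k, -, k1, k2⟩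
  · have a := aW w
    generalize evw (G := G) _ w = g at a
    rcases bad with ⟨b1, b2, c, hc, c0, b3⟩ | ⟨b1, b2, b3⟩
    · have e := h.act a c
      rw [b3, mul_inv_eq_iff_eq_mul] at e
      have := cpow (by norm_num) L.c7 (x := g ^ 2) (y := el p q r s c)
        (by rw [← pow_mul, mul_comm, pow_mul, _root_.sq]; exact s2 (b1 ▸ h.apow a 7)) (ne (h.apow a 2) b2)
        (Commute.pow_left e 2)
      rw [pow_eq_pow_mod 7 (show el p q r s c ^ 2 = 1 by rw [_root_.sq, h.sq hc]), pow_one] at this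
      exact (c0 (h.inj hc (by norm_num) (this.trans el0.symm))).elim
    · have := cpow (by norm_num) L.c5 (x := g ^ 6) (y := g)
        (by rw [← pow_mul, show 6 * 5 = 15 + 15 from rfl, pow_add]; exact s2 (b1 ▸ h.apow a 15)) (ne (h.apow a 6) b2)
        ((Commute.refl g).pow_left 6)
      exact (ne (h.apow a 5) b3 this).elim
  · have a := aW w
    generalize evw (G := G) _ w = g at a
    have aA : Act p q r s (g * (b * b) * g⁻¹) mA := k2 ▸ h.amul (h.amul a (h.amul aB aB)) (h.ainv a (mp_bd a.1 k) k1)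
    have a2 : g * (b * b) * g⁻¹ * (g * (b * b) * g⁻¹) = 1 := by
      rw [conj_mul, show b * b * (b * b) = b ^ 4 by simp only [pow_succ, pow_zero, one_mul, mul_assoc], F.b4]; simp
    generalize g * (b * b) * g⁻¹ = a at aA a2
    have ai : a⁻¹ = a := inv_eq_of_mul_eq_one_right a2
    have five : ∀ {g M}, Act p q r s g M → mp M 5 = I4 → (∀ c < 16, app M c = c → c = 0) → g ^ 5 = 1 := fun {g M} a e f => by
      obtain ⟨c, hc, e1⟩ := h.ex (sf (e ▸ h.apow a 5))
      have := h.act a c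
      rw [← e1, show g * g ^ 5 * g⁻¹ = g ^ 5 by group, e1] at this
      rw [e1, f c hc (h.inj (app_lt a.1 _) hc this.symm), el0]
    have f1 := five (h.amul aA aB) (by decide +kernel) (by decide +kernel)
    have f2 := five (h.amul aA (h.amul aB aB)) (by decide +kernel) (by decide +kernel)
    obtain ⟨-, a1, a3, a4, a5⟩ := aA
    rw [ai] at a1 a3 a4 a5
    have cc : ∀ {x y : G}, x * x = 1 → y * y = 1 → Commute x y → x * (y * (x * y)) = 1 := fun {x y} a b c => by
      rw [c.eq, ← mul_assoc y, b, one_mul, a]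
    have fin : ∀ {x y : G} {c : ℕ}, c < 16 → x = el p q r s c → y = el p q r s c → x * y = 1 := fun hc a b => by
      rw [a, b, h.sq hc]
    refine ⟨fun i => [p, q, r, s, a, b, b⁻¹].getD i 1, fun x hx => ?_, fun w hw => ?_, fun e => ?_⟩
    · interval_cases x
      exacts [eq_inv_of_mul_eq_one_right h.p2, eq_inv_of_mul_eq_one_right h.q2, eq_inv_of_mul_eq_one_right h.r2,
        eq_inv_of_mul_eq_one_right h.s2, ai.symm, rfl, (inv_inv b).symm]
    · simp only [rN, List.mem_cons, List.not_mem_nil, or_false] at hw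
      rcases hw with rfl | rfl | rfl | rfl | rfl | rfl | rfl | rfl | rfl | rfl | rfl | rfl | rfl | rfl | rfl | rfl | rfl <;>
        simp only [evw_cons, evw_nil, List.getD_cons_succ, List.getD_cons_zero, mul_one]
      · exact cc h.p2 h.q2 h.pq
      · exact cc h.p2 h.r2 h.pr
      · exact cc h.p2 h.s2 h.ps
      · exact cc h.q2 h.r2 h.qr
      · exact cc h.q2 h.s2 h.qs
      · exact cc h.r2 h.s2 h.rs
      · simpa only [mul_assoc] using fin (by decide) a1 el14.symm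
      · simpa only [mul_assoc] using fin (by decide) a3 el4.symm
      · simpa only [mul_assoc] using fin (by decide) a4 el2.symm
      · simpa only [mul_assoc] using fin (by decide) a5 el7.symm
      · simpa only [mul_assoc] using fin (by decide) aB.2.1 el4.symm
      · simpa only [mul_assoc] using fin (by decide) aB.2.2.1 el8.symm
      · simpa only [mul_assoc] using fin (by decide) aB.2.2.2.1 el1.symm
      · simpa only [mul_assoc] using fin (by decide) aB.2.2.2.2 el3.symm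
      · rw [← F.b4]; simp only [pow_succ, pow_zero, one_mul, mul_assoc]
      · rw [← f1]; simp only [pow_succ, pow_zero, one_mul, mul_assoc]
      · rw [← f2]; simp only [pow_succ, pow_zero, one_mul, mul_assoc]
    · exact absurd (h.inj (c := 1) (d := 0) (by norm_num) (by norm_num) (by rw [el1, el0]; exact e)) (by norm_num)
end CfH1.MB2
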