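import Cfsg.Agent.H1.MB1a
/-! Two centralizer orders that do not occur in a simple group of order 443520. -/
set_option autoImplicit false
set_option linter.all false
open Subgroup CfH9 CfH1.MB1
namespace CfH1.MG
variable {G : Type*} [Group G] [Finite G]

theorem smod {p : ℕ} [Fact p.Prime] {S H : Subgroup G} (hS : SylIn p S H) : Nm(S).relIndex H ≡ 1 [MOD p] := by
  have h1 := card_sylow_modEq_one p H
  rw [Sylow.card_eq_index_normalizer hS.toSylow] at h1
  change (normalizer ((S.subgroupOf H : Subgroup H) : Set H)).index ≡ 1 [MOD p] at h1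
  rwa [← subgroupOf_normalizer_eq hS.le] at h1

theorem sylc {p k : ℕ} [hp : Fact p.Prime] {S H : Subgroup G} (h1 : Nat.card S = p ^ k) (h2 : ¬ p ^ (k + 1) ∣ Nat.card G)
    (h : S ≤ H) : SylIn p S H :=
  (sylIn_top_iff.2 ⟨IsPGroup.of_card h1, fun e => h2 (by
    rw [← S.card_mul_index, h1, pow_succ]; exact Nat.mul_dvd_mul_left _ e)⟩).mono h le_top

theorem sylz {p : ℕ} [hp : Fact p.Prime] {x : G} {H : Subgroup G} (h1 : orderOf x = p) (h2 : ¬ p ^ 2 ∣ Nat.card G)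
    (h : x ∈ H) : SylIn p (zpowers x) H := sylc (k := 1) (by rw [Nat.card_zpowers, h1, pow_one]) h2 (zpowers_le.2 h)

theorem ri (A H : Subgroup G) : Nat.card (H ⊓ A : Subgroup G) * A.relIndex H = Nat.card H := by
  rw [← inf_relIndex_left, card_mul_relIndex inf_le_left]

theorem nn [IsSimpleGroup G] {x : G} (h1 : x ≠ 1) (h2 : orderOf x ≠ Nat.card G) : Nm(zpowers x).index ≠ 1 := fun e => by
  rcases (normalizer_eq_top_iff.1 (index_eq_one.1 e)).eq_bot_or_eq_top with h | h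
  · exact h1 (zpowers_eq_bot.1 h)
  · exact h2 (by rw [← Nat.card_zpowers, h, card_top])

theorem g1 [IsSimpleGroup G] (hG : Nat.card G = 443520) {x : G} (hx : orderOf x = 11) :
    Nat.card (centralizer ({x} : Set G)) ≠ 693 := fun h => by
  have : Fact (Nat.Prime 7) := ⟨by norm_num⟩
  have : Fact (Nat.Prime 11) := ⟨by norm_num⟩
  obtain ⟨y, hy, y7⟩ := exists_orderOf_eq_prime (p := 7) (Q := Cx(x)) (by rw [h]; norm_num)
  have s7 := fun {H} => sylz (H := H) y7 (by rw [hG]; norm_num)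
  have s11 := fun {H} => sylz (H := H) hx (by rw [hG]; norm_num)
  have xN : x ∈ Nm(zpowers y) := Cz_le_Nm _ (Cz_zpowers y ▸ mem_Cx.2 (mem_Cx.1 hy).symm)
  have c1 : Cx(x) ≤ Nm(zpowers y) := by
    have a := ri Nm(zpowers y) Cx(x)
    obtain ⟨k, hk⟩ := (Cx(x) ⊓ Nm(zpowers y)).orderOf_dvd_natCard ⟨mem_Cx.2 rfl, xN⟩
    rw [hk, hx, h] at a
    exact relIndex_eq_one.1 ((by decide : ∀ i ∈ Nat.divisors 63, i ≡ 1 [MOD 7] → i = 1) _
      (Nat.mem_divisors.2 ⟨⟨k, by nlinarith⟩, by norm_num⟩) (smod (s7 hy)))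
  have a := relIndex_mul_index c1
  have b := Cx(x).card_mul_index
  have m7 := smod (s7 (mem_top y))
  have n7 := nn (x := y) (by rintro rfl; simp at y7) (by omega)
  have d := relIndex_dvd_of_le_left Nm(zpowers y) (Cz_zpowers x ▸ Cz_le_Nm (zpowers x))
  have m11 := smod (s11 xN)
  rw [relIndex_top_right] at m7
  rw [h, hG] at b
  have k := (by decide +kernel : ∀ i ∈ Nat.divisors 640, i ≡ 1 [MOD 7] → i ≠ 1 → (∀ j ∈ Nat.divisors (640 / i), j ≡ 1 [MOD 11] → j = 1) ∧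
    ∀ j ∈ Nat.divisors i, j ≡ 1 [MOD 11] → j = 1) _ (Nat.mem_divisors.2 ⟨Dvd.intro_left _ (a.trans (by omega)), by norm_num⟩) m7 n7
  have e : 640 / Nm(zpowers y).index = Cx(x).relIndex Nm(zpowers y) :=
    Nat.div_eq_of_eq_mul_left (Nat.pos_of_ne_zero index_ne_zero_of_finite) (by omega)
  rw [e] at k
  have l := relIndex_eq_one.1 (k.1 _ (Nat.mem_divisors.2 ⟨d, index_ne_zero_of_finite⟩) m11)
  exact nn (x := x) (by rintro rfl; simp at hx) (by omega) (k.2 _ (Nat.mem_divisors.2 ⟨index_dvd_of_le l, index_ne_zero_of_finite⟩)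
    (relIndex_top_right Nm(zpowers x) ▸ smod (s11 (mem_top x))))

omit [Finite G] in
theorem cpw {n y : G} {k : ℕ} (h : n * y * n⁻¹ = y ^ k) (j : ℕ) : n ^ j * y * (n ^ j)⁻¹ = y ^ k ^ j := by
  induction j with
  | zero => simp
  | succ j ih => rw [pow_succ' n, mul_inv_rev, mul_assoc n, mul_assoc n, ← mul_assoc _ _ n⁻¹, ih, ← mul_assoc, ← conj_pow, h,
      ← pow_mul, pow_succ']

theorem exk {n y : G} (h : n ∈ Nm(zpowers y)) : ∃ k : ℕ, n * y * n⁻¹ = y ^ k :=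
  (mem_powers_iff_mem_zpowers.2 (conj_mem_of_mem_normalizer h (mem_zpowers y))).imp fun _ => Eq.symm

theorem npow {p : ℕ} (hp : p.Prime) {n y : G} (hy : orderOf y = p) (h : n ∈ Nm(zpowers y)) : n ^ (p - 1) ∈ Cx(y) := by
  obtain ⟨k, hk⟩ := exk h
  have : ¬ p ∣ k := fun e => by
    rw [← hy, orderOf_dvd_iff_pow_eq_one, ← hk, conj_eq_one_iff] at e
    exact hp.ne_one (by rw [← hy, e, orderOf_one])
  rw [mem_Cx', cpw hk]
  conv_rhs => rw [← pow_one y]
  rw [pow_eq_pow_iff_modEq, hy, ← Nat.totient_prime hp]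
  exact Nat.ModEq.pow_totient ((Nat.coprime_comm.1 (hp.coprime_iff_not_dvd.2 this)))

/-- the Sylow subgroups normalized by `t` -/
theorem fix [IsSimpleGroup G] {p q : ℕ} [Fact p.Prime] [Fact q.Prime] {P : Subgroup G} (hP : SylIn p P ⊤)
    (hN : Nm(P).index ≠ 1) {t : G} (t1 : t ≠ 1) (tq : t ^ q = 1) (ht : t ∈ Cz(P)) (hc : ∀ s ∈ Nm(P), s ^ q = 1 → s ∈ Cz(P)) :
    Nm(P).relIndex Cx(t) < Nm(P).index ∧ Nm(P).index ≡ Nm(P).relIndex Cx(t) [MOD q] := by
  obtain ⟨P, rfl⟩ := hP.exists_sylow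
  have k : ∀ g : G, t • g • P = g • P → g⁻¹ * t * g ∈ Nm((P : Subgroup G)) := fun g e =>
    Sylow.smul_eq_iff_mem_normalizer.1 (by rw [mul_smul, mul_smul, e, inv_smul_smul])
  have e : MulAction.fixedPoints (zpowers t) (Sylow p G) = MulAction.orbit Cx(t) P := by
    ext Q
    constructor
    · intro h
      obtain ⟨g, rfl⟩ := MulAction.exists_smul_eq G P Q
      have := hc _ (k g (h ⟨t, mem_zpowers t⟩)) (by rw [← inv_inv g, inv_inv g⁻¹, conj_pow, tq]; simp)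
      obtain ⟨c, hc, e⟩ := (sylIn_sylow_of_le P (le_Cx_iff.2 ht)).conj (sylIn_sylow_of_le (g • P) (le_Cx_iff.2 (by
        rw [coe_sylow_smul, ← cj_centralizer, mem_cj]; exact this)))
      exact ⟨⟨c, hc⟩, Sylow.ext e⟩
    · rintro ⟨c, rfl⟩ u
      change u.1 • c.1 • P = c.1 • P
      rw [← mul_smul, ← comm_zp u.2 (mem_Cx.1 c.2), mul_smul, Sylow.smul_eq_iff_mem_normalizer.2
        (zpowers_le.2 (Cz_le_Nm _ ht) u.2)]
  have c : Nat.card (MulAction.fixedPoints (zpowers t) (Sylow p G)) = Nm((P : Subgroup G)).relIndex Cx(t) := by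
    rw [e, Nat.card_coe_set_eq, ← MulAction.index_stabilizer, relIndex]
    congr 1
    ext c
    exact Sylow.smul_eq_iff_mem_normalizer
  have c2 : Nat.card (Sylow p G) = Nm((P : Subgroup G)).index := P.card_eq_index_normalizer
  rw [← c, ← c2]
  refine ⟨Set.ncard_lt_card fun u => hN ?_, (isPGroup_zpowers (k := 1) (by rwa [pow_one])).card_modEq_card_fixedPoints _⟩
  rcases (normalCore_normal Nm((P : Subgroup G))).eq_bot_or_eq_top with h | h
  · refine (t1 ((eq_bot_iff_forall _).1 h t fun g => ?_)).elim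
    simpa using k g⁻¹ ((Set.eq_univ_iff_forall.1 u (g⁻¹ • P)) ⟨t, mem_zpowers t⟩)
  · exact index_eq_one.2 (top_le_iff.1 (h.ge.trans (normalCore_le _)))

/-- with Sylow `3`-subgroups of order nine, elements of order three are real -/
theorem real3 [IsSimpleGroup G] {T : Subgroup G} (hT : Nat.card T = 9) (h27 : ¬ 3 ^ 3 ∣ Nat.card G) (h9 : Nat.card G ≠ 9)
    {t : G} (ht : t ∈ T) (t3 : orderOf t = 3) : ∃ g : G, g * t * g⁻¹ = t⁻¹ := by
  have : Fact (Nat.Prime 3) := ⟨by norm_num⟩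
  have hS := sylc (k := 2) hT h27 le_top
  letI : CommGroup T := IsPGroup.commGroupOfCardEqPrimeSq (p := 3) hT
  have cm : T ≤ Cz(T) := fun a ha b hb => congrArg Subtype.val (mul_comm (⟨b, hb⟩ : T) ⟨a, ha⟩)
  have foc : ∀ c : T, (∀ n ∈ Nm(T), n * c * n⁻¹ = c) → c = 1 := fun c h => by
    have := MonoidHom.transfer_eq_pow (MonoidHom.id T) c.1 fun k g hg => by
      obtain ⟨n, -, h1, h2⟩ := burnside_fusion_elem hS (mem_top g⁻¹) (cm (pow_mem c.2 k)) (cm (by rwa [inv_inv]))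
      rw [inv_inv] at h2
      rw [h2, ← conj_pow, h n h1]
    rcases (MonoidHom.transfer (MonoidHom.id T)).normal_ker.eq_bot_or_eq_top with e | e
    · have := Nat.card_le_card_of_injective _ ((MonoidHom.ker_eq_bot_iff _).1 e)
      have := T.card_le_card_group
      omega
    · rw [MonoidHom.mem_ker.1 (e.ge (mem_top c.1))] at this
      exact orderOf_eq_one_iff.1 (Nat.eq_one_of_dvd_coprimes (Nat.Coprime.pow_left 2 ((Nat.Prime.coprime_iff_not_dvd (by norm_num)).2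
        (sylIn_top_iff.1 hS).2)) (hT ▸ orderOf_dvd_natCard c :) (orderOf_dvd_of_pow_eq_one (Subtype.ext (congrArg Subtype.val this).symm)))
  by_contra! hn
  letI : MulAction Nm(T) T := MulAction.compHom T T.normalizerMonoidHom
  have sm : ∀ (n : Nm(T)) (x : T), ((n • x : T) : G) = n.1 * x.1 * n.1⁻¹ := fun _ _ => rfl
  classical
  let O := (MulAction.orbit Nm(T) (⟨t, ht⟩ : T)).toFinite.toFinset
  have mO : ∀ x, x ∈ O ↔ x ∈ MulAction.orbit Nm(T) (⟨t, ht⟩ : T) := fun x => Set.Finite.mem_toFinset _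
  have pr : ∏ x ∈ O, x = 1 := foc _ fun n hn => by
    refine congrArg Subtype.val (show T.normalizerMonoidHom ⟨n, hn⟩ (∏ x ∈ O, x) = _ from ?_)
    rw [map_prod]
    exact Finset.prod_equiv (T.normalizerMonoidHom ⟨n, hn⟩).toEquiv (fun x => by
      rw [mO, mO]; exact ⟨fun ⟨m, e⟩ => ⟨⟨n, hn⟩ * m, by rw [← e]; exact mul_smul _ _ _⟩,
        fun ⟨m, e⟩ => ⟨⟨n, hn⟩⁻¹ * m, (mul_smul _ _ _).trans (inv_smul_eq_iff.2 e)⟩⟩) fun _ _ => rfl
  have o1 : ∀ x ∈ O, x ≠ 1 ∧ x * x * x = 1 ∧ x⁻¹ ∉ O := fun x hx => by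
    obtain ⟨n, rfl⟩ := (mO x).1 hx
    refine ⟨fun e => ne1 t3 (conj_eq_one_iff.1 (congrArg Subtype.val e)), Subtype.ext ?_, fun e => ?_⟩
    · change n.1 * t * n.1⁻¹ * (n.1 * t * n.1⁻¹) * (n.1 * t * n.1⁻¹) = 1
      rw [conj_mul, conj_mul, ← pow_three', ← t3, pow_orderOf_eq_one]; simp
    · obtain ⟨m, hm⟩ := (mO _).1 e
      have : m.1 * t * m.1⁻¹ = (n.1 * t * n.1⁻¹)⁻¹ := congrArg Subtype.val hm
      exact hn (n.1⁻¹ * m.1) (by rw [mul_inv_rev, mul_assoc _ _ t, mul_assoc, ← mul_assoc (m.1 * t), this]; group)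
  have dj : Disjoint O (O.image (·⁻¹)) := Finset.disjoint_left.2 fun x hx e => by
    obtain ⟨y, hy, rfl⟩ := Finset.mem_image.1 e
    exact (o1 y hy).2.2 hx
  have n1 : (1 : T) ∉ O ∪ O.image (·⁻¹) := by
    simp only [Finset.mem_union, Finset.mem_image, inv_eq_one, exists_eq_right, or_self]
    exact fun e => (o1 1 e).1 rfl
  letI := Fintype.ofFinite T
  have cu : (insert 1 (O ∪ O.image (·⁻¹))).card = 2 * O.card + 1 := by
    rw [Finset.card_insert_of_notMem n1, Finset.card_union_of_disjoint dj, Finset.card_image_of_injective _ inv_injective]; ring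
  have cl := Finset.card_le_univ (insert 1 (O ∪ O.image (·⁻¹)))
  rw [← Nat.card_eq_fintype_card, hT] at cl
  have c0 : 0 < O.card := Finset.card_pos.2 ⟨_, (mO _).2 (MulAction.mem_orbit_self _)⟩
  have c3 : O.card ≠ 3 := fun e => (hS.mono le_normalizer le_top).not_dvd_relIndex (by
    rw [← e, ← Set.ncard_eq_toFinset_card, ← MulAction.index_stabilizer]
    exact index_dvd_of_le fun n hn => Subtype.ext (conj_eq_of_mem_centralizer (cm hn) ht))
  obtain h | h | h : O.card = 1 ∨ O.card = 2 ∨ O.card = 4 := by omega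
  · obtain ⟨a, e⟩ := Finset.card_eq_one.1 h
    exact (o1 a (by simp [e])).1 (by simpa [e] using pr)
  · obtain ⟨a, b, ab, e⟩ := Finset.card_eq_two.1 h
    rw [e, Finset.prod_pair ab] at pr
    exact (o1 a (by simp [e])).2.2 (by simp [e, eq_inv_of_mul_eq_one_right pr])
  · obtain ⟨a, b, c, d, ab, ac, ad, bc, bd, cd, e⟩ := Finset.card_eq_four.1 h
    have u := Finset.eq_univ_of_card (insert 1 (O ∪ O.image (·⁻¹))) (by rw [cu, h, ← Nat.card_eq_fintype_card, hT])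
    rw [e, Finset.prod_insert (by simp [ab, ac, ad]), Finset.prod_insert (by simp [bc, bd]), Finset.prod_pair cd, ← mul_assoc] at pr
    have key : ∀ {a b : T}, a ∈ O → b ∈ O → a ≠ b → a * b ≠ 1 ∧ a * b ≠ a ∧ a * b ≠ a⁻¹ := fun {a b} ha hb ab =>
      ⟨fun e => (o1 a ha).2.2 (eq_inv_of_mul_eq_one_right e ▸ hb), fun e => (o1 b hb).1 (mul_eq_left.1 e),
        fun e => ab (mul_left_cancel (a := a * a) (by rw [(o1 a ha).2.1, mul_assoc, e, mul_inv_cancel]))⟩
    have ha : a ∈ O := by simp [e]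
    have hb : b ∈ O := by simp [e]
    have hc : c ∈ O := by simp [e]
    have hd : d ∈ O := by simp [e]
    have k1 := key ha hb ab
    have k2 := key hb ha ab.symm
    have k3 := key hc hd cd
    have k4 := key hd hc cd.symm
    rw [mul_comm] at k2 k4
    have := u.ge (Finset.mem_univ (a * b))
    have e2 := eq_inv_of_mul_eq_one_left pr
    simp only [e, Finset.mem_insert, Finset.mem_union, Finset.image_insert, Finset.image_singleton, Finset.mem_singleton] at this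
    rcases this with f | (f | f | f | f) | f | f | f | f
    exacts [k1.1 f, k1.2.1 f, k2.2.1 f, k3.2.2 (inv_eq_iff_eq_inv.1 (e2.symm.trans f)), k4.2.2 (inv_eq_iff_eq_inv.1 (e2.symm.trans f)),
      k1.2.2 f, k2.2.2 f, k3.2.1 (inv_injective (e2.symm.trans f)), k4.2.1 (inv_injective (e2.symm.trans f))]

theorem g3 [IsSimpleGroup G] (hG : Nat.card G = 443520) {w : G} (hw : orderOf w = 5) :
    Nat.card (centralizer ({w} : Set G)) ≠ 105 := fun h => by
  have : Fact (Nat.Prime 3) := ⟨by norm_num⟩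
  have : Fact (Nat.Prime 5) := ⟨by norm_num⟩
  have : Fact (Nat.Prime 7) := ⟨by norm_num⟩
  obtain ⟨y, hy, y7⟩ := exists_orderOf_eq_prime (p := 7) (Q := Cx(w)) (by rw [h]; norm_num)
  obtain ⟨t, ht, t3⟩ := exists_orderOf_eq_prime (p := 3) (Q := Cx(w)) (by rw [h]; norm_num)
  have t33 : t ^ 3 = 1 := t3 ▸ pow_orderOf_eq_one t
  have s7 := fun {H} => sylz (H := H) y7 (by rw [hG]; norm_num)
  have s5 := fun {H} => sylz (H := H) hw (by rw [hG]; norm_num)
  have wy : w ∈ Cx(y) := mem_Cx.2 (mem_Cx.1 hy).symm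
  have wt : w ∈ Cx(t) := mem_Cx.2 (mem_Cx.1 ht).symm
  have wN : w ∈ Nm(zpowers y) := Cz_le_Nm _ (Cz_zpowers y ▸ wy)
  have c1 : Cx(w) ≤ Nm(zpowers y) := by
    have a := ri Nm(zpowers y) Cx(w)
    obtain ⟨k, hk⟩ := (Cx(w) ⊓ Nm(zpowers y)).orderOf_dvd_natCard ⟨mem_Cx.2 rfl, wN⟩
    rw [hk, hw, h] at a
    exact relIndex_eq_one.1 ((by decide : ∀ i ∈ Nat.divisors 21, i ≡ 1 [MOD 7] → i = 1) _
      (Nat.mem_divisors.2 ⟨⟨k, by nlinarith⟩, by norm_num⟩) (smod (s7 hy)))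
  have c2 : Nm(zpowers w) ≤ Nm(zpowers y) := fun g hg => by
    obtain ⟨n, hn, x, hx, rfl⟩ := (s7 hy).frattini (Cz_zpowers w ▸ mem_Nm_Cz hg)
    exact mul_mem (c1 hn) hx
  have m35 : ∀ H : Subgroup G, w ∈ H → y ∈ H → Nm(zpowers y).relIndex H % 35 = 1 := fun H h1 h2 => by
    have a := relIndex_mul_relIndex (H ⊓ Nm(zpowers w)) (H ⊓ Nm(zpowers y)) H (inf_le_inf_left H c2) inf_le_left
    have b := smod (s5 h1)
    have c := smod (s5 (H := H ⊓ Nm(zpowers y)) ⟨h1, wN⟩)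
    have d := smod (s7 h2)
    rw [inf_relIndex_left, inf_relIndex_left, show H ⊓ Nm(zpowers w) = H ⊓ Nm(zpowers y) ⊓ Nm(zpowers w) by
      rw [inf_assoc, inf_eq_right.2 c2], inf_relIndex_left] at a
    have := (c.mul_right (Nm(zpowers y).relIndex H)).symm.trans (a ▸ b)
    unfold Nat.ModEq at this d
    omega
  have n7 := nn (x := y) (by rintro rfl; simp at y7) (by omega)
  by_cases ty : t ∈ Cx(y)
  · have i : Nm(zpowers y).index = 176 := by
      have b := Cx(w).card_mul_index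
      rw [h, hG] at b
      exact ((by decide +kernel : ∀ i ∈ Nat.divisors 4224, i % 35 = 1 → i = 1 ∨ i = 176) _ (Nat.mem_divisors.2
        ⟨(index_dvd_of_le c1).trans (dvd_of_eq (by omega)), by norm_num⟩)
        (relIndex_top_right Nm(zpowers y) ▸ m35 ⊤ (mem_top _) (mem_top _))).resolve_left n7
    have c3 : Cx(w) ≤ Cx(y) := inf_eq_left.1 (eq_of_le_of_card_ge inf_le_left (by
      have a := (Cx(w) ⊓ Cx(y)).orderOf_dvd_natCard ⟨mem_Cx.2 rfl, wy⟩
      have b := (Cx(w) ⊓ Cx(y)).orderOf_dvd_natCard ⟨hy, mem_Cx.2 rfl⟩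
      have c := (Cx(w) ⊓ Cx(y)).orderOf_dvd_natCard ⟨ht, ty⟩
      have := Nat.card_pos (α := (Cx(w) ⊓ Cx(y) : Subgroup G))
      rw [hw] at a; rw [y7] at b; rw [t3] at c
      omega))
    obtain ⟨f1, f2⟩ := fix (q := 3) (s7 (mem_top y)) n7 (ne1 t3) t33 (Cz_zpowers y ▸ ty) fun s hs s3 => by
      obtain ⟨c, hc, n, hn, e⟩ := (s5 wy).frattini (Cz_zpowers y ▸ mem_Nm_Cz hs)
      obtain ⟨k, hk⟩ := exk (c2 hn)
      have := cpw (n := s) (k := k) (by
        rw [e, mul_inv_rev, mul_assoc c, mul_assoc c, ← mul_assoc _ _ c⁻¹, hk, ← mul_assoc, ← conj_pow, mem_Cx'.1 hc]) 4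
      rw [← cpw hk, mem_Cx'.1 (c3 (npow (by norm_num) hw hn)), pow_succ, s3, one_mul] at this
      exact Cz_zpowers y ▸ mem_Cx'.2 this
    have f3 := m35 Cx(t) wt (mem_Cx.2 (mem_Cx.1 ty).symm)
    have f4 := (Dvd.intro_left _ (ri Nm(zpowers y) Cx(t))).trans Cx(t).card_subgroup_dvd_card
    rw [i] at f1 f2
    rw [hG] at f4
    unfold Nat.ModEq at f2
    rw [show Nm(zpowers y).relIndex Cx(t) = 71 by omega] at f4
    omega
  obtain ⟨T, hT, tT⟩ := exists_sylIn_ge (isPGroup_zpowers_of_orderOf (p := 3) (k := 1) t3) le_top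
  obtain ⟨T', hT'⟩ := Sylow.exists_subgroup_card_pow_prime (G := G) 3 (n := 2) (by rw [hG]; norm_num)
  obtain ⟨g, hg⟩ := real3 ((hT.card_eq (sylc hT' (by rw [hG]; norm_num) le_top)).trans hT') (by rw [hG]; norm_num) (by omega)
    (tT (mem_zpowers t)) t3
  obtain ⟨c, hc, n, hn, rfl⟩ := (s5 wt).frattini (g := g) (by
    rw [mem_normalizer_iff_cj, cj_Cx, hg, ← Cz_zpowers, zpowers_inv, Cz_zpowers])
  have e : n * t * n⁻¹ = t⁻¹ := by
    have : Commute c t := mem_Cx.1 hc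
    calc _ = c⁻¹ * (c * n * t * (c * n)⁻¹) * c := by group
      _ = _ := by rw [hg, this.inv_left.inv_right.eq, inv_mul_cancel_right]
  obtain ⟨a, ha⟩ := exk (c1 ht)
  obtain ⟨b, hb⟩ := exk (c2 hn)
  have e1 : t * (n * y * n⁻¹) * t⁻¹ = t⁻¹ * (n * y * n⁻¹) * t := by
    calc _ = (n * y * n⁻¹) ^ a := by rw [hb, ← conj_pow, ha, ← pow_mul, ← pow_mul, mul_comm]
      _ = n * (t * y * t⁻¹) * n⁻¹ := by rw [conj_pow, ha]
      _ = (n * t * n⁻¹) * (n * y * n⁻¹) * (n * t * n⁻¹)⁻¹ := by group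
      _ = _ := by rw [e, inv_inv]
  have e2 : Commute (t * t) (n * y * n⁻¹) := by
    change _ = _
    calc _ = t * (t * (n * y * n⁻¹) * t⁻¹) * t := by group
      _ = _ := by rw [e1]; group
  have e3 := e2.mul_left e2
  rw [show t * t * (t * t) = t by rw [← mul_assoc, ← pow_three', t33, one_mul]] at e3
  exact ty (mem_Cx.2 (comm_zp (by rw [← cj_zpowers, cj_eq_of_mem_normalizer (c2 hn)]; exact mem_zpowers y) e3))
end CfH1.MG
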