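import Cfsg.Agent.H1.MG1
import Cfsg.Agent.H6.N23a
/-! Step `Q2` in the recognition of `M₂₃`: the four-group `V` and the elements `x, u, y`. -/
set_option autoImplicit false
set_option linter.all false
open Subgroup CfH9 CfH1.MB1 CfH1.MG CfH6.M23
namespace CfH1.M23
variable {G : Type*} [Group G] [Finite G]

instance : Fact (Nat.Prime 3) := ⟨by norm_num⟩
instance : Fact (Nat.Prime 5) := ⟨by norm_num⟩

theorem burn2 {p : ℕ} [Fact p.Prime] {S H : Subgroup G} (hS : SylIn p S H) (h : H ⊓ Nm(S) ≤ Cz(S)) :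
    ∃ K ≤ H, Nat.card K * Nat.card S = Nat.card H := by
  have hP : normalizer (hS.toSylow : Set H) ≤ centralizer (hS.toSylow : Set H) := fun g hg x hx => by
    have hg' : g ∈ Nm(S.subgroupOf H) := hg
    rw [← subgroupOf_normalizer_eq hS.le] at hg'
    exact Subtype.ext (h ⟨g.2, hg'⟩ x.1 hx)
  have c1 := (MonoidHom.ker_transferSylow_isComplement' hS.toSylow hP).card_mul
  rw [show Nat.card (hS.toSylow : Subgroup H) = Nat.card S from card_subgroupOf hS.le] at c1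
  exact ⟨_, map_subtype_le _, by rw [card_map_subtype, c1]⟩

theorem exs {p k : ℕ} [Fact p.Prime] {H : Subgroup G} (h : p ^ k ∣ Nat.card H) : ∃ K ≤ H, Nat.card K = p ^ k := by
  obtain ⟨K, hK⟩ := Sylow.exists_subgroup_card_pow_prime (G := H) p h
  exact ⟨_, map_subtype_le K, by rw [card_map_subtype, hK]⟩

theorem zsymp {p : ℕ} (hp : p.Prime) {a b : G} (ha : orderOf a = p) (hb : b ∈ zpowers a) (b1 : b ≠ 1) : a ∈ zpowers b := by
  have := (zpowers a).orderOf_dvd_natCard hb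
  rw [Nat.card_zpowers, ha, Nat.dvd_prime hp, orderOf_eq_one_iff] at this
  exact (eq_of_le_of_card_ge (zpowers_le.2 hb) (by rw [Nat.card_zpowers, Nat.card_zpowers, ha, this.resolve_left b1])).ge
    (mem_zpowers a)

theorem sylr {p k m : ℕ} [Fact p.Prime] {S H : Subgroup G} (h : S ≤ H) (h1 : Nat.card S = p ^ k) (h2 : Nat.card H = p ^ k * m)
    (h3 : ¬ p ∣ m) : SylIn p S H := sylIn_of_not_dvd h (IsPGroup.of_card h1) (by
  have := card_mul_relIndex h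
  rw [h1, h2] at this
  rwa [Nat.eq_of_mul_eq_mul_left (h1 ▸ Nat.card_pos) this])

omit [Finite G] in
theorem o2 {z : G} (h : z * z = 1) (h1 : z ≠ 1) : orderOf z = 2 := orderOf_eq_prime (by rw [sq, h]) h1

theorem c12 (L : Loc G) {x z : G} (hx : orderOf x = 3) (hz : orderOf z = 2) (c : x * z = z * x) :
    Nat.card (Cx(x) ⊓ Cx(z) : Subgroup G) = 12 := by
  have c' : Commute x z := c
  rw [← L.c6 (x * z) (by rw [c'.orderOf_mul_eq_mul_orderOf_of_coprime (by rw [hx, hz]; norm_num), hx, hz])]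
  have x3 : x ^ 3 = 1 := hx ▸ pow_orderOf_eq_one x
  have z2 : z ^ 2 = 1 := hz ▸ pow_orderOf_eq_one z
  congr 3
  ext g
  simp only [mem_inf, mem_Cx]
  refine ⟨fun h => Commute.mul_right h.1 h.2, fun h => ⟨?_, ?_⟩⟩
  · have := Commute.pow_right h 4
    rwa [c'.mul_pow, pow_succ x, x3, one_mul, show 4 = 2 * 2 from rfl, pow_mul, z2, one_pow, mul_one] at this
  · have := Commute.pow_right h 3
    rwa [c'.mul_pow, x3, one_mul, pow_succ, z2, one_mul] at this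

theorem exU (L : Loc G) : ∃ x u : G, orderOf x = 3 ∧ u * x * u⁻¹ = x⁻¹ ∧ orderOf (u * u) = 2 := by
  obtain ⟨f, hf⟩ := exists_prime_orderOf_dvd_card' (G := G) 5 (by rw [L.card]; norm_num)
  have c5 := L.c5 f hf
  obtain ⟨x, hx, x3⟩ := exists_orderOf_eq_prime (p := 3) (Q := Cx(f)) (by rw [c5]; norm_num)
  obtain ⟨R, hR, cR⟩ := exs (p := 2) (k := 2) (H := Nm(zpowers f)) (by rw [L.n5 f hf]; norm_num)
  have r4 : ∀ r ∈ R, r ^ 4 = 1 := fun r hr => orderOf_dvd_iff_pow_eq_one.1 (cR ▸ R.orderOf_dvd_natCard hr :)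
  have rc : ∀ r ∈ R, r * f = f * r → r = 1 := fun r hr e => orderOf_eq_one_iff.1 (Nat.eq_one_of_dvd_coprimes
    (by norm_num : Nat.Coprime 4 15) (orderOf_dvd_of_pow_eq_one (r4 r hr)) (c5 ▸ Cx(f).orderOf_dvd_natCard (mem_Cx.2 e)))
  obtain ⟨u, hu, u2⟩ : ∃ u ∈ R, u * u ≠ 1 := by
    by_contra! n
    have k : ∀ r ∈ R, r ≠ 1 → r * f * r⁻¹ = f⁻¹ := fun r hr r1 => by
      have m := conj_mem_of_mem_normalizer (hR hr) (mem_zpowers f)
      refine eq_inv_of_mul_eq_one_right (by_contra fun e => r1 (rc r hr (comm_zp (zsymp (by norm_num) hf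
        (mul_mem (mem_zpowers f) m) e) ?_)))
      rw [← mul_inv_eq_iff_eq_mul, ← conj_mul, comm_zp m rfl, show r * (r * f * r⁻¹) * r⁻¹ = r * r * f * (r * r)⁻¹ by group,
        n r hr, ← comm_zp m rfl]
      simp [comm_zp m rfl]
    obtain ⟨a, ha, a1⟩ := R.bot_or_exists_ne_one.resolve_left fun e => by simp [e] at cR
    obtain ⟨b, hb, ba⟩ := SetLike.exists_of_lt (lt_of_le_of_ne (zpowers_le.2 ha) fun e => by
      rw [← e, Nat.card_zpowers, o2 (n a ha) a1] at cR; omega)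
    refine ba (eq_inv_of_mul_eq_one_right (rc _ (mul_mem ha hb) (mul_inv_eq_iff_eq_mul.1 ?_)) ▸ inv_mem (mem_zpowers a))
    rw [show a * b * f * (a * b)⁻¹ = a * (b * f * b⁻¹) * a⁻¹ by group, k b hb fun e => ba (e ▸ one_mem _), ← conj_inv, k a ha a1, inv_inv]
  have s3 := sylr (p := 3) (k := 1) (m := 5) (zpowers_le.2 hx) ((Nat.card_zpowers x).trans x3) c5 (by norm_num)
  have cN : Cx(f) ≤ Nm(zpowers x) := by
    have d := relIndex_dvd_of_le_left Cx(f) (le_normalizer (H := zpowers x))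
    have := card_mul_relIndex s3.le
    rw [Nat.card_zpowers, x3, c5] at this
    exact relIndex_eq_one.1 ((by decide : ∀ i ∈ Nat.divisors 5, i ≡ 1 [MOD 3] → i = 1) _
      (Nat.mem_divisors.2 ⟨d.trans (dvd_of_eq (by omega)), by norm_num⟩) (smod s3))
  obtain ⟨n, hn, m, hm, e⟩ := s3.frattini (Cz_zpowers f ▸ mem_Nm_Cz (hR hu))
  have uz : orderOf (u * u) = 2 := o2 (by rw [← r4 u hu]; simp only [pow_succ, pow_zero, one_mul, mul_assoc]) u2
  refine ⟨x, u, x3, ?_, uz⟩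
  rcases zp x3 (conj_mem_of_mem_normalizer (e ▸ mul_mem (cN hn) hm : u ∈ _) (mem_zpowers x)) with h | h | h
  · exact (ne1 x3 (conj_eq_one_iff.1 h)).elim
  · have o4 : orderOf u = 2 ^ (1 + 1) := orderOf_eq_prime_pow (by rwa [pow_one, sq]) (r4 u hu)
    exact (L.o12 (u * x) (by
      rw [Commute.orderOf_mul_eq_mul_orderOf_of_coprime (mul_inv_eq_iff_eq_mul.1 h) (by rw [o4, x3]; norm_num), o4, x3]; rfl)).elim
  · exact h

/-- a four-group centralizing the element `x` of order three -/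
structure Sx (x : G) (V : Subgroup G) : Prop where
  L : Loc G
  x3 : orderOf x = 3
  card : Nat.card V = 4
  sq : ∀ w ∈ V, w * w = 1
  le : V ≤ Cx(x)

omit [Finite G] in
theorem ab2 {V : Subgroup G} (h : ∀ w ∈ V, w * w = 1) : V ≤ Cz(V) := fun x hx y hy => by
  have e := h _ (mul_mem hy hx)
  rw [← mul_right_inj y, ← mul_left_inj x, ← mul_assoc, h _ hy, one_mul, h _ hx, ← e]; group

theorem exV (L : Loc G) {x z : G} (hx : orderOf x = 3) (hz : orderOf z = 2) (c : x * z = z * x) : ∃ V, z ∈ V ∧ Sx x V := by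
  have cD := c12 L hx hz c
  obtain ⟨V, hV, cV⟩ := exs (p := 2) (k := 2) (H := Cx(x) ⊓ Cx(z)) (by rw [cD]; norm_num)
  refine ⟨V, (sylr (m := 3) hV cV cD (by norm_num)).le_of_le_Nm (isPGroup_zpowers_of_orderOf (k := 1) hz)
    (zpowers_le.2 ⟨mem_Cx.2 c.symm, mem_Cx.2 rfl⟩) ((hV.trans inf_le_right).trans (Cz_zpowers z ▸ Cz_le_Nm _)) (mem_zpowers z),
    L, hx, cV, fun w hw => by_contra fun n => L.o12 (w * x) ?_, hV.trans inf_le_left⟩
  have o4 : orderOf w = 2 ^ (1 + 1) := orderOf_eq_prime_pow (by rwa [pow_one, _root_.sq])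
    (orderOf_dvd_iff_pow_eq_one.1 (cV ▸ V.orderOf_dvd_natCard hw :))
  rw [Commute.orderOf_mul_eq_mul_orderOf_of_coprime (mem_Cx.1 (hV hw).1) (by rw [o4, hx]; norm_num), o4, hx]; rfl

namespace Sx
variable {x : G} {V : Subgroup G} (h : Sx x V)
include h

theorem pV : IsPGroup 2 V := IsPGroup.of_card (n := 2) h.card
theorem xC : zpowers x ≤ Cz(V) := zpowers_le.2 (le_Cx_iff.1 h.le)
theorem DC : zpowers x ⊔ V ≤ Cz(V) := sup_le h.xC (ab2 h.sq)

theorem DD {w : G} (hw : w ∈ V) (w1 : w ≠ 1) : Nat.card (zpowers x ⊔ V : Subgroup G) = 12 ∧ Cx(x) ⊓ Cx(w) = zpowers x ⊔ V := by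
  have c := c12 h.L h.x3 (o2 (h.sq w hw) w1) (mem_Cx.1 (h.le hw)).symm
  have l : zpowers x ⊔ V ≤ Cx(x) ⊓ Cx(w) := le_inf (sup_le (zpowers_le.2 (mem_Cx.2 rfl)) h.le) (h.DC.trans (Cz_le_Cx hw))
  have a := card_dvd_of_le (le_sup_left : zpowers x ≤ zpowers x ⊔ V)
  have b := card_dvd_of_le (le_sup_right : V ≤ zpowers x ⊔ V)
  have d := card_le_of_le l
  have := Nat.card_pos (α := (zpowers x ⊔ V : Subgroup G))
  rw [Nat.card_zpowers, h.x3] at a
  rw [h.card] at b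
  exact ⟨by omega, (eq_of_le_of_card_ge l (by omega)).symm⟩

theorem two {w g : G} (hw : w ∈ V) (w1 : w ≠ 1) (g1 : g * x = x * g) (g2 : g * w = w * g) {k : ℕ} (g3 : g ^ 2 ^ k = 1) : g ∈ V :=
  (sylr (k := 2) (m := 3) le_sup_right h.card (h.DD hw w1).1 (by norm_num)).le_of_le_Nm' (isPGroup_zpowers g3)
    (zpowers_le.2 ((h.DD hw w1).2.le ⟨mem_Cx.2 g1, mem_Cx.2 g2⟩))
    ((zpowers_le.2 ((h.DD hw w1).2.le ⟨mem_Cx.2 g1, mem_Cx.2 g2⟩)).trans (h.DC.trans (Cz_le_Nm _))) (mem_zpowers g)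

theorem three {w g : G} (hw : w ∈ V) (w1 : w ≠ 1) (g1 : g * x = x * g) (g2 : g * w = w * g) (g3 : g ^ 3 = 1) : g ∈ zpowers x :=
  (sylr (p := 3) (k := 1) (m := 4) le_sup_left ((Nat.card_zpowers x).trans h.x3) (h.DD hw w1).1 (by norm_num)).le_of_le_Nm'
    (isPGroup_zpowers (k := 1) g3) (zpowers_le.2 ((h.DD hw w1).2.le ⟨mem_Cx.2 g1, mem_Cx.2 g2⟩))
    (zpowers_le.2 (Cz_le_Nm _ (Cz_zpowers x ▸ mem_Cx.2 g1))) (mem_zpowers g)

theorem orb {y z : G} (hy : y ∈ Nm(V)) (n : ∀ w ∈ V, y * w = w * y → w = 1) (n2 : y * y * z = z * (y * y) → z = 1) (hz : z ∈ V)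
    (z1 : z ≠ 1) : y * z * y⁻¹ ∈ V ∧ y * (y * z * y⁻¹) * y⁻¹ ∈ V ∧ y * z * y⁻¹ ≠ 1 ∧ y * (y * z * y⁻¹) * y⁻¹ ≠ 1 ∧
      z ≠ y * z * y⁻¹ ∧ z ≠ y * (y * z * y⁻¹) * y⁻¹ ∧ y * z * y⁻¹ ≠ y * (y * z * y⁻¹) * y⁻¹ := by
  have c := fun {w} => conj_mem_of_mem_normalizer (x := w) hy
  have n1 : z ≠ y * z * y⁻¹ := fun e => z1 (n z hz (eq_mul_inv_iff_mul_eq.1 e).symm)
  exact ⟨c hz, c (c hz), by simpa using z1, by simpa using z1, n1, fun e => z1 (n2 (by nth_rewrite 2 [e]; group)), by simpa using n1⟩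

theorem exY : ∃ y ∈ Nm(V), y * x = x * y ∧ y ^ 3 = 1 ∧ y ∉ zpowers x := by
  have c := h.L.c3 x h.x3
  obtain ⟨z, hz, z1⟩ := V.bot_or_exists_ne_one.resolve_left fun e => by simpa [e] using h.card
  obtain ⟨y, hy, yn⟩ : ∃ y ∈ Cx(x) ⊓ Nm(V), y ∉ Cz(V) := by
    by_contra! n
    obtain ⟨K, -, hK⟩ := burn2 (sylr (p := 2) (k := 2) (m := 45) h.le h.card c (by norm_num)) n
    rw [h.card, c] at hK
    obtain ⟨f, hf, f5⟩ := exists_orderOf_eq_prime (p := 5) (Q := K) (by omega)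
    have s5 := sylz f5 (by rw [h.L.card]; norm_num) hf
    have d := relIndex_dvd_of_le_left K (le_normalizer (H := zpowers f))
    have := card_mul_relIndex s5.le
    rw [Nat.card_zpowers, f5] at this
    have := card_dvd_of_le (relIndex_eq_one.1 ((by decide : ∀ i ∈ Nat.divisors 9, i ≡ 1 [MOD 5] → i = 1) _
      (Nat.mem_divisors.2 ⟨d.trans (dvd_of_eq (by omega)), by norm_num⟩) (smod s5)))
    rw [h.L.n5 f f5, show Nat.card K = 45 by omega] at this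
    omega
  have k : ∀ g ∈ Cx(x), ∀ w ∈ V, w ≠ 1 → g * w = w * g → g ∈ zpowers x ⊔ V := fun g hg w hw w1 e =>
    (h.DD hw w1).2.le ⟨hg, mem_Cx.2 e⟩
  have n : ∀ w ∈ V, y * w = w * y → w = 1 := fun w hw e => by_contra fun w1 => yn (h.DC (k y hy.1 w hw w1 e))
  have c := fun {w} => conj_mem_of_mem_normalizer (x := w) hy.2
  have n2 : y * y * z = z * (y * y) → z = 1 := fun e => by
    have := n _ (mul_mem hz (c hz)) (by
      rw [← mul_inv_eq_iff_eq_mul, ← conj_mul, show y * (y * z * y⁻¹) * y⁻¹ = y * y * z * (y * y)⁻¹ by group, e,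
        mul_inv_cancel_right, ab2 h.sq hz _ (c hz)])
    exact n z hz (by rw [← mul_inv_eq_iff_eq_mul, eq_inv_of_mul_eq_one_right this, inv_eq_of_mul_eq_one_right (h.sq z hz)])
  obtain ⟨o1, o2, o3, o4, o5, o6, o7⟩ := h.orb hy.2 n n2 hz z1
  have y3 : y ^ 3 ∈ zpowers x ⊔ V := k _ (pow_mem hy.1 3) z hz z1 (by
    rw [← mul_inv_eq_iff_eq_mul, show y ^ 3 * z * (y ^ 3)⁻¹ = y * (y * (y * z * y⁻¹) * y⁻¹) * y⁻¹ by rw [pow_three]; group]
    rcases four h.card hz o1 o2 z1 o3 o4 o5 o6 o7 (c o2) with e | e | e | e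
    exacts [(o4 (conj_eq_one_iff.1 e)).elim, e, (o6 (by simpa using e.symm)).elim, (o7 (by simpa using e.symm)).elim])
  have y36 : (y ^ 4) ^ 3 ^ 2 = 1 := by
    rw [← pow_mul, show 4 * 3 ^ 2 = 3 * 12 from rfl, pow_mul, ← orderOf_dvd_iff_pow_eq_one, ← (h.DD hz z1).1]
    exact Subgroup.orderOf_dvd_natCard _ y3
  refine ⟨y ^ 4, pow_mem hy.2 4, mem_Cx.1 (pow_mem hy.1 4), by_contra fun e => h.L.o9 _ (orderOf_eq_prime_pow (n := 1) e y36),
    fun e => yn ?_⟩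
  rw [show y = (y ^ 3)⁻¹ * y ^ 4 by group]
  exact mul_mem (inv_mem (h.DC y3)) (h.xC e)

theorem fpf {y : G} (y1 : y * x = x * y) (y3 : y ^ 3 = 1) (yn : y ∉ zpowers x) :
    (∀ w ∈ V, y * w = w * y → w = 1) ∧ ∀ w ∈ V, y * y * w = w * (y * y) → w = 1 := by
  have n : ∀ w ∈ V, y * w = w * y → w = 1 := fun w hw e => by_contra fun w1 => yn (h.three hw w1 y1 e y3)
  refine ⟨n, fun w hw e => n w hw ?_⟩
  have := Commute.mul_left e e
  rwa [show y * y * (y * y) = y by rw [← mul_assoc, ← pow_three', y3, one_mul]] at this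

theorem uv {y u : G} (hy : y ∈ Nm(V)) (y1 : y * x = x * y) (y3 : y ^ 3 = 1) (yn : y ∉ zpowers x) (ux : u * x * u⁻¹ = x⁻¹)
    (hz : u * u ∈ V) (z1 : u * u ≠ 1) : u * (y * (u * u) * y⁻¹) * u⁻¹ = y * (u * u) * y⁻¹ * (u * u) := by
  obtain ⟨n, n2⟩ := h.fpf y1 y3 yn
  obtain ⟨o1, o2, o3, o4, o5, o6, o7⟩ := h.orb hy n (n2 _ hz) hz z1
  have kl := klein h.card hz o1 o2 z1 o3 o4 o5 o6 o7 (h.sq _ hz)
  have f4 := fun {g} => four (g := g) h.card hz o1 o2 z1 o3 o4 o5 o6 o7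
  rw [← kl, ← ab2 h.sq hz _ o1] at f4
  have ix : ∀ {g}, g * x * g⁻¹ = x⁻¹ → g * x⁻¹ * g⁻¹ = x := fun e => by rw [← conj_inv, e, inv_inv]
  rcases f4 (h.two (g := u * (y * (u * u) * y⁻¹) * u⁻¹) (k := 1) hz z1 (by
      rw [← ix ux, conj_mul, conj_mul, Commute.inv_right (mem_Cx.1 (h.le o1))]) (by
      calc _ = u * (y * (u * u) * y⁻¹ * (u * u)) * u⁻¹ := by group
        _ = _ := by rw [ab2 h.sq hz _ o1]; group) (by
      rw [conj_pow, pow_one, _root_.sq, h.sq _ o1]; simp)) with e | e | e | e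
  · exact (o3 (conj_eq_one_iff.1 e)).elim
  · exact (o5 (mul_left_cancel (a := u) (by rw [mul_inv_eq_iff_eq_mul.1 e]; group))).elim
  · have uC : u ∈ Cz(V) := fun w hw => by
      have a : Commute u (u * u) := (Commute.refl u).mul_right (Commute.refl u)
      have b : Commute u (y * (u * u) * y⁻¹) := mul_inv_eq_iff_eq_mul.1 e
      rcases f4 hw with rfl | rfl | rfl | rfl
      exacts [by simp, a.symm, b.symm, (b.mul_right a).symm]
    have yx : y⁻¹ * x * y = x := by rw [mul_assoc, ← y1, inv_mul_cancel_left]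
    obtain ⟨k, hk, w, hw, e2⟩ := (mem_sup_of_le_Nm (h.xC.trans (Cz_le_Nm V))).1 ((h.DD hz z1).2.le (show y * u * y⁻¹ * u⁻¹ ∈ _ from
      ⟨mem_Cx'.2 (by
        calc _ = y * (u * (y⁻¹ * (u⁻¹ * (u * x * u⁻¹) * u)⁻¹ * y)⁻¹ * u⁻¹)⁻¹ * y⁻¹ := by rw [ux]; group
          _ = _ := by rw [show u⁻¹ * (u * x * u⁻¹) * u = x by group, show (y⁻¹ * x⁻¹ * y)⁻¹ = y⁻¹ * x * y by group, yx, ux,
            inv_inv, y1, mul_inv_cancel_right]), Cz_le_Cx hz (mul_mem (conj_mem_of_mem_normalizer (mem_Nm_Cz hy) uC) (inv_mem uC))⟩))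
    have uk : u * k * u⁻¹ = k⁻¹ := by
      rcases zp h.x3 hk with rfl | rfl | rfl
      exacts [by simp, ux, by rw [ix ux, inv_inv]]
    refine (o5 (Eq.symm ?_)).elim
    calc _ = k * w * u * (k * w * u) := by rw [e2]; group
      _ = k * w * (u * k * u⁻¹) * (u * w) * u := by group
      _ = _ := by rw [uk, ← uC w hw, ← h.xC hk w hw, mul_inv_cancel_right, ← mul_assoc, h.sq w hw, one_mul]
  · exact e
end Sx
end CfH1.M23
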