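import Cfsg.Agent.H1.Q2a
/-! Step `Q2` in the recognition of `M₂₃`: the frame. -/
set_option autoImplicit false
set_option linter.all false
open Subgroup CfH9 CfH1.MB1 CfH1.MG CfH6.M23 CfH1.MB2
namespace CfH1.M23
universe u
variable {G : Type*} [Group G] [Finite G]

theorem gen16 {A V K : Subgroup G} (cA : Nat.card A = 16) (cV : Nat.card V = 4) (hV : V ≤ A) {a b : G} (ha : a ∈ A) (hb : b ∈ A)
    (a1 : a ∉ V) (b1 : b ∉ V) (ab : a * b ∉ V) (h1 : V ≤ K) (h2 : a ∈ K) (h3 : b ∈ K) : A ≤ K := by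
  have l : V ≤ A ⊓ K := le_inf hV h1
  have c := card_mul_relIndex l
  have d := card_dvd_of_le (inf_le_left : A ⊓ K ≤ A)
  have n1 : V.relIndex (A ⊓ K) ≠ 1 := fun e => a1 (relIndex_eq_one.1 e ⟨ha, h2⟩)
  have n2 : V.relIndex (A ⊓ K) ≠ 2 := fun e =>
    ab ((mul_mem_iff_of_index_two e (a := ⟨a, ha, h2⟩) (b := ⟨b, hb, h3⟩)).2 (iff_of_false a1 b1))
  rw [cA, ← c, cV] at d
  have d' : V.relIndex (A ⊓ K) ∣ 4 := Nat.dvd_of_mul_dvd_mul_left (by norm_num : 0 < 4) d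
  refine inf_eq_left.1 (eq_of_le_of_card_ge inf_le_left ?_)
  have := Nat.le_of_dvd (by norm_num) d'
  rw [← c, cA, cV]
  generalize V.relIndex (A ⊓ K) = i at *
  interval_cases i <;> omega

/-- an `x`-invariant `2⁴` over `V` -/
structure E16 (x : G) (V A : Subgroup G) : Prop where
  card : Nat.card A = 16
  sq : ∀ e ∈ A, e * e = 1
  le : V ≤ A
  self : Cz(A) ≤ A
  nor : Cz(V) ≤ Nm(A)

def Sb (w α : G) : Subgroup G where
  carrier := {g | g * w = w * g ∧ g * α * g⁻¹ * α⁻¹ ∈ zpowers w}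
  mul_mem' := fun {a b} ha hb => ⟨Commute.mul_left ha.1 hb.1, by
    have := mul_mem hb.2 ha.2
    rw [← mul_inv_cancel_right (b * α * b⁻¹ * α⁻¹) a, ← comm_zp hb.2 ha.1] at this
    convert this using 1; group⟩
  one_mem' := ⟨by simp, by simp⟩
  inv_mem' := fun {a} ha => ⟨Commute.inv_left ha.1, by
    have := inv_mem ha.2
    rw [← inv_mul_cancel_left a (a * α * a⁻¹ * α⁻¹)⁻¹, comm_zp (inv_mem ha.2) ha.1] at this
    convert this using 1; group⟩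

namespace Sx
variable {x : G} {V : Subgroup G} (h : Sx x V)
include h

theorem ex1 : ∃ z ∈ V, z ≠ 1 := V.bot_or_exists_ne_one.resolve_left fun e => by simpa [e] using h.card

theorem md {X : Subgroup G} (hX : IsPGroup 2 X) (hN : x ∈ Nm(X)) (hV : V ≤ X) (hC : X ≤ Cz(V)) :
    Nat.card X = 4 ∨ Nat.card X = 16 ∨ Nat.card X = 64 := by
  obtain ⟨z, hz, z1⟩ := h.ex1
  obtain ⟨k, hk⟩ := cnt (zpowers_le.2 hN) V hV fun y hy => ⟨fun e => ⟨x, mem_zpowers x, ne1 h.x3, (mem_Cx.1 (h.le e)).symm⟩,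
    fun ⟨u, hu, u1, e⟩ => by
      obtain ⟨k, hk⟩ := isPGroup_iff_mem.1 hX y hy
      exact h.two hz z1 (comm_zp (zsym h.x3 hu u1) e.symm) (hC hy z hz).symm hk⟩
  rw [Nat.card_zpowers, h.x3, show (V : Set G).ncard = 4 from h.card] at hk
  obtain ⟨i, e⟩ := hX.exists_card_eq
  have := X.card_subgroup_dvd_card
  rw [h.L.card, e] at this
  have := (Nat.pow_dvd_pow_iff_le_right (by norm_num)).1 ((Nat.Coprime.pow_left i (by norm_num : Nat.Coprime 2 79695)).dvd_of_dvd_mul_right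
    (m := 2 ^ 7) this)
  rw [e] at hk ⊢
  interval_cases i <;> omega

section
variable {A : Subgroup G} (hA : E16 x V A)
include hA
theorem pA : IsPGroup 2 A := IsPGroup.of_card (n := 4) hA.card
theorem AC : A ≤ Cz(V) := (ab2 hA.sq).trans (Cz_anti hA.le)
theorem xA : x ∈ Nm(A) := hA.nor (h.xC (mem_zpowers x))

theorem fx {a : G} (ha : a ∈ A) (e : a * x = x * a) : a ∈ V := by
  obtain ⟨z, hz, z1⟩ := h.ex1
  exact h.two (k := 1) hz z1 e (h.AC hA ha z hz).symm (by rw [pow_one, _root_.sq, hA.sq a ha])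

theorem tri {a : G} (ha : a ∈ A) : a * (x * a * x⁻¹) * (x * (x * a * x⁻¹) * x⁻¹) ∈ V := by
  have c := fun {y} => conj_mem_of_mem_normalizer (x := y) (h.xA hA)
  refine h.fx hA (mul_mem (mul_mem ha (c ha)) (c (c ha))) (mul_inv_eq_iff_eq_mul.1 ?_).symm
  rw [← conj_mul, ← conj_mul, show x * (x * (x * a * x⁻¹) * x⁻¹) * x⁻¹ = x ^ 3 * a * (x ^ 3)⁻¹ by rw [pow_three]; group,
    ← h.x3, pow_orderOf_eq_one, one_mul, inv_one, mul_one, ab2 hA.sq ha _ (mul_mem (c ha) (c (c ha))), mul_assoc a]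

theorem out {a : G} (ha : a ∈ A) (a1 : a ∉ V) : x * a * x⁻¹ ∉ V ∧ a * (x * a * x⁻¹) ∉ V := by
  have k : ∀ b, x * b * x⁻¹ ∈ V → b ∈ V := fun b => (mem_normalizer_iff.1 (Cz_le_Nm V (h.xC (mem_zpowers x))) b).2
  exact ⟨mt (k a) a1, fun e => a1 (k _ (k _ ((mul_mem_cancel_left e).1 (h.tri hA ha))))⟩

theorem gen {a : G} (ha : a ∈ A) (a1 : a ∉ V) {K : Subgroup G} (h1 : V ≤ K) (h2 : a ∈ K) (h3 : x * a * x⁻¹ ∈ K) : A ≤ K :=
  gen16 hA.card h.card hA.le ha (conj_mem_of_mem_normalizer (h.xA hA) ha) a1 (h.out hA ha a1).1 (h.out hA ha a1).2 h1 h2 h3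

theorem cap {B : Subgroup G} (hB : E16 x V B) (n : A ≠ B) {g : G} (h1 : g ∈ A) (h2 : g ∈ B) : g ∈ V := by_contra fun e =>
  n (eq_of_le_of_card_ge (h.gen hA h1 e hB.le h2 (conj_mem_of_mem_normalizer (h.xA hB) h2)) (by rw [hA.card, hB.card]))

theorem cjE {y : G} (hy : y ∈ Nm(V)) : E16 x V (cj y A) :=
  ⟨by rw [card_cj, hA.card], by rintro _ ⟨e, he, rfl⟩; exact (map_mul _ _ _).symm.trans (by rw [hA.sq e he, map_one]),
    cj_eq_of_mem_normalizer hy ▸ cj_mono y hA.le, by rw [← cj_centralizer]; exact cj_mono y hA.self, by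
      rw [← cj_normalizer, ← cj_eq_of_mem_normalizer (mem_Nm_Cz hy)]; exact cj_mono y hA.nor⟩

theorem yN {y : G} (hy : y ∈ Nm(V)) (y1 : y * x = x * y) (y3 : y ^ 3 = 1) (yn : y ∉ zpowers x) : y ∈ Nm(A) := by
  rw [mem_normalizer_iff_cj]
  by_contra n
  have hB := h.cjE hA hy
  have hC := h.cjE hB hy
  have nC : A ≠ cj y (cj y A) := fun e => n (by
    rw [e, ← cj_mul, ← cj_mul, ← pow_three', y3, cj_one]; exact e)
  have nBC : cj y A ≠ cj y (cj y A) := fun e => n (cj_inj.1 e).symm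
  generalize hB' : cj y A = B at *
  generalize hC' : cj y B = C at *
  have pF := isPGroup_sup (h.pA hA) (h.pA hB) ((h.AC hA).trans hB.nor)
  have FC := sup_le (h.AC hA) (h.AC hB)
  have xF := mem_Nm_sup (h.xA hA) (h.xA hB)
  have CF : C ≤ A ⊔ B := by
    have m1 := h.md pF xF (hA.le.trans le_sup_left) FC
    have m2 := h.md (isPGroup_sup pF (h.pA hC) (FC.trans hC.nor)) (mem_Nm_sup xF (h.xA hC)) (hC.le.trans le_sup_right)
      (sup_le FC (h.AC hC))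
    have l := card_lt_of_lt (lt_of_le_of_ne (le_sup_left : A ≤ A ⊔ B) fun e => n (eq_of_le_of_card_ge (e ▸ le_sup_right)
      (by rw [hA.card, hB.card])))
    have l2 := card_le_of_le (le_sup_left : A ⊔ B ≤ A ⊔ B ⊔ C)
    rw [hA.card] at l
    exact le_sup_right.trans (eq_of_le_of_card_ge le_sup_left (by omega)).ge
  have dec := fun {g} (hg : g ∈ C) => (mem_sup_of_le_Nm ((h.AC hA).trans hB.nor)).1 (CF hg)
  obtain ⟨c, hc, c1⟩ := SetLike.exists_of_lt (lt_of_le_of_ne hC.le fun e => by have := hC.card; rw [← e, h.card] at this; omega)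
  obtain ⟨a, ha, b, hb, rfl⟩ := dec hc
  have a1 : a ∉ V := fun e => c1 (h.cap hB hC nBC (mul_mem (hB.le e) hb) hc)
  have b1 : b ∉ V := fun e => c1 (h.cap hA hC nC (mul_mem ha (hA.le e)) hc)
  have cm : ∀ {a b : G}, a ∈ A → b ∈ B → a * b ∈ C → b * a = a * b := fun {a b} ha hb hc => by
    rw [← mul_right_inj a, ← mul_left_inj b, ← mul_assoc a a, hA.sq a ha, one_mul, hB.sq b hb, ← hC.sq _ hc]; group
  have cA := fun {g} => conj_mem_of_mem_normalizer (x := g) (h.xA hA)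
  have cB := fun {g} => conj_mem_of_mem_normalizer (x := g) (h.xA hB)
  have cC := fun {g} => conj_mem_of_mem_normalizer (x := g) (h.xA hC)
  have cV : ∀ {α β : G}, α ∈ A → β ∈ B → β * α * β⁻¹ * α⁻¹ ∈ V := fun {α β} h1 h2 => h.cap hA hB (Ne.symm n)
    (mul_mem (conj_mem_of_mem_normalizer (hA.nor (h.AC hB h2)) h1) (inv_mem h1)) (by
      rw [mul_assoc, mul_assoc, ← mul_assoc α]; exact mul_mem h2 (conj_mem_of_mem_normalizer (hB.nor (h.AC hA h1)) (inv_mem h2)))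
  have e0 := cm ha hb hc
  have e1 := cm (cA ha) (cB hb) (conj_mul (b := x) ▸ cC hc)
  have z : ∀ {v g : G}, v ∈ V → g ∈ A ⊔ B → Commute v g := fun hv hg => FC hg _ hv
  have zA := fun {v g : G} (hv : v ∈ V) (hg : g ∈ A) => z hv (mem_sup_left hg)
  have zB := fun {v g : G} (hv : v ∈ V) (hg : g ∈ B) => z hv (mem_sup_right hg)
  have e2 : Commute (b * (x * b * x⁻¹)) (a * (x * a * x⁻¹)) := by
    have t1 := h.tri hA ha
    have t2 := h.tri hB hb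
    have t3 : Commute _ _ := cm (cA (cA ha)) (cB (cB hb)) (by rw [conj_mul, conj_mul]; exact cC (cC hc))
    rw [← mul_inv_cancel_right (b * _) (x * (x * b * x⁻¹) * x⁻¹), ← mul_inv_cancel_right (a * _) (x * (x * a * x⁻¹) * x⁻¹)]
    exact ((zA t2 (hA.le t1)).mul_right (zA t2 (cA (cA ha))).inv_right).mul_left
      ((zB t1 (cB (cB hb))).symm.inv_left.mul_right t3.inv_inv)
  have o := (h.out hB hb b1).1
  have gA := fun {K} => h.gen hA (K := K) ha a1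
  have gB := fun {K} => h.gen hB (K := K) hb b1
  have ha' := cA ha
  have hb' := cB hb
  generalize x * a * x⁻¹ = a' at *
  generalize x * b * x⁻¹ = b' at *
  have hw := cV ha hb'
  have hw2 := cV ha' hb
  generalize ew : b' * a * b'⁻¹ * a⁻¹ = w at hw
  have e3 : b * a' * b⁻¹ * a'⁻¹ = w⁻¹ := by
    generalize ew2 : b * a' * b⁻¹ * a'⁻¹ = w2 at hw2
    refine eq_inv_of_mul_eq_one_right (mul_right_cancel (b := a * a' * (b * b')) ?_)
    calc _ = w * (w2 * a) * a' * (b * b') := by group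
      _ = w * (a * b) * (a' * b') := by rw [(zA hw2 ha).eq, ← ew2]; group
      _ = w * b * (a * b' * a') := by rw [← e0, ← e1]; group
      _ = _ := by rw [(zB hw hb).eq, ← ew, one_mul, ← e2.eq]; group
  have w1 : w ≠ 1 := fun e => o (h.cap hA hB (Ne.symm n) (hA.self (le_Cx_iff.1 (gA (fun v hv => mem_Cx.2 (zB hv hb'))
    (mem_Cx.2 (by rw [e, mul_inv_eq_one, mul_inv_eq_iff_eq_mul] at ew; exact ew.symm)) (mem_Cx.2 e1.symm)))) hb')
  have k0 : ∀ {g α : G}, g * α = α * g → g * α * g⁻¹ * α⁻¹ ∈ zpowers w := fun e => by rw [e]; simp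
  have kA : ∀ β ∈ B, A ≤ Sb w β := fun β hβ => by
    have k : ∀ {α : G}, β * α * β⁻¹ * α⁻¹ ∈ zpowers w → α * β * α⁻¹ * β⁻¹ ∈ zpowers w := fun e => by
      convert inv_mem e using 1; group
    exact gA (fun v hv => ⟨zA hv (hA.le hw), k0 (zB hv hβ)⟩)
      ⟨(zA hw ha).symm, k (gB (K := Sb w a) (fun v hv => ⟨zA hv (hA.le hw), k0 (zA hv ha)⟩) ⟨(zB hw hb).symm, k0 e0⟩
        ⟨(zB hw hb').symm, ew ▸ mem_zpowers _⟩ hβ).2⟩
      ⟨(zA hw ha').symm, k (gB (K := Sb w a') (fun v hv => ⟨zA hv (hA.le hw), k0 (zA hv ha')⟩)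
        ⟨(zB hw hb).symm, e3 ▸ inv_mem (mem_zpowers _)⟩ ⟨(zB hw hb').symm, k0 e1⟩ hβ).2⟩
  obtain ⟨α, hα, β, hβ, e4⟩ := dec (hC' ▸ conj_mem_cj y hb')
  have hβ' : y * a * y⁻¹ ∈ B := hB' ▸ conj_mem_cj y ha
  have := (kA _ hβ' hα).2
  rw [show α * (y * a * y⁻¹) * α⁻¹ * (y * a * y⁻¹)⁻¹ = y * w * y⁻¹ by
    calc _ = α * (β * (y * a * y⁻¹) * β⁻¹) * α⁻¹ * (y * a * y⁻¹)⁻¹ := by rw [ab2 hB.sq hβ' β hβ, mul_inv_cancel_right]
      _ = α * β * (y * a * y⁻¹) * (α * β)⁻¹ * (y * a * y⁻¹)⁻¹ := by group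
      _ = _ := by rw [e4, ← ew]; group] at this
  obtain ⟨k, hk⟩ := mem_powers_iff_mem_zpowers.2 this
  have hk' := (pow_eq_pow_mod k (show w ^ 2 = 1 by rw [_root_.sq, h.sq w hw])).symm.trans hk
  rcases Nat.mod_two_eq_zero_or_one k with e | e <;> rw [e] at hk'
  · exact w1 (conj_eq_one_iff.1 (hk'.symm.trans (pow_zero w)))
  · exact w1 ((h.fpf y1 y3 yn).1 w hw (mul_inv_eq_iff_eq_mul.1 (hk'.symm.trans (pow_one w))))

theorem exR {y : G} (hy : y ∈ Nm(V)) (y1 : y * x = x * y) (y3 : y ^ 3 = 1) (yn : y ∉ zpowers x) :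
    ∃ t ∈ Nm(V), t * x = x * t ∧ t ^ 3 = 1 ∧ t ∉ zpowers x ∧ ∃ r ∈ A, r ∉ V ∧ t * r = r * t := by
  have x3 : x ^ 3 = 1 := h.x3 ▸ pow_orderOf_eq_one x
  let T : Subgroup G :=
    { carrier := {g | g ∈ Nm(V) ⊓ Nm(A) ∧ g * x = x * g ∧ g * y = y * g ∧ g ∈ zpowers x ⊔ zpowers y}
      mul_mem' := fun a b => ⟨mul_mem a.1 b.1, Commute.mul_left a.2.1 b.2.1, Commute.mul_left a.2.2.1 b.2.2.1, mul_mem a.2.2.2 b.2.2.2⟩
      one_mem' := ⟨one_mem _, by simp, by simp, one_mem _⟩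
      inv_mem' := fun a => ⟨inv_mem a.1, Commute.inv_left a.2.1, Commute.inv_left a.2.2.1, inv_mem a.2.2.2⟩ }
  have t3 : ∀ t ∈ T, t ^ 3 = 1 := fun t ht => by
    obtain ⟨k, hk, l, hl, rfl⟩ := (mem_sup_of_le_Nm (zpowers_le.2 (Cz_le_Nm _ (Cz_zpowers y ▸ mem_Cx.2 y1.symm)))).1 ht.2.2.2
    obtain ⟨i, rfl⟩ := mem_powers_iff_mem_zpowers.2 hk
    obtain ⟨j, rfl⟩ := mem_powers_iff_mem_zpowers.2 hl
    rw [(Commute.pow_pow y1.symm i j).mul_pow, ← pow_mul, ← pow_mul, mul_comm i, mul_comm j, pow_mul, pow_mul, x3, y3]; simp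
  have xT : zpowers x < T := lt_of_le_of_ne (zpowers_le.2 ⟨⟨Cz_le_Nm V (h.xC (mem_zpowers x)), h.xA hA⟩, rfl, y1.symm,
    mem_sup_left (mem_zpowers x)⟩) fun e => yn (e ▸ ⟨⟨hy, h.yN hA hy y1 y3 yn⟩, y1, rfl, mem_sup_right (mem_zpowers y)⟩)
  by_contra! n
  have := free T ((A : Set G) \ V) (fun u hu r hr => ⟨conj_mem_of_mem_normalizer hu.1.2 hr.1,
    fun e => hr.2 ((mem_normalizer_iff.1 hu.1.1 r).2 e)⟩) fun u hu r hr e => by_contra fun u1 => by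
      by_cases ux : u ∈ zpowers x
      · exact hr.2 (h.fx hA hr.1 (comm_zp (zsym h.x3 ux u1) e.symm))
      · exact n u hu.1.1 hu.2.1 (t3 u hu) ux r hr.1 hr.2 e
  have e := Set.ncard_sdiff_add_ncard_of_subset (show (V : Set G) ⊆ A from hA.le)
  rw [show (A : Set G).ncard = 16 from hA.card, show (V : Set G).ncard = 4 from h.card] at e
  obtain ⟨i, hi⟩ := (isPGroup_iff_mem.2 fun t ht => ⟨1, t3 t ht⟩ : IsPGroup 3 T).exists_card_eq
  have l := card_lt_of_lt xT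
  rw [Nat.card_zpowers, h.x3, hi] at l
  rw [hi, show ((A : Set G) \ V).ncard = 12 by omega] at this
  obtain rfl | rfl | ⟨j, rfl⟩ : i = 0 ∨ i = 1 ∨ ∃ j, i = j + 2 := by rcases i with _ | _ | i; exacts [.inl rfl, .inr (.inl rfl), .inr (.inr ⟨i, rfl⟩)]
  · omega
  · omega
  · exact absurd ((Dvd.intro_left _ (pow_add 3 j 2).symm).trans this) (by norm_num)
end
end Sx

/-- the statement of step (b) -/
def ExE : Prop := ∀ {G : Type u} [Group G] [Finite G], Loc G → ∀ {z v x u : G}, orderOf z = 2 → orderOf x = 3 → orderOf v = 2 →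
  v ≠ z → z * x = x * z → v * z = z * v → v * x = x * v → u * z = z * u → u * x * u⁻¹ = x⁻¹ → u * v * u⁻¹ = v * z →
  ∃ E : Subgroup G, Nat.card E = 16 ∧ (∀ e ∈ E, e * e = 1) ∧ z ∈ E ∧ v ∈ E ∧ centralizer {z} ≤ normalizer (E : Set G) ∧
    centralizer (E : Set G) ≤ E ∧ ∃ g, orderOf g = 7 ∧ g * z = z * g ∧ (x * g * x⁻¹ = g ^ 2 ∨ x * g * x⁻¹ = g ^ 4)

theorem q2_of (hE : ExE.{u}) : Q2.{u} := fun {G} _ _ L => by
  obtain ⟨x, u, x3, ux, z2⟩ := exU L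
  have xz : x * (u * u) = u * u * x := by
    rw [eq_comm, ← mul_inv_eq_iff_eq_mul, show u * u * x * (u * u)⁻¹ = u * (u * x * u⁻¹) * u⁻¹ by group, ux, ← conj_inv, ux, inv_inv]
  obtain ⟨V, hz, h⟩ := exV L x3 z2 xz
  have z1 : u * u ≠ 1 := fun e => by simp [e] at z2
  obtain ⟨y, hy, y1, y3, yn⟩ := h.exY
  have orb := fun {y} (hy : y ∈ Nm(V)) y1 y3 yn => h.orb hy (h.fpf y1 y3 yn).1 ((h.fpf y1 y3 yn).2 _ hz) hz z1
  have f4 : ∀ {y} (hy : y ∈ Nm(V)) (y1 : y * x = x * y) (y3 : y ^ 3 = 1) (yn : y ∉ zpowers x) {K : Subgroup G}, u * u ∈ K →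
      y * (u * u) * y⁻¹ ∈ K → V ≤ K := fun hy y1 y3 yn K h1 h2 g hg => by
    obtain ⟨o1, o2, o3, o4, o5, o6, o7⟩ := orb hy y1 y3 yn
    rcases four h.card hz o1 o2 z1 o3 o4 o5 o6 o7 hg with rfl | rfl | rfl | rfl
    exacts [one_mem _, h1, h2, klein h.card hz o1 o2 z1 o3 o4 o5 o6 o7 (h.sq _ hz) ▸ mul_mem h1 h2]
  obtain ⟨o1, -, o3, -, o5, -⟩ := orb hy y1 y3 yn
  obtain ⟨E, c1, c2, c3, c4, c5, c6, g, g1, g2, g3⟩ := hE L z2 x3 (o2 (h.sq _ o1) o3) o5.symm xz.symm (ab2 h.sq hz _ o1)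
    (mem_Cx.1 (h.le o1)) (mul_assoc u u u).symm ux (h.uv hy y1 y3 yn ux hz z1)
  have hA : E16 x V E := ⟨c1, c2, f4 hy y1 y3 yn c3 c4, c6, (Cz_le_Cx hz).trans c5⟩
  obtain ⟨t, ht, t1, t3, tn, r, hr, r1, tr⟩ := h.exR hA hy y1 y3 yn
  have g4 := fun {K} => f4 ht t1 t3 tn (K := K)
  obtain ⟨o1, o2, o3, o4, o5, o6, o7⟩ := orb ht t1 t3 tn
  have kl := klein h.card hz o1 o2 z1 o3 o4 o5 o6 o7 (h.sq _ hz)
  generalize u * u = p at *
  generalize hq : t * p * t⁻¹ = q at *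
  have cx : ∀ {r}, t * r = r * t → t * (x * r * x⁻¹) = x * r * x⁻¹ * t := fun e =>
    ((show Commute t x from t1).mul_right e).mul_right (Commute.inv_right t1)
  have hs := conj_mem_of_mem_normalizer (h.xA hA) hr
  have xs := (h.fpf t1 t3 tn).1 _ (h.tri hA hr) (Commute.mul_right (Commute.mul_right tr (cx tr)) (cx (cx tr)))
  have gE := fun {K} => h.gen hA (K := K) hr r1
  have ts := cx tr
  generalize hs' : x * r * x⁻¹ = s at *
  have cl : closure ({p, q, r, s} : Set G) = E := le_antisymm ((closure_le _).2 (by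
    rintro _ (rfl | rfl | rfl | rfl); exacts [c3, hA.le o1, hr, hs])) (gE (g4 (subset_closure (by simp)) (subset_closure (by simp)))
      (subset_closure (by simp)) (subset_closure (by simp)))
  have cm := fun {a b} (ha : a ∈ E) (hb : b ∈ E) => ab2 c2 hb a ha
  have e4 : E4 p q r s := ⟨c2 p c3, c2 q (hA.le o1), c2 r hr, c2 s hs, cm c3 (hA.le o1), cm c3 hr, cm c3 hs, cm (hA.le o1) hr,
    cm (hA.le o1) hs, cm hr hs, cl ▸ c1⟩
  refine ⟨p, q, r, s, x, t, g, ⟨e4, fun k hk => ?_, fun k hk => ?_⟩, ⟨by unfold Bd; decide, ?_, ?_, hs'.trans el8.symm, ?_⟩,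
    ⟨by unfold Bd; decide, hq.trans el2.symm, kl.symm.trans el3.symm, ?_, ?_⟩, x3 ▸ pow_orderOf_eq_one x, t3, t1.symm, g1, g2, g3⟩
  · obtain ⟨k1, k2, k3, k4⟩ := e4.aI.1 hk
    exact cl ▸ c6 (le_Cx_iff.1 (gE (g4 (mem_Cx.2 k1.symm) (mem_Cx.2 k2.symm)) (mem_Cx.2 k3.symm) (mem_Cx.2 k4.symm)))
  · have kN := fun {e} => conj_mem_of_mem_normalizer (x := e) (c5 (mem_Cx.2 hk))
    obtain ⟨d2, h2, e2⟩ := e4.ex (cl ▸ kN (hA.le o1))
    obtain ⟨d4, h4, e4'⟩ := e4.ex (cl ▸ kN hr)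
    obtain ⟨d8, h8, e8⟩ := e4.ex (cl ▸ kN hs)
    exact ⟨(1, d2, d4, d8), ⟨by norm_num, h2, h4, h8⟩, by rw [hk, el1]; simp, e2, e4', e8⟩
  · rw [el1, xz, mul_inv_cancel_right]
  · rw [el2, ← mem_Cx.1 (h.le o1), mul_inv_cancel_right]
  · rw [eq_inv_of_mul_eq_one_right xs, inv_eq_of_mul_eq_one_right (c2 _ (mul_mem hr hs))]; simp [el]
  · rw [el4, tr, mul_inv_cancel_right]
  · rw [el8, ts, mul_inv_cancel_right]
end CfH1.M23
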