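import Cfsg.Agent.H6.N23Q0
import Cfsg.Agent.H1.MG1
import Cfsg.Agent.H8.MG5
/-! A centralizer order that does not occur in a simple group of order 10200960. -/
set_option autoImplicit false
set_option linter.all false
open Subgroup CfH9 CfH1.MB1 CfH1.MG
namespace CfH1.M23
universe u

theorem nd {G : Type u} [Group G] [Finite G] {p n : ℕ} [hp : Fact p.Prime] (h : CfLm.CN G p p n) {y : G} {q : ℕ}
    (hy : orderOf y = q) (hq : ¬ q ∣ p) : ¬ p ∣ Nat.card Cx(y) := fun d => by
  obtain ⟨z, hz, zo⟩ := exists_orderOf_eq_prime (p := p) (Q := Cx(y)) d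
  exact hq (by
    rw [← hy, ← (h z zo).1]
    exact orderOf_dvd_natCard _ (mem_Cx.2 (mem_Cx.1 hz).symm))

theorem r1 : CfH6.QC.R1.{u} := fun {G} _ _ hs hG h23 h11 w hw c => by
  have : Fact (Nat.Prime 5) := ⟨by norm_num⟩
  have : Fact (Nat.Prime 7) := ⟨by norm_num⟩
  have : Fact (Nat.Prime 11) := ⟨by norm_num⟩
  obtain ⟨K, a1, -, a2, a3, -, a4, -⟩ := CfH8.MG.g5 (p := 5) (by norm_num) (by rw [hG]; norm_num) (by rw [hG]; norm_num) hw
  have n := CfH8.MG.card_Nm_zp (by norm_num) hw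
  rw [c] at a1 n
  obtain rfl : K = 28 := by omega
  rw [hG] at a4
  generalize Nat.card {t : ZMod 5 // IsConj w (w ^ t.val)} = e at *
  obtain rfl : e = 4 := by
    have := Nat.le_of_dvd (by norm_num) a2
    interval_cases e <;> omega
  obtain ⟨y, hy, y7⟩ := exists_orderOf_eq_prime (p := 7) (Q := Cx(w)) (by rw [c]; norm_num)
  have s7 := fun {H} => sylz (H := H) y7 (by rw [hG]; norm_num)
  have s5 := fun {H} => sylz (H := H) hw (by rw [hG]; norm_num)
  have c1 : Cx(w) ≤ Nm(zpowers y) := by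
    have a := ri Nm(zpowers y) Cx(w)
    have b := smod (s7 hy)
    rw [c] at a
    have d : Nm(zpowers y).relIndex Cx(w) ∈ Nat.divisors 140 := Nat.mem_divisors.2 ⟨Dvd.intro_left _ a, by norm_num⟩
    exact relIndex_eq_one.1 ((by decide +kernel : ∀ i ∈ Nat.divisors 140, i ≡ 1 [MOD 7] → i = 1) _ d b)
  have c2 : Nm(zpowers w) ≤ Nm(zpowers y) := fun g hg => by
    obtain ⟨x, hx, t, ht, rfl⟩ := (s7 hy).frattini'
      (Cz_zpowers w ▸ CfH7.normalizer_le_normalizer_centralizer _ hg : g ∈ Nm(Cx(w)))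
    exact mul_mem hx (c1 ht)
  have b := smod (s5 (c1 (mem_Cx.2 rfl)))
  have a := card_mul_relIndex c2
  have d := CfH8.MG.dvd_pred (by norm_num) y7
  have i := (Nm(zpowers y)).card_mul_index
  have j := smod (s7 (mem_top y))
  rw [relIndex_top_right] at j
  have n11 := nd h11 y7 (by norm_num)
  have n23 := nd h23 y7 (by norm_num)
  rw [n] at a
  rw [← a] at d i
  rw [hG] at i
  generalize Nm(zpowers w).relIndex Nm(zpowers y) = r at *
  generalize Nm(zpowers y).index = s at *
  have e : r * s = 18216 := by nlinarith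
  have r11 : Nat.Coprime r 11 := ((Nat.Prime.coprime_iff_not_dvd (by norm_num)).2 fun k =>
    n11 ((Nat.Coprime.dvd_mul_left (by norm_num)).1 ((k.mul_left _).trans d))).symm
  have r23 : Nat.Coprime r 23 := ((Nat.Prime.coprime_iff_not_dvd (by norm_num)).2 fun k =>
    n23 ((Nat.Coprime.dvd_mul_left (by norm_num)).1 ((k.mul_left _).trans d))).symm
  have r72 : r ∣ 72 := (r11.mul_right r23).dvd_of_dvd_mul_right (by rw [show 72 * (11 * 23) = 18216 from rfl]; exact Dvd.intro _ e)
  have := Nat.le_of_dvd (by norm_num) r72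
  unfold Nat.ModEq at b j
  interval_cases r <;> omega

end CfH1.M23
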