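import Cfsg.Agent.H1.Ree5
import Cfsg.Agent.H5.Dihedral8
import Cfsg.Agent.FT.PF0b

/-! Groups of Ree type without `S₃`: fusion in `⟨t⟩ × B` and class multiplication constants. -/

set_option autoImplicit false
set_option linter.unusedSectionVars false

namespace CfH1

open Cfsg Subgroup CfH9 CfH7 CfH8
open scoped Pointwise commutatorElement

variable {G : Type*} [Group G]

namespace RT
variable [Finite G] {t u v : G} {K U H R : Subgroup G} {h m : ℕ} (d : RT t K U H R u v h m)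
include d

theorem sq_T {a : G} (ha : a ∈ zpowers t ⊔ H) : a * a ∈ H := by
  rcases d.mem_T.1 ha with e | e
  · exact mul_mem e e
  · have := mul_mem e e
    rwa [mul_assoc, ← mul_assoc a, mem_Cx.1 (d.T_le ha), mul_assoc, d.tt] at this

theorem Cx_T (h3 : ¬ Involves (DihedralGroup 3) G) {a c : G} (ha : a ∈ zpowers t ⊔ H) (a2 : a * a ≠ 1)
    (e : c * a = a * c) : c ∈ zpowers t ⊔ H :=
  d.Cx_H h3 (d.sq_T ha) a2 (by rw [← mul_assoc, e, mul_assoc, e, mul_assoc])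

theorem TI_T (h3 : ¬ Involves (DihedralGroup 3) G) {a g : G} (ha : a ∈ zpowers t ⊔ H) (a2 : a * a ≠ 1)
    (e : g * a * g⁻¹ ∈ zpowers t ⊔ H) : g ∈ zpowers t ⊔ H ∨ g * u ∈ zpowers t ⊔ H := by
  have h1 : g * (a * a) * g⁻¹ ∈ H := by rw [← conj_mul]; exact d.sq_T e
  refine d.NH (d.sq_T ha) a2 (mem_Cx'.2 (d.inv_T (d.Cx_H h3 h1 (by simpa using a2) ?_)
    (by rw [conj_mul, d.t2]; simp) (by simpa using d.t1))) h1
  rw [conj_mul, conj_mul, d.tK _ (d.HK (d.sq_T ha))]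

theorem mem_L {c : G} : c ∈ zpowers t ⊔ (U ⊔ H) ↔ c ∈ U ⊔ H ∨ t * c ∈ U ⊔ H :=
  mem_inv_sup d.t2 (d.t_Nm d.B_le)

theorem t_nB : t ∉ U ⊔ H := fun e => d.tn (d.B_le e)

theorem card_L : Nat.card (zpowers t ⊔ (U ⊔ H) : Subgroup G) = 2 * ((2 * h + 1) * h) := by
  rw [card_inv_sup d.t2 (d.t_Nm d.B_le) d.t_nB, d.card_B]

theorem L_le : zpowers t ⊔ (U ⊔ H) ≤ Cx(t) := by
  rw [d.C_eq]; exact sup_le_sup_left d.B_le _

theorem inv_L {c : G} (hc : c ∈ zpowers t ⊔ (U ⊔ H)) (c2 : c * c = 1) (c1 : c ≠ 1) : c = t := by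
  rcases d.mem_L.1 hc with e | e
  · exact absurd (eq_one_of_sq_of_odd c2 (d.odd_B e)) c1
  · have := eq_one_of_sq_of_odd (s := t * c) (by
      rw [mul_assoc, ← mul_assoc c, mem_Cx.1 (d.L_le hc), mul_assoc, d.tt, c2]) (d.odd_B e)
    rw [← d.tt c, this, mul_one]

theorem u_nL : u ∉ zpowers t ⊔ (U ⊔ H) := fun e => d.t_ne_u (d.inv_L e d.u2 d.u1).symm

theorem T_le_L : zpowers t ⊔ H ≤ zpowers t ⊔ (U ⊔ H) := sup_le_sup_left le_sup_right _

theorem mem_B {c : G} (hc : c ∈ zpowers t ⊔ (U ⊔ H)) (ho : Odd (orderOf c)) : c ∈ U ⊔ H := by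
  refine (d.mem_L.1 hc).elim id fun e => absurd ?_ d.tn
  simpa using mul_mem (d.B_le e) (inv_mem (d.mem_K (d.L_le hc) ho))

theorem tpow {b : G} (hb : b ∈ U ⊔ H) : (t * b) ^ orderOf b = t := by
  rw [Commute.mul_pow (d.tK b (d.B_le hb)), pow_orderOf_eq_one, mul_one, pow_odd_of_sq d.t2 (d.odd_B hb)]

theorem conj_L {b g : G} (hb : b ∈ U ⊔ H) (e : g * (t * b) * g⁻¹ ∈ zpowers t ⊔ (U ⊔ H)) :
    g ∈ Cx(t) ∧ g * b * g⁻¹ ∈ U ⊔ H := by
  have h1 := pow_mem e (orderOf b)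
  rw [conj_pow, d.tpow hb] at h1
  have h2 := d.inv_L h1 (by rw [conj_mul, d.t2]; simp) (by simpa using d.t1)
  refine ⟨mem_Cx'.2 h2, d.mem_B ?_ (by rw [orderOf_conj']; exact d.odd_B hb)⟩
  rwa [← conj_mul, mul_mem_cancel_left h1] at e

theorem mem_L_of {c k : G} (e : c = k ∨ c = t * k) (hk : k ∈ U ⊔ H) : c ∈ zpowers t ⊔ (U ⊔ H) := by
  rcases e with rfl | rfl
  · exact mem_sup_right hk
  · exact mul_mem (d.t_mem _) (mem_sup_right hk)

theorem TI_U {x g : G} (hx : x ∈ U) (x1 : x ≠ 1) (e : g * (t * x) * g⁻¹ ∈ zpowers t ⊔ (U ⊔ H)) :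
    g ∈ zpowers t ⊔ (U ⊔ H) := by
  obtain ⟨h1, h2⟩ := d.conj_L (mem_sup_left hx) e
  obtain ⟨k, hk, e1, e2⟩ := d.split_conj h1
  exact d.mem_L_of e1 (d.TU x hx x1 k hk (e2 x (d.UK hx) ▸ h2))

theorem frob : CfFT.Frob (U ⊔ H) U H := by
  obtain ⟨x, hx, x1⟩ := d.U_ne
  obtain ⟨y, hy, y1⟩ := d.H_ne
  refine CfFT.SReg.frob (fun y hy y1 => eq_bot_iff.2 fun x hx => ?_) d.HU (ne_bot_of_mem hx x1) (ne_bot_of_mem hy y1)
  exact (d.CU x hx.1 y hy (mem_Cx.1 hx.2).symm).resolve_right y1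

theorem TI_H {y g : G} (hy : y ∈ H) (y1 : y ≠ 1) (e : g * (t * y) * g⁻¹ ∈ zpowers t ⊔ (U ⊔ H)) :
    g ∈ zpowers t ⊔ (U ⊔ H) ∨ g * u ∈ zpowers t ⊔ (U ⊔ H) := by
  obtain ⟨h1, h2⟩ := d.conj_L (mem_sup_right hy) e
  obtain ⟨w, hw, e1⟩ := d.frob.exists_conj h2 fun f => y1 (by
    have h3 := d.Up _ f
    rw [conj_pow, conj_eq_one_iff] at h3
    have h4 := pow_card_eq_one_of_mem hy
    rw [d.cH] at h4
    exact (pow_eq_one_iff_of_coprime ((Nat.Prime.coprime_iff_not_dvd Nat.prime_three).2 d.h3)).1 ⟨h3, h4⟩)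
  have hw' : w ∈ zpowers t ⊔ (U ⊔ H) := mem_sup_right (mem_sup_left hw)
  have := d.NH hy y1 (mul_mem (d.L_le hw') h1) (by simpa [mul_assoc] using e1)
  rw [mul_assoc] at this
  exact this.imp (fun f => (mul_mem_cancel_left hw').1 (d.T_le_L f))
    fun f => (mul_mem_cancel_left hw').1 (d.T_le_L f)

theorem classMul_eq (z : G) : CfH5.classMul t t z =
    ({s | s * s = 1 ∧ s ≠ 1 ∧ s * z * s⁻¹ = z⁻¹ ∧ s ≠ z}.ncard : ℂ) := by
  have hc : ∀ s, IsConj t s ↔ s * s = 1 ∧ s ≠ 1 := fun s =>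
    ⟨fun hb => ⟨CfL.sq_of_isConj hb d.t2, CfL.ne_one_of_isConj hb d.t1⟩, fun hb => by
      obtain ⟨g, hg⟩ := d.exists_conj hb.1 hb.2
      exact (isConj_iff.2 ⟨g, hg⟩).symm⟩
  rw [CfH5.classMul, ← Nat.card_coe_set_eq]
  congr 1
  refine Nat.card_congr ⟨fun p => ⟨p.1.1, ?_⟩, fun a => ⟨(a, a * z), ?_⟩, fun p => ?_, fun a => rfl⟩
  · obtain ⟨⟨a, b⟩, ha, hb, rfl⟩ := p
    rw [hc] at ha hb
    refine ⟨ha.1, ha.2, ?_, fun e => hb.2 (by simpa using e)⟩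
    simp only at ha hb ⊢
    rw [← mul_assoc, ha.1, one_mul, mul_inv_rev, inv_eq_of_mul_eq_one_right hb.1]
  · obtain ⟨a, a2, a1, e, a3⟩ := a
    have hi := inv_eq_of_mul_eq_one_right a2
    refine ⟨(hc _).2 ⟨a2, a1⟩, (hc _).2 ⟨?_, fun f => a3 ?_⟩, by simp only; rw [← mul_assoc, a2, one_mul]⟩
    · simp only
      rw [← mul_assoc]
      nth_rw 2 [← hi]
      rw [e, inv_mul_cancel]
    · rw [← hi, inv_eq_of_mul_eq_one_right f]
  · obtain ⟨⟨a, b⟩, ha, hb, rfl⟩ := p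
    rw [hc] at ha
    simp only [Subtype.mk.injEq, Prod.mk.injEq, true_and]
    rw [← mul_assoc, ha.1, one_mul]

theorem f_T (h3 : ¬ Involves (DihedralGroup 3) G) {a : G} (ha : a ∈ zpowers t ⊔ H) (a2 : a * a ≠ 1) :
    CfH5.classMul t t a = 2 * h := by
  have hu : u ∉ zpowers t ⊔ H := fun e => d.u_nL (d.T_le_L e)
  have : {s | s * s = 1 ∧ s ≠ 1 ∧ s * a * s⁻¹ = a⁻¹ ∧ s ≠ a} = (· * u) '' (zpowers t ⊔ H : Subgroup G) := by
    ext s
    constructor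
    · rintro ⟨-, -, e, -⟩
      refine ⟨s * u, d.Cx_T h3 ha a2 ?_, by simp [mul_assoc, d.u2]⟩
      rw [← mul_inv_eq_iff_eq_mul, mul_inv_rev, show s * u * a * (u⁻¹ * s⁻¹) = s * (u * a * u⁻¹) * s⁻¹ by group,
        d.uT ha, ← conj_inv, e, inv_inv]
    · rintro ⟨c, hc, rfl⟩
      have hn : c * u ∉ zpowers t ⊔ H := fun f => hu ((mul_mem_cancel_left hc).1 f)
      refine ⟨?_, fun f : c * u = 1 => hn (f ▸ one_mem _), d.inv_of_Tu ha (by simpa [mul_assoc, d.u2] using hc),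
        fun f : c * u = a => hn (f ▸ ha)⟩
      have := d.uT hc
      rw [d.u_inv] at this
      simp only
      rw [mul_assoc, ← mul_assoc u, this, mul_inv_cancel]
  rw [d.classMul_eq, this, Set.ncard_image_of_injective _ (mul_left_injective u), ← Nat.card_coe_set_eq,
    SetLike.coe_sort_coe, d.card_T]
  push_cast; rfl

theorem f_U (h3 : ¬ Involves (DihedralGroup 3) G) {x : G} (hx : x ∈ U) (x1 : x ≠ 1) :
    CfH5.classMul t t (t * x) = 0 := by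
  rw [d.classMul_eq, Nat.cast_eq_zero, Set.ncard_eq_zero, Set.eq_empty_iff_forall_notMem]
  rintro s ⟨s2, -, e, -⟩
  refine x1 (no_inv3 h3 (k := 1) s2 (by simpa using d.Up x hx) ?_)
  have h1 := congrArg (· ^ (orderOf x + 1)) e
  have h2 : (t * x) ^ (orderOf x + 1) = x := by rw [pow_succ, d.tpow (mem_sup_left hx), d.tt]
  simpa only [conj_pow, inv_pow, h2] using h1

theorem card_KU : Nat.card (K ⊓ Cx(u) : Subgroup G) = 4 * m := by
  have hv : v ∈ Nm(zpowers u ⊔ R) := mem_normalizer_of_conj_mem fun c hc => by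
    rw [d.v_inv_D (mem_sup_right hc)]; exact inv_mem hc
  have hv' : v ∉ zpowers u ⊔ R := fun f => by
    obtain ⟨z, hz, z1⟩ := exists_ne_one_of_ne_bot (show R ≠ ⊥ from fun e => by
      have := d.cR; have := d.big; have := d.hm; simp [e] at *; omega)
    have := d.vR z hz
    rw [comm_iff.1 d.D_comm _ (mem_sup_right f) _ (d.R_le_D hz), mul_inv_cancel_right] at this
    exact z1 (eq_one_of_inv_odd (d.odd_R hz) this.symm)
  have hu : u ∉ R := fun f => d.u1 (eq_one_of_sq_of_odd d.u2 (d.odd_R f))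
  have : K ⊓ Cx(u) = zpowers v ⊔ (zpowers u ⊔ R) := by
    refine le_antisymm (fun k hk => ?_) (sup_le (zpowers_le.2 ⟨d.vK, mem_Cx.2 d.uv.symm⟩) (le_inf d.D0_le
      (sup_le (zpowers_le.2 (mem_Cx.2 rfl)) fun z hz => mem_Cx.2 (d.uR z hz).symm)))
    obtain ⟨z, hz, e⟩ := d.Cu k hk.1 (mem_Cx.1 hk.2)
    have h1 : z ∈ zpowers v ⊔ (zpowers u ⊔ R) := mem_sup_right (mem_sup_right hz)
    have h2 : u ∈ zpowers v ⊔ (zpowers u ⊔ R) := mem_sup_right (mem_sup_left (mem_zpowers u))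
    have h3 : v ∈ zpowers v ⊔ (zpowers u ⊔ R) := mem_sup_left (mem_zpowers v)
    rcases e with rfl | rfl | rfl | rfl
    exacts [h1, mul_mem h1 h2, mul_mem h1 h3, mul_mem (mul_mem h1 h2) h3]
  rw [this, card_inv_sup d.v2 hv hv', card_inv_sup d.u2 (centralizer_le_normalizer _ d.u_Cz_R) hu, d.cR]
  ring

theorem f_t : CfH5.classMul t t t = 2 * ((2 * h + 1) * h) := by
  have h1 := CfL.ncard_conj_mul K u
  rw [d.card_KU, d.cK] at h1
  have h2 := Nat.eq_of_mul_eq_mul_right (by have := d.hm; omega) h1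
  set I := {b | ∃ g ∈ K, g * u * g⁻¹ = b}
  have hI : ∀ s, s ∈ I ↔ s ∈ K ∧ s * s = 1 ∧ s ≠ 1 := fun s => ⟨by
    rintro ⟨g, hg, rfl⟩
    exact ⟨mul_mem (mul_mem hg d.uK) (inv_mem hg), by rw [conj_mul, d.u2]; simp, by simpa using d.u1⟩,
    fun hs => d.conj s hs.1 hs.2.1 hs.2.2⟩
  have : {s | s * s = 1 ∧ s ≠ 1 ∧ s * t * s⁻¹ = t⁻¹ ∧ s ≠ t} = I ∪ (t * ·) '' I := by
    ext s
    rw [d.t_inv]
    constructor
    · rintro ⟨s2, s1, e, st⟩
      obtain ⟨k, hk, rfl | rfl⟩ := d.split (mem_Cx'.2 e)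
      · exact Or.inl ((hI _).2 ⟨hk, s2, s1⟩)
      · refine Or.inr ⟨k, (hI _).2 ⟨hk, ?_, fun f => st (by rw [f, mul_one])⟩, rfl⟩
        rwa [mul_assoc, ← mul_assoc k, ← d.tK k hk, mul_assoc, d.tt] at s2
    · rintro (hs | ⟨k, hk, rfl⟩)
      · rw [hI] at hs
        exact ⟨hs.2.1, hs.2.2, d.conj_t (d.K_le hs.1), fun f => d.tn (f ▸ hs.1)⟩
      · rw [hI] at hk
        refine ⟨by simp only; rw [mul_assoc, ← mul_assoc k, ← d.tK k hk.1, mul_assoc, d.tt, hk.2.1], fun f => d.tn ?_,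
          d.conj_t (mul_mem (mem_Cx.2 rfl) (d.K_le hk.1)), by simpa using hk.2.2⟩
        rw [eq_inv_of_mul_eq_one_left f]; exact inv_mem hk.1
  rw [d.classMul_eq, this, Set.ncard_union_eq, Set.ncard_image_of_injective _ (mul_right_injective t), h2]
  · push_cast; ring
  · rw [Set.disjoint_left]
    rintro _ hs ⟨k, hk, rfl⟩
    exact d.tn ((mul_mem_cancel_right ((hI _).1 hk).1).1 ((hI _).1 hs).1)

end RT

end CfH1
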