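import Mathlib

/-! The diophantine part of the proof that a group of Ree type involves `S₃`. -/

set_option autoImplicit false

namespace CfH1

theorem dvd_of_sq_eq' {i d m a c : ℤ} (d0 : d ≠ 0) (hc : IsCoprime d a) (E : i * d ^ 2 = m * a * (c * d + m)) :
    d ∣ m := by
  obtain ⟨m1, d1, h1, hm, hd⟩ := Int.exists_gcd_one (m := m) (n := d) (Int.gcd_pos_of_ne_zero_right m d0)
  set g : ℤ := (Int.gcd m d : ℤ) with hg
  have g0 : g ≠ 0 := by rintro e; rw [e, mul_zero] at hd; exact d0 hd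
  have E' : a * m1 ^ 2 = d1 * (i * d1 - m1 * a * c) := by
    apply mul_left_cancel₀ (pow_ne_zero 2 g0)
    rw [hm, hd] at E
    linear_combination -E
  have c1 : IsCoprime d1 (a * m1 ^ 2) :=
    IsCoprime.mul_right (hc.of_isCoprime_of_dvd_left ⟨g, hd⟩) (Int.isCoprime_iff_gcd_eq_one.2 h1).symm.pow_right
  have u := c1.isUnit_of_dvd ⟨_, E'⟩
  obtain ⟨w, hw⟩ := u.exists_right_inv
  exact ⟨w * m1, by rw [hm, hd]; linear_combination (-(m1 * g)) * hw⟩

theorem sq_mod_eq {d e : ℤ} (hp : 0 < d * e) (ho : Odd (d * e)) (h : 2 * d * e - 1 ∣ e ^ 2 - 1) : e = 1 ∨ e = -1 := by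
  by_contra hn
  push Not at hn
  have e0 : e ≠ 0 := by rintro rfl; simp at hp
  have d0 : d ≠ 0 := by rintro rfl; simp at hp
  obtain ⟨r, hr⟩ := h
  have he : 2 ≤ |e| := by
    rcases abs_cases e with h | h <;> omega
  have hd : 1 ≤ |d| := Int.one_le_abs d0
  have hde : d * e = |d| * |e| := by rw [← abs_mul, abs_of_pos hp]
  have he2 : e ^ 2 = |e| ^ 2 := (sq_abs e).symm
  generalize |e| = E at *
  generalize |d| = D at *
  have hr' : E ^ 2 - 1 = (2 * (D * E) - 1) * r := by rw [← he2, ← hde]; linear_combination hr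
  have r0 : 0 < r := by
    by_contra h0
    push Not at h0
    nlinarith [mul_nonneg (show 0 ≤ 2 * (D * E) - 1 by nlinarith) (show 0 ≤ -r by omega)]
  have r1 : r - 1 = E * (2 * D * r - E) := by linear_combination hr'
  have r2 : r < E := by
    by_contra h0
    push Not at h0
    nlinarith [mul_le_mul_of_nonneg_left h0 (show 0 ≤ 2 * (D * E) - 1 by nlinarith)]
  have r3 : 2 * D * r - E = 0 := by
    by_contra h0
    rcases lt_or_gt_of_ne h0 with h0 | h0 <;> nlinarith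
  rw [hde, show E = 2 * D * r by omega] at ho
  obtain ⟨k, hk⟩ := ho
  have : 2 * (D * D * r) = 2 * k + 1 := by linear_combination hk
  omega

theorem ree_last {q e j : ℤ} (hq : 27 ≤ q) (e0 : 0 ≤ e) (j0 : 0 < j)
    (E : (q ^ 2 - 2) * (q ^ 2 - q - 1) = ((q - 1) * e + 1) * (q * j + 1)) : False := by
  have h1 : q ∣ e + 1 := ⟨(q - 1) * e * j + e + j - q ^ 3 + q ^ 2 + 3 * q - 2, by linear_combination E⟩
  have h2 : q - 1 ≤ e := by have := Int.le_of_dvd (by omega) h1; omega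
  have h3 : q - 1 ∣ j := ⟨q ^ 3 - 3 * q - 1 - j - e * (q * j + 1), by linear_combination -E⟩
  obtain ⟨l, rfl⟩ := h3
  have l0 : 0 < l := by
    by_contra h0
    push Not at h0
    nlinarith
  by_cases l1 : l = 1
  · subst l1
    have h4 : q ^ 2 - q + 1 ∣ 2 * (q - 3) := ⟨q ^ 2 - 4 - ((q - 1) * e + 1), by linear_combination -E⟩
    have := Int.le_of_dvd (by omega) h4
    nlinarith
  · have a1 : (q - 1) * (q - 1) + 1 ≤ (q - 1) * e + 1 := by nlinarith
    have a2 : q * ((q - 1) * 2) + 1 ≤ q * ((q - 1) * l) + 1 := by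
      have : (q - 1) * 2 ≤ (q - 1) * l := by nlinarith [show 2 ≤ l by omega]
      nlinarith
    have a3 := mul_le_mul a1 a2 (by nlinarith) (by nlinarith)
    rw [← E] at a3
    have : 0 ≤ q ^ 2 * (q - 27) := by positivity
    have : 0 ≤ q ^ 3 * (q - 27) := by positivity
    nlinarith

theorem ree_arith {h m i k e j r : ℕ} {b : ℤ} (hm : h + 1 = 2 * m) (om : Odd m) (big : 13 ≤ h)
    (hk : 2 * h + 1 = 3 ^ k) (i3 : ¬ 3 ∣ i) (io : Odd i) (ih : i = h * r + 1)
    (hw : i = (2 * h * e + 1) * ((2 * h + 1) * j + 1)) (j0 : j ≠ 0) (b0 : b ≠ 0) (b1 : b ≠ -1)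
    (E : (i : ℤ) * (b - (2 * h + 1)) ^ 2 = 16 * (2 * h + 1) * h ^ 2 * m * (b * (b + 1))) : False := by
  have c3 : IsCoprime (3 : ℤ) i := Nat.isCoprime_iff_coprime.2 ((Nat.Prime.coprime_iff_not_dvd Nat.prime_three).2 i3)
  have hk' : (2 * h + 1 : ℤ) = 3 ^ k := by exact_mod_cast hk
  have hm' : (h + 1 : ℤ) = 2 * m := by exact_mod_cast hm
  have k0 : k ≠ 0 := by rintro rfl; simp at hk; omega
  have q3 : (3 : ℤ) ∣ 2 * h + 1 := hk' ▸ dvd_pow_self 3 k0
  have q0 : (2 * h + 1 : ℤ) ≠ 0 := by positivity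
  have h0 : (h : ℤ) ≠ 0 := by omega
  have m0 : (m : ℤ) ≠ 0 := by omega
  -- `q ∣ b`
  have hb : (2 * h + 1 : ℤ) ∣ b := by
    obtain ⟨b1, q1, h1, hb, hq⟩ := Int.exists_gcd_one (m := b) (n := 2 * h + 1) (Int.gcd_pos_of_ne_zero_right b q0)
    set g : ℤ := (Int.gcd b (2 * h + 1) : ℤ) with hg
    have g0 : g ≠ 0 := by rintro e; rw [e, mul_zero] at hq; exact q0 hq
    have E' : i * b1 ^ 2 = q1 * (16 * h ^ 2 * m * b1 * (b + 1) + 2 * i * b1 - i * q1) := by
      apply mul_left_cancel₀ (pow_ne_zero 2 g0)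
      have : (i : ℤ) * (b1 * g - q1 * g) ^ 2 = 16 * (q1 * g) * h ^ 2 * m * (b1 * g * (b + 1)) := by
        rw [← hb, ← hq]; exact E
      linear_combination this
    have c0 : IsCoprime (2 * h + 1 : ℤ) i := hk' ▸ c3.pow_left
    have c1 : IsCoprime q1 (i * b1 ^ 2) :=
      IsCoprime.mul_right (c0.of_isCoprime_of_dvd_left ⟨g, hq⟩) (Int.isCoprime_iff_gcd_eq_one.2 h1).symm.pow_right
    obtain ⟨w, hw⟩ := (c1.isUnit_of_dvd ⟨_, E'⟩).exists_right_inv
    exact ⟨w * b1, by rw [hq]; linear_combination hb - (b1 * g) * hw⟩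
  obtain ⟨a, rfl⟩ := hb
  have E1 : (i : ℤ) * (a - 1) ^ 2 = 16 * h ^ 2 * m * (a * ((2 * h + 1) * a + 1)) := by
    apply mul_left_cancel₀ (pow_ne_zero 2 q0)
    linear_combination E
  have a0 : a ≠ 0 := by rintro rfl; simp at b0
  have a1 : (2 * h + 1) * a + 1 ≠ 0 := fun e => b1 (by linear_combination e)
  have a3 : ¬ (3 : ℤ) ∣ a := by
    rintro ⟨w, rfl⟩
    have : (3 : ℤ) ∣ i := ⟨16 * h ^ 2 * m * (w * ((2 * h + 1) * (3 * w) + 1)) - 3 * i * w ^ 2 + 2 * i * w,
      by linear_combination E1⟩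
    exact i3 (by exact_mod_cast this)
  have ih' : (i : ℤ) = h * r + 1 := by exact_mod_cast ih
  have ch : IsCoprime ((h : ℤ) ^ 2) i := IsCoprime.pow_left ⟨-r, 1, by linear_combination ih'⟩
  have hh : (h : ℤ) ∣ a - 1 := by
    rw [← Int.pow_dvd_pow_iff two_ne_zero]
    exact ch.dvd_of_dvd_mul_left ⟨16 * m * (a * ((2 * h + 1) * a + 1)), by linear_combination E1⟩
  obtain ⟨c, hc⟩ := hh
  obtain rfl : a = h * c + 1 := by linear_combination hc
  have E2 : (i : ℤ) * c ^ 2 = 16 * m * ((h * c + 1) * ((2 * h + 1) * h * c + 4 * m)) := by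
    apply mul_left_cancel₀ (pow_ne_zero 2 h0)
    linear_combination E1 + 32 * h ^ 2 * m * (h * c + 1) * hm'
  obtain ⟨i', hi⟩ := io
  have hi' : (i : ℤ) = 2 * i' + 1 := by exact_mod_cast hi
  have c2 : IsCoprime ((8 : ℤ) ^ 2) i := by
    have : IsCoprime ((2 : ℤ) ^ 6) i := IsCoprime.pow_left ⟨-i', 1, by linear_combination hi'⟩
    norm_num at this ⊢
    exact this
  have c4 : (4 : ℤ) ∣ c := by
    rw [← Int.pow_dvd_pow_iff two_ne_zero]
    exact (c2.of_isCoprime_of_dvd_left (by norm_num)).dvd_of_dvd_mul_left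
      ⟨m * ((h * c + 1) * ((2 * h + 1) * h * c + 4 * m)), by linear_combination E2⟩
  obtain ⟨c, rfl⟩ := c4
  have c8 : (8 : ℤ) ∣ 4 * c := by
    rw [← Int.pow_dvd_pow_iff two_ne_zero]
    exact c2.dvd_of_dvd_mul_left ⟨m * ((h * (4 * c) + 1) * ((2 * h + 1) * h * c + m)), by linear_combination E2⟩
  obtain ⟨d, hd⟩ := c8
  obtain rfl : c = 2 * d := by omega
  have E3 : (i : ℤ) * d ^ 2 = m * (8 * h * d + 1) * (2 * (2 * h + 1) * h * d + m) := by
    apply mul_left_cancel₀ (show (64 : ℤ) ≠ 0 by norm_num)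
    linear_combination E2
  have d0 : d ≠ 0 := by
    rintro rfl
    simp at E3
    omega
  obtain ⟨f, hf⟩ := dvd_of_sq_eq' d0 ⟨-(8 * h), 1, by ring⟩ E3
  have E4 : (i : ℤ) = f * (8 * h * d + 1) * (2 * (2 * h + 1) * h + f) := by
    apply mul_left_cancel₀ (pow_ne_zero 2 d0)
    rw [hf] at E3
    linear_combination E3
  have hf1 := sq_mod_eq (d := d) (e := f) (by rw [← hf]; omega) (by rw [← hf]; exact_mod_cast om) (by
    rw [show 2 * d * f - 1 = h by linear_combination -hm' - 2 * hf]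
    exact ⟨r - f * (2 * (2 * h + 1)) - 8 * d * f * (2 * (2 * h + 1) * h + f), by linear_combination ih' - E4⟩)
  rcases hf1 with rfl | rfl
  · apply a3
    have : (h : ℤ) * (4 * (2 * d)) + 1 = (2 * h + 1) * (2 * h + 1) := by linear_combination -4 * h * hm' - 8 * h * hf
    rw [this]
    exact q3.mul_right _
  · refine ree_last (q := 2 * h + 1) (e := e) (j := j) (by omega) (by positivity) (by omega) ?_
    have hw' : (i : ℤ) = (2 * h * e + 1) * ((2 * h + 1) * j + 1) := by exact_mod_cast hw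
    have : d = -m := by omega
    subst this
    linear_combination hw' - E4 + 4 * h * (2 * (2 * h + 1) * h - 1) * hm'

end CfH1
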