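import Cfsg.Agent.H1.Ree6
import Cfsg.Agent.H1.ReeA

/-! Groups of Ree type involve `S₃`: the character-theoretic order formula. -/

set_option autoImplicit false
set_option linter.unusedSectionVars false

namespace CfH1

open Cfsg Subgroup CfH9 CfH7 CfH8 CfH4 CfH5 CfFT
open scoped Pointwise commutatorElement ComplexConjugate Classical

variable {G : Type*} [Group G] [Fintype G]

theorem sum_inv_sup {s : G} {X : Subgroup G} (hs : s * s = 1) (hn : s ∈ Nm(X)) (h : s ∉ X) (F : G → ℂ) :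
    ∑ a ∈ fs (zpowers s ⊔ X), F a = ∑ x ∈ fs X, F x + ∑ x ∈ fs X, F (s * x) := by
  have : fs (zpowers s ⊔ X) = fs X ∪ (fs X).image (s * ·) := by
    ext a
    simp only [mem_fs, mem_inv_sup hs hn, Finset.mem_union, Finset.mem_image]
    refine or_congr_right ⟨fun e => ⟨_, e, by rw [← mul_assoc, hs, one_mul]⟩, ?_⟩
    rintro ⟨x, hx, rfl⟩
    rwa [← mul_assoc, hs, one_mul]
  rw [this, Finset.sum_union, Finset.sum_image fun _ _ _ _ => mul_left_cancel]
  rw [Finset.disjoint_left]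
  intro a ha hb
  obtain ⟨x, hx, rfl⟩ := Finset.mem_image.1 hb
  exact h ((mul_mem_cancel_right (mem_fs.1 hx)).1 (mem_fs.1 ha))

theorem sum_fs_except {X : Subgroup G} {f g : G → ℂ} (h : ∀ x ∈ X, x ≠ 1 → f x = g x) :
    ∑ x ∈ fs X, f x = ∑ x ∈ fs X, g x + (f 1 - g 1) := by
  have h1 : (1 : G) ∈ fs X := mem_fs.2 (one_mem _)
  rw [← Finset.add_sum_erase _ _ h1, ← Finset.add_sum_erase _ g h1, Finset.sum_congr rfl fun x hx =>
    h x (mem_fs.1 (Finset.mem_of_mem_erase hx)) (Finset.ne_of_mem_erase hx)]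
  ring

theorem sum_mult_eq_zero {X : Subgroup G} {f : G → ℂ} (h : ∀ a ∈ X, ∀ b ∈ X, f (a * b) = f a * f b) {y : G}
    (hy : y ∈ X) (h1 : f y ≠ 1) : ∑ x ∈ fs X, f x = 0 := by
  have := sum_fs_mul_left hy f
  rw [sum_fs_congr fun x hx => h y hy x hx, ← Finset.mul_sum] at this
  exact (mul_left_eq_self₀.1 this).resolve_left h1

theorem exists_lin {L N : Subgroup G} (h : ⁅L, L⁆ ≤ N) {g : G} (hg : g ∈ L) (hn : g ∉ N) :
    ∃ μ : L →* ℂˣ, (∀ a : L, (a : G) ∈ N → μ a = 1) ∧ μ ⟨g, hg⟩ ≠ 1 :=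
  exists_hom_ne_one (N.subgroupOf L) (fun a ha => h (map_subtype_commutator L ▸ mem_map_of_mem L.subtype ha)) hn

theorem indFun_two (C : Subgroup G) {α : C → ℂ} (hα : IsClassFunction C α) {y : G} (hyC : y ∉ C) (c : C)
    (hc : y * c * y⁻¹ ∈ C) (hTI : ∀ g : G, g * c * g⁻¹ ∈ C → g ∈ C ∨ g * y⁻¹ ∈ C) :
    indFun C α c = α c + α ⟨_, hc⟩ := by
  have h2 : ∀ g : G, extendByZero C α (g * c * g⁻¹) = extendByZero C (fun _ => α c) g +
      extendByZero C (fun _ => α ⟨_, hc⟩) (g * y⁻¹) := by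
    intro g
    by_cases hg : g ∈ C
    · rw [ebz_conj_mem C hα hg, ebz_coe, ebz_of_mem C _ hg, ebz_of_not_mem, add_zero]
      exact fun h3 => hyC (by simpa using mul_mem (inv_mem h3) hg)
    by_cases hg' : g * y⁻¹ ∈ C
    · rw [ebz_of_not_mem C _ hg, ebz_of_mem C _ hg', zero_add, ← ebz_of_mem C α hc,
        ← ebz_conj_mem C hα hg' (y * c * y⁻¹)]
      congr 1
      simp [mul_assoc]
    · rw [ebz_of_not_mem C _ hg, ebz_of_not_mem C _ hg', ebz_of_not_mem, add_zero]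
      exact fun h3 => (hTI g h3).elim hg hg'
  have h3 := Fintype.sum_equiv (Equiv.mulRight y⁻¹)
    (fun g => extendByZero C (fun _ => α ⟨_, hc⟩) (g * y⁻¹)) (extendByZero C fun _ => α ⟨_, hc⟩) fun _ => rfl
  rw [indFun_apply']
  simp only [h2, Finset.sum_add_distrib, h3, sum_ebz, Finset.sum_const, Finset.card_univ,
    nsmul_eq_mul, Fintype.card_eq_nat_card, ← mul_add, ← mul_assoc,
    inv_mul_cancel₀ (natCard_ne_zero C), one_mul]

namespace RT
variable {t u v : G} {K U H R : Subgroup G} {h m : ℕ} (d : RT t K U H R u v h m)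
include d

theorem der_L : ⁅zpowers t ⊔ (U ⊔ H), zpowers t ⊔ (U ⊔ H)⁆ ≤ U := by
  have hs : SD U (zpowers t ⊔ H) (zpowers t ⊔ (U ⊔ H)) := ⟨sup_left_comm _ _ _,
    sup_le (zpowers_le.2 (d.t_Nm d.UK)) d.HU, eq_bot_iff.2 fun x hx =>
      d.UH_bot.le ⟨hx.1, d.mem_H hx.2 (d.odd_U hx.1)⟩⟩
  refine hs.der_le.trans (sup_le le_rfl (commutator_le.2 fun a ha b hb => ?_))
  rw [commutatorElement_eq_one_iff_mul_comm.2 (comm_iff.1 d.T_comm a ha b hb)]
  exact one_mem _

/-- the pair of exceptional characters attached to `⟨t⟩ × B` -/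
theorem exists_eta (h3 : ¬ Involves (DihedralGroup 3) G) : ∃ (P Q : G → ℂ) (l : (zpowers t ⊔ H : Subgroup G) →* ℂˣ),
    IsIrrCharacter G P ∧ IsIrrCharacter G Q ∧ P t = 4 * m ∧ Q t = -(4 * m) ∧ l ⟨t, d.t_mem _⟩ = 1 ∧
    (∃ x, l x ^ 2 ≠ 1) ∧ classInner (P - Q) (fun _ => 1) = 0 ∧
    classInner (indFun (zpowers t ⊔ H) ((fun c => (l c : ℂ)) - fun _ => 1)) (P - Q) = 1 := by
  set L := zpowers t ⊔ (U ⊔ H) with hL
  obtain ⟨y0, hy0, y01⟩ := d.H_ne
  have BL : ∀ {b}, b ∈ U ⊔ H → b ∈ L := mem_sup_right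
  have HL : ∀ {b}, b ∈ H → b ∈ L := fun hb => BL (mem_sup_right hb)
  have tL : t ∈ L := d.t_mem _
  obtain ⟨μ, hμ, hμ0⟩ := exists_lin (N := zpowers t ⊔ U) (d.der_L.trans le_sup_right) (HL hy0) fun e => by
    rcases (mem_inv_sup d.t2 (d.t_Nm d.UK)).1 e with e | e
    · exact y01 (d.UH_bot.le ⟨e, hy0⟩)
    · exact d.tn ((mul_mem_cancel_right (d.HK hy0)).1 (d.UK e))
  obtain ⟨ε, hε, hε0⟩ := exists_lin (N := U ⊔ H) (d.der_L.trans le_sup_left) tL d.t_nB
  have hεt : (ε ⟨t, tL⟩ : ℂ) = -1 := by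
    have : (ε ⟨t, tL⟩ : ℂ) * ε ⟨t, tL⟩ = 1 := by
      rw [← Units.val_mul, ← map_mul, show (⟨t, tL⟩ * ⟨t, tL⟩ : L) = 1 from Subtype.ext d.t2, map_one, Units.val_one]
    exact (mul_self_eq_one_iff.1 this).resolve_left fun e => hε0 (Units.ext e)
  let ν : G → ℂ := extendByZero L fun a => μ a
  have νm : ∀ {a} (ha : a ∈ L), ν a = μ ⟨a, ha⟩ := fun ha => ebz_of_mem L _ ha
  have νmul : ∀ a ∈ L, ∀ b ∈ L, ν (a * b) = ν a * ν b := fun a ha b hb => by
    rw [νm (mul_mem ha hb), νm ha, νm hb, ← Units.val_mul, ← map_mul]; rfl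
  have ν1 : ν 1 = 1 := by rw [νm (one_mem _), hμ _ (one_mem _), Units.val_one]
  have νt : ν t = 1 := by rw [νm tL, hμ _ (d.t_mem _), Units.val_one]
  have νU : ∀ x ∈ U, ν x = 1 := fun x hx => by rw [νm (BL (mem_sup_left hx)), hμ _ (mem_sup_right hx), Units.val_one]
  have νc : ∀ a ∈ L, conj (ν a) = ν a⁻¹ := fun a ha => by
    rw [νm ha, νm (inv_mem ha), ← (isIrrCharacter_of_unitsHom μ).isCharacter.apply_inv]; rfl
  have νi : ∀ a ∈ L, ν a * ν a⁻¹ = 1 := fun a ha => by rw [← νmul _ ha _ (inv_mem ha), mul_inv_cancel, ν1]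
  have ν0 : ν y0 ≠ 1 := by rw [νm (HL hy0)]; exact fun e => hμ0 (Units.ext e)
  have ν02 : μ ⟨y0, HL hy0⟩ ^ 2 ≠ 1 := fun e => hμ0 (eq_one_of_sq_of_odd (by rw [← pow_two, e])
    ((d.odd_H hy0).of_dvd_nat (by rw [← orderOf_mk y0 (HL hy0)]; exact orderOf_map_dvd _ _)))
  have s1 : ∑ y ∈ fs H, ν y = 0 := sum_mult_eq_zero (fun a ha b hb => νmul a (HL ha) b (HL hb)) hy0 ν0
  have s1' : ∑ y ∈ fs H, ν y⁻¹ = 0 := by rw [sum_fs_inv ν, s1]
  have s2 : ∑ y ∈ fs H, ν y * ν y = 0 := sum_mult_eq_zero (f := fun y => ν y * ν y)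
    (fun a ha b hb => by simp only [νmul a (HL ha) b (HL hb)]; ring) hy0 fun e => ν02 (Units.ext (by
      rw [νm (HL hy0)] at e; rw [Units.val_pow_eq_pow_val, pow_two, e, Units.val_one]))
  let θ : L → ℂ := (fun a => (μ a : ℂ)) - fun a => ((μ * ε) a : ℂ)
  have hθ : IsGeneralizedCharacter L θ := (isIrrCharacter_of_unitsHom μ).isGen.sub (isIrrCharacter_of_unitsHom _).isGen
  have θ0 : ∀ a : L, (a : G) ∈ U ⊔ H → θ a = 0 := fun a ha => by simp [θ, hε a ha]
  have θ1 : ∀ b (hb : b ∈ U ⊔ H) (hb' : t * b ∈ L), θ ⟨t * b, hb'⟩ = 2 * ν b := fun b hb hb' => by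
    rw [show (⟨t * b, hb'⟩ : L) = ⟨t, tL⟩ * ⟨b, BL hb⟩ from rfl]
    simp only [θ, Pi.sub_apply, MonoidHom.mul_apply, map_mul, Units.val_mul, hεt, hε _ (show ((⟨b, BL hb⟩ : L) : G) ∈ _ from hb),
      ← νm tL, νt, νm (BL hb), Units.val_one]
    ring
  have hsum : ∀ φ : G → ℂ, IsClassFunction G φ → ∑ a : L, θ a * φ a =
      2 * (∑ x ∈ fs U, φ (t * x) + (2 * h + 1) * ∑ y ∈ fs H, ν y * φ (t * y) - (2 * h + 1) * φ t) := by
    intro φ hφ
    have e1 := d.frob.sum_eq fun b => ν b * φ (t * b)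
    rw [← sum_fs (U ⊔ H) fun b => ν b * φ (t * b), ← sum_fs U fun b => ν b * φ (t * b),
      ← sum_fs U fun k => ∑ r : H, ν (k * r * k⁻¹) * φ (t * (k * r * k⁻¹)), d.cU, ν1, mul_one, one_mul,
      sum_fs_congr (L := U) (g := fun x => φ (t * x)) fun x hx => by simp only [νU x hx, one_mul],
      sum_fs_congr (L := U) (f := fun k => ∑ r : H, ν (k * r * k⁻¹) * φ (t * (k * r * k⁻¹)))
        (g := fun _ => ∑ y ∈ fs H, ν y * φ (t * y)) fun x hx => by
        rw [sum_fs]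
        refine Finset.sum_congr rfl fun y _ => ?_
        have hx' := BL (mem_sup_left hx)
        rw [νmul _ (mul_mem hx' (HL y.2)) _ (inv_mem hx'), νmul _ hx' _ (HL y.2), νU x hx, νU _ (inv_mem hx),
          ← hφ.conj_apply (t * y) x, ← conj_mul, d.conj_t (d.K_le (d.UK hx)), one_mul, mul_one],
      sum_fs_const, d.cU, nsmul_eq_mul] at e1
    have e2 : ∑ a : L, θ a * φ a = ∑ a ∈ fs L, extendByZero L θ a * φ a := by simp only [sum_fs, ebz_coe]
    rw [e2, sum_inv_sup d.t2 (d.t_Nm d.B_le) d.t_nB, Finset.sum_eq_zero fun b hb => by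
      rw [ebz_of_mem L θ (BL (mem_fs.1 hb)), θ0 _ (mem_fs.1 hb), zero_mul],
      sum_fs_congr (g := fun b => 2 * (ν b * φ (t * b))) fun b hb => by
        rw [ebz_of_mem L θ (mul_mem tL (BL hb)), θ1 b hb, mul_assoc], ← Finset.mul_sum]
    push_cast at e1
    linear_combination 2 * e1
  have cL : (Nat.card L : ℂ) = 2 * ((2 * h + 1) * h) := by rw [d.card_L]; push_cast; rfl
  have h0 : (h : ℂ) ≠ 0 := by have := d.big; exact_mod_cast (by omega : h ≠ 0)
  have q0 : (2 * h + 1 : ℂ) ≠ 0 := by exact_mod_cast (by omega : 2 * h + 1 ≠ 0)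
  have hm : (h + 1 : ℂ) = 2 * m := by exact_mod_cast d.hm
  let η := indFun L θ
  have ηc : IsClassFunction G η := indFun_isClassFunction L θ
  have ηt : η t = 8 * m := by
    have : ∀ g : G, extendByZero L θ (g * t * g⁻¹) = extendByZero Cx(t) (fun _ => 2) g := fun g => by
      by_cases hg : g ∈ Cx(t)
      · have := θ1 1 (one_mem _) (by simpa using tL)
        simp only [mul_one, ν1] at this
        rw [d.conj_t hg, ebz_of_mem _ _ hg, ebz_of_mem _ _ tL, this]
      · rw [ebz_of_not_mem _ _ hg, ebz_of_not_mem _ _ fun f => hg (d.conj_L (one_mem _) (by simpa using f)).1]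
    simp only [η, indFun_apply', this, sum_ebz, Finset.sum_const, Finset.card_univ, nsmul_eq_mul,
      Fintype.card_eq_nat_card, cL, d.card_C]
    push_cast
    field_simp
    ring
  have ηU : ∀ x ∈ U, x ≠ 1 → η (t * x) = 2 := fun x hx x1 => by
    have := indFun_eq_of_ti L hθ.classFun ⟨t * x, mul_mem tL (BL (mem_sup_left hx))⟩
      fun g hg e => absurd (d.TI_U hx x1 e) hg
    rw [θ1 x (mem_sup_left hx), νU x hx, mul_one] at this
    exact this
  have ηH : ∀ y ∈ H, y ≠ 1 → η (t * y) = 2 * (ν y + ν y⁻¹) := fun y hy y1 => by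
    have e : u * (t * y) * u⁻¹ = t * y⁻¹ := by rw [← conj_mul, d.conj_t (d.K_le d.uK), d.uH y hy]
    have := indFun_two L hθ.classFun d.u_nL ⟨t * y, mul_mem tL (HL hy)⟩ (e ▸ mul_mem tL (HL (inv_mem hy)))
      fun g e => by rw [d.u_inv]; exact d.TI_H hy y1 e
    simp only [e] at this
    rw [θ1 y (mem_sup_right hy), θ1 _ (mem_sup_right (inv_mem hy)), ← mul_add] at this
    exact this
  have η0 : ∀ y ∈ H, η y = 0 := fun y hy => indFun_eq_zero_of_forall L θ fun g hg =>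
    θ0 _ (d.mem_B hg (by rw [orderOf_conj'']; exact d.odd_H hy))
  have ηH' : ∀ y ∈ H, y ≠ 1 → conj (η (t * y)) = 2 * (ν y + ν y⁻¹) := fun y hy y1 => by
    rw [ηH y hy y1, map_mul, map_add, νc _ (HL hy), νc _ (HL (inv_mem hy)), inv_inv, add_comm, map_ofNat]
  have ηt' : conj (η t) = 8 * m := by simp [ηt, map_ofNat]
  have cU : (Nat.card U : ℂ) = 2 * h + 1 := by rw [d.cU]; push_cast; rfl
  have cH : (Nat.card H : ℂ) = h := by rw [d.cH]
  have n2 : classInner η η = 2 := by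
    rw [classInner_indFun_left L θ ηc, classInner_def, hsum _ ηc.conj,
      sum_fs_except (g := fun _ => 2) fun x hx x1 => by rw [ηU x hx x1, map_ofNat],
      sum_fs_except (X := H) (g := fun y => 2 * (ν y * ν y) + 2) fun y hy y1 => by
        rw [ηH' y hy y1]; linear_combination 2 * νi y (HL hy), Finset.sum_add_distrib, ← Finset.mul_sum, s2]
    simp only [sum_fs_const, mul_one, ηt', ν1, cU, cH, cL]
    field_simp
    linear_combination (-4) * hm
  obtain ⟨P, Q, hP, hQ, hne, he⟩ := genChar_norm_two_sub (isGenChar_indFun L hθ) n2 (by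
    change ‖η 1‖ < 2
    rw [η0 1 (one_mem _)]; simp)
  change η = P - Q at he
  have e1 : P 1 = Q 1 := by have := η0 1 (one_mem _); rwa [he, Pi.sub_apply, sub_eq_zero] at this
  have e2 : P t - Q t = 8 * m := by rw [← ηt, he]; rfl
  have e3 : ∑ z, η z * classMul t t z = 0 := by
    rw [sum_indFun_mul L θ (classMul_classFun t t), hsum _ (classMul_classFun t t),
      sum_fs_except (g := fun _ => 0) fun x hx x1 => d.f_U h3 hx x1,
      sum_fs_except (X := H) (g := fun y => 2 * h * ν y) fun y hy y1 => by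
        rw [d.f_T h3 (mul_mem (d.t_mem _) (mem_sup_right hy)) fun f => y1 ?_, mul_comm]
        rw [mul_assoc, ← mul_assoc y, ← d.tK y (d.HK hy), mul_assoc, d.tt] at f
        exact eq_one_of_sq_of_odd f (d.odd_H hy), ← Finset.mul_sum, s1]
    simp only [Finset.sum_const_zero, mul_one, ν1, d.f_t]
    ring
  have m0 : (m : ℂ) ≠ 0 := by have := d.hm; exact_mod_cast (by omega : m ≠ 0)
  have e4 : P t + Q t = 0 := by
    simp only [he, Pi.sub_apply, sub_mul, Finset.sum_sub_distrib, sum_mul_classMul _ _ hP,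
      sum_mul_classMul _ _ hQ, e1] at e3
    obtain ⟨a, ha, ha'⟩ := hQ.exists_degree
    have ha0 : (a : ℂ) ≠ 0 := by exact_mod_cast ha.ne'
    have i0 : ((Cx(t)).index : ℂ) ≠ 0 := by exact_mod_cast index_ne_zero_of_finite
    rw [ha'] at e3
    field_simp at e3
    apply mul_left_cancel₀ (mul_ne_zero (pow_ne_zero 2 i0) (mul_ne_zero (show (8 : ℂ) ≠ 0 by norm_num) m0))
    rw [← e2]
    linear_combination e3
  refine ⟨P, Q, μ.comp (inclusion d.T_le_L), hP, hQ, by linear_combination (e2 + e4) / 2,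
    by linear_combination (e4 - e2) / 2, hμ _ (d.t_mem _), ⟨⟨y0, mem_sup_right hy0⟩, ν02⟩, ?_, ?_⟩
  · rw [← he, classInner_indFun_left L θ (isClassFunction_const 1), classInner_def,
      hsum (fun _ => conj 1) (isClassFunction_const _)]
    simp [s1, card_fs, ← cU]
  · rw [← he, classInner_indFun_left _ _ ηc, classInner_def]
    have : ∑ a : (zpowers t ⊔ H : Subgroup G), ((fun c => (μ.comp (inclusion d.T_le_L) c : ℂ)) - fun _ => 1 :
        (zpowers t ⊔ H : Subgroup G) → ℂ) a * conj (η a) = ∑ a ∈ fs (zpowers t ⊔ H), (ν a - 1) * conj (η a) := by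
      rw [sum_fs]
      refine Finset.sum_congr rfl fun a _ => ?_
      rw [νm (d.T_le_L a.2)]; rfl
    rw [this, sum_inv_sup d.t2 (d.t_Nm d.HK) fun f => d.tn (d.HK f),
      Finset.sum_eq_zero fun y hy => by rw [η0 y (mem_fs.1 hy), map_zero, mul_zero],
      sum_fs_except (g := fun y => 2 * (ν y * ν y) + 2 - 2 * ν y - 2 * ν y⁻¹) fun y hy y1 => by
        rw [ηH' y hy y1, νmul _ tL _ (HL hy), νt]; linear_combination 2 * νi y (HL hy)]
    simp only [Finset.sum_sub_distrib, Finset.sum_add_distrib, ← Finset.mul_sum, s1, s1', s2, sum_fs_const, cH,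
      mul_one, νt, ν1, inv_one, d.card_T]
    push_cast
    field_simp
    ring

theorem order_formula (h3 : ¬ Involves (DihedralGroup 3) G) : ∃ b : ℤ, b ≠ 0 ∧ b ≠ -1 ∧
    ((Cx(t)).index : ℤ) * (b - (2 * h + 1)) ^ 2 = 16 * (2 * h + 1) * h ^ 2 * m * (b * (b + 1)) := by
  obtain ⟨P, Q, l, hP, hQ, Pt, Qt, lt, ⟨x, hx⟩, i1, i2⟩ := d.exists_eta h3
  have hl : ∀ c : (zpowers t ⊔ H : Subgroup G), (c : G) * c = 1 → l c = 1 := fun c e => by
    by_cases c1 : (c : G) = 1
    · rw [show c = 1 from Subtype.ext c1, map_one]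
    · rw [show c = ⟨t, d.t_mem _⟩ from Subtype.ext (d.inv_T c.2 e c1), lt]
  obtain ⟨ψ, χ, hψ, hχ, hne, -, -, he, -⟩ := exists_pair_of_index_two (zpowers t ⊔ H) l
    (fun e => d.u_nL (d.T_le_L e)) (mem_normalizer_of_conj_mem fun c hc => by rw [d.uT hc]; exact inv_mem hc)
    hx (d.uT x.2) fun c hc g hg => by rw [d.u_inv]; exact d.TI_T h3 c.2 (fun e => hc (hl c e)) hg
  have he' := eq_sub_of_add_eq he
  have v1 : ψ 1 = χ 1 + 1 := by
    have := congrFun he 1
    simp only [Pi.add_apply, indFun_one, Pi.sub_apply, map_one, Units.val_one] at this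
    linear_combination -this
  have vt : ψ t = χ t + 1 := by
    have := congrFun he t
    rw [Pi.add_apply, indFun_eq_zero_of_forall _ _ fun g hg => by
      rw [Pi.sub_apply, hl _ (by simp only; rw [← inv_inv g, inv_inv g⁻¹, conj_mul, d.t2]; simp), Units.val_one,
        sub_self]] at this
    simp only [Pi.sub_apply] at this
    linear_combination -this
  have hx : ψ = P ∨ χ = Q := by
    by_contra hn
    push Not at hn
    rw [he', classInner_sub_left, ← conj_classInner (P - Q) fun _ => 1, i1] at i2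
    simp only [classInner_sub_left, classInner_sub_right, hψ.classInner_of_ne hP hn.1, hχ.classInner_of_ne hQ hn.2,
      hψ.classInner_eq hQ, hχ.classInner_eq hP, map_zero] at i2
    split_ifs at i2 <;> norm_num at i2
  have hsum : ∑ z, indFun (zpowers t ⊔ H) ((fun c => (l c : ℂ)) - fun _ => 1) z * classMul t t z =
      -(2 * h) * Nat.card G := by
    have h2 : ∀ c : (zpowers t ⊔ H : Subgroup G), ((fun c => (l c : ℂ)) - fun _ => 1 : _ → ℂ) c *
        classMul t t c = 2 * h * (l c * conj 1) - 2 * h := fun c => by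
      by_cases hc : (c : G) * c = 1
      · simp [hl c hc]
      · rw [d.f_T h3 c.2 hc]; simp; ring
    have h4 := card_mul_classInner (fun c => (l c : ℂ)) fun _ => 1
    rw [(isIrrCharacter_of_unitsHom l).classInner_of_ne isIrrCharacter_one
      (fun h0 => ‹l x ^ 2 ≠ 1› (by rw [show l x = 1 from Units.ext (congrFun h0 _), one_pow]))] at h4
    rw [sum_indFun_mul _ _ (classMul_classFun _ _), ← (zpowers t ⊔ H).card_mul_index]
    simp only [h2, Finset.sum_sub_distrib, ← Finset.mul_sum, ← h4, Finset.sum_const,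
      Finset.card_univ, Fintype.card_eq_nat_card]
    push_cast; ring
  rw [he', ← (Cx(t)).card_mul_index, d.card_C] at hsum
  simp only [Pi.sub_apply, sub_mul, Finset.sum_sub_distrib, sum_mul_classMul _ _ hψ,
    sum_mul_classMul _ _ hχ, sum_mul_classMul _ _ isIrrCharacter_one] at hsum
  obtain ⟨a, ha, ha'⟩ := hχ.exists_degree
  have i0 : ((Cx(t)).index : ℂ) ≠ 0 := by exact_mod_cast index_ne_zero_of_finite
  have ha0 : (a : ℂ) ≠ 0 := by exact_mod_cast ha.ne'
  have ha1 : (a : ℂ) + 1 ≠ 0 := by exact_mod_cast Nat.succ_ne_zero a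
  have hm : (h + 1 : ℂ) = 2 * m := by exact_mod_cast d.hm
  have key : ((Cx(t)).index : ℂ) * (a - χ t) ^ 2 = 16 * (2 * h + 1) * h ^ 2 * m * (a * (a + 1)) := by
    rw [v1, vt, ha'] at hsum
    push_cast at hsum
    field_simp at hsum
    linear_combination -hsum
  rcases hx with rfl | rfl
  · refine ⟨a, by omega, by omega, ?_⟩
    rw [show χ t = 2 * h + 1 by linear_combination Pt - vt - 2 * hm] at key
    exact_mod_cast key
  · refine ⟨-a - 1, by omega, by omega, ?_⟩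
    rw [Qt, show (a - -(4 * m) : ℂ) ^ 2 = (-a - 1 - (2 * h + 1)) ^ 2 by
      linear_combination (-2) * (2 * a + 2 * h + 4 * m + 2) * hm,
      show (a * (a + 1) : ℂ) = (-a - 1) * (-a - 1 + 1) by ring] at key
    exact_mod_cast key

theorem involves : Involves (DihedralGroup 3) G := by
  by_contra h3
  obtain ⟨b, b0, b1, E⟩ := d.order_formula h3
  obtain ⟨k, hk⟩ := d.exists_pow
  obtain ⟨r, hr⟩ := d.dvd_i h3
  obtain ⟨e, j, j0, hw⟩ := d.exists_w h3
  exact ree_arith d.hm d.om d.big hk (d.not_three_i h3) d.odd hr hw j0 b0 b1 E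

end RT

end CfH1
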