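import Cfsg.Agent.FT.BG4d
import Cfsg.Agent.FT.BG2

/-! Groups `X` with `X / O₂(X)` of type `p²` or `p^{1+2}`: action on groups of rank at most two. -/

set_option autoImplicit false
set_option linter.unusedSectionVars false

namespace CfH1.Xi

open Cfsg Subgroup CfH9 CfH7 CfH8 CfH1 CfFT
open scoped commutatorElement

variable {G : Type*} [Group G] [Finite G] {p r : ℕ}

/-- the data of a member of `Ξ`, with `P` a Sylow `p`-subgroup -/
structure XD (p : ℕ) (T X P : Subgroup G) : Prop where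
  h2 : p ≠ 2
  TX : T ≤ Nm(X)
  PX : P ≤ X
  exp : ∀ x ∈ P, x ^ p = 1
  card : Nat.card P = p ^ 2 * Nat.card (⁅P, P⁆ : Subgroup G)
  cz : Nat.card (⁅P, P⁆ : Subgroup G) ∣ p
  irr : ∀ K : Subgroup G, X ≤ Nm(K) → T ≤ Nm(K) → X ≤ K ∨ P ⊓ K ≤ ⁅P, P⁆

theorem relIndex_dvd_of_le_sup {P C : Subgroup G} {a : G} (hP : P ≤ Nm(C)) (ha : a ∈ P)
    (h1 : a ^ p = 1) (h : P ≤ C ⊔ zpowers a) : C.relIndex P ∣ p := by
  rw [← card_qb hP]
  have e : qb C P ≤ zpowers (nmQuot C ⟨a, hP ha⟩) := by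
    rw [← qb_zpowers, qb_le_qb_iff hP (zpowers_le.2 (hP ha)), sup_comm]; exact h
  refine (card_dvd_of_le e).trans ?_
  rw [Nat.card_zpowers]
  refine orderOf_dvd_of_pow_eq_one ?_
  rw [← map_pow, show (⟨a, hP ha⟩ : Nm(C)) ^ p = 1 from Subtype.ext h1, map_one]

theorem scalar_cent [hr : Fact r.Prime] {V : Subgroup G} (hV : EAb r V) {c v : G}
    (hc : ∀ w ∈ V, c ∈ Nm(zpowers w)) (hv : v ∈ V) (h1 : v ≠ 1) (h : c ∈ Cx(v)) : c ∈ Cz(V) := by
  have hv' : c * v * c⁻¹ = v := mem_Cx'.1 h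
  refine mem_centralizer_of_conj_eq fun w hw => ?_
  by_cases e : w ∈ zpowers v
  · obtain ⟨k, rfl⟩ := e
    simp only [← conj_zpow, hv']
  obtain ⟨k, hk⟩ := CfFT.exists_conj_eq_pow (hc w hw)
  obtain ⟨j, hj⟩ := CfFT.exists_conj_eq_pow (hc _ (mul_mem hv hw))
  have cm : Commute v w := congrArg Subtype.val (hV.1.is_comm.comm ⟨v, hv⟩ ⟨w, hw⟩)
  have e1 : v * w ^ k = v ^ j * w ^ j := by
    rw [← cm.mul_pow, ← hj, ← hk]
    conv_lhs => rw [← hv']
    group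
  have e2 : (v ^ j)⁻¹ * v = w ^ j * (w ^ k)⁻¹ := by
    rw [inv_mul_eq_iff_eq_mul, ← mul_assoc, ← e1, mul_inv_cancel_right]
  have w1 : w ≠ 1 := fun h => e (h ▸ one_mem _)
  have i : zpowers w ⊓ zpowers v = ⊥ :=
    (el_zpowers (mem_top w) (orderOf_eq_of_eab hV hw w1)).inf_eq_bot fun h => e (h (mem_zpowers w))
  have e3 : (v ^ j)⁻¹ * v = 1 := by
    rw [← mem_bot, ← i]
    exact mi (e2 ▸ mul_mem (npow_mem_zpowers _ _) (inv_mem (npow_mem_zpowers _ _)))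
      (mul_mem (inv_mem (npow_mem_zpowers _ _)) (mem_zpowers _))
  rw [e3, eq_comm, mul_inv_eq_one] at e2
  rw [inv_mul_eq_one] at e3
  have e4 : j ≡ 1 [MOD r] := by
    rw [← orderOf_eq_of_eab hV hv h1, ← pow_eq_pow_iff_modEq, e3, pow_one]
  rw [hk, ← e2]
  conv_rhs => rw [← pow_one w]
  rwa [pow_eq_pow_iff_modEq, orderOf_eq_of_eab hV hw w1]

variable [hp : Fact p.Prime]

/-- action on an elementary abelian group of rank at most two -/
theorem gl [hr : Fact r.Prime] (h2 : p ≠ 2) (r2 : r ≠ 2) {V N P : Subgroup G} (hV : EAb r V)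
    (hrk : rk r V ≤ 2) (hN : N ≤ Nm(V)) (PN : P ≤ N) (exp : ∀ x ∈ P, x ^ p = 1)
    (H : ∀ K : Subgroup G, N ≤ Nm(K) → P ≤ K ∨ (¬ K.relIndex P ∣ p ∧ P ⊓ K ≤ ⁅P, P⁆)) :
    P ≤ Cz(V) := by
  have hP := isPGroup_of_exp exp
  have PV := PN.trans hN
  obtain h | ⟨h3, -⟩ := H Cz(V) (hN.trans (Nm_le_Nm_Cz V))
  · exact h
  exfalso
  by_cases e : r = p
  · subst e
    exact h3 (relIndex_Cz_dvd_prime hV hrk hP PV)
  have der : ⁅P, P⁆ ≤ Cz(V) := gl2_der_le_Cz' hV hrk PV (oddS_of_isPGroup h2 hP)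
    (pp_of_isPGroup (Ne.symm e) hP)
  have PC := PV.trans (Nm_le_Nm_Cz V)
  have hel := el_rk_of_eab hV le_rfl
  obtain h | ⟨-, h4⟩ := H (⨅ w : V, Nm(zpowers (w : G))) fun g hg => by
    refine mem_normalizer_of_cj_le ?_
    rw [cj_le_iff_forall]
    intro x hx
    rw [mem_iInf] at hx ⊢
    intro w
    have := hx ⟨g⁻¹ * w * g⁻¹⁻¹, conj_mem_of_mem_normalizer (inv_mem (hN hg)) w.2⟩
    have := conj_mem_cj g this
    rw [cj_normalizer, cj_zpowers] at this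
    simpa [mul_assoc] using this
  · have sc : ∀ c ∈ P, ∀ w ∈ V, c ∈ Nm(zpowers w) := fun c hc w hw => mem_iInf.1 (h hc) ⟨w, hw⟩
    have V0 : V ≠ ⊥ := fun e => h3 (by
      rw [e, CfFT.Cz_bot, relIndex_top_left]; exact one_dvd _)
    obtain ⟨v, hv, v1⟩ := exists_ne_one_of_ne_bot V0
    obtain ⟨a, ha, h5⟩ := cyc_qb_Cz r2 (hel.pgrp.to_le (zpowers_le.2 hv)) (cyc_zpowers v)
      (fun c hc => sc c hc v hv)
    refine h3 (relIndex_dvd_of_le_sup PC ha (exp a ha) (h5.trans (sup_le_sup_right ?_ _)))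
    exact fun c hc => scalar_cent hV (sc c hc.1) hv v1 (Cz_zpowers v ▸ hc.2)
  by_cases e2 : rk r V = 2
  swap
  · obtain ⟨a, ha, h5⟩ := cyc_qb_Cz r2 hel.pgrp
      (cyc_of_ab_of_rk_le hel.pgrp hel.ab (by omega)) PV
    exact h3 (relIndex_dvd_of_le_sup PC ha (exp a ha) (h5.trans (sup_le_sup_right inf_le_right _)))
  rw [e2] at hel
  have hE : EAb p (hb V P) := ⟨ab_iff_comm.2 (by
    rw [← hb_commutator PV PV, hb_eq_bot_iff ((der_le P).trans PV)]; exact der), by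
      rintro _ ⟨g, hg, rfl⟩
      rw [← map_pow, show g ^ p = 1 from Subtype.ext (exp g hg), map_one]⟩
  have hE' := el_rk_of_eab hE le_rfl
  obtain ⟨Q, hQ⟩ := hE'.exists_le (k := 2) (by
    by_contra n
    refine h3 ?_
    rw [← card_hb PV, hE'.card]
    exact (pow_dvd_pow p (by omega)).trans (pow_one p).dvd)
  obtain ⟨-, a, ha, a1, k, hk, -⟩ := regular_abelem2 (P := hv V V)
    ⟨le_rfl, elemAb_hv hV, by rw [card_hv le_rfl, hel.card]⟩ hQ.self
    (hQ.le.trans (hb_le_Nm_hv_self P))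
    (eq_bot_iff.2 ((inf_le_inf_right _ hQ.le).trans (hb_faithful P).le))
  obtain ⟨g, hg, rfl⟩ := hQ.le ha
  refine a1 (holA_eq_one_iff.2 (der (h4 ⟨hg, mem_iInf.2 fun w => mem_normalizer_of_cj_le ?_⟩)))
  have := hk (holV V w) (holV_mem_hv_iff.2 w.2)
  rw [holA_conj, ← map_pow] at this
  have e3 : (g : G) * w * (g : G)⁻¹ = w ^ k := congrArg Subtype.val (holV_injective this)
  rw [cj_zpowers, e3]
  exact zpowers_le.2 (npow_mem_zpowers _ _)

theorem relIndex_qp {Q P : Subgroup G} (h : P ≤ Nm(Q)) (K : Subgroup (NQ Q)) :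
    (qp Q K).relIndex P = K.relIndex (qb Q P) := by
  rw [← relIndex_subgroupOf h, qp, subgroupOf_map_subtype_self, relIndex_comap]; rfl

variable {T X P : Subgroup G}

theorem XD.pgrp (h : XD p T X P) : IsPGroup p P := isPGroup_of_exp h.exp

theorem XD.idx (h : XD p T X P) {K : Subgroup G} (h1 : P ⊓ K ≤ ⁅P, P⁆) : ¬ K.relIndex P ∣ p := fun e => by
  have e1 := card_inf_mul_relIndex K P
  have e2 := card_le_of_le h1
  rw [inf_comm] at e2
  have e3 := Nat.mul_le_mul e2 (Nat.le_of_dvd hp.out.pos e)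
  rw [e1, h.card, mul_comm, Nat.mul_le_mul_left_iff Nat.card_pos] at e3
  have := hp.out.one_lt
  nlinarith

theorem XD.not_le (h : XD p T X P) : ¬ P ≤ ⁅P, P⁆ := fun e =>
  h.idx (K := ⊤) (inf_le_left.trans e) (by rw [relIndex_top_left]; exact one_dvd _)

theorem XD.le_of (h : XD p T X P) {K : Subgroup G} (h1 : X ≤ Nm(K)) (h2 : T ≤ Nm(K)) (h3 : P ≤ K) :
    X ≤ K := (h.irr K h1 h2).resolve_right fun e => h.not_le ((le_inf le_rfl h3).trans e)

/-- action on the Frattini factor of a critical subgroup -/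
theorem XD.act [hr : Fact r.Prime] (h : XD p T X P) (r2 : r ≠ 2) {D N : Subgroup G}
    (hV : EAb r (qb (Phi D) D)) (hrk : rk r (qb (Phi D) D) ≤ 2) (hN : N ≤ Nm(D)) (PN : P ≤ N)
    (H : ∀ K : Subgroup G, N ≤ Nm(K) → P ≤ K ∨ P ⊓ K ≤ ⁅P, P⁆) : ⁅D, P⁆ ≤ Phi D := by
  have NP := hN.trans (Nm_le_Nm_Phi D)
  have PP := PN.trans NP
  rw [Subgroup.commutator_comm, ← qb_le_Cz_iff PP (le_Nm_Phi D)]
  refine gl h.h2 r2 hV hrk (qb_le_Nm hN) (qb_mono PN) ?_ fun K hK => ?_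
  · rintro _ ⟨g, hg, rfl⟩
    rw [← map_pow, show g ^ p = 1 from Subtype.ext (h.exp g hg), map_one]
  refine (H _ (le_Nm_qp NP hK)).imp (qb_le_iff PP).2 fun e => ⟨?_, ?_⟩
  · rw [← relIndex_qp PP]; exact h.idx e
  · rw [← qb_inf_qp, ← qb_commutator PP PP]; exact qb_mono e

/-- `X` centralizes the invariant `p'`-subgroups with trivial `2`-core -/
theorem XD.cop (h : XD p T X P) {L : Subgroup G} (XL : X ≤ Nm(L)) (TL : T ≤ Nm(L)) (hL : Pp p L)
    (h0 : Op 2 L = ⊥) (hrk : ∀ r : ℕ, r.Prime → r ≠ 2 → rk r L ≤ 2) : X ≤ Cz(L) := by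
  have PL := h.PX.trans XL
  have cop : Cop P L := (hL.cop h.pgrp).symm
  have key : ∀ r : ℕ, r.Prime → r ≠ 2 → ¬ r ∣ (L ⊓ Cz(P)).relIndex L := fun r hr r2 hd => by
    haveI := Fact.mk hr
    have rp : p ≠ r := fun e => hL.not_dvd (e ▸ hd.trans (relIndex_dvd_card _ _))
    obtain ⟨R, hR, PR⟩ := exists_invariant_sylIn r PL cop (.inl (sol_of_isPGroup h.pgrp))
    obtain ⟨D, -, d2, d3, d4, d5⟩ := exists_crit_rank2 r2 hR.pgrp ((rk_mono hR.le).trans (hrk r hr r2))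
    have n1 : L ⊔ X ⊔ T ≤ Nm(L) := sup_le (sup_le le_normalizer XL) TL
    have fr := hR.frattini_sup n1 (le_sup_left.trans le_sup_left)
    set N := (L ⊔ X ⊔ T) ⊓ Nm(R)
    have PN : P ≤ N := le_inf (h.PX.trans (le_sup_right.trans le_sup_left)) PR
    have NL : N ≤ Nm(L) := inf_le_left.trans n1
    refine hR.not_dvd_relIndex_of_le (le_inf hR.le (le_Cz_comm (d5 P PR (pp_of_isPGroup rp h.pgrp)
      (h.act r2 d3 d4 (inf_le_right.trans d2) PN fun K hK => ?_)))) hd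
    have nK : N ≤ Nm(K ⊓ N) := le_normalizer_inf hK le_normalizer
    have n2 : L ⊔ X ⊔ T ≤ Nm(L ⊔ (K ⊓ N)) := fr ▸ sup_le (le_sup_left.trans le_normalizer)
      (le_normalizer_sup NL nK)
    refine (h.irr _ ((le_sup_right.trans le_sup_left).trans n2) (le_sup_right.trans n2)).imp
      (fun e => ?_) fun e => (le_inf inf_le_left ((le_inf inf_le_right
        (inf_le_left.trans PN)).trans le_sup_right)).trans e
    have e1 : P ≤ (L ⊓ N) ⊔ (K ⊓ N) := by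
      rw [← CfH8.inf_sup_dedekind' (inf_le_right.trans NL) inf_le_right]
      exact le_inf (h.PX.trans e) PN
    refine le_trans ?_ (inf_le_left (b := N))
    rw [← qb_eq_bot_iff (PN.trans nK)]
    refine eq_bot_of_pgrp_of_pp (isPGroup_qb h.pgrp) (H := qb (K ⊓ N) (L ⊓ N)) ?_
      (hL.of_le inf_le_left).qb
    rw [qb_le_qb_iff (PN.trans nK) (inf_le_right.trans nK)]
    exact e1
  obtain ⟨S, hS, PS⟩ := exists_invariant_sylIn 2 PL cop (.inl (sol_of_isPGroup h.pgrp))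
  have h1 : ⁅L, P⁆ ≤ S := by
    rw [commutator_le]
    intro l hl x hx
    obtain ⟨s, hs, c, hc, rfl⟩ := (hall_singleton_iff.2 hS).exists_mul (K := L ⊓ Cz(P)) inf_le_left
      (fun r hr hd => by_contra fun e => key r hr e hd) hl
    have : ⁅s * c, x⁆ = s * (x * s⁻¹ * x⁻¹) := by
      rw [commutatorElement_def, mul_inv_rev, mul_assoc s c x, ← hc.2 x hx]; group
    rw [this]
    exact mul_mem hs (conj_mem_of_mem_normalizer (PS hx) (inv_mem hs))
  have h3 : ⁅L, P⁆ = ⊥ := eq_bot_iff.2 (h0 ▸ le_pCoreOf (h1.trans hS.le) (left_le_Nm_comm L P)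
    (hS.pgrp.to_le h1))
  exact h.le_of (XL.trans (Nm_le_Nm_Cz L)) (TL.trans (Nm_le_Nm_Cz L)) (commutator_eq_bot_iff'.1 h3)

end CfH1.Xi
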