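import Cfsg.Agent.H1.Xi1
import Cfsg.Agent.H7.FStar

/-! Groups `X` with `X / O₂(X)` of type `p²` or `p^{1+2}` in a strongly quasithin group. -/

set_option autoImplicit false
set_option linter.unusedSectionVars false

namespace CfH1.Xi

open Cfsg Subgroup CfH9 CfH7 CfH8 CfH1 CfFT
open scoped commutatorElement

variable {G : Type*} [Group G] [Finite G] {p r : ℕ} [hp : Fact p.Prime] {T X P : Subgroup G}

theorem XD.key (h : XD p T X P) (hr : rk p (⊤ : Subgroup G) ≤ 2) {w : G} (hw : w ^ p = 1)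
    (h1 : p ^ 2 ≤ Nat.card (P ⊓ Cx(w) : Subgroup G)) : w ∈ P := by
  obtain ⟨E, -, e1, e2⟩ := exists_card_eq_between (h.pgrp.to_le (inf_le_left (b := Cx(w)))) bot_le
    (k := 2) (by rw [card_bot]; exact Nat.one_le_pow _ _ hp.out.pos) h1
  have hE : El p 2 E ⊤ := ⟨le_top, ⟨ab_of_card_dvd_sq e2.dvd, fun x hx => h.exp x (e1 hx).1⟩, e2⟩
  exact (e1 ((hE.pMax hr).mem (mem_top w) hw (le_Cx_iff.1 (e1.trans inf_le_right)))).1

theorem XD.key0 (h : XD p T X P) (hr : rk p (⊤ : Subgroup G) ≤ 2) {w : G} (hw : w ^ p = 1)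
    (h1 : w ∈ Cz(P)) : w ∈ P := h.key hr hw (by
  rw [inf_eq_left.2 (le_Cx_iff.2 h1), h.card]; exact Nat.le_mul_of_pos_right _ Nat.card_pos)

theorem XD.cZ (h : XD p T X P) (h0 : ⁅P, P⁆ ≠ ⊥) : Nat.card (⁅P, P⁆ : Subgroup G) = p :=
  ((Nat.dvd_prime hp.out).1 h.cz).resolve_left fun e => h0 (card_eq_one.1 e)

theorem XD.key1 (h : XD p T X P) (hr : rk p (⊤ : Subgroup G) ≤ 2) (h0 : ⁅P, P⁆ ≠ ⊥) {w : G}
    (hw : w ^ p = 1) (h1 : (Cx(w)).relIndex P ≤ p) : w ∈ P := h.key hr hw (by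
  have e := card_inf_mul_relIndex Cx(w) P
  rw [h.card, h.cZ h0, inf_comm] at e
  exact Nat.le_of_mul_le_mul_right (e.ge.trans (Nat.mul_le_mul_left _ h1)) hp.out.pos)

theorem XD.not_cyc (h : XD p T X P) : ¬ Cyc P := fun hc => by
  obtain ⟨x, e⟩ := cyc_iff.1 hc
  have h1 := Nat.le_of_dvd hp.out.pos (orderOf_dvd_of_pow_eq_one (h.exp x (e ▸ mem_zpowers x)))
  rw [← Nat.card_zpowers, e, h.card] at h1
  have h2 : 0 < Nat.card (⁅P, P⁆ : Subgroup G) := Nat.card_pos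
  have := hp.out.one_lt
  nlinarith

/-- a perfect invariant subgroup meeting `P` inside `P'` is a `p'`-group -/
theorem XD.ndv (h : XD p T X P) (hr : rk p (⊤ : Subgroup G) ≤ 2) {L : Subgroup G} (PL : P ≤ Nm(L))
    (hL : ⁅L, L⁆ = L) (h1 : P ⊓ L ≤ ⁅P, P⁆) : Pp p L := by
  refine pp_of_not_dvd fun hd => ?_
  obtain ⟨S, hS, PS⟩ := exists_sylIn_ge h.pgrp (le_sup_right : P ≤ L ⊔ P)
  have n1 : L ⊔ P ≤ Nm(L) := sup_le le_normalizer PL
  have hU := hS.inf_normal' n1 le_sup_left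
  set U := S ⊓ L with eU
  have SU : S ≤ Nm(U) := le_normalizer_inf le_normalizer (hS.le.trans n1)
  obtain ⟨z, z1, z2, z3⟩ := exists_mem_OZ hS.pgrp (inf_le_left : U ≤ S) SU (hU.ne_bot_iff.2 hd)
  obtain ⟨⟨-, z3⟩, z4⟩ := mem_OZ.1 z3
  have z5 : z ∈ ⁅P, P⁆ := h1 (mi (h.key0 hr z4 (Cz_anti PS z3)) z1.2)
  have h0 := ne_bot_of_mem z5 z2
  have hZ : El p 1 ⁅P, P⁆ ⊤ := el_one le_top (h.cZ h0)
  have eZ := hZ.eq_zpowers z5 z2
  have ZU : ⁅P, P⁆ ≤ U := eZ ▸ zpowers_le.2 z1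
  by_cases hc : Cyc U
  swap
  · obtain ⟨E, e1, e2⟩ := exists_normal_el_two h.h2 hS.pgrp inf_le_left SU hc
    have e3 := relIndex_Cz_dvd_prime e1.eab e1.rk_eq.le h.pgrp (PS.trans e2)
    refine absurd (e1.le_of_le hZ fun u hu => h1 (mi (h.key1 hr h0 (e1.eab.2 u hu) ?_)
      (e1.le hu).2)) (by omega)
    exact Nat.le_of_dvd hp.out.pos ((relIndex_dvd_of_le_left P (Cz_le_Cx hu)).trans e3)
  have OU : ∀ x ∈ U, x ^ p = 1 → x ∈ zpowers z := fun x hx e => by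
    have := eq_of_le_of_card_ge (hZ.mono ZU).le_Om
      ((Nat.le_of_dvd hp.out.pos (card_Om_of_cyc hc)).trans hZ.card_one.ge)
    rw [eZ, this]
    exact CfH7.mem_omegaOne hx e
  set H := (L ⊔ P) ⊓ Nm(U)
  have SH : S ≤ H := le_inf hS.le SU
  have HC : H ≤ Nm(Cz(U)) := inf_le_right.trans (Nm_le_Nm_Cz U)
  by_cases e : pResidualOf p (H ⊓ Nm(S)) ≤ Cz(U)
  · refine not_pNil_of_perfect hL hd (burnside_pNil hU ?_)
    have a1 : H ≤ Nm((H ⊓ Cz(U)) ⊔ S) := le_Nm_of_der_le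
      ((le_inf (der_le H) (commutator_le_Cz_of_isCyclic hc inf_le_right)).trans le_sup_left)
      (sup_le inf_le_left SH)
    have a2 := (hS.mono le_sup_right ((sup_le inf_le_left SH).trans inf_le_left)).frattini_sup a1
      (sup_le inf_le_left SH)
    have a3 := (hS.mono (le_inf SH le_normalizer) (inf_le_left.trans inf_le_left)).sup_pResidualOf
    have a4 : H ≤ S ⊔ Cz(U) := by
      rw [← a2, ← a3]
      exact sup_le (sup_le (inf_le_right.trans le_sup_right) le_sup_left)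
        (sup_le (e.trans le_sup_right) le_sup_left)
    have a5 : L ⊓ Nm(U) ≤ H := inf_le_inf_right _ le_sup_left
    rw [← (hU.mono (le_inf hU.le le_normalizer) inf_le_left).sup_pResidualOf]
    refine sup_le ((isPGroup_qb_iff (a5.trans HC)).1 ((isPGroup_qb hS.pgrp).to_le ?_))
      (le_Cz_of_comm hc.ab)
    rw [qb_le_qb_iff (a5.trans HC) (SH.trans HC)]
    exact a5.trans a4
  refine e (pRes_le_of_forall fun B b1 b2 b3 => ?_)
  have BL : B ≤ L := b3.trans (pResidualOf_le_of_le_sup h.pgrp PL (inf_le_left.trans inf_le_left))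
  have BS : B ≤ Nm(S) := b1.trans inf_le_right
  refine le_Cz_of_omega hU.pgrp (b1.trans (inf_le_left.trans inf_le_right)) b2 fun x hx e1 => ?_
  by_contra n
  have n2 : z ∉ Cz(B) := fun e2 => n (zpowers_le.2 e2 (OU x hx (e1.resolve_right fun a => h.h2 a.1)))
  have c1 := commutator_sup_centralizer_eq BS (b2.cop hS.pgrp) (.inr (sol_of_isPGroup hS.pgrp))
  have c2 : ⁅S, B⁆ ≤ U := le_inf (comm_le_left BS) ((commutator_mono le_rfl BL).trans
    (comm_le_right (hS.le.trans n1)))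
  have c3 : S ⊓ Cz(B) ⊓ U = ⊥ := by
    by_contra e2
    obtain ⟨y, y1, y2⟩ := exists_orderOf_eq_prime
      (dvd_card_of_ne_bot (hU.pgrp.to_le inf_le_right) e2)
    have := hZ.eq_zpowers (eZ ▸ OU y y1.2 (pow_eq_one_of_orderOf y2)) (ne_one_of_orderOf_eq_prime y2)
    exact n2 (zpowers_le.2 y1.1.2 (this ▸ z5))
  have c4 : qb U P ≤ qb U (S ⊓ Cz(B)) := by
    rw [qb_le_qb_iff (PS.trans SU) (inf_le_left.trans SU), sup_comm]
    exact PS.trans (c1.ge.trans (sup_le_sup_right c2 _))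
  have c5 : El p 2 (qb U P) (qb U (S ⊓ Cz(B))) := by
    refine ⟨c4, ⟨(ab_qb_iff (PS.trans SU)).2 ZU, ?_⟩, ?_⟩
    · rintro _ ⟨g, hg, rfl⟩
      rw [← map_pow, show g ^ p = 1 from Subtype.ext (h.exp g hg), map_one]
    · have := card_qb_mul (PS.trans SU)
      rw [h.card, le_antisymm ((inf_le_inf_left P inf_le_right).trans h1)
        (le_inf (der_le P) ZU)] at this
      exact Nat.eq_of_mul_eq_mul_right Nat.card_pos this
  have c6 := c5.le_rk
  rw [rk_qb_of_inf (inf_le_left.trans SU) c3] at c6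
  have c7 := rk_add_le (p := p) (A := S ⊓ Cz(B)) (B := ⁅P, P⁆) le_top le_top
    (eZ ▸ Cz_zpowers z ▸ inf_le_left.trans (le_Cx_iff.2 z3))
    (eq_bot_iff.2 ((inf_le_inf_left _ ZU).trans c3.le))
  rw [hZ.rk_eq] at c7
  omega

/-- inside an invariant `p`-group, `X` is characteristic -/
theorem XD.char (h : XD p T X P) (hr : rk p (⊤ : Subgroup G) ≤ 2) {R : Subgroup G}
    (hR : IsPGroup p R) (XR : X ≤ R) (TR : T ≤ Nm(R)) : Nm(R) ≤ Nm(X) := by
  have PR := h.PX.trans XR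
  have fin : ∀ W : Subgroup G, Nm(R) ≤ Nm(W) → W ≤ P → ¬ W ≤ ⁅P, P⁆ → Nm(R) ≤ Nm(X) :=
    fun W w1 w2 w3 => by
    rw [le_antisymm ((h.irr W (XR.trans (le_normalizer.trans w1)) (TR.trans w1)).resolve_right
      fun e => w3 ((le_inf w2 le_rfl).trans e)) (w2.trans h.PX)]
    exact w1
  have a1 : OZ p R ≤ P := fun z hz =>
    h.key0 hr (mem_OZ.1 hz).2 (Cz_anti PR (mem_OZ.1 hz).1.2)
  by_cases e : OZ p R ≤ ⁅P, P⁆
  swap
  · exact fin _ (Nm_le_Nm_OZ R) a1 e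
  have hc : ¬ Cyc R := fun hc => h.not_cyc (isCyclic_of_le PR hc)
  have h0 := ne_bot_of_le e (OZ_ne_bot hR fun e => hc (e ▸ cyc_bot))
  obtain ⟨a2, a3⟩ := Om_Z2 h.h2 hR hc
  refine fin _ ((Nm_le_Nm_Z2 R).trans (CfH7.Nm_le_Nm_omegaOne _)) (fun w hw => h.key1 hr h0 (a3 w hw) ?_)
    fun e2 => a2 (isCyclic_of_le e2 (cyc_of_card_dvd h.cz))
  rw [← h.cZ h0]
  refine relIndex_Cx_le fun x hx => e (mem_OZ.2 ?_)
  obtain ⟨w1, w2⟩ := mem_Z2.1 (CfH7.omegaOne_le _ hw)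
  have w3 := w2 x (PR hx)
  refine ⟨w3, ?_⟩
  have cm : Commute ⁅x, w⁆ w := (w3.2 w w1).symm
  have e1 : x * w * x⁻¹ = ⁅x, w⁆ * w := by rw [commutatorElement_def]; group
  have e2 := congrArg (· ^ p) e1
  simpa only [conj_pow, cm.mul_pow, a3 w hw, mul_one, mul_inv_cancel, eq_comm] using e2

theorem three (hr : ∀ r : ℕ, r.Prime → r ≠ 2 → rk r (⊤ : Subgroup G) ≤ 2) {L : Subgroup G}
    (hL : IsComponent L) (g k : G) : cj g L = L ∨ cj k L = L ∨ cj g L = cj k L := by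
  by_contra! n
  obtain ⟨n1, n2, n3⟩ := n
  obtain ⟨r, r1, r2, r3⟩ : ∃ r : ℕ, r.Prime ∧ r ∣ Nat.card L ∧ r ≠ 2 := by
    by_contra! e
    exact qs_not_le_of_isPGroup (p := 2) hL.2 (IsPGroup.iff_card.2 ⟨_,
      Nat.eq_prime_pow_of_unique_prime_dvd Nat.card_pos.ne' fun a b => e _ a b⟩) le_rfl
  haveI := Fact.mk r1
  obtain ⟨S, hS⟩ := exists_sylIn r L
  obtain ⟨x, x1, x2, x3⟩ : ∃ x ∈ L, x ^ r = 1 ∧ x ∉ Cz(L) := by
    by_contra! e
    exact not_pNil_of_perfect (qs_perfect hL.2) r2 (pNil_of_omega r3 hS fun t ht h1 a ha _ => by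
      rw [e t (hS.le ht) h1 a ha, mul_inv_cancel_right])
  have c : ∀ a b : G, cj a L ≠ cj b L → cj a L ≤ Cz(cj b L) := fun a b e =>
    commutator_eq_bot_iff_le_centralizer.1 ((component_eq_or_commutator_eq_bot
      (component_conj hL a) (component_conj hL b)).resolve_left e)
  have nc : ∀ a : G, a * x * a⁻¹ ∉ Cz(cj a L) := fun a e => by
    rw [← cj_centralizer, conj_mem_cj_iff] at e; exact x3 e
  have pw : ∀ a : G, (a * x * a⁻¹) ^ r = 1 := fun a => by rw [conj_pow, x2, mul_one, mul_inv_cancel]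
  have m : ∀ a : G, zpowers (a * x * a⁻¹) ≤ cj a L := fun a => zpowers_le.2 (conj_mem_cj a x1)
  rw [← cj_one L, ← cj_mul, mul_one] at n1 n2
  have e1 : El r 1 _ ⊤ := (el_zero r ⊤).sup_zpowers (mem_top _) (pw 1) (CfFT.Cz_bot (G := G) ▸ mem_top _)
    fun e => nc 1 (by rw [mem_bot.1 e]; exact one_mem _)
  rw [bot_sup_eq] at e1
  have e2 := e1.sup_zpowers (mem_top _) (pw g) (Cz_anti (m 1) (c _ _ n1 (conj_mem_cj g x1)))
    fun e => nc g (c _ _ n1.symm (m 1 e))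
  have e3 := e2.sup_zpowers (mem_top _) (pw k) ((Cz_sup _ _).ge (mi
    (Cz_anti (m 1) (c _ _ n2 (conj_mem_cj k x1))) (Cz_anti (m g) (c _ _ n3.symm (conj_mem_cj k x1)))))
    fun e => nc k (sup_le ((m 1).trans (c _ _ n2.symm)) ((m g).trans (c _ _ n3)) e)
  have := e3.le_rk.trans (hr r r1 r3)
  omega

theorem cj_le_sup (hr : ∀ r : ℕ, r.Prime → r ≠ 2 → rk r (⊤ : Subgroup G) ≤ 2) {L : Subgroup G}
    (hL : IsComponent L) (hT : SylIn 2 T ⊤) (g : G) : cj g L ≤ L ⊔ T := by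
  by_cases e : g ∈ Nm(L)
  · rw [cj_eq_of_mem_normalizer e]; exact le_sup_left
  have i : Nm(L).index = 2 := index_eq_two_iff.2 ⟨g, fun b => by
    by_cases hb : b ∈ Nm(L)
    · exact .inr ⟨hb, fun h => e ((mul_mem_cancel_left hb).1 h)⟩
    refine .inl ⟨?_, hb⟩
    obtain h | h | h := three hr hL g b⁻¹
    · exact absurd (mem_normalizer_iff_cj.2 h) e
    · exact absurd (inv_mem_iff.1 (mem_normalizer_iff_cj.2 h)) hb
    · rw [mem_normalizer_iff_cj, cj_mul, h, cj_cj_inv]⟩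
  have nT : ¬ T ≤ Nm(L) := fun h => hT.not_dvd_relIndex_of_le h (by rw [relIndex_top_right, i])
  obtain ⟨t, ht, nt⟩ := SetLike.not_le_iff_exists.1 nT
  obtain h | h | h := three hr hL g t
  · exact absurd (mem_normalizer_iff_cj.2 h) e
  · exact absurd (mem_normalizer_iff_cj.2 h) nt
  · rw [h]; exact CfFT.cj_le_of_mem le_sup_left (le_sup_right (a := L) ht)

/-- the main step -/
theorem XD.core (h : XD p T X P) (hT : SylIn 2 T ⊤) (h0 : Op 2 (⊤ : Subgroup G) = ⊥)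
    (hr : ∀ r : ℕ, r.Prime → r ≠ 2 → rk r (⊤ : Subgroup G) ≤ 2)
    (hL : ∀ L : Subgroup G, IsComponent L → ¬ X ≤ L ⊔ T) : ⊤ ≤ Nm(X) := by
  have hrp := hr p hp.out h.h2
  have cop : ∀ L : Subgroup G, ⊤ ≤ Nm(L) → Pp p L → X ≤ Cz(L) := fun L a b =>
    h.cop (le_top.trans a) (le_top.trans a) b (eq_bot_iff.2 (h0 ▸ le_pCoreOf le_top
      (a.trans (Nm_le_Nm_char _)) (isPGroup_pCoreOf L))) fun r r1 r2 =>
        haveI := Fact.mk r1; (rk_mono le_top).trans (hr r r1 r2)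
  have a1 : X ≤ Cz(layer G) := by
    rw [le_centralizer_iff, layer_le_iff]
    intro L l
    have n : ⊤ ≤ Nm(⨆ g, cj g L) := fun k _ => mem_normalizer_of_cj_le (by
      rw [cj_iSup]
      exact iSup_le fun g => cj_mul k g L ▸ le_iSup (fun g => cj g L) (k * g))
    have pf : ⁅⨆ g, cj g L, ⨆ g, cj g L⁆ = ⨆ g, cj g L := le_antisymm (der_le _) (iSup_le fun g =>
      (qs_perfect (component_conj l g).2).ge.trans (commutator_mono (le_iSup (fun g => cj g L) g)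
        (le_iSup (fun g => cj g L) g)))
    refine le_Cz_comm ((cop _ n (h.ndv hrp (le_top.trans n) pf ((h.irr _ (le_top.trans n)
      (le_top.trans n)).resolve_left fun e => hL L l (e.trans (iSup_le (cj_le_sup hr l hT)))))).trans
      (Cz_anti ((cj_one L).ge.trans (le_iSup (fun g => cj g L) 1))))
  have nF : ⊤ ≤ Nm(Op' p (Fit (⊤ : Subgroup G))) :=
    (le_normalizer_map_subtype _).trans (normalizer_le_normalizer_pPrimeCoreOf _)
  have a2 := cop _ nF (pp_Op' _)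
  have hR := isPGroup_pCoreOf (p := p) (⊤ : Subgroup G)
  have nR := le_normalizer_pCoreOf (p := p) (⊤ : Subgroup G)
  obtain ⟨D, -, d2, d3, d4, d5⟩ := exists_crit_rank2 h.h2 hR ((rk_mono le_top).trans hrp)
  have nD := nR.trans d2
  have nP := nD.trans (Nm_le_Nm_Phi D)
  have a3 := h.act h.h2 d3 d4 nD le_top fun K hK =>
    (h.irr K (le_top.trans hK) (le_top.trans hK)).imp_left h.PX.trans
  set K := Cz(layer G) ⊓ Cz(Op' p (Fit (⊤ : Subgroup G))) ⊓ qp (Phi D) Cz(qb (Phi D) D)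
  have nK : ⊤ ≤ Nm(K) := le_normalizer_inf (le_normalizer_inf le_normalizer_of_normal
    (nF.trans (Nm_le_Nm_Cz _))) (le_Nm_qp nP ((qb_le_Nm nD).trans (Nm_le_Nm_Cz _)))
  have cK : ∀ B : Subgroup G, B ≤ qp (Phi D) Cz(qb (Phi D) D) ↔ ⁅D, B⁆ ≤ Phi D := fun B => by
    rw [← qb_le_iff (le_top.trans nP), qb_le_Cz_iff (le_top.trans nP) (le_Nm_Phi D),
      Subgroup.commutator_comm]
  have PK : P ≤ K := le_inf (le_inf (h.PX.trans a1) (h.PX.trans a2)) ((cK P).2 a3)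
  have a4 : pResidualOf p K ≤ Op' p (Fit (⊤ : Subgroup G)) := pRes_le_of_forall fun B b1 b2 _ => by
    refine (nil_Fit ⊤).le_Op' b2 ?_
    rw [fittingOf_top]
    refine le_trans ?_ centralizer_fstar_le_fitting
    rw [generalizedFittingSubgroup, Cz_sup, ← fittingOf_top]
    refine le_inf (b1.trans (inf_le_left.trans inf_le_left)) (le_trans ?_ (Cz_anti (Fit_le_sup (p := p) ⊤)))
    rw [Cz_sup]
    exact le_inf (d5 B (le_top.trans nR) b2 ((cK B).1 (b1.trans inf_le_right)))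
      (b1.trans (inf_le_left.trans inf_le_right))
  obtain ⟨S, hS, PS⟩ := exists_sylIn_ge h.pgrp PK
  have a5 : K ≤ Nm(S) := hS.sup_pResidualOf.ge.trans (sup_le (le_Nm_of_le_Cz (a4.trans
    (le_Cz_comm (hS.le.trans (inf_le_left.trans inf_le_right))))) le_normalizer)
  have a6 : P ≤ Op p (⊤ : Subgroup G) := (PS.trans (le_pCoreOf hS.le a5 hS.pgrp)).trans
    (le_pCoreOf le_top (nK.trans (Nm_le_Nm_char _)) (isPGroup_pCoreOf K))
  exact nR.trans (h.char hrp hR (h.le_of (le_top.trans nR) (le_top.trans nR) a6) (le_top.trans nR))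

end CfH1.Xi
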