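import Cfsg.Agent.H1.Xi2
import Cfsg.Agent.H7.CharP
import Cfsg.Prelude.Def_Quasithin

/-! Members of `Ξ*(G, T)` are normal in the maximal 2-locals over `XT`. -/

set_option autoImplicit false
set_option linter.unusedSectionVars false

namespace CfH1.Xi

open Cfsg Subgroup CfH9 CfH7 CfH8 CfH1 CfFT
open scoped commutatorElement

variable {G : Type*} [Group G] [Finite G] {p r : ℕ} {T X P : Subgroup G}

theorem odd_eq (H : Subgroup G) : oddGenerated H = pResidualOf 2 H := by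
  rw [pResidualOf_eq_closure]
  simp only [oddGenerated, Nat.coprime_two_right]

theorem xd_of (hX : X ∈ Xi T) : ∃ (p : ℕ) (P : Subgroup G), p.Prime ∧ XD p T X P ∧ SylIn p P X ∧
    P ⊔ Op 2 X = X ∧ pResidualOf 2 X = X := by
  obtain ⟨h1, TX, -, ⟨p, hp, h2, h3⟩, h4⟩ := hX
  haveI := Fact.mk hp
  rw [odd_eq] at h1
  obtain ⟨P, hP⟩ := exists_sylIn p X
  set f := QuotientGroup.mk' (pCore 2 X)
  have hq : IsPGroup p (X ⧸ pCore 2 X) := h3.elim (fun h => .of_card h.1) fun h => .of_card h.1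
  have hY := isPGroup_pCoreOf (p := 2) X
  have nY := normalizer_le_normalizer_pCoreOf (p := 2) X
  have PY := hP.le.trans (le_normalizer.trans nY)
  have i : P ⊓ Op 2 X = ⊥ := (cop_of_isPGroup h2 hP.pgrp hY).inf_eq_bot
  have e1 : (P.subgroupOf X).map f = ⊤ :=
    ((hP.subgroupOf_top.map_surj (QuotientGroup.mk'_surjective _)).eq_of_le (hq.to_subgroup ⊤)
      le_rfl le_top).symm
  have key : ∀ A : Subgroup X, ((A.map f).comap f).map X.subtype = A.map X.subtype ⊔ Op 2 X :=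
    fun A => by rw [comap_map_eq, QuotientGroup.ker_mk', Subgroup.map_sup]; rfl
  have e2 : P ⊔ Op 2 X = X := by
    have := key (P.subgroupOf X)
    rwa [e1, comap_top, ← MonoidHom.range_eq_map, range_subtype, map_subgroupOf_eq_of_le hP.le,
      eq_comm] at this
  have e3 : twoPhiCore X = Phi P ⊔ Op 2 X := by
    have := key (Phi (P.subgroupOf X))
    rwa [map_Phi (isPGroup_subgroupOf hP.pgrp X), e1, Phi_top,
      map_Phi_of_injective _ X.subtype_injective, map_subgroupOf_eq_of_le hP.le] at this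
  have e4 : Nat.card (X ⧸ pCore 2 X) = Nat.card P := by
    have := card_map_mul_card_inf_ker f (P.subgroupOf X)
    rw [e1, card_top, CfH9.card_subgroupOf hP.le, QuotientGroup.ker_mk', ← CfH9.card_map_subtype,
      map_inf_eq _ _ _ X.subtype_injective, map_subgroupOf_eq_of_le hP.le, inf_comm] at this
    erw [i] at this
    rwa [card_bot, mul_one] at this
  have ded : ∀ A, A ≤ P → P ⊓ (A ⊔ Op 2 X) = A := fun A a => by
    rw [inf_comm, CfH9.inf_sup_dedekind (.inl (a.trans PY)) a, inf_comm, i, sup_bot_eq]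
  have chr : ∀ A : Subgroup G, Nm(P) ≤ Nm(A) → Nm(X) ≤ Nm(A ⊔ Op 2 X) := fun A a g hg => by
    have b : Nm(X) ⊓ Nm(P) ≤ Nm(A ⊔ Op 2 X) :=
      le_normalizer_sup (inf_le_right.trans a) (inf_le_left.trans nY)
    obtain ⟨n, hn, x, hx, rfl⟩ := hP.frattini hg
    refine mul_mem ?_ (b (mi ((mul_mem_cancel_left (le_normalizer hn)).1 hg) hx))
    exact sup_le ((le_inf (hP.le.trans le_normalizer) le_normalizer).trans b)
      (le_sup_right.trans le_normalizer) (e2.ge hn)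
  have irr : ∀ K : Subgroup G, X ≤ Nm(K) → T ≤ Nm(K) → X ≤ K ∨ P ⊓ K ≤ Phi P := fun K a b => by
    have a' : X ≤ Nm(X ⊓ K) := le_normalizer_inf le_normalizer a
    have c : Phi P ⊔ Op 2 X ≤ X := sup_le ((Phi_le P).trans hP.le) (pCoreOf_le X)
    rw [e3] at h4
    obtain e | e := h4 ((X ⊓ K) ⊔ (Phi P ⊔ Op 2 X)) le_sup_right (sup_le inf_le_left c)
      (le_normalizer_sup (le_normalizer_inf TX b) (TX.trans (chr _ (Nm_le_Nm_Phi P))))
    · exact .inr ((le_inf inf_le_left ((inf_le_inf_right K hP.le).trans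
        (le_sup_left.trans e.le))).trans (ded _ (Phi_le P)).le)
    left
    have a2 : X ≤ Nm((X ⊓ K) ⊔ Op 2 X) := le_normalizer_sup a' (le_normalizer.trans nY)
    have a3 : P ≤ (X ⊓ K) ⊔ Op 2 X := by
      refine (le_of_le_sup_Phi (inf_le_right (a := (X ⊓ K) ⊔ Op 2 X)) ?_).trans inf_le_left
      rw [← CfH8.inf_sup_dedekind' ((Phi_le P).trans (hP.le.trans a2)) (Phi_le P)]
      refine le_inf (hP.le.trans (e.ge.trans ?_)) le_rfl
      rw [sup_comm (Phi P), sup_assoc]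
    exact h1.ge.trans ((pResidualOf_le_of_le_sup hY ((pCoreOf_le X).trans a')
      (e2.ge.trans (sup_le a3 le_sup_right))).trans inf_le_right)
  have mem : ∀ x : X, (x : G) ∈ P → f x = 1 → (x : G) = 1 := fun x a b => by
    rw [← mem_bot, ← i]
    exact mi a ⟨x, (QuotientGroup.eq_one_iff x).1 b, rfl⟩
  have fin : (∀ x ∈ P, x ^ p = 1) → Nat.card P = p ^ 2 * Nat.card (⁅P, P⁆ : Subgroup G) →
      Nat.card (⁅P, P⁆ : Subgroup G) ∣ p → XD p T X P := fun a b c =>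
    ⟨h2, TX, hP.le, a, b, c, fun K d e => (irr K d e).imp_right fun e =>
      e.trans (Phi_le_of le_rfl fun x hx => by rw [a x hx]; exact one_mem _)⟩
  refine ⟨p, P, hp, ?_, hP, e2, h1⟩
  obtain ⟨c1, c2, c3⟩ | ⟨c1, c2⟩ := h3
  · rw [e4] at c1
    have := ab_iff_comm.1 (ab_of_card_dvd_sq c1.dvd)
    refine fin (fun x hx => mem (⟨x, hP.le hx⟩ ^ p) (pow_mem hx p) (by rw [map_pow, c3])) ?_ ?_
    · rw [this, card_bot, mul_one, c1]
    · rw [this, card_bot]; exact one_dvd _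
  rw [e4] at c1
  have na : ¬ Ab P := fun h => c2 ⟨⟨fun a b => by
    obtain ⟨a, ha, rfl⟩ := e1.ge (mem_top a)
    obtain ⟨b, hb, rfl⟩ := e1.ge (mem_top b)
    rw [← map_mul, ← map_mul]
    exact congrArg f (Subtype.ext (comm_iff.1 h a ha b hb))⟩⟩
  have nc : ¬ Cyc P := fun h => na h.ab
  have d1 : Nat.card (⁅P, P⁆ : Subgroup G) ∣ p := by
    simpa only [pow_one] using card_der_dvd (k := 1) c1.dvd
  have d2 := ((Nat.dvd_prime hp).1 d1).resolve_left fun e => na (ab_iff_comm.2 (card_eq_one.1 e))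
  refine fin ?_ (by rw [d2, c1, pow_succ]) d1
  have nO := chr _ (CfH7.Nm_le_Nm_omegaOne (p := p) P)
  obtain e | e := irr _ (le_normalizer.trans nO) (TX.trans nO)
  · intro x hx
    exact ((mem_Om_of_class2 h2 (class2_of_card c1.dvd)).1
      ((ded _ (CfH7.omegaOne_le P)).le (mi hx (e (hP.le hx))))).2
  rw [ded _ (CfH7.omegaOne_le P)] at e
  refine absurd (cyc_of_Om_le h2 hP.pgrp e (cyc_of_card_dvd (p := p) ?_)) nc
  obtain ⟨k, hk⟩ := sq_dvd_relIndex_of_le_Phi hP.pgrp le_rfl (le_Nm_Phi P) nc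
  have := CfH9.card_mul_relIndex (Phi_le P)
  rw [hk, c1, pow_succ, mul_left_comm] at this
  exact ⟨k, (Nat.eq_of_mul_eq_mul_left (pow_pos hp.pos 2) this).symm⟩

variable [hp : Fact p.Prime]

theorem XD.qb (h : XD p T X P) {Q : Subgroup G} (hQ : IsPGroup 2 Q) (XQ : X ≤ Nm(Q))
    (TQ : T ≤ Nm(Q)) : XD p (qb Q T) (qb Q X) (qb Q P) := by
  have PQ := h.PX.trans XQ
  have c : ∀ A, A ≤ P → Nat.card (CfH8.qb Q A) = Nat.card A := fun A a => by
    rw [← card_qb_mul (a.trans PQ), (cop_of_isPGroup h.h2 (h.pgrp.to_le a) hQ).inf_eq_bot, card_bot,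
      mul_one]
  refine ⟨h.h2, qb_le_Nm h.TX, qb_mono h.PX, ?_, ?_, ?_, fun K a b => ?_⟩
  · rintro _ ⟨g, hg, rfl⟩
    rw [← map_pow, show g ^ p = 1 from Subtype.ext (h.exp g hg), map_one]
  · rw [← qb_commutator PQ PQ, c _ le_rfl, c _ (der_le P), h.card]
  · rw [← qb_commutator PQ PQ, c _ (der_le P)]; exact h.cz
  refine (h.irr _ (le_Nm_qp XQ a) (le_Nm_qp TQ b)).imp (qb_le_iff XQ).2 fun e => ?_
  rw [← qb_inf_qp, ← qb_commutator PQ PQ]; exact qb_mono e

/-- the `𝒞`-component over a component of `N(Q) / Q` -/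
theorem exists_calL (hT : SylIn 2 T ⊤) {Q : Subgroup G} (hQ : IsPGroup 2 Q) (h0 : Q ≠ ⊥)
    (TQ : T ≤ Nm(Q)) {K : Subgroup (NQ Q)} (hK : IsComponent K) :
    ∃ L ∈ calL T, IsQuasisimple (L ⧸ pCore 2 L) ∧ L ≤ Nm(Q) ∧ qb Q L = K := by
  have QT : Q ≤ T := hT.le_of_le_Nm hQ le_top TQ
  set A := qp Q K
  have AQ : A ≤ Nm(Q) := qp_le K
  set L := pResidualOf 2 A with eL
  have LA : L ≤ A := pResidualOf_le A
  have LQ := LA.trans AQ
  have pK := qs_perfect hK.2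
  have e1 : qb Q L = K := by rw [eL, qb_pResidualOf AQ, qb_qp, pResidualOf_eq_of_perfect pK]
  have QL : Q ≤ Nm(L) := (le_qp K).trans (le_normalizer_pResidualOf A)
  have res : ∀ B, B ≤ Nm(Q) → Q ≤ Nm(B) → K ≤ qb Q B → L ≤ B := fun B a b c =>
    pResidualOf_le_of_le_sup hQ b ((qp_mono c).trans (qp_qb a).le)
  have pL : ⁅L, L⁆ = L := le_antisymm (der_le L) (res _ ((der_le L).trans LQ)
    (QL.trans (Nm_le_Nm_der L)) (by rw [qb_commutator LQ LQ, e1, pK]))
  have n2 : ¬ IsPGroup 2 L := fun h => qs_not_le_of_isPGroup hK.2 (isPGroup_qb h) e1.ge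
  have sA : SubnIn A Nm(Q) := subnIn_map_subtype_iff.2 (hK.1.comap _)
  have sL : SubnIn L (L ⊔ T) := ((subnIn_of_normal LA (le_normalizer_pResidualOf A)).trans
    sA).mono_right le_sup_left (sup_le LQ TQ)
  have QO : Q ≤ Op 2 (L ⊔ T) := le_pCoreOf (QT.trans le_sup_right) (sup_le LQ TQ) hQ
  refine ⟨L, ⟨⟨fun e => n2 ?_, ?_, sL.2, fun B hB ⟨b1, b2, b3⟩ => ?_⟩,
    ⟨(hT.mono le_sup_right le_top).toSylow, rfl⟩,
    fun e => h0 (eq_bot_iff.2 (QO.trans (pCoreOf_eq_bot_iff.2 e).le))⟩, ?_, LQ, e1⟩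
  · rw [← map_subgroupOf_eq_of_le (le_sup_left : L ≤ L ⊔ T), e, Subgroup.map_bot]
    exact IsPGroup.of_bot
  · rw [← CfH7.subgroupOf_commutator le_sup_left le_sup_left, pL]
  · set C := B.map (L ⊔ T).subtype
    have CL : C ≤ L := map_le_iff_le_comap.2 hB.le
    have sC : SubnIn C (L ⊔ T) := subnIn_map_subtype_iff.2 b3
    have pC : ⁅C, C⁆ = C := by rw [← Subgroup.map_commutator, b2]
    have CQ := CL.trans LQ
    obtain e | e := qs_subnIn hK.2 (N := qb Q C) (e1 ▸ ((sC.mono_right CL le_sup_left).subgroupOf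
      Nm(Q)).map (nmQuot Q))
    · have := (qb_le_Cz_iff CQ CQ).1 (e.trans (Cz_anti ((qb_mono CL).trans e1.le)))
      rw [pC] at this
      exact b1 ((map_eq_bot_iff_of_injective _ (L ⊔ T).subtype_injective).1
        (eq_bot_of_perfect_of_isNilpotent pC (hQ.to_le this).isNilpotent))
    · have := sC.pCoreOf_le_Nm_pResidualOf (p := 2)
      rw [pResidualOf_eq_of_perfect pC] at this
      refine hB.not_ge fun x hx => ?_
      obtain ⟨y, hy, e2⟩ := res C CQ (QO.trans this) e.ge hx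
      exact (Subtype.ext e2 : y = x) ▸ hy
  · let f : L →* K := ((nmQuot Q).comp (inclusion LQ)).codRestrict K fun x =>
      e1.le (nmQuot_mem_qb x.2)
    have sf : Function.Surjective f := fun y => by
      obtain ⟨g, hg, e⟩ := e1.ge y.2
      exact ⟨⟨g, hg⟩, Subtype.ext e⟩
    have kf : f.ker ≤ (pCore 2 L).comap (MonoidHom.id L) := le_pCore inferInstance
      ((isPGroup_subgroupOf hQ L).to_le fun x hx => nmQuot_eq_one_iff.1 (congrArg Subtype.val hx))
    haveI : Nontrivial (L ⧸ pCore 2 L) := QuotientGroup.nontrivial_iff.2 fun e =>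
      n2 (pCore_eq_top_iff.1 e)
    refine quasisimple_of_surjective (quasisimple_of_equiv hK.2
      (QuotientGroup.quotientKerEquivOfSurjective f sf).symm)
      (f := QuotientGroup.map f.ker (pCore 2 L) (MonoidHom.id L) kf) fun y => ?_
    obtain ⟨y, rfl⟩ := QuotientGroup.mk_surjective y
    exact ⟨QuotientGroup.mk y, rfl⟩

theorem eq_Nm (hQ : IsQTKE G) (hT : SylIn 2 T ⊤) (hX : X ∈ XiStar T) {M : Subgroup G}
    (hM : IsMaximalTwoLocal M) (hle : X ⊔ T ≤ M) : M = Nm(X) := by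
  obtain ⟨p, P, hp, h, -, -, hO⟩ := xd_of hX.1
  haveI := Fact.mk hp
  have hpar : IsOfParabolicCharacteristic 2 G := fun R hR hR1 hS => hQ.2.2 _ ⟨R, hR, hR1, rfl⟩ hS
  have h2 := isPGroup_pCoreOf (p := 2) M
  have h0 : Op 2 M ≠ ⊥ := by
    obtain ⟨R, a, b, rfl⟩ := hM.1
    exact ne_bot_of_le (le_pCoreOf le_normalizer le_rfl a) b
  have eM := hM.2 _ ⟨_, h2, h0, rfl⟩ (le_normalizer_pCoreOf M)
  have hC := parabolicChar_Cz_pCoreOf_le hpar hT (le_sup_right.trans hle) h0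
  have hb := pCoreOf_qb_pCoreOf (p := 2) M
  set Q := Op 2 M
  have XQ : X ≤ Nm(Q) := le_sup_left.trans (hle.trans eM.ge)
  have TQ : T ≤ Nm(Q) := le_sup_right.trans (hle.trans eM.ge)
  have QT : Q ≤ T := hT.le_of_le_Nm h2 le_top TQ
  have et : qb Q M = ⊤ := top_le_iff.1 fun x _ => by
    obtain ⟨g, rfl⟩ := nmQuot_surjective x
    exact nmQuot_mem_qb (eM.le g.2)
  have c := (h.qb h2 XQ TQ).core (et ▸ sylIn_qb eM.ge (hT.mono (TQ.trans eM.le) le_top)) (et ▸ hb)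
    (fun r r1 r2 => by
      haveI := Fact.mk r1
      rw [← et, rk_qb_pp eM.ge (pp_of_isPGroup r2.symm h2)]
      exact prankLE_iff.1 (hQ.1 r r1 r2 M hM.1)) fun K hK e => by
    obtain ⟨L, l1, l2, l3, rfl⟩ := exists_calL hT h2 h0 TQ hK
    rw [← qb_sup l3 TQ, qb_le_qb_iff XQ (sup_le l3 TQ)] at e
    exact hX.2 L l1 l2 (sup_le (e.trans (sup_le le_rfl (QT.trans le_sup_right))) le_sup_right)
  have c2 := (le_Nm_qp eM.ge (et.le.trans c)).trans (normalizer_le_normalizer_pResidualOf (p := 2) _)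
  rw [qp_qb XQ, pResidualOf_sup_of_isPGroup h2 (QT.trans h.TX), hO] at c2
  have Y0 : Op 2 X ≠ ⊥ := fun e => by
    have a : ⁅Q, X⁆ = ⊥ := eq_bot_iff.2 (e ▸ le_pCoreOf (comm_le_right (QT.trans h.TX))
      (right_le_Nm_comm Q X) (h2.to_le (comm_le_left XQ)))
    have b := pResidualOf_eq_bot_of_isPGroup (h2.to_le ((commutator_eq_bot_iff'.1 a).trans hC))
    exact h.not_le (h.PX.trans ((hO.symm.trans b).le.trans bot_le))
  have nY := normalizer_le_normalizer_pCoreOf (p := 2) X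
  exact le_antisymm c2 (nY.trans (hM.2 _ ⟨_, isPGroup_pCoreOf X, Y0, rfl⟩ (c2.trans nY)).le)

theorem main (hQ : IsQTKE G) (hT : SylIn 2 T ⊤) (hX : X ∈ XiStar T) :
    maxTwoLocalsContaining (X ⊔ T) = {Nm(X)} := by
  refine Set.eq_singleton_iff_nonempty_unique_mem.2 ⟨?_, fun M hM => eq_Nm hQ hT hX hM.1 hM.2⟩
  obtain ⟨M, m1, m2, m3⟩ := exists_maximal_ge IsTwoLocal (A := Nm(Op 2 (X ⊔ T)))
    ⟨_, isPGroup_pCoreOf _, fun e => hX.1.2.2.1 (pCoreOf_eq_bot_iff.1 e), rfl⟩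
  exact ⟨M, ⟨m1, m3⟩, (le_normalizer_pCoreOf _).trans m2⟩

end CfH1.Xi
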