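import Cfsg.Agent.H1.Xi2

/-! Dihedral groups acting on elementary abelian 2-groups with small offenders. -/

set_option autoImplicit false
set_option linter.unusedSectionVars false

namespace CfH1.Xi

open Cfsg Subgroup CfH9 CfH7 CfH8 CfH1 CfFT
open scoped commutatorElement

variable {G : Type*} [Group G] [Finite G] {p r : ℕ}

theorem mem_of_coprime {H : Subgroup G} {g : G} {a b : ℕ} (h : a.Coprime b) (ha : g ^ a ∈ H)
    (hb : g ^ b ∈ H) : g ∈ H := by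
  have e : g = (g ^ a) ^ (a.gcdA b) * (g ^ b) ^ (a.gcdB b) := by
    rw [← zpow_natCast, ← zpow_natCast, ← zpow_mul, ← zpow_mul, ← zpow_add, ← Nat.gcd_eq_gcd_ab,
      h.gcd_eq_one, Nat.cast_one, zpow_one]
  rw [e]
  exact mul_mem (zpow_mem ha _) (zpow_mem hb _)

theorem ri0 (A B : Subgroup G) : A.relIndex B ≠ 0 := index_ne_zero_of_finite

theorem inv_Nm {a y : G} (h : a * y * a⁻¹ = y⁻¹) : a ∈ Nm(zpowers y) := by
  rw [mem_normalizer_iff_cj, cj_zpowers, h, zpowers_inv]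

theorem cx_Nm {a y : G} (h : a ∈ Cx(y)) : a ∈ Nm(zpowers y) := Cz_le_Nm _ (Cz_zpowers y ▸ h)

variable [hp : Fact p.Prime]

theorem cop_zp (h2 : p ≠ 2) {V : Subgroup G} (hV : EAb 2 V) {y : G} (hy : y ^ p = 1) :
    Cop (zpowers y) V :=
  cop_of_isPGroup h2 (isPGroup_zpowers (k := 1) (by rwa [pow_one])) (elemAb_isPGroup hV)

theorem dpy (h2 : p ≠ 2) {V : Subgroup G} (hV : EAb 2 V) {y : G} (hy : y ^ p = 1) (n : y ∈ Nm(V)) :
    ⁅V, zpowers y⁆ ⊓ Cx(y) = ⊥ ∧ Nat.card (⁅V, zpowers y⁆ : Subgroup G) = (Cx(y)).relIndex V := by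
  have d := dp_comm_Cz hV.1 (zpowers_le.2 n) (cop_zp h2 hV hy)
  rw [Cz_zpowers] at d
  refine ⟨eq_bot_iff.2 (le_trans (le_inf (inf_le_inf_right _ d.right_le) inf_le_left) d.inf.le), ?_⟩
  rw [← d.sd.relIndex_left, inf_relIndex_left]

theorem fpf_dvd {W : Subgroup G} {y : G} (hy : y ^ p = 1) (y1 : y ≠ 1) (n : y ∈ Nm(W))
    (h : W ⊓ Cx(y) = ⊥) : p ∣ Nat.card W - 1 := by
  have e : Nat.card (zpowers y) = p := by rw [Nat.card_zpowers, orderOf_eq_prime hy y1]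
  exact e ▸ (sReg_of_prime (e ▸ hp.out) (Cz_zpowers y ▸ h)).dvd_pred (zpowers_le.2 n)

theorem dih (h2 : p ≠ 2) {W : Subgroup G} (hW : EAb 2 W) {a y : G} (ha : a * a = 1)
    (hy : y ^ p = 1) (h : a * y * a⁻¹ = y⁻¹) (na : a ∈ Nm(W)) (ny : y ∈ Nm(W))
    (h0 : W ⊓ Cx(y) = ⊥) : Nat.card (W ⊓ Cx(a) : Subgroup G) = (Cx(a)).relIndex W ∧
      W ≤ (W ⊓ Cx(a)) ⊔ cj y (W ⊓ Cx(a)) := by
  have ai : a⁻¹ = a := inv_eq_of_mul_eq_one_right ha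
  have e1 : (Cx(a)).relIndex W ≤ Nat.card (W ⊓ Cx(a) : Subgroup G) := relIndex_Cx_le fun w hw => by
    refine mi (commutator_mem_left hw na) (mem_Cx_comm (mem_Cx'.2 ?_))
    have w2 : w⁻¹ = w := inv_eq_of_mul_eq_one_right (by rw [← sq]; exact hW.2 w hw)
    have c := comm_iff.1 hW.1 _ hw _ (conj_mem_of_mem_normalizer na hw)
    rw [commutatorElement_def, w2, ai] at *
    calc a * (w * a * w * a) * a = a * w * a * w * (a * a) := by group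
      _ = w * a * w * a := by rw [ha, mul_one, ← c]; group
  have l : cj y (W ⊓ Cx(a)) ≤ W := CfFT.cj_le_of_mem_Nm inf_le_left ny
  have e2 : (W ⊓ Cx(a)) ⊓ cj y (W ⊓ Cx(a)) = ⊥ := by
    refine eq_bot_iff.2 fun w hw => h0.le (mi hw.1.1 (mem_Cx_comm ?_))
    have c1 : a ∈ Cx(w) := mem_Cx_comm hw.1.2
    have c2 : y * a * y⁻¹ ∈ Cx(w) := mem_Cx_comm (cj_Cx y a ▸ cj_mono y inf_le_right hw.2)
    have c3 : y ^ 2 = y * a * y⁻¹ * a := by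
      rw [← h, ai, sq]
      calc y * y = y * (a * a) * y * (a * a) := by rw [ha]; group
        _ = _ := by group
    exact mem_of_coprime ((Nat.coprime_primes Nat.prime_two hp.out).2 h2.symm)
      (c3 ▸ mul_mem c2 c1) (hy ▸ one_mem _)
  have e3 := CfH9.card_sup_mul_card_inf (A := W ⊓ Cx(a)) (le_Nm_of_ab hW.1 l |>.trans' inf_le_left)
  rw [e2, card_bot, mul_one, card_cj] at e3
  have e4 := card_inf_mul_relIndex Cx(a) W
  rw [inf_comm] at e4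
  have e5 := card_le_of_le (sup_le (inf_le_left (b := Cx(a))) l)
  have e6 : (Cx(a)).relIndex W = Nat.card (W ⊓ Cx(a) : Subgroup G) :=
    le_antisymm e1 (Nat.le_of_mul_le_mul_left (by rw [e4, ← e3]; exact e5) Nat.card_pos)
  exact ⟨e6.symm, (eq_of_le_of_card_ge (sup_le inf_le_left l) (by rw [e3, ← e4, e6])).ge⟩

theorem small (h2 : p ≠ 2) {V : Subgroup G} (hV : EAb 2 V) {a y : G} (ha : a * a = 1)
    (hy : y ^ p = 1) (h : a * y * a⁻¹ = y⁻¹) (na : a ∈ Nm(V)) (ny : y ∈ Nm(V)) (h1 : y ∉ Cz(V))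
    (h4 : (Cx(a)).relIndex ⁅V, zpowers y⁆ ≤ 4) : p = 3 ∨ (p = 5 ∧ (Cx(y)).relIndex V = 16 ∧
      (Cx(a)).relIndex ⁅V, zpowers y⁆ = 4) := by
  obtain ⟨d1, d2⟩ := dpy h2 hV hy ny
  have hW := elemAb_of_le (comm_le_left (zpowers_le.2 ny)) hV
  have ny' : y ∈ Nm(⁅V, zpowers y⁆) := right_le_Nm_comm _ _ (mem_zpowers y)
  obtain ⟨e1, -⟩ := dih h2 hW ha hy h (mem_Nm_commutator na (inv_Nm h)) ny' d1
  have e2 := card_inf_mul_relIndex Cx(a) ⁅V, zpowers y⁆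
  have e3 := fpf_dvd hy (fun e => h1 (e ▸ one_mem _)) ny' d1
  obtain ⟨k, hk⟩ := ((elemAb_isPGroup hW).to_le (inf_le_left (b := Cx(a)))).exists_card_eq
  rw [inf_comm, e1] at e2
  rw [← e2] at e3
  rw [← d2, ← e2]
  have e4 : (Cx(a)).relIndex ⁅V, zpowers y⁆ ≠ 1 := fun e => h1 (zpowers_le.1
    (comm_eq_bot_right.1 (card_eq_one.1 (by rw [← e2, e]))))
  rw [e1] at hk
  rw [hk] at h4 e3 e4 ⊢
  have k2 : k ≤ 2 := (Nat.pow_le_pow_iff_right one_lt_two).1 h4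
  interval_cases k
  · exact absurd rfl e4
  · exact .inl ((Nat.prime_dvd_prime_iff_eq hp.out Nat.prime_three).1 e3)
  · exact ((Nat.Prime.dvd_mul hp.out (m := 3) (n := 5)).1 e3).imp
      (Nat.prime_dvd_prime_iff_eq hp.out Nat.prime_three).1
      fun e => ⟨(Nat.prime_dvd_prime_iff_eq hp.out Nat.prime_five).1 e, rfl, rfl⟩

theorem dd (h2 : p ≠ 2) {V : Subgroup G} (hV : EAb 2 V) {a b y z : G} (ha : a * a = 1)
    (hb : b * b = 1) (hy : y ^ p = 1) (hz : z ^ p = 1) (ay : a * y * a⁻¹ = y⁻¹)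
    (bz : b * z * b⁻¹ = z⁻¹) (az : z ∈ Cx(a)) (bY : b ∈ Cx(y)) (ab : b ∈ Cx(a)) (yz : z ∈ Cx(y))
    (na : a ∈ Nm(V)) (nb : b ∈ Nm(V)) (ny : y ∈ Nm(V)) (nz : z ∈ Nm(V)) (y1 : y ∉ Cz(V))
    (z1 : z ∉ Cz(V)) (h : (Cx(a) ⊓ Cx(b)).relIndex V ≤ 16) :
    p = 3 ∨ (p = 5 ∧ ((Cx(y)).relIndex V = 16 ∨ (Cx(z)).relIndex V = 16)) := by
  by_cases c1 : (Cx(a)).relIndex ⁅V, zpowers y⁆ ≤ 4
  · exact (small h2 hV ha hy ay na ny y1 c1).imp_right fun e => ⟨e.1, .inl e.2.1⟩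
  by_cases c2 : (Cx(b)).relIndex ⁅V, zpowers z⁆ ≤ 4
  · exact (small h2 hV hb hz bz nb nz z1 c2).imp_right fun e => ⟨e.1, .inr e.2.1⟩
  obtain ⟨d1, -⟩ := dpy h2 hV hy ny
  obtain ⟨d2, -⟩ := dpy h2 hV hz nz
  have l1 := comm_le_left (zpowers_le.2 ny)
  have l2 := comm_le_left (zpowers_le.2 nz)
  have n1 := mem_Nm_commutator na (inv_Nm ay)
  have n2 := mem_Nm_commutator nb (inv_Nm bz)
  have n3 := mem_Nm_commutator na (cx_Nm (mem_Cx_comm az))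
  have n4 := mem_Nm_commutator nb (cx_Nm bY)
  obtain ⟨e1, e2⟩ := dih h2 (elemAb_of_le l1 hV) ha hy ay n1 (right_le_Nm_comm _ _ (mem_zpowers y)) d1
  obtain ⟨e3, -⟩ := dih h2 (elemAb_of_le l2 hV) hb hz bz n2 (right_le_Nm_comm _ _ (mem_zpowers z)) d2
  set W := ⁅V, zpowers y⁆
  set W' := ⁅V, zpowers z⁆
  by_cases c : z ∈ Cz(W ⊓ Cx(a))
  swap
  · have nz' : z ∈ Nm(W ⊓ Cx(a)) := mem_Nm_inf (mem_Nm_commutator nz (cx_Nm yz)) (le_normalizer az)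
    have f1 := relIndex_inf_mul_relIndex Cx(b) Cx(a) W
    have f2 := (relIndex_le_of_le_right (H := Cx(a) ⊓ Cx(b)) l1 (ri0 _ _)).trans h
    rw [inf_comm, ← f1, inf_comm] at f2
    have f3 := relIndex_le_of_le_right (H := Cx(b)) (comm_le_left (zpowers_le.2 nz')) (ri0 _ _)
    have f4 : (Cx(b)).relIndex (W ⊓ Cx(a)) ≤ 3 := by nlinarith
    obtain e | ⟨-, -, e⟩ := small h2 (elemAb_of_le (inf_le_left.trans l1) hV) hb hz bz
      (mem_Nm_inf n4 (le_normalizer ab)) nz' c (by omega)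
    · exact .inl e
    · omega
  exfalso
  have f1 : W ≤ Cx(z) := e2.trans (sup_le (le_Cx_iff.2 c) (by
    have := cj_mono y (le_Cx_iff.2 c)
    rwa [cj_Cx, mem_Cx'.1 (mem_Cx_comm yz)] at this))
  have i : W ⊓ W' = ⊥ := eq_bot_iff.2 ((le_inf inf_le_right (inf_le_left.trans f1)).trans d2.le)
  have WW : W ≤ Nm(W') := l1.trans (le_Nm_of_ab hV.1 l2)
  have f2 : Cx(a) ⊓ Cx(b) ⊓ (W ⊔ W') ≤ (W ⊓ Cx(a)) ⊔ (W' ⊓ Cx(b)) := fun x hx => by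
    obtain ⟨u, hu, v, hv, rfl⟩ := (mem_sup_of_le_Nm WW).1 hx.2
    have key : ∀ g ∈ Nm(W), g ∈ Nm(W') → u * v ∈ Cx(g) → u ∈ Cx(g) := fun g g1 g2 g3 => by
      have e := mem_Cx'.1 (mem_Cx_comm g3)
      have : u⁻¹ * (g * u * g⁻¹) ∈ W ⊓ W' := mi (mul_mem (inv_mem hu) (conj_mem_of_mem_normalizer g1 hu))
        (by
          rw [show u⁻¹ * (g * u * g⁻¹) = u⁻¹ * (g * (u * v) * g⁻¹) * (g * v * g⁻¹)⁻¹ by group, e,
            inv_mul_cancel_left]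
          exact mul_mem hv (inv_mem (conj_mem_of_mem_normalizer g2 hv)))
      rw [i, mem_bot, inv_mul_eq_one] at this
      exact mem_Cx_comm (mem_Cx'.2 this.symm)
    exact mul_mem_sup (mi hu (key a n1 n3 hx.1.1))
      (mi hv ((mul_mem_cancel_left (key b n4 n2 hx.1.2)).1 hx.1.2))
  have f3 := CfH9.card_sup_mul_card_inf WW
  rw [i, card_bot, mul_one, ← card_inf_mul_relIndex Cx(a) W, ← card_inf_mul_relIndex Cx(b) W',
    inf_comm _ W, inf_comm _ W', e1, e3, ← card_inf_mul_relIndex (Cx(a) ⊓ Cx(b))] at f3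
  have f4 := (card_le_of_le f2).trans (Nat.le_of_dvd (Nat.mul_pos Nat.card_pos Nat.card_pos)
    (card_sup_dvd_of_le_normalizer (inf_le_left.trans (l1.trans
      (le_Nm_of_ab hV.1 (inf_le_left.trans l2))))))
  rw [e1, e3] at f4
  have f5 := (relIndex_le_of_le_right (H := Cx(a) ⊓ Cx(b)) (sup_le l1 l2) (ri0 _ _)).trans h
  have f6 := Nat.mul_le_mul f4 f5
  rw [f3] at f6
  have f7 : 25 ≤ (Cx(a)).relIndex W * (Cx(b)).relIndex W' := by nlinarith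
  nlinarith

theorem exists_inv {P : Subgroup G} {a x : G} (ha : a * a = 1) (n : a ∈ Nm(P)) (hx : x ∈ P)
    (h : a ∉ Cx(x)) : ∃ y ∈ P, y ≠ 1 ∧ a * y * a⁻¹ = y⁻¹ ∧ Cx(a) ⊓ Cx(x) ≤ Cx(y) := by
  refine ⟨x⁻¹ * (a * x * a⁻¹), mul_mem (inv_mem hx) (conj_mem_of_mem_normalizer n hx),
    fun e => h (mem_Cx'.2 (inv_mul_eq_one.1 e).symm), ?_, fun g hg => mem_Cx_comm ?_⟩
  · calc a * (x⁻¹ * (a * x * a⁻¹)) * a⁻¹ = a * x⁻¹ * a⁻¹ * ((a * a) * x * (a * a)⁻¹) := by group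
      _ = _ := by rw [ha]; group
  · have c1 := mem_Cx_comm hg.1
    have c2 := mem_Cx_comm hg.2
    exact mul_mem (inv_mem c2) (mul_mem (mul_mem c1 c2) (inv_mem c1))

variable {T X P : Subgroup G}

theorem XD.off (h : XD p T X P) {V A : Subgroup G} (hV : EAb 2 V) (hA : EAb 2 A) (PV : P ≤ Nm(V))
    (AV : A ≤ Nm(V)) (AP : A ≤ Nm(P)) (f1 : P ⊓ Cz(V) = ⊥) (f2 : A ⊓ Cz(P) = ⊥) (A0 : A ≠ ⊥)
    (hi : (V ⊓ Cz(A)).relIndex V ≤ Nat.card A ^ 2) :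
    p = 3 ∨ (p = 5 ∧ ∃ y ∈ P, (Cx(y)).relIndex V = 16) := by
  have sq : ∀ a ∈ A, a * a = 1 := fun a ha => by rw [← sq]; exact hA.2 a ha
  have nc : ∀ y ∈ P, y ≠ 1 → y ∉ Cz(V) := fun y a b c => b (mem_bot.1 (f1.le (mi a c)))
  have nc' : ∀ a ∈ A, a ≠ 1 → a ∉ Cz(P) := fun y a b c => b (mem_bot.1 (f2.le (mi a c)))
  rw [inf_relIndex_left] at hi
  by_cases c : Nat.card A ≤ 2
  · obtain ⟨a, ha, a1⟩ := exists_ne_one_of_ne_bot A0
    obtain ⟨x, hx, e⟩ := SetLike.not_le_iff_exists.1 fun e => nc' a ha a1 (le_Cx_iff.1 e)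
    obtain ⟨y, y1, y2, y3, -⟩ := exists_inv (sq a ha) (AP ha) hx fun e' => e (mem_Cx_comm e')
    refine (small h.h2 hV (sq a ha) (h.exp y y1) y3 (AV ha) (PV y1) (nc y y1 y2) ?_).imp_right
      fun e => ⟨e.1, y, y1, e.2.1⟩
    refine (relIndex_le_of_le_right (comm_le_left (zpowers_le.2 (PV y1))) (ri0 _ _)).trans
      ((relIndex_le_of_le_left (Cz_le_Cx ha) (ri0 _ _)).trans (hi.trans ?_))
    nlinarith
  have gen : ∀ W, ¬ P ≤ W → ∃ B ≤ A, B.relIndex A ≤ 2 ∧ ∃ x ∈ P, x ∈ Cz(B) ∧ x ∉ W := fun W hW => by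
    by_contra! e
    refine hW (le_of_cocyclic hA.1 AP (cop_of_isPGroup h.h2.symm (elemAb_isPGroup hA) h.pgrp)
      fun B b1 ⟨a, ha, b2⟩ x hx => e B b1 (Nat.le_of_dvd two_pos ?_) x hx.1 hx.2)
    exact relIndex_dvd_of_le_sup (le_Nm_of_ab hA.1 b1) ha (hA.2 a ha) b2
  have nZ := le_Nm_der P
  have small : ∀ x ∈ P, ¬ P ≤ ⁅P, P⁆ ⊔ zpowers x := fun x hx e =>
    h.idx (K := ⁅P, P⁆) inf_le_right (relIndex_dvd_of_le_sup nZ hx (h.exp x hx) e)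
  obtain ⟨B, b1, b2, x, x1, x2, x3⟩ := gen _ h.not_le
  obtain ⟨C, c1, c2, w, w1, w2, w3⟩ := gen _ (small x x1)
  have g1 : P ≤ zpowers x ⊔ zpowers w := by
    have l : ⁅P, P⁆ ⊔ zpowers x ≤ P := sup_le (der_le P) (zpowers_le.2 x1)
    have l' : ⁅P, P⁆ ⊔ zpowers x ⊔ zpowers w ≤ P := sup_le l (zpowers_le.2 w1)
    refine le_of_le_sup_Phi (sup_le (zpowers_le.2 x1) (zpowers_le.2 w1)) (le_trans ?_
      (show ⁅P, P⁆ ⊔ zpowers x ⊔ zpowers w ≤ _ from sup_le (sup_le ((comm_le_Phi h.pgrp).trans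
        le_sup_right) (le_sup_left.trans le_sup_left)) (le_sup_right.trans le_sup_left)))
    refine (eq_of_le_of_card_ge l' ?_).ge
    have lt1 : ⁅P, P⁆ < ⁅P, P⁆ ⊔ zpowers x := left_lt_sup.2 fun e => x3 (e (mem_zpowers x))
    have lt2 : ⁅P, P⁆ ⊔ zpowers x < ⁅P, P⁆ ⊔ zpowers x ⊔ zpowers w :=
      left_lt_sup.2 fun e => w3 (e (mem_zpowers w))
    obtain ⟨i, hi⟩ := (h.pgrp.to_le (der_le P)).exists_card_eq
    obtain ⟨j, hj⟩ := (h.pgrp.to_le l).exists_card_eq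
    obtain ⟨k, hk⟩ := (h.pgrp.to_le l').exists_card_eq
    have q1 := CfH9.card_lt_of_lt lt1
    have q2 := CfH9.card_lt_of_lt lt2
    rw [hi, hj, Nat.pow_lt_pow_iff_right hp.out.one_lt] at q1
    rw [hj, hk, Nat.pow_lt_pow_iff_right hp.out.one_lt] at q2
    rw [h.card, hi, hk, ← pow_add]
    exact Nat.pow_le_pow_right hp.out.pos (by omega)
  have cen : ∀ a ∈ A, a ∈ Cx(x) → a ∈ Cx(w) → a = 1 := fun a ha e1 e2 => by_contra fun n =>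
    nc' a ha n (Cz_anti g1 ((Cz_sup _ _).ge (mi (Cz_zpowers x ▸ e1) (Cz_zpowers w ▸ e2))))
  have c4 : Nat.card A ≤ 4 := by
    have : B ⊓ C = ⊥ := eq_bot_iff.2 fun a ha =>
      cen a (b1 ha.1) (le_Cx_iff.2 x2 ha.1) (le_Cx_iff.2 w2 ha.2)
    rw [← relIndex_bot_left, ← this]
    exact relIndex_inf_le.trans (Nat.mul_le_mul b2 c2)
  have ne : ∀ B : Subgroup G, B.relIndex A ≤ 2 → B ≠ ⊥ := fun B e1 e2 => c (by
    rwa [e2, relIndex_bot_left] at e1)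
  obtain ⟨b, hb, b0⟩ := exists_ne_one_of_ne_bot (ne B b2)
  obtain ⟨a, ha, a0⟩ := exists_ne_one_of_ne_bot (ne C c2)
  have bx := le_Cx_iff.2 x2 hb
  have aw := le_Cx_iff.2 w2 ha
  replace hb := b1 hb
  replace ha := c1 ha
  have ab : b ∈ Cx(a) := mem_Cx.2 (comm_iff.1 hA.1 _ hb _ ha)
  obtain ⟨y, y1, y2, y3, y4⟩ := exists_inv (sq a ha) (AP ha) x1 fun e => a0 (cen a ha e aw)
  obtain ⟨z, z1, z2, z3, z4⟩ := exists_inv (sq b hb) (AP hb) w1 fun e => b0 (cen b hb bx e)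
  have bY := y4 (mi ab bx)
  have az := z4 (mi (mem_Cx_comm ab) aw)
  have i16 : ∀ a ∈ A, ∀ b ∈ A, (Cx(a) ⊓ Cx(b)).relIndex V ≤ 16 := fun a ha b hb =>
    (relIndex_le_of_le_left (le_inf (Cz_le_Cx ha) (Cz_le_Cx hb)) (ri0 _ _)).trans
      (hi.trans (by nlinarith))
  by_cases e : z ∈ Cx(y)
  · exact (dd h.h2 hV (sq a ha) (sq b hb) (h.exp y y1) (h.exp z z1) y3 z3 (mem_Cx_comm az) bY ab e
      (AV ha) (AV hb) (PV y1) (PV z1) (nc y y1 y2) (nc z z1 z2) (i16 a ha b hb)).imp_right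
        fun e => ⟨e.1, e.2.elim (fun e => ⟨y, y1, e⟩) fun e => ⟨z, z1, e⟩⟩
  have u1 := commutator_mem_commutator y1 z1
  have u2 := der_le P u1
  have u3 : ⁅y, z⁆ ≠ 1 := fun e' => e (mem_Cx.2 (commutatorElement_eq_one_iff_mul_comm.1 e').symm)
  have zc := le_Cz_of_card_dvd h.cz h.pgrp nZ
  have v1 : a * ⁅y, z⁆ * a⁻¹ = ⁅y, z⁆⁻¹ := by
    rw [conjugate_commutatorElement, y3, mem_Cx'.1 az,
      ← conj_eq_of_mem_centralizer (zc (inv_mem y1)) (inv_mem u1)]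
    simp only [commutatorElement_def]; group
  have v2 : b * ⁅y, z⁆ * b⁻¹ = ⁅y, z⁆⁻¹ := by
    rw [conjugate_commutatorElement, z3, mem_Cx'.1 bY,
      ← conj_eq_of_mem_centralizer (zc (inv_mem z1)) (inv_mem u1)]
    simp only [commutatorElement_def]; group
  have hab := mul_mem ha hb
  refine (dd h.h2 hV (sq _ hab) (sq b hb) (h.exp y y1) (h.exp _ u2) ?_ v2
    (mem_Cx_comm (mem_Cx'.2 ?_)) bY (mem_Cx.2 (comm_iff.1 hA.1 _ hb _ hab))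
    (mem_Cx_comm (Cz_le_Cx u1 (zc y1))) (AV hab) (AV hb) (PV y1) (PV u2) (nc y y1 y2) (nc _ u2 u3)
    (i16 _ hab b hb)).imp_right fun e => ⟨e.1, e.2.elim (fun e => ⟨y, y1, e⟩) fun e => ⟨_, u2, e⟩⟩
  · rw [mul_inv_rev, show a * b * y * (b⁻¹ * a⁻¹) = a * (b * y * b⁻¹) * a⁻¹ by group, mem_Cx'.1 bY, y3]
  · rw [mul_inv_rev, show a * b * ⁅y, z⁆ * (b⁻¹ * a⁻¹) = a * (b * ⁅y, z⁆ * b⁻¹) * a⁻¹ by group, v2,
      ← conj_inv, v1, inv_inv]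

end CfH1.Xi
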