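import Cfsg.Agent.H1.Xi4

/-! The case `p = 5` for small offenders. -/

set_option autoImplicit false
set_option linter.unusedSectionVars false

namespace CfH1.Xi

open Cfsg Subgroup CfH9 CfH7 CfH8 CfH1 CfFT
open scoped commutatorElement

variable {G : Type*} [Group G] [Finite G] {r : ℕ} {T P V : Subgroup G}

instance fact5 : Fact (Nat.Prime 5) := ⟨Nat.prime_five⟩

theorem ri_conj {g : G} (hg : g ∈ Nm(V)) (y : G) :
    (Cx(g * y * g⁻¹)).relIndex V = (Cx(y)).relIndex V := by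
  conv_lhs => rw [← cj_Cx, ← cj_eq_of_mem_normalizer hg, relIndex_cj]

theorem XD.ab5 (h : XD 5 T P P) (hV : EAb 2 V) (PV : P ≤ Nm(V)) (TV : T ≤ Nm(V))
    (f1 : P ⊓ Cz(V) = ⊥) {y : G} (hy : y ∈ P) (h1 : (Cx(y)).relIndex V = 16) : ⁅P, P⁆ = ⊥ := by
  by_contra h0
  have hZ : El 5 1 ⁅P, P⁆ ⊤ := el_one le_top (h.cZ h0)
  have y1 : y ≠ 1 := fun e => by
    rw [e, CfFT.Cx_one, relIndex_top_left] at h1; omega
  obtain ⟨z, z1, z2, z3⟩ : ∃ z ∈ ⁅P, P⁆, z ≠ 1 ∧ (Cx(z)).relIndex V ≤ 256 := by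
    by_cases e : y ∈ ⁅P, P⁆
    · exact ⟨y, e, y1, by omega⟩
    have : y ∉ Cz(P) := fun e' => e (((h.irr _ (le_normalizer.trans (Nm_le_Nm_Cz P))
      (h.TX.trans (Nm_le_Nm_Cz P))).resolve_left fun a => h0 (comm_eq_bot_left.2 a)) (mi hy e'))
    obtain ⟨x, hx, e2⟩ := SetLike.not_le_iff_exists.1 fun e => this (le_Cx_iff.1 e)
    refine ⟨⁅x, y⁆, commutator_mem_commutator hx hy,
      fun e3 => e2 (mem_Cx.2 (commutatorElement_eq_one_iff_mul_comm.1 e3)), ?_⟩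
    have l : Cx(x * y * x⁻¹) ⊓ Cx(y) ≤ Cx(⁅x, y⁆) := fun g hg =>
      mem_Cx_comm (mul_mem (mem_Cx_comm hg.1) (inv_mem (mem_Cx_comm hg.2)))
    refine (relIndex_le_of_le_left l (ri0 _ _)).trans (relIndex_inf_le.trans ?_)
    rw [ri_conj (PV hx), h1]
  have zP := der_le P z1
  obtain ⟨d1, d2⟩ := dpy h.h2 hV (h.exp z zP) (PV zP)
  rw [hZ.eq_zpowers z1 z2] at d1 d2
  have n1 : P ≤ Nm(⁅V, ⁅P, P⁆⁆) := le_normalizer_commutator PV (le_Nm_der P)
  have n2 : T ≤ Nm(⁅V, ⁅P, P⁆⁆) := le_normalizer_commutator TV (h.TX.trans (Nm_le_Nm_der P))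
  set W := ⁅V, ⁅P, P⁆⁆
  have nz : z ∉ Cz(W) := fun e => z2 (mem_bot.1 (f1.le (mi zP (by
    rw [inf_eq_left.2 (le_Cx_iff.2 e)] at d1
    exact comm_eq_bot_right.1 d1 z1))))
  have i : P ⊓ Cz(W) = ⊥ := by
    have := (h.irr _ (n1.trans (Nm_le_Nm_Cz W)) (n2.trans (Nm_le_Nm_Cz W))).resolve_left
      fun e => nz (e zP)
    exact eq_bot_iff.2 ((le_inf this inf_le_right).trans (hZ.inf_eq_bot fun e => nz (e z1)).le)
  obtain ⟨k, hk⟩ := exists_el_of_eab (elemAb_of_le (comm_le_left ((der_le P).trans PV)) hV) le_rfl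
  have e := relIndex_Cz_dvd_GL hk n1
  rw [← inf_relIndex_left, i, relIndex_bot_left, h.card, h.cZ h0] at e
  have k8 : k ≤ 8 := (Nat.pow_le_pow_iff_right one_lt_two).1 (hk.card ▸ d2 ▸ z3)
  interval_cases k <;> exact absurd e (by decide)

theorem lines5 (hP : El 5 2 P P) (hV : EAb 2 V) (PV : P ≤ Nm(V)) (f1 : P ⊓ Cz(V) = ⊥) {y z : G}
    (hy : y ∈ P) (hz : z ∈ P) (h1 : (Cx(y)).relIndex V = 16) (h2 : (Cx(z)).relIndex V = 16)
    (ne : zpowers y ≠ zpowers z) : zpowers y ⊔ zpowers z = P ∧ ⁅V, zpowers y⁆ ≤ Cx(z) := by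
  have n1 : ∀ y : G, (Cx(y)).relIndex V = 16 → y ≠ 1 := fun y h e => by
    rw [e, CfFT.Cx_one, relIndex_top_left] at h; omega
  have e1 := (hP.dp_of_ne (el_zpowers hy (orderOf_eq_of_eab hP.eab hy (n1 y h1)))
    (el_zpowers hz (orderOf_eq_of_eab hP.eab hz (n1 z h2))) ne).sup
  refine ⟨e1, ?_⟩
  obtain ⟨d1, d2⟩ := dpy (by omega) hV (hP.eab.2 y hy) (PV hy)
  obtain ⟨-, d3⟩ := dpy (by omega) hV (hP.eab.2 z hz) (PV hz)
  have nW : ∀ y ∈ P, P ≤ Nm(⁅V, zpowers y⁆) := fun y hy =>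
    le_normalizer_commutator PV (le_Nm_of_ab hP.ab (zpowers_le.2 hy))
  have lW : ∀ y ∈ P, ⁅V, zpowers y⁆ ≤ V := fun y hy => comm_le_left (zpowers_le.2 (PV hy))
  have e2 := fpf_dvd (hP.eab.2 y hy) (n1 y h1) (mem_Nm_inf (nW y hy hy) (nW z hz hy))
    (eq_bot_iff.2 ((inf_le_inf_right _ inf_le_left).trans d1.le))
  have e3 := card_dvd_of_le (inf_le_left : ⁅V, zpowers y⁆ ⊓ ⁅V, zpowers z⁆ ≤ _)
  rw [d2, h1] at e3
  have e4 : Nat.card (⁅V, zpowers y⁆ ⊓ ⁅V, zpowers z⁆ : Subgroup G) = 1 ∨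
      Nat.card (⁅V, zpowers y⁆ ⊓ ⁅V, zpowers z⁆ : Subgroup G) = 16 := by
    generalize Nat.card (⁅V, zpowers y⁆ ⊓ ⁅V, zpowers z⁆ : Subgroup G) = m at e2 e3
    have := Nat.le_of_dvd (by omega) e3
    interval_cases m <;> omega
  obtain e | e := e4
  · rw [← Cz_zpowers, ← comm_eq_bot_left, eq_bot_iff, ← card_eq_one.1 e]
    exact le_inf (comm_le_left (zpowers_le.2 (nW y hy hz))) (commutator_mono (lW y hy) le_rfl)
  exfalso
  have e5 : ⁅V, zpowers z⁆ ≤ ⁅V, zpowers y⁆ :=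
    (eq_of_le_of_card_ge inf_le_right (by rw [e, d3, h2])).ge.trans inf_le_left
  have e6 : ⁅P, V⁆ ≤ ⁅V, zpowers y⁆ := e1 ▸ commutator_sup_le_of_le_normalizer
    (zpowers_le.2 (nW y hy hy)) (Subgroup.commutator_comm _ _).le
    ((Subgroup.commutator_comm _ _).le.trans e5) (zpowers_le.2 (nW y hy hz))
  have e7 := relIndex_Cz_dvd_GL (p := 2) (n := 4) (H := ⊤)
    ⟨le_top, elemAb_of_le (lW y hy) hV, by rw [d2, h1]; rfl⟩ (nW y hy)
  have i : P ⊓ Cz(⁅V, zpowers y⁆) = ⊥ := eq_bot_iff.2 (f1 ▸ le_inf inf_le_left (comm_eq_bot_right.1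
    (commutator_eq_bot_of_le_of_eq_bot (inf_le_left.trans PV)
      (cop_of_isPGroup (by omega) (hP.pgrp.to_le inf_le_left) (elemAb_isPGroup hV))
      (.inr (Ab.nil hV.1).sol) (((Subgroup.commutator_comm _ _).le.trans
        (commutator_mono inf_le_left le_rfl)).trans e6) (comm_eq_bot_right.2 inf_le_right))))
  rw [← inf_relIndex_left, i, relIndex_bot_left, hP.card] at e7
  exact absurd e7 (by decide)

theorem XD.five (h : XD 5 T P P) (hV : EAb 2 V) (PV : P ≤ Nm(V)) (TV : T ≤ Nm(V))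
    (f1 : P ⊓ Cz(V) = ⊥) {y : G} (hy : y ∈ P) (h1 : (Cx(y)).relIndex V = 16) {n : G}
    (nP : n ∈ Nm(P)) (nV : n ∈ Nm(V)) (hr : Odd r) (hn : n ^ r ∈ Cz(P)) : n ∈ Cz(P) := by
  have h0 := h.ab5 hV PV TV f1 hy h1
  have hP : El 5 2 P P := ⟨le_rfl, ⟨ab_iff_comm.2 h0, h.exp⟩, by rw [h.card, h0, card_bot, mul_one]⟩
  have n1 : ∀ y : G, (Cx(y)).relIndex V = 16 → y ≠ 1 := fun y h e => by
    rw [e, CfFT.Cx_one, relIndex_top_left] at h; omega
  have three : ∀ a ∈ P, ∀ b ∈ P, ∀ c ∈ P, (Cx(a)).relIndex V = 16 → (Cx(b)).relIndex V = 16 →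
      (Cx(c)).relIndex V = 16 → zpowers a ≠ zpowers b → zpowers b ≠ zpowers c →
      zpowers a = zpowers c := fun a ha b hb c hc a1 b1 c1 ab bc => by_contra fun ac => by
    obtain ⟨d1, d2⟩ := dpy h.h2 hV (h.exp a ha) (PV ha)
    have e1 : ⁅V, zpowers a⁆ ≤ Cz(P) := by
      rw [← (lines5 hP hV PV f1 hb hc b1 c1 bc).1, Cz_sup, Cz_zpowers, Cz_zpowers]
      exact le_inf (lines5 hP hV PV f1 ha hb a1 b1 ab).2 (lines5 hP hV PV f1 ha hc a1 c1 ac).2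
    rw [inf_eq_left.2 (e1.trans (Cz_le_Cx ha))] at d1
    rw [d1, card_bot] at d2
    omega
  have key : ∀ x ∈ P, (Cx(x)).relIndex V = 16 → x ∈ Cx(n) := fun x hx x1 => by
    have c := Cz_anti (zpowers_le.2 hx) hn
    have a : n ∈ Nm(zpowers x) := by_contra fun e => by
      rw [mem_normalizer_iff_cj, cj_zpowers] at e
      have hx' := conj_mem_of_mem_normalizer nP hx
      have x2 := (ri_conj nV x).trans x1
      have := three x hx _ hx' _ (conj_mem_of_mem_normalizer nP hx') x1 x2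
        ((ri_conj nV _).trans x2) (Ne.symm e) fun e' => e (by
          rw [← cj_zpowers n (n * x * n⁻¹), ← cj_zpowers n x, cj_inj] at e'
          rw [← cj_zpowers, ← e'])
      rw [← cj_zpowers, ← cj_zpowers, ← cj_mul, eq_comm, ← mem_normalizer_iff_cj, ← sq] at this
      rw [← cj_zpowers, ← mem_normalizer_iff_cj] at e
      exact e (mem_of_coprime (Nat.coprime_two_left.2 hr) this (Cz_le_Nm _ c))
    have b := relIndex_Cz_dvd_pred (p := 5) (by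
      rw [Nat.card_zpowers, orderOf_eq_of_eab hP.eab hx (n1 x x1)]) (zpowers_le.2 a)
    have a' := Nm_le_Nm_Cz _ a
    rw [← card_qb (zpowers_le.2 a'), show zpowers n = zpowers ((⟨n, a'⟩ : Nm(Cz(zpowers x))) : G)
      from rfl, qb_zpowers, Nat.card_zpowers, orderOf_dvd_iff_pow_eq_one, ← map_pow,
      nmQuot_eq_one_iff] at b
    exact mem_Cx_comm (Cz_zpowers x ▸ mem_of_coprime (a := 2 ^ 2)
      ((Nat.coprime_two_left.2 hr).pow_left 2) b c)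
  have nK : ∀ g ∈ Nm(P), g ∈ Nm(V) →
      g ∈ Nm(closure {x | x ∈ P ∧ (Cx(x)).relIndex V = 16}) := fun g g1 g2 => by
    refine mem_normalizer_of_cj_le ?_
    rw [cj_closure]
    refine closure_mono ?_
    rintro _ ⟨x, hx, rfl⟩
    exact ⟨conj_mem_of_mem_normalizer g1 hx.1, (ri_conj g2 x).trans hx.2⟩
  obtain e | e := h.irr _ (fun g hg => nK g (le_normalizer hg) (PV hg))
    fun g hg => nK g (h.TX hg) (TV hg)
  · exact le_Cx_iff.1 (e.trans ((closure_le _).2 fun x hx => key x hx.1 hx.2))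
  · exact absurd (mem_bot.1 (h0.le (e (mi hy (subset_closure ⟨hy, h1⟩))))) (n1 y h1)

end CfH1.Xi
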