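import Cfsg.Agent.H1.Xi3
import Cfsg.Agent.H1.Xi5
import Cfsg.Agent.S1824
import Cfsg.Prelude.Def_QuasithinSetup

/-! Faithful solvable uniqueness groups are small. -/

set_option autoImplicit false
set_option linter.unusedSectionVars false

namespace CfH1.Xi

open Cfsg Subgroup CfH9 CfH7 CfH8 CfH1 CfFT
open scoped commutatorElement

variable {G : Type*} [Group G] [Finite G] {p r : ℕ} {T X P : Subgroup G} [hp : Fact p.Prime]

theorem XD.hb (h : XD p T X P) {V : Subgroup G} (XV : X ≤ Nm(V)) (TV : T ≤ Nm(V))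
    (h1 : P ⊓ Cz(V) ≤ ⁅P, P⁆) : XD p (hb V T) (hb V X) (hb V P) := by
  have PV := h.PX.trans XV
  have c1 := card_hb_mul PV
  have c2 := card_hb_mul ((der_le P).trans PV)
  rw [le_antisymm (le_inf h1 inf_le_right) (inf_le_inf_right _ (der_le P)), h.card, ← c2,
    ← mul_assoc] at c1
  refine ⟨h.h2, hb_le_Nm h.TX, hb_mono h.PX, ?_, ?_, ?_, fun K a b => ?_⟩
  · rintro _ ⟨g, hg, rfl⟩
    rw [← map_pow, show g ^ p = 1 from Subtype.ext (h.exp g hg), map_one]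
  · rw [← hb_commutator PV PV]; exact Nat.eq_of_mul_eq_mul_right Nat.card_pos c1
  · rw [← hb_commutator PV PV]; exact (card_hb_dvd ((der_le P).trans PV)).trans h.cz
  refine (h.irr _ (le_Nm_hp XV a) (le_Nm_hp TV b)).imp (hb_le_iff XV).2 fun e => ?_
  rw [← hb_inf_hp, ← hb_commutator PV PV]; exact hb_mono e

/-- commutators landing in a normal subgroup that meets `P` inside `P'` -/
theorem XD.comm_le (h : XD p T X P) (hP : SylIn p P X) (e : P ⊔ Op 2 X = X) {N A : Subgroup G}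
    (XN : X ≤ Nm(N)) (h1 : P ⊓ N ≤ ⁅P, P⁆) (AX : A ≤ Nm(X)) (h2 : ⁅X, A⁆ ≤ N) :
    ⁅X, pResidualOf p A⁆ ≤ Op 2 X := by
  have nY := normalizer_le_normalizer_pCoreOf (p := 2) X
  have XY := le_normalizer.trans nY
  have PY := h.PX.trans XY
  have e1 : CfH8.qb (Op 2 X) X = CfH8.qb (Op 2 X) P :=
    (congrArg (CfH8.qb (Op 2 X)) e).symm.trans (qb_sup_self PY)
  have hp' := isPGroup_qb (Q := Op 2 X) h.pgrp
  have e2 : CfH8.qb (Op 2 X) (X ⊓ N) ≤ Phi (CfH8.qb (Op 2 X) P) := by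
    rw [(sylIn_qb (inf_le_left.trans XY) (hP.inf_normal XN)).eq_of_le
      (hp'.to_le ((qb_mono inf_le_left).trans e1.le)) le_rfl (qb_mono (inf_le_inf_right _ h.PX))]
    exact (qb_mono h1).trans ((qb_commutator PY PY).le.trans (comm_le_Phi hp'))
  rw [Subgroup.commutator_comm, ← qb_le_Cz_iff ((pResidualOf_le A).trans (AX.trans nY)) XY,
    qb_pResidualOf (AX.trans nY), e1]
  refine pRes_le_of_forall fun B b1 b2 _ => le_Cz_of_comm_le_Phi hp' (b1.trans (e1 ▸ qb_le_Nm AX)) b2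
    ((commutator_mono le_rfl b1).trans (le_trans ?_ e2))
  rw [← e1, ← qb_commutator XY (AX.trans nY)]
  exact qb_mono (le_inf (comm_le_left AX) h2)

theorem le_O2 (hT : IsPGroup 2 T) (TX : T ≤ Nm(X)) {S : Subgroup G} (ST : S ≤ T) (TS : T ≤ Nm(S))
    (h : ⁅X, S⁆ ≤ Op 2 X) : S ≤ Op 2 (X ⊔ T) := by
  have nY := normalizer_le_normalizer_pCoreOf (p := 2) X
  refine le_sup_left.trans (le_pCoreOf (A := S ⊔ Op 2 X) (sup_le (ST.trans le_sup_right)
    ((pCoreOf_le X).trans le_sup_left)) (sup_le ?_ (le_normalizer_sup TS (TX.trans nY)))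
    (isPGroup_sup (hT.to_le ST) (isPGroup_pCoreOf X) (ST.trans (TX.trans nY))))
  rw [le_normalizer_iff_commutator_le_left]
  exact (commutator_sup_le_of_le_normalizer (ST.trans (TX.trans nY))
    ((Subgroup.commutator_comm _ _).le.trans h) (comm_le_left (le_normalizer.trans nY))
    le_normalizer).trans le_sup_right

theorem XD.syl (h : XD p T X P) (hP : SylIn p P X) (e : P ⊔ Op 2 X = X) (hT : IsPGroup 2 T)
    {N : Subgroup G} (XN : X ≤ Nm(N)) (TN : T ≤ Nm(N)) (h1 : P ⊓ N ≤ ⁅P, P⁆) :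
    T ⊓ N ≤ Op 2 (X ⊔ T) := by
  refine le_O2 hT h.TX inf_le_left (le_normalizer_inf le_normalizer TN) ?_
  have := h.comm_le hP e XN h1 (A := T ⊓ N) (inf_le_left.trans h.TX)
    ((commutator_mono le_rfl inf_le_right).trans (comm_le_right XN))
  rwa [pResidualOf_eq_self_of_coprime (pp_of_isPGroup h.h2.symm (hT.to_le inf_le_left))] at this

theorem main2 [IsSimpleGroup G] (hG : ¬ IsMulCommutative G) (hQ : IsQTKE G) (T : Sylow 2 G)
    (X : Subgroup G) (h2 : ∃ M₁ M₂ : Subgroup G, M₁ ∈ maxTwoLocalsContaining (T : Subgroup G) ∧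
      M₂ ∈ maxTwoLocalsContaining (T : Subgroup G) ∧ M₁ ≠ M₂)
    (hX : X ∈ XiStar (T : Subgroup G)) (hXf : X ∈ calXf G) :
    (∀ p : ℕ, p.Prime → p ∣ Nat.card X → p = 2 ∨ p = 3) ∨
    (IsPGroup 5 (X ⧸ pCore 2 X) ∧
      ∀ r : ℕ, r.Prime → r ≠ 2 → r ≠ 5 → ∀ g ∈ Nm(X),
        (∀ x ∈ X, g ^ r * x * (g ^ r)⁻¹ * x⁻¹ ∈ pCoreTwoOf X) →
          ∀ x ∈ X, g * x * g⁻¹ * x⁻¹ ∈ pCoreTwoOf X) := by
  have hT := sylIn_top T
  obtain ⟨p, P, hp, h, hP, eX, hO⟩ := xd_of hX.1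
  haveI := Fact.mk hp
  have hM := main hQ hT hX
  have m1 : Nm(X) ∈ maxTwoLocalsContaining (X ⊔ T) := hM ▸ Set.mem_singleton _
  have hY := isPGroup_pCoreOf (p := 2) X
  have nY := normalizer_le_normalizer_pCoreOf (p := 2) X
  have hR := isPGroup_pCoreOf (p := 2) (X ⊔ T)
  have nR := le_normalizer_pCoreOf (p := 2) (X ⊔ T)
  have RT : Op 2 (X ⊔ T) ≤ T := sylIn_pCoreOf_le (hT.mono le_sup_right le_top)
  have YR : Op 2 X ≤ Op 2 (X ⊔ T) :=
    le_pCoreOf ((pCoreOf_le X).trans le_sup_left) (m1.2.trans nY) hY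
  have syl := fun N => h.syl hP eX hT.pgrp (N := N)
  have hb0 := pCoreOf_le (p := 2) (X ⊔ T)
  set R := Op 2 (X ⊔ T) with eR
  have RX : ⁅R, X⁆ ≤ Op 2 X := le_pCoreOf (comm_le_right (RT.trans h.TX)) (right_le_Nm_comm R X)
    (hR.to_le (comm_le_left (le_sup_left.trans nR)))
  set V := OZ 2 R
  have hV : EAb 2 V := elemAb_OZ R
  have nV : X ⊔ T ≤ Nm(V) := nR.trans (Nm_le_Nm_OZ R)
  have XV := le_sup_left.trans nV
  have TV := le_sup_right.trans nV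
  have PV := h.PX.trans XV
  have RV : R ≤ Cz(V) := le_Cz_comm (OZ_le_Cz R)
  have cP := pp_of_isPGroup h.h2 h.pgrp
  have nX : ¬ X ≤ Cz(V) := fun e => hXf.2 (by
    have PR := h.PX.trans (le_sup_left.trans nR)
    have a1 := commutator_sup_centralizer_eq PR (cP.cop hR) (.inr (sol_of_isPGroup hR))
    have a2 := Nm_le_Nm_OZ (p := 2) (Op 2 X)
    have a3 := thompson_AxB (P := OZ 2 (Op 2 X)) (A := R ⊓ Cz(P)) (B := P)
      (elemAb_isPGroup (elemAb_OZ _)) (hR.to_le inf_le_left) cP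
      (inf_le_left.trans (RT.trans (h.TX.trans (nY.trans a2))))
      (h.PX.trans (le_normalizer.trans (nY.trans a2))) (comm_eq_bot_left.2 inf_le_right)
      (comm_eq_bot_right.2 ((h.PX.trans e).trans (Cz_anti fun w hw => mem_OZ.2 ⟨mi
        (YR (CfH7.OZ_le _ hw.1)) (by
          rw [← a1, Cz_sup]
          exact mi (Cz_anti ((commutator_mono le_rfl h.PX).trans RX) (OZ_le_Cz _ hw.1)) hw.2),
        (mem_OZ.1 hw.1).2⟩)))
    exact comm_eq_bot_right.2 (eX.ge.trans (sup_le (comm_eq_bot_right.1 a3)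
      (le_Cz_comm (OZ_le_Cz _)))))
  have nC := nV.trans (Nm_le_Nm_Cz V)
  have PC := (h.irr _ (le_sup_left.trans nC) (le_sup_right.trans nC)).resolve_left nX
  have eT : R = (T : Subgroup G) ⊓ Cz(V) :=
    le_antisymm (le_inf RT RV) (syl _ (le_sup_left.trans nC) (le_sup_right.trans nC) PC)
  have red : ∀ N : Subgroup G, N ≤ X ⊔ T → X ⊔ T ≤ Nm(N) → IsPGroup 2 (hb V N) → N ≤ Cz(V) :=
    fun N a b c => by
    have a1 : P ⊓ N ≤ Cz(V) := (hb_eq_bot_iff (inf_le_left.trans PV)).1 (eq_bot_of_pgrp_of_pp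
      (isPGroup_hb (h.pgrp.to_le inf_le_left)) (hb_mono inf_le_right) (pp_of_isPGroup h.h2.symm c))
    have a2 := (syl N (le_sup_left.trans b) (le_sup_right.trans b)
      ((le_inf inf_le_left a1).trans PC)).trans RV
    rw [← ((hT.mono le_sup_right le_top).inf_normal' b a).sup_pResidualOf]
    exact sup_le ((isPGroup_hb_iff (a.trans nV)).1 c) a2
  obtain ⟨M, m2, m3⟩ : ∃ M ∈ maxTwoLocalsContaining (T : Subgroup G), M ≠ Nm(X) := by
    obtain ⟨M₁, M₂, a, b, c⟩ := h2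
    by_cases e : M₁ = Nm(X)
    · exact ⟨M₂, b, fun e' => c (e.trans e'.symm)⟩
    · exact ⟨M₁, a, e⟩
  obtain ⟨H, H1, H2⟩ := exists_min_card (fun H => H ∈ calHOverNotLE (T : Subgroup G) Nm(X))
    ⟨M, ⟨by
      obtain ⟨Q, a, b, rfl⟩ := m2.1.1
      exact fun e => ne_bot_of_le (le_pCoreOf le_normalizer le_rfl a) b (pCoreOf_eq_bot_iff.2 e),
      m2.2⟩, fun e => m3 (m2.1.2 _ m1.1.1 e).symm⟩
  have off : ∃ B : Subgroup G, B ≤ X ⊔ T ∧ InducesElemAbelianTwoGroupOn B V ∧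
      (V ⊓ Cz(B)).relIndex V ≤ (Cz(V)).relIndex B ^ 2 := by
    obtain ⟨Q, q1, q2, q3⟩ | ⟨-, B, b1, b2, -, b3⟩ | ⟨B, b1, b2, -, b3⟩ :=
      Cfsg.Agent.S1824.result hG hQ T Nm(X) (X ⊔ T) H V ⟨m1.1, le_sup_right.trans m1.2⟩ le_sup_right
        m1.2 ⟨H1, fun K k1 k2 => eq_of_le_of_card_ge k2 (H2 K k1)⟩
        ⟨(CfH7.OZ_le R).trans hb0, nV, hV, fun N a b c ⟨k, d⟩ => le_antisymm (le_inf a (red N a b
          (.of_card (n := k) (by
            rw [card_hb (a.trans nV), ← d, ← inf_relIndex_right (_ ⊓ _), inf_comm (X ⊔ T), inf_assoc,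
              inf_eq_right.2 a, inf_relIndex_right])))) c⟩ eT
        (.inl (by
          rw [odd_eq, pResidualOf_sup_of_isPGroup hT.pgrp h.TX, hO]; exact inf_le_right))
    · obtain ⟨L, l1, l2, l3⟩ := exists_maximal_ge IsTwoLocal (A := Nm(Q)) ⟨Q, hR.to_le q2, q1, rfl⟩
      have : L ∈ maxTwoLocalsContaining (X ⊔ T) := ⟨⟨l1, l3⟩, le_sup_left.trans (q3.trans l2)⟩
      rw [hM] at this
      exact absurd ((le_sup_right.trans (q3.trans l2)).trans (Set.mem_singleton_iff.1 this).le) H1.2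
    · exact ⟨B, b1, b2, b3⟩
    · exact ⟨B, b1, b2, b3⟩
  obtain ⟨B, b1, ⟨b2, b3, b4⟩, b5⟩ := off
  have BV := b1.trans nV
  have eP : hb V X = hb V P := by
    conv_lhs => rw [← eX]
    rw [hb_sup PV ((pCoreOf_le X).trans XV), (hb_eq_bot_iff ((pCoreOf_le X).trans XV)).2
      (YR.trans RV), sup_bot_eq]
  have hh := h.hb XV TV PC
  rw [eP] at hh
  have hA : EAb 2 (hb V B) := ⟨ab_iff_comm.2 (by
    rw [← hb_commutator BV BV, hb_eq_bot_iff ((der_le B).trans BV), commutator_le]; exact b4), by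
      rintro _ ⟨g, hg, rfl⟩
      rw [← map_pow, holA_eq_one_iff]; exact b3 g hg⟩
  have M0P : hb V (X ⊔ T) ≤ Nm(hb V P) := eP ▸ hb_le_Nm m1.2
  have f2 : hb V B ⊓ Cz(hb V P) = ⊥ := by
    set N := (X ⊔ T) ⊓ CfH8.hp V Cz(hb V P)
    have nN : X ⊔ T ≤ Nm(N) :=
      le_normalizer_inf le_normalizer (le_Nm_hp nV (M0P.trans (Nm_le_Nm_Cz _)))
    have sN := (hT.mono le_sup_right le_top).inf_normal' nN inf_le_left
    have a1 : ⁅X, (T : Subgroup G) ⊓ N⁆ ≤ Cz(V) := by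
      rw [← hb_eq_bot_iff ((comm_le_left (inf_le_left.trans h.TX)).trans XV),
        hb_commutator XV (inf_le_left.trans TV), eP, comm_eq_bot_right,
        hb_le_iff (inf_le_left.trans TV)]
      exact inf_le_right.trans inf_le_right
    have a2 := h.comm_le hP eX (le_sup_left.trans nC) PC (inf_le_left.trans h.TX) a1
    rw [pResidualOf_eq_self_of_coprime (pp_of_isPGroup h.h2.symm sN.pgrp)] at a2
    have a3 := (le_O2 hT.pgrp h.TX inf_le_left (le_normalizer_inf le_normalizer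
      (le_sup_right.trans nN)) a2).trans RV
    refine eq_bot_of_not_dvd ((elemAb_isPGroup hA).to_le inf_le_left) (H := hb V N) ?_ ?_
    · rw [hb_inf_hp]; exact inf_le_inf_right _ (hb_mono b1)
    · rw [card_hb (inf_le_left.trans nV)]; exact sN.not_dvd_relIndex_of_le a3
  have hV' := elemAb_hv (V := V) hV
  obtain rfl | ⟨rfl, y, y1, y2⟩ := hh.off hV' hA (hb_le_Nm_hv_self P) (hb_le_Nm_hv_self B)
    ((hb_mono b1).trans M0P) (hb_faithful P) f2 (fun e => b2 ((hb_eq_bot_iff BV).1 e)) (by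
      rw [card_hb BV, ← hv_inf_Cz BV]
      refine le_of_eq_of_le (Nat.eq_of_mul_eq_mul_left (Nat.card_pos (α := (V ⊓ Cz(B) : Subgroup G))) ?_) b5
      rw [CfH9.card_mul_relIndex inf_le_left, ← card_hv inf_le_left,
        CfH9.card_mul_relIndex (hv_mono inf_le_left), card_hv le_rfl])
  · refine .inl fun q hq hd => ?_
    obtain ⟨i, hi⟩ := h.pgrp.exists_card_eq
    obtain ⟨j, hj⟩ := hY.exists_card_eq
    have := card_sup_dvd_of_le_normalizer (h.PX.trans (le_normalizer.trans nY))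
    rw [eX, hi, hj] at this
    exact ((Nat.Prime.dvd_mul hq).1 (hd.trans this)).symm.imp
      (fun e => (Nat.prime_dvd_prime_iff_eq hq Nat.prime_two).1 (hq.dvd_of_dvd_pow e))
      fun e => (Nat.prime_dvd_prime_iff_eq hq Nat.prime_three).1 (hq.dvd_of_dvd_pow e)
  refine .inr ⟨fun q => ?_, fun r r1 r2 r5 g hg hr => ?_⟩
  · obtain ⟨x, rfl⟩ := QuotientGroup.mk_surjective q
    obtain ⟨u, hu, v, ⟨w, hw, rfl⟩, e⟩ :=
      (mem_sup_of_le_Nm (h.PX.trans (le_normalizer.trans nY))).1 (eX.ge x.2)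
    refine ⟨1, ?_⟩
    rw [show x = ⟨u, h.PX hu⟩ * w from Subtype.ext e.symm, QuotientGroup.mk_mul,
      (QuotientGroup.eq_one_iff w).2 hw, mul_one, pow_one, ← QuotientGroup.mk_pow,
      show (⟨u, h.PX hu⟩ : X) ^ 5 = 1 from Subtype.ext (h.exp u hu), QuotientGroup.mk_one]
  have XY := le_normalizer.trans nY
  set C := Nm(X) ⊓ qp (Op 2 X) Cz(qb (Op 2 X) X)
  have mC : ∀ A : Subgroup G, A ≤ Nm(X) → (A ≤ C ↔ ⁅A, X⁆ ≤ Op 2 X) := fun A a => by
    rw [le_inf_iff, ← qb_le_iff (a.trans nY), qb_le_Cz_iff (a.trans nY) XY]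
    exact and_iff_right a
  have mC' : ∀ g ∈ Nm(X), g ∈ C ↔ ∀ x ∈ X, g * x * g⁻¹ * x⁻¹ ∈ Op 2 X := fun g hg => by
    refine ⟨fun a x hx => (mC _ (zpowers_le.2 hg)).1 (zpowers_le.2 a)
      (commutator_mem_commutator (mem_zpowers g) hx), fun a => mi hg (mem_qp.2 ⟨nY hg, ?_⟩)⟩
    rintro _ ⟨x, hx, rfl⟩
    rw [← commutatorElement_eq_one_iff_mul_comm, ← commutatorElement_inv, inv_eq_one,
      ← map_commutatorElement, nmQuot_eq_one_iff]
    exact a x hx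
  have nC' : Nm(X) ≤ Nm(C) := le_normalizer_inf le_normalizer
    (le_Nm_qp nY ((qb_le_Nm le_rfl).trans (Nm_le_Nm_Cz _)))
  have sC := (hT.mono h.TX le_top).inf_normal' nC' inf_le_left
  have eC : (T : Subgroup G) ⊓ C = R := le_antisymm (le_O2 hT.pgrp h.TX inf_le_left (le_normalizer_inf le_normalizer
    (h.TX.trans nC')) ((Subgroup.commutator_comm _ _).le.trans ((mC _ (inf_le_left.trans h.TX)).1
      inf_le_right))) (le_inf RT ((mC _ (RT.trans h.TX)).2 RX))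
  rw [eC] at sC
  obtain ⟨c, hc, n, hn, rfl⟩ := sC.frattini (nC' hg)
  have nX' : n ∈ Nm(X) := (mul_mem_cancel_left (mi1 hc)).1 hg
  refine (mC' _ hg).1 (mul_mem hc ?_)
  have a1 : n ^ r ∈ C := by
    have a := (mC' _ (pow_mem hg r)).2 hr
    have e : nmQuot C ⟨c * n, nC' hg⟩ = nmQuot C ⟨n, nC' nX'⟩ := by
      rw [show (⟨c * n, nC' hg⟩ : Nm(C)) = ⟨c, le_normalizer hc⟩ * ⟨n, nC' nX'⟩ from rfl, map_mul,
        nmQuot_eq_one_iff.2 hc, one_mul]
    refine (nmQuot_eq_one_iff (g := ⟨n, nC' nX'⟩ ^ r)).1 ?_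
    rw [map_pow, ← e, ← map_pow, nmQuot_eq_one_iff]
    exact a
  have nV' : n ∈ Nm(V) := Nm_le_Nm_OZ R hn
  have zp : ∀ g : Nm(V), (g : G) ∈ Nm(X) → (holA V g ∈ Cz(hb V P) ↔ ⁅X, zpowers (g : G)⁆ ≤ Cz(V)) :=
    fun g a => by
    rw [← zpowers_le, ← hb_zpowers, ← eP, ← comm_eq_bot_right, ← hb_commutator XV (zpowers_le.2 g.2),
      hb_eq_bot_iff ((comm_le_left (zpowers_le.2 a)).trans XV)]
  have b1 : holA V ⟨n, nV'⟩ ∈ Nm(hb V P) := by
    rw [← eP]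
    exact hb_le_Nm (V := V) (zpowers_le.2 nX') (holA_mem_hb (g := ⟨n, nV'⟩) (mem_zpowers n))
  have b2 : holA V ⟨n, nV'⟩ ∈ Nm(hv V V) :=
    hb_le_Nm_hv_self (V := V) ⊤ (holA_mem_hb (g := ⟨n, nV'⟩) (mem_top n))
  have b3 : holA V ⟨n, nV'⟩ ^ r ∈ Cz(hb V P) := by
    rw [← map_pow]
    refine (zp (⟨n, nV'⟩ ^ r) (pow_mem nX' r)).2 ((Subgroup.commutator_comm _ _).le.trans ?_)
    exact ((mC _ (zpowers_le.2 (pow_mem nX' r))).1 (zpowers_le.2 a1)).trans (YR.trans RV)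
  have a2 := hh.five hV' (hb_le_Nm_hv_self P) (hb_le_Nm_hv_self (T : Subgroup G)) (hb_faithful P)
    y1 y2 b1 b2 (r1.odd_of_ne_two r2) b3
  have a3 := h.comm_le hP eX (le_sup_left.trans nC) PC (zpowers_le.2 nX') ((zp ⟨n, nV'⟩ nX').1 a2)
  rw [Subgroup.commutator_comm, ← mC _ ((pResidualOf_le _).trans (zpowers_le.2 nX')),
    ← isPGroup_qb_iff (zpowers_le.2 (nC' nX'))] at a3
  obtain ⟨k, hk⟩ := isPGroup_iff_mem.1 a3 _ (nmQuot_mem_qb (g := ⟨n, nC' nX'⟩) (mem_zpowers n))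
  rw [← map_pow, nmQuot_eq_one_iff] at hk
  exact mem_of_coprime (((Nat.coprime_primes r1 Nat.prime_five).2 r5).pow_right k) a1 hk

end CfH1.Xi
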