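import Cfsg.Agent.H1.Xi6

/-! Statements of the steps for the centralizer of `Ω₁(Z(T))`. -/

set_option autoImplicit false

namespace CfH1.Zs

open Cfsg Subgroup CfH9 CfH7 CfH8 CfH1 CfFT CfH1.Xi
universe u

/-- all members of `ℋ(T)` are solvable -/
def P0 : Prop := ∀ {G : Type u} [Group G] [Finite G], IsQTKE G → ∀ T : Sylow 2 G,
  (∀ L ∈ calLMax (T : Subgroup G), generalizedFittingSubgroup L = pCore 2 L ∧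
    ∃ M, maxTwoLocalsContaining (L ⊔ (T : Subgroup G)) = {M}) →
  calLf (T : Subgroup G) = ∅ → ∀ M₁ M₂ : Subgroup G, M₁ ∈ maxTwoLocalsContaining Cz(OZ 2 (T : Subgroup G)) →
  M₂ ∈ maxTwoLocalsContaining Cz(OZ 2 (T : Subgroup G)) → M₁ ≠ M₂ →
  calL (T : Subgroup G) = ∅ ∧ ∀ H ∈ calHOver (T : Subgroup G), Group.IsSolvable H

/-- irreducibility in `GL₂(q)` -/
def P1 : Prop := ∀ {G : Type u} [Group G] [Finite G] {q : ℕ} [Fact q.Prime], q ≠ 2 → ∀ {E S : Subgroup G} {x : G},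
  EAb q E → rk q E ≤ 2 → IsPGroup 2 S → S ≤ Nm(E) → x ∈ Nm(E) → x ∈ Nm(S) → Odd (orderOf x) →
  S ≤ ⁅S, zpowers x⁆ → ¬ S ≤ Cz(E) → Nat.card E = q ^ 2 ∧ ∀ K, K ≤ E → S ≤ Nm(K) → K = ⊥ ∨ K = E

/-- no small offender if all four lines have fixed points -/
def P2 : Prop := ∀ {G : Type u} [Group G] [Finite G] {V P A : Subgroup G}, EAb 2 V → El 3 2 P P → EAb 2 A →
  P ≤ Nm(V) → A ≤ Nm(V) → A ≤ Nm(P) → A ⊓ Cz(P) = ⊥ → A ≠ ⊥ → (∀ y ∈ P, y ≠ 1 → ⁅V, P⁆ ⊓ Cx(y) ≠ ⊥) →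
  ¬ (V ⊓ Cz(A)).relIndex V ≤ Nat.card A ^ 2

/-- all four lines have fixed points -/
def P3 : Prop := ∀ {G : Type u} [Group G] [Finite G] {V P T : Subgroup G} {n : G} {r : ℕ}, EAb 2 V → El 3 2 P P →
  P ≤ Nm(V) → P ⊓ Cz(V) = ⊥ → T ≤ Nm(V) → T ≤ Nm(P) → (∀ K, K ≤ P → T ≤ Nm(K) → K = ⊥ ∨ K = P) →
  n ∈ Nm(P) → n ∈ Nm(V) → Odd r → n ^ r ∈ Cz(P) → n ∉ Cz(P) → ∀ y ∈ P, y ≠ 1 → ⁅V, P⁆ ⊓ Cx(y) ≠ ⊥

/-- the extraspecial case -/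
def P4 : Prop := ∀ {G : Type u} [Group G] [Finite G] {S D : Subgroup G} {w : G}, XD 3 S D D → IsPGroup 2 S →
  rk 3 (⊤ : Subgroup G) ≤ 2 → ⁅D, D⁆ ≠ ⊥ → w ^ 3 = 1 → w ∈ Nm(D) → w ∈ Nm(S) → w ∈ ⁅D, D⁆

end CfH1.Zs
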