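import Cfsg.Agent.H1.Zs0

/-! A `2`-group with an automorphism of odd order inside the centralizer of `Ω₁(Z(T))`. -/

set_option autoImplicit false
set_option linter.unusedSectionVars false

namespace CfH1.Zs

open Cfsg Subgroup CfH9 CfH7 CfH8 CfH1 CfFT CfH1.Xi
open scoped commutatorElement

universe u
variable {G : Type u} [Group G] [Finite G] {V T C D : Subgroup G}

theorem fp (hV : EAb 2 V) (hT : IsPGroup 2 T) (TV : T ≤ Nm(V)) (DV : D ≤ Nm(V)) (TD : T ≤ Nm(D))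
    (hD : Pp 2 D) (h : D ≤ Cz(V ⊓ Cz(T))) : D ≤ Cz(V) := by
  have d := dp_comm_Cz hV.1 DV (hD.cop (elemAb_isPGroup hV))
  refine comm_eq_bot_right.1 (by_contra fun e => CfH9.inf_Cz_ne_bot hT
    ((elemAb_isPGroup hV).to_le d.right_le) (le_normalizer_commutator TV TD) e (eq_bot_iff.2 ?_))
  exact (le_inf (le_inf (inf_le_left.trans d.right_le)
    ((inf_le_inf_right _ d.right_le).trans (le_Cz_comm h))) inf_le_left).trans d.inf.le

theorem sx (hV : EAb 2 V) (hT : SylIn 2 T C) (CV : C ≤ Nm(V)) (hs : Sol C)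
    (h : C ≤ Cz(V ⊓ Cz(T))) (n : ¬ pResidualOf 2 C ≤ Cz(V)) :
    ∃ S x, S ≤ T ∧ x ∈ C ∧ x ∈ Nm(S) ∧ Odd (orderOf x) ∧ S ≤ ⁅S, zpowers x⁆ ∧ ¬ S ≤ Cz(V) := by
  by_contra! H
  have TV := hT.le.trans CV
  have h0 : Op' 2 (hb V C) = ⊥ := eq_bot_iff.2 ((hb_faithful C).le.trans' (le_inf (pPrimeCoreOf_le _)
    (fp (elemAb_hv hV) (isPGroup_hb hT.pgrp) (hb_le_Nm_hv_self T)
      ((pPrimeCoreOf_le _).trans (hb_le_Nm_hv_self C))
      ((hb_mono hT.le).trans (le_normalizer_pPrimeCoreOf _)) (pp_Op' _) ((pPrimeCoreOf_le _).trans (by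
        rw [← hv_inf_Cz TV, hb_le_Cz_hv_iff CV inf_le_left]; exact h)))))
  have c := chP_iff.1 (chP_of_sol (isSolvable_hb CV hs) h0)
  have nO := le_normalizer_pCoreOf (p := 2) (hb V C)
  set R := C ⊓ CfH8.hp V (Op 2 (hb V C))
  have eR : hb V R = Op 2 (hb V C) := hb_inf_hp_of_le (pCoreOf_le _)
  have nR : C ≤ Nm(R) := le_normalizer_inf le_normalizer (le_Nm_hp CV nO)
  have sR := hT.inf_normal' nR inf_le_left
  have RV : R ≤ Nm(V) := inf_le_left.trans CV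
  have e1 : hb V R ≤ hb V (T ⊓ R) := by
    rw [hb_le_hb_iff RV (inf_le_right.trans RV), ← sR.sup_pResidualOf]
    exact sup_le (((isPGroup_hb_iff RV).1 (eR ▸ isPGroup_pCoreOf _)).trans le_sup_right)
      (by rw [sR.sup_pResidualOf]; exact le_sup_left)
  set N := C ⊓ Nm(T ⊓ R)
  have TN : T ≤ N := le_inf hT.le (le_normalizer_inf le_normalizer (hT.le.trans nR))
  have e2 : hb V (pResidualOf 2 N) ≤ Cz(Op 2 (hb V C)) := by
    rw [hb_le_iff ((pResidualOf_le _).trans (inf_le_left.trans CV))]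
    refine pResidualOf_le_iff.2 fun x hx ox => ?_
    have xN := zpowers_le.2 hx.2
    have := H ⁅T ⊓ R, zpowers x⁆ x ((comm_le_left xN).trans inf_le_left) hx.1
      (right_le_Nm_comm _ _ (mem_zpowers x)) (Nat.coprime_two_right.1 ox)
      (commutator_commutator_eq xN ((pp_zpowers ox).cop sR.pgrp) (.inr (sol_of_isPGroup sR.pgrp))).ge
    have xV := zpowers_le.2 (CV hx.1)
    rw [← zpowers_le, ← hb_le_iff xV, ← eR]
    refine le_trans ?_ (Cz_anti e1)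
    rwa [← comm_eq_bot_right, ← hb_commutator (inf_le_right.trans RV) xV,
      hb_eq_bot_iff ((comm_le_left xN).trans (inf_le_right.trans RV))]
  have e3 : hb V C ≤ Cz(Op 2 (hb V C)) ⊔ hb V T := by
    have b : R ⊔ (pResidualOf 2 N ⊔ T) = C := by
      rw [(hT.mono TN inf_le_left).sup_pResidualOf]; exact sR.frattini_sup nR inf_le_left
    conv_lhs => rw [← b]
    have a := (pResidualOf_le (p := 2) N).trans (inf_le_left.trans CV)
    rw [hb_sup RV (sup_le a TV), hb_sup a TV]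
    exact sup_le (e1.trans ((hb_mono inf_le_left).trans le_sup_right)) (sup_le_sup_right e2 _)
  have e4 := pResidualOf_le_of_le_sup (isPGroup_hb hT.pgrp)
    (((hb_mono hT.le).trans nO).trans (Nm_le_Nm_Cz _)) e3
  have e5 := pResidualOf_eq_bot_of_isPGroup ((isPGroup_pCoreOf _).to_le
    ((le_inf (pResidualOf_le _) e4).trans c))
  rw [pResidualOf_pResidualOf, ← hb_pResidualOf CV, hb_eq_bot_iff ((pResidualOf_le _).trans CV)] at e5
  exact n e5

theorem crit (h1 : P1.{u}) (hs : Sol (⊤ : Subgroup G)) (h0 : Op 2 (⊤ : Subgroup G) = ⊥)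
    (hr : ∀ r : ℕ, r.Prime → r ≠ 2 → rk r (⊤ : Subgroup G) ≤ 2) {S : Subgroup G} {x : G}
    (hS : IsPGroup 2 S) (S0 : S ≠ ⊥) (xS : x ∈ Nm(S)) (ox : Odd (orderOf x)) (h : S ≤ ⁅S, zpowers x⁆) :
    ∃ (q : ℕ) (D : Subgroup G), q.Prime ∧ ⊤ ≤ Nm(D) ∧ XD q S D D ∧ ¬ ⁅zpowers x, D⁆ ≤ ⁅D, D⁆ ∧
      (q = 3 → 3 ∣ orderOf x) := by
  obtain ⟨q, hq, n⟩ : ∃ q : ℕ, q.Prime ∧ ¬ Op q (⊤ : Subgroup G) ≤ Cz(S) := by
    by_contra! e
    exact S0 (eq_bot_iff.2 (h0 ▸ le_Op_of_le_Fit hS ((le_inf le_top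
      (le_Cz_comm (Fit_le_iff.2 e))).trans (cent_Fit_le hs))))
  haveI := Fact.mk hq
  have q2 : q ≠ 2 := by rintro rfl; exact n (h0 ▸ bot_le)
  have hR := isPGroup_pCoreOf (p := q) (⊤ : Subgroup G)
  have nR := le_normalizer_pCoreOf (p := q) (⊤ : Subgroup G)
  obtain ⟨D, d1, d2, -, d3, d4⟩ := critical_odd q2 hR
  have hD := hR.to_le d1
  have nD := nR.trans d2
  have nP := nD.trans (Nm_le_Nm_Phi D)
  have cS := pp_of_isPGroup q2.symm hS
  have rD : rk q D ≤ 2 := (rk_mono le_top).trans (hr q hq q2)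
  have c3 := card_le_cube_of_rk_le q2 rD d3
  have eP : Phi D = ⁅D, D⁆ := le_antisymm (Phi_le_of le_rfl fun x hx => by rw [d3 x hx]; exact one_mem _)
    (comm_le_Phi hD)
  have cD := card_qb_mul (le_Nm_Phi D)
  rw [inf_eq_right.2 (Phi_le D)] at cD
  have rE : rk q (qb (Phi D) D) ≤ 2 := by
    by_cases h0 : Phi D = ⊥
    · rwa [rk_qb_of_inf (le_Nm_Phi D) (by rw [h0, inf_bot_eq])]
    rw [← cD, pow_succ] at c3
    exact (Nat.pow_dvd_pow_iff_le_right hq.one_lt).1 ((rk_pow_le _).trans (Nat.dvd_of_mul_dvd_mul_right hq.pos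
      ((Nat.mul_dvd_mul_left _ (dvd_card_of_ne_bot (hD.to_le (Phi_le D)) h0)).trans c3)))
  have nS : ¬ qb (Phi D) S ≤ Cz(qb (Phi D) D) := fun e => n (le_Cz_comm (d4 S (le_top.trans nR) cS
    (le_Cz_of_comm_le_Phi hD (le_top.trans nD) cS ((Subgroup.commutator_comm _ _).le.trans
      ((qb_le_Cz_iff (le_top.trans nP) (le_Nm_Phi D)).1 e)))))
  set y : Nm(Phi D) := ⟨x, nP (mem_top x)⟩
  have ey : qb (Phi D) (zpowers x) = zpowers (nmQuot (Phi D) y) := qb_zpowers y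
  have oy : orderOf (nmQuot (Phi D) y) ∣ orderOf x := (orderOf_map_dvd _ y).trans (orderOf_coe y).symm.dvd
  have hy : qb (Phi D) S ≤ ⁅qb (Phi D) S, zpowers (nmQuot (Phi D) y)⁆ := by
    rw [← ey, ← qb_commutator (le_top.trans nP) (le_top.trans nP)]; exact qb_mono h
  have yD : zpowers (nmQuot (Phi D) y) ≤ Nm(qb (Phi D) D) := ey ▸ qb_le_Nm (le_top.trans nD)
  have SD : qb (Phi D) S ≤ Nm(qb (Phi D) D) := qb_le_Nm (le_top.trans nD)
  obtain ⟨a, b⟩ := h1 q2 (elemAb_qb_Phi hD) rE (isPGroup_qb hS) SD (zpowers_le.1 yD)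
    (zpowers_le.1 (ey ▸ qb_le_Nm (zpowers_le.2 xS))) (ox.of_dvd_nat oy) hy nS
  have ny : ¬ zpowers (nmQuot (Phi D) y) ≤ Cz(qb (Phi D) D) := fun e => nS (hy.trans
    ((commutator_mono le_rfl e).trans (comm_le_right (SD.trans (Nm_le_Nm_Cz _)))))
  rw [a] at cD
  refine ⟨q, D, hq, nD, ⟨q2, le_top.trans nD, le_rfl, d3, eP ▸ cD.symm, ?_, fun K k1 k2 => ?_⟩, fun e => ny ?_, ?_⟩
  · rw [← cD, pow_succ q 2, eP] at c3
    exact Nat.dvd_of_mul_dvd_mul_left (pow_pos hq.pos 2) c3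
  · refine (b (qb (Phi D) (D ⊓ K)) (qb_mono inf_le_left)
      (qb_le_Nm (le_normalizer_inf (le_top.trans nD) k2))).symm.imp (fun e => ?_) fun e => ?_
    · exact (le_of_le_sup_Phi inf_le_left
        ((qb_le_qb_iff (le_Nm_Phi D) (le_top.trans nP)).1 e.ge)).trans inf_le_right
    · exact eP ▸ (qb_eq_bot_iff (le_top.trans nP)).1 e
  · rw [← ey, qb_le_Cz_iff (le_top.trans nP) (le_Nm_Phi D), eP]; exact e
  · rintro rfl
    have e1 := relIndex_Cz_dvd_GL (H := ⊤) ⟨le_top, elemAb_qb_Phi hD, a⟩ yD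
    have e2 := (relIndex_dvd_card Cz(qb (Phi D) D) (zpowers (nmQuot (Phi D) y))).trans
      ((Nat.card_zpowers _).dvd.trans oy)
    have e3 := ox.of_dvd_nat e2
    have e4 := mt relIndex_eq_one.1 ny
    refine Dvd.dvd.trans ?_ e2
    exact (by decide : ∀ k ∈ Nat.divisors 48, Odd k → k ≠ 1 → 3 ∣ k) _
      (Nat.mem_divisors.2 ⟨e1.trans (by decide), by decide⟩) e3 e4

end CfH1.Zs
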