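import Cfsg.Agent.H1.Zs1

/-! The member of `Ξ(G, T)` and its module. -/

set_option autoImplicit false
set_option linter.unusedSectionVars false

namespace CfH1.Zs

open Cfsg Subgroup CfH9 CfH7 CfH8 CfH1 CfFT CfH1.Xi
open scoped commutatorElement

universe u
variable {G : Type u} [Group G] [Finite G] {p : ℕ} [hp : Fact p.Prime] {T X P : Subgroup G}

theorem eq_Nm' (hQ : IsQTKE G) (hT : SylIn 2 T ⊤) (h : XD p T X P) (hO : pResidualOf 2 X = X)
    (hL : calL T = ∅) {M : Subgroup G} (hM : IsMaximalTwoLocal M) (hle : X ⊔ T ≤ M) : M = Nm(X) := by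
  have hpar : IsOfParabolicCharacteristic 2 G := fun R hR hR1 hS => hQ.2.2 _ ⟨R, hR, hR1, rfl⟩ hS
  have h2 := isPGroup_pCoreOf (p := 2) M
  have h0 : Op 2 M ≠ ⊥ := by
    obtain ⟨R, a, b, rfl⟩ := hM.1
    exact ne_bot_of_le (le_pCoreOf le_normalizer le_rfl a) b
  have eM := hM.2 _ ⟨_, h2, h0, rfl⟩ (le_normalizer_pCoreOf M)
  have hC := parabolicChar_Cz_pCoreOf_le hpar hT (le_sup_right.trans hle) h0
  have hb := pCoreOf_qb_pCoreOf (p := 2) M
  set Q := Op 2 M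
  have XQ : X ≤ Nm(Q) := le_sup_left.trans (hle.trans eM.ge)
  have TQ : T ≤ Nm(Q) := le_sup_right.trans (hle.trans eM.ge)
  have QT : Q ≤ T := hT.le_of_le_Nm h2 le_top TQ
  have et : qb Q M = ⊤ := top_le_iff.1 fun x _ => by
    obtain ⟨g, rfl⟩ := nmQuot_surjective x
    exact nmQuot_mem_qb (eM.le g.2)
  have c := (h.qb h2 XQ TQ).core (et ▸ sylIn_qb eM.ge (hT.mono (TQ.trans eM.le) le_top)) (et ▸ hb)
    (fun r r1 r2 => by
      haveI := Fact.mk r1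
      rw [← et, rk_qb_pp eM.ge (pp_of_isPGroup r2.symm h2)]
      exact prankLE_iff.1 (hQ.1 r r1 r2 M hM.1)) fun K hK e => by
    obtain ⟨L, l1, -⟩ := exists_calL hT h2 h0 TQ hK
    exact (hL ▸ l1 : L ∈ (∅ : Set (Subgroup G)))
  have c2 := (le_Nm_qp eM.ge (et.le.trans c)).trans (normalizer_le_normalizer_pResidualOf (p := 2) _)
  rw [qp_qb XQ, pResidualOf_sup_of_isPGroup h2 (QT.trans h.TX), hO] at c2
  have Y0 : Op 2 X ≠ ⊥ := fun e => by
    have a : ⁅Q, X⁆ = ⊥ := eq_bot_iff.2 (e ▸ le_pCoreOf (comm_le_right (QT.trans h.TX))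
      (right_le_Nm_comm Q X) (h2.to_le (comm_le_left XQ)))
    have b := pResidualOf_eq_bot_of_isPGroup (h2.to_le ((commutator_eq_bot_iff'.1 a).trans hC))
    exact h.not_le (h.PX.trans ((hO.symm.trans b).le.trans bot_le))
  have nY := normalizer_le_normalizer_pCoreOf (p := 2) X
  exact le_antisymm c2 (nY.trans (hM.2 _ ⟨_, isPGroup_pCoreOf X, Y0, rfl⟩ (c2.trans nY)).le)

/-- lifting the data from `N(Q) / Q` -/
theorem lift {Q S : Subgroup G} {D : Subgroup (NQ Q)} (hQ : IsPGroup 2 Q) (QT : Q ≤ T) (ST : S ≤ T)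
    (TQ : T ≤ Nm(Q)) (nD : ⊤ ≤ Nm(D)) (h : XD p (qb Q S) D D) :
    ∃ X P : Subgroup G, XD p T X P ∧ SylIn p P X ∧ P ⊔ Op 2 X = X ∧ pResidualOf 2 X = X ∧ Nm(Q) ≤ Nm(X) ∧
      X ≤ Nm(Q) ∧ qb Q X = D ∧ qb Q P = D := by
  set A := qp Q D
  have AQ : A ≤ Nm(Q) := qp_le D
  have nA : Nm(Q) ≤ Nm(A) := le_Nm_qp le_rfl (le_top.trans nD)
  set X := pResidualOf 2 A with eX
  have XA : X ≤ A := pResidualOf_le A
  have XQ := XA.trans AQ
  have nX : Nm(Q) ≤ Nm(X) := nA.trans (normalizer_le_normalizer_pResidualOf _)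
  have hO : pResidualOf 2 X = X := pResidualOf_pResidualOf A
  have e1 : qb Q X = D := by
    rw [eX, qb_pResidualOf AQ, qb_qp, pResidualOf_eq_self_of_coprime (pp_of_isPGroup h.h2 h.pgrp)]
  obtain ⟨P, hP⟩ := exists_sylIn p X
  have PQ := hP.le.trans XQ
  have e2 : qb Q P = D := by
    have := sylIn_qb XQ hP
    rw [e1] at this
    exact (this.eq_of_le h.pgrp le_rfl this.le).symm
  have i : ∀ B, B ≤ P → B ⊓ Q = ⊥ := fun B b => (cop_of_isPGroup h.h2 (hP.pgrp.to_le b) hQ).inf_eq_bot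
  have c : ∀ B, B ≤ P → Nat.card (qb Q B) = Nat.card B := fun B b => by
    rw [← card_qb_mul (b.trans PQ), i B b, card_bot, mul_one]
  have e3 : qb Q ⁅P, P⁆ = ⁅D, D⁆ := by rw [qb_commutator PQ PQ, e2]
  have e4 : X ≤ P ⊔ Op 2 X := by
    have a : X ≤ P ⊔ Q := (qb_le_qb_iff XQ PQ).1 (e1.trans e2.symm).le
    have b : X ⊓ Q ≤ Op 2 X := le_pCoreOf inf_le_left (le_normalizer_inf le_normalizer XQ) (hQ.to_le inf_le_right)
    refine le_trans (le_inf a le_rfl) (le_trans ?_ (sup_le_sup_left b P))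
    rw [CfH9.inf_sup_dedekind (.inl PQ) hP.le, inf_comm]
  refine ⟨X, P, ⟨h.h2, TQ.trans nX, hP.le, fun x hx => ?_, ?_, ?_, fun K k1 k2 => ?_⟩, hP,
    le_antisymm (sup_le hP.le (pCoreOf_le X)) e4, hO, nX, XQ, e1, e2⟩
  · rw [← mem_bot, ← i P le_rfl]
    refine mi (pow_mem hx p) ((nmQuot_eq_one_iff (g := ⟨x, PQ hx⟩ ^ p)).1 ?_)
    rw [map_pow]
    exact h.exp _ (e2 ▸ nmQuot_mem_qb hx)
  · rw [← c _ le_rfl, ← c _ (der_le P), e2, e3, h.card]
  · rw [← c _ (der_le P), e3]; exact h.cz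
  have n1 : X ≤ Nm(X ⊓ K) := le_normalizer_inf le_normalizer k1
  have n2 : T ≤ Nm(X ⊓ K) := le_normalizer_inf (TQ.trans nX) k2
  refine (h.irr (qb Q (X ⊓ K)) (e1 ▸ qb_le_Nm n1) (qb_le_Nm (ST.trans n2))).imp (fun e => ?_) fun e => ?_
  · rw [← e1, qb_le_qb_iff XQ (inf_le_left.trans XQ)] at e
    exact hO.ge.trans ((pResidualOf_le_of_le_sup hQ (QT.trans n2) e).trans inf_le_right)
  · have a : qb Q (P ⊓ K) ≤ qb Q ⁅P, P⁆ := e3 ▸ (le_inf (e2 ▸ qb_mono inf_le_left)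
      (qb_mono (inf_le_inf_right K hP.le))).trans e
    rw [qb_le_qb_iff (inf_le_left.trans PQ) ((der_le P).trans PQ)] at a
    refine (le_inf a inf_le_left).trans ?_
    rw [CfH9.inf_sup_dedekind (.inl ((der_le P).trans PQ)) (der_le P), inf_comm, i P le_rfl, sup_bot_eq]

end CfH1.Zs
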