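import Cfsg.Agent.H1.Zs2

/-! The main step. -/

set_option autoImplicit false
set_option linter.unusedSectionVars false

namespace CfH1.Zs

open Cfsg Subgroup CfH9 CfH7 CfH8 CfH1 CfFT CfH1.Xi
open scoped commutatorElement

universe u
variable {G : Type u} [Group G] [Finite G] {p : ℕ} [hp : Fact p.Prime] {X P : Subgroup G}

theorem main3 (p2 : P2.{u}) (p3 : P3.{u}) [IsSimpleGroup G] (hG : ¬ IsMulCommutative G) (hQ : IsQTKE G)
    (T : Sylow 2 G) (h : XD p T X P) (hP : SylIn p P X) (eX : P ⊔ Op 2 X = X) (hO : pResidualOf 2 X = X)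
    (hL : calL (T : Subgroup G) = ∅) (R0 : Op 2 (X ⊔ T) ≠ ⊥) {M₁ M₂ : Subgroup G}
    (k1 : M₁ ∈ maxTwoLocalsContaining Cz(OZ 2 (T : Subgroup G)))
    (k2 : M₂ ∈ maxTwoLocalsContaining Cz(OZ 2 (T : Subgroup G))) (k3 : M₁ ≠ M₂) {g : G} (hg : g ∈ Nm(X))
    (og : Odd (orderOf g)) (Θ : Subgroup G) (t1 : ∀ g ∈ Nm(X), ∀ N : Subgroup G, X ≤ Nm(N) → P ⊓ N ≤ ⁅P, P⁆ →
      ⁅X, zpowers g⁆ ≤ N → g ∈ Θ) (t2 : g ∉ Θ) (na : p = 3 → ⁅P, P⁆ ≤ Cz(OZ 2 (T : Subgroup G))) : False := by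
  have hT := sylIn_top T
  have hM : maxTwoLocalsContaining (X ⊔ T) = {Nm(X)} := by
    refine Set.eq_singleton_iff_nonempty_unique_mem.2 ⟨?_, fun M hM => eq_Nm' hQ hT h hO hL hM.1 hM.2⟩
    obtain ⟨M, m1, m2, m3⟩ := exists_maximal_ge IsTwoLocal (A := Nm(Op 2 (X ⊔ T)))
      ⟨_, isPGroup_pCoreOf _, R0, rfl⟩
    exact ⟨M, ⟨m1, m3⟩, (le_normalizer_pCoreOf _).trans m2⟩
  have m1 : Nm(X) ∈ maxTwoLocalsContaining (X ⊔ T) := hM ▸ Set.mem_singleton _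
  have hpar : IsOfParabolicCharacteristic 2 G := fun R hR hR1 hS => hQ.2.2 _ ⟨R, hR, hR1, rfl⟩ hS
  have hC := parabolicChar_Cz_pCoreOf_le hpar hT (le_sup_right : _ ≤ X ⊔ T) R0
  have hY := isPGroup_pCoreOf (p := 2) X
  have nY := normalizer_le_normalizer_pCoreOf (p := 2) X
  have hR := isPGroup_pCoreOf (p := 2) (X ⊔ T)
  have nR := le_normalizer_pCoreOf (p := 2) (X ⊔ T)
  have RT : Op 2 (X ⊔ T) ≤ T := sylIn_pCoreOf_le (hT.mono le_sup_right le_top)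
  have YR : Op 2 X ≤ Op 2 (X ⊔ T) :=
    le_pCoreOf ((pCoreOf_le X).trans le_sup_left) (m1.2.trans nY) hY
  have syl := fun N => h.syl hP eX hT.pgrp (N := N)
  have hb0 := pCoreOf_le (p := 2) (X ⊔ T)
  set R := Op 2 (X ⊔ T) with eR
  have RX : ⁅R, X⁆ ≤ Op 2 X := le_pCoreOf (comm_le_right (RT.trans h.TX)) (right_le_Nm_comm R X)
    (hR.to_le (comm_le_left (le_sup_left.trans nR)))
  set V := OZ 2 R
  have hV : EAb 2 V := elemAb_OZ R
  have nV : X ⊔ T ≤ Nm(V) := nR.trans (Nm_le_Nm_OZ R)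
  have XV := le_sup_left.trans nV
  have TV := le_sup_right.trans nV
  have PV := h.PX.trans XV
  have RV : R ≤ Cz(V) := le_Cz_comm (OZ_le_Cz R)
  have cP := pp_of_isPGroup h.h2 h.pgrp
  have TC := le_Cz_OZ (p := 2) (T : Subgroup G)
  have ZV : OZ 2 (T : Subgroup G) ≤ V := le_OZ (elemAb_OZ _) (((OZ_le_Cz _).trans (Cz_anti RT)).trans hC)
    ((OZ_le_Cz _).trans (Cz_anti RT))
  have nX : ¬ X ≤ Cz(V) := fun e => k3 ((eq_Nm' hQ hT h hO hL k1.1 ((sup_le (e.trans (Cz_anti ZV)) TC).trans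
    k1.2)).trans (eq_Nm' hQ hT h hO hL k2.1 ((sup_le (e.trans (Cz_anti ZV)) TC).trans k2.2)).symm)
  have nC := nV.trans (Nm_le_Nm_Cz V)
  have PC := (h.irr _ (le_sup_left.trans nC) (le_sup_right.trans nC)).resolve_left nX
  have eT : R = (T : Subgroup G) ⊓ Cz(V) :=
    le_antisymm (le_inf RT RV) (syl _ (le_sup_left.trans nC) (le_sup_right.trans nC) PC)
  have red : ∀ N : Subgroup G, N ≤ X ⊔ T → X ⊔ T ≤ Nm(N) → IsPGroup 2 (hb V N) → N ≤ Cz(V) :=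
    fun N a b c => by
    have a1 : P ⊓ N ≤ Cz(V) := (hb_eq_bot_iff (inf_le_left.trans PV)).1 (eq_bot_of_pgrp_of_pp
      (isPGroup_hb (h.pgrp.to_le inf_le_left)) (hb_mono inf_le_right) (pp_of_isPGroup h.h2.symm c))
    have a2 := (syl N (le_sup_left.trans b) (le_sup_right.trans b)
      ((le_inf inf_le_left a1).trans PC)).trans RV
    rw [← ((hT.mono le_sup_right le_top).inf_normal' b a).sup_pResidualOf]
    exact sup_le ((isPGroup_hb_iff (a.trans nV)).1 c) a2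
  obtain ⟨M, m2, m3⟩ : ∃ M ∈ maxTwoLocalsContaining (T : Subgroup G), M ≠ Nm(X) := by
    by_cases e : M₁ = Nm(X)
    · exact ⟨M₂, ⟨k2.1, TC.trans k2.2⟩, fun e' => k3 (e.trans e'.symm)⟩
    · exact ⟨M₁, ⟨k1.1, TC.trans k1.2⟩, e⟩
  obtain ⟨H, H1, H2⟩ := exists_min_card (fun H => H ∈ calHOverNotLE (T : Subgroup G) Nm(X))
    ⟨M, ⟨by
      obtain ⟨Q, a, b, rfl⟩ := m2.1.1
      exact fun e => ne_bot_of_le (le_pCoreOf le_normalizer le_rfl a) b (pCoreOf_eq_bot_iff.2 e),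
      m2.2⟩, fun e => m3 (m2.1.2 _ m1.1.1 e).symm⟩
  have off : ∃ B : Subgroup G, B ≤ X ⊔ T ∧ InducesElemAbelianTwoGroupOn B V ∧
      (V ⊓ Cz(B)).relIndex V ≤ (Cz(V)).relIndex B ^ 2 := by
    obtain ⟨Q, q1, q2, q3⟩ | ⟨-, B, b1, b2, -, b3⟩ | ⟨B, b1, b2, -, b3⟩ :=
      Cfsg.Agent.S1824.result hG hQ T Nm(X) (X ⊔ T) H V ⟨m1.1, le_sup_right.trans m1.2⟩ le_sup_right
        m1.2 ⟨H1, fun K k1 k2 => eq_of_le_of_card_ge k2 (H2 K k1)⟩
        ⟨(CfH7.OZ_le R).trans hb0, nV, hV, fun N a b c ⟨k, d⟩ => le_antisymm (le_inf a (red N a b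
          (.of_card (n := k) (by
            rw [card_hb (a.trans nV), ← d, ← inf_relIndex_right (_ ⊓ _), inf_comm (X ⊔ T), inf_assoc,
              inf_eq_right.2 a, inf_relIndex_right])))) c⟩ eT
        (.inl (by
          rw [odd_eq, pResidualOf_sup_of_isPGroup hT.pgrp h.TX, hO]; exact inf_le_right))
    · obtain ⟨L, l1, l2, l3⟩ := exists_maximal_ge IsTwoLocal (A := Nm(Q)) ⟨Q, hR.to_le q2, q1, rfl⟩
      have : L ∈ maxTwoLocalsContaining (X ⊔ T) := ⟨⟨l1, l3⟩, le_sup_left.trans (q3.trans l2)⟩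
      rw [hM] at this
      exact absurd ((le_sup_right.trans (q3.trans l2)).trans (Set.mem_singleton_iff.1 this).le) H1.2
    · exact ⟨B, b1, b2, b3⟩
    · exact ⟨B, b1, b2, b3⟩
  obtain ⟨B, b1, ⟨b2, b3, b4⟩, b5⟩ := off
  have BV := b1.trans nV
  have eP : hb V X = hb V P := by
    conv_lhs => rw [← eX]
    rw [hb_sup PV ((pCoreOf_le X).trans XV), (hb_eq_bot_iff ((pCoreOf_le X).trans XV)).2
      (YR.trans RV), sup_bot_eq]
  have hh := h.hb XV TV PC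
  rw [eP] at hh
  have hA : EAb 2 (hb V B) := ⟨ab_iff_comm.2 (by
    rw [← hb_commutator BV BV, hb_eq_bot_iff ((der_le B).trans BV), commutator_le]; exact b4), by
      rintro _ ⟨g, hg, rfl⟩
      rw [← map_pow, holA_eq_one_iff]; exact b3 g hg⟩
  have M0P : hb V (X ⊔ T) ≤ Nm(hb V P) := eP ▸ hb_le_Nm m1.2
  have f2 : hb V B ⊓ Cz(hb V P) = ⊥ := by
    set N := (X ⊔ T) ⊓ CfH8.hp V Cz(hb V P)
    have nN : X ⊔ T ≤ Nm(N) :=
      le_normalizer_inf le_normalizer (le_Nm_hp nV (M0P.trans (Nm_le_Nm_Cz _)))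
    have sN := (hT.mono le_sup_right le_top).inf_normal' nN inf_le_left
    have a1 : ⁅X, (T : Subgroup G) ⊓ N⁆ ≤ Cz(V) := by
      rw [← hb_eq_bot_iff ((comm_le_left (inf_le_left.trans h.TX)).trans XV),
        hb_commutator XV (inf_le_left.trans TV), eP, comm_eq_bot_right,
        hb_le_iff (inf_le_left.trans TV)]
      exact inf_le_right.trans inf_le_right
    have a2 := h.comm_le hP eX (le_sup_left.trans nC) PC (inf_le_left.trans h.TX) a1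
    rw [pResidualOf_eq_self_of_coprime (pp_of_isPGroup h.h2.symm sN.pgrp)] at a2
    have a3 := (le_O2 hT.pgrp h.TX inf_le_left (le_normalizer_inf le_normalizer
      (le_sup_right.trans nN)) a2).trans RV
    refine eq_bot_of_not_dvd ((elemAb_isPGroup hA).to_le inf_le_left) (H := hb V N) ?_ ?_
    · rw [hb_inf_hp]; exact inf_le_inf_right _ (hb_mono b1)
    · rw [card_hb (inf_le_left.trans nV)]; exact sN.not_dvd_relIndex_of_le a3
  have hV' := elemAb_hv (V := V) hV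
  have XY := le_normalizer.trans nY
  set C := Nm(X) ⊓ qp (Op 2 X) Cz(qb (Op 2 X) X)
  have mC : ∀ A : Subgroup G, A ≤ Nm(X) → (A ≤ C ↔ ⁅A, X⁆ ≤ Op 2 X) := fun A a => by
    rw [le_inf_iff, ← qb_le_iff (a.trans nY), qb_le_Cz_iff (a.trans nY) XY]
    exact and_iff_right a
  have mC' : ∀ g ∈ Nm(X), g ∈ C ↔ ∀ x ∈ X, g * x * g⁻¹ * x⁻¹ ∈ Op 2 X := fun g hg => by
    refine ⟨fun a x hx => (mC _ (zpowers_le.2 hg)).1 (zpowers_le.2 a)
      (commutator_mem_commutator (mem_zpowers g) hx), fun a => mi hg (mem_qp.2 ⟨nY hg, ?_⟩)⟩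
    rintro _ ⟨x, hx, rfl⟩
    rw [← commutatorElement_eq_one_iff_mul_comm, ← commutatorElement_inv, inv_eq_one,
      ← map_commutatorElement, nmQuot_eq_one_iff]
    exact a x hx
  have nC' : Nm(X) ≤ Nm(C) := le_normalizer_inf le_normalizer
    (le_Nm_qp nY ((qb_le_Nm le_rfl).trans (Nm_le_Nm_Cz _)))
  have sC := (hT.mono h.TX le_top).inf_normal' nC' inf_le_left
  have eC : (T : Subgroup G) ⊓ C = R := le_antisymm (le_O2 hT.pgrp h.TX inf_le_left (le_normalizer_inf le_normalizer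
    (h.TX.trans nC')) ((Subgroup.commutator_comm _ _).le.trans ((mC _ (inf_le_left.trans h.TX)).1
      inf_le_right))) (le_inf RT ((mC _ (RT.trans h.TX)).2 RX))
  rw [eC] at sC
  obtain ⟨c, hc, n, hn, rfl⟩ := sC.frattini (nC' hg)
  have nX' : n ∈ Nm(X) := (mul_mem_cancel_left (mi1 hc)).1 hg
  set r := orderOf (c * n)
  have hr : (c * n) ^ r = 1 := pow_orderOf_eq_one _
  have a1 : n ^ r ∈ C := by
    have a : (c * n) ^ r ∈ C := hr ▸ one_mem _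
    have e : nmQuot C ⟨c * n, nC' hg⟩ = nmQuot C ⟨n, nC' nX'⟩ := by
      rw [show (⟨c * n, nC' hg⟩ : Nm(C)) = ⟨c, le_normalizer hc⟩ * ⟨n, nC' nX'⟩ from rfl, map_mul,
        nmQuot_eq_one_iff.2 hc, one_mul]
    refine (nmQuot_eq_one_iff (g := ⟨n, nC' nX'⟩ ^ r)).1 ?_
    rw [map_pow, ← e, ← map_pow, nmQuot_eq_one_iff]
    exact a
  have nV' : n ∈ Nm(V) := Nm_le_Nm_OZ R hn
  have zp : ∀ g : Nm(V), (g : G) ∈ Nm(X) → (holA V g ∈ Cz(hb V P) ↔ ⁅X, zpowers (g : G)⁆ ≤ Cz(V)) :=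
    fun g a => by
    rw [← zpowers_le, ← hb_zpowers, ← eP, ← comm_eq_bot_right, ← hb_commutator XV (zpowers_le.2 g.2),
      hb_eq_bot_iff ((comm_le_left (zpowers_le.2 a)).trans XV)]
  have c1 : holA V ⟨n, nV'⟩ ∈ Nm(hb V P) := by
    rw [← eP]
    exact hb_le_Nm (V := V) (zpowers_le.2 nX') (holA_mem_hb (g := ⟨n, nV'⟩) (mem_zpowers n))
  have c2 : holA V ⟨n, nV'⟩ ∈ Nm(hv V V) :=
    hb_le_Nm_hv_self (V := V) ⊤ (holA_mem_hb (g := ⟨n, nV'⟩) (mem_top n))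
  have c3 : holA V ⟨n, nV'⟩ ^ r ∈ Cz(hb V P) := by
    rw [← map_pow]
    refine (zp (⟨n, nV'⟩ ^ r) (pow_mem nX' r)).2 ((Subgroup.commutator_comm _ _).le.trans ?_)
    exact ((mC _ (zpowers_le.2 (pow_mem nX' r))).1 (zpowers_le.2 a1)).trans (YR.trans RV)
  have b4 : holA V ⟨n, nV'⟩ ∉ Cz(hb V P) := fun e => t2 (mul_mem
    (t1 c hc.1 _ XY ((cop_of_isPGroup h.h2 h.pgrp hY).inf_eq_bot.le.trans bot_le)
      ((Subgroup.commutator_comm _ _).le.trans ((mC _ (zpowers_le.2 hc.1)).1 (zpowers_le.2 hc))))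
    (t1 n nX' _ (le_sup_left.trans nC) PC ((zp ⟨n, nV'⟩ nX').1 e)))
  have hi : (hv V V ⊓ Cz(hb V B)).relIndex (hv V V) ≤ Nat.card (hb V B) ^ 2 := by
    rw [card_hb BV, ← hv_inf_Cz BV]
    refine le_of_eq_of_le (Nat.eq_of_mul_eq_mul_left (Nat.card_pos (α := (V ⊓ Cz(B) : Subgroup G))) ?_) b5
    rw [CfH9.card_mul_relIndex inf_le_left, ← card_hv inf_le_left,
      CfH9.card_mul_relIndex (hv_mono inf_le_left), card_hv le_rfl]
  have B0 : hb V B ≠ ⊥ := fun e => b2 ((hb_eq_bot_iff BV).1 e)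
  obtain rfl | ⟨rfl, y, y1, y2⟩ := hh.off hV' hA (hb_le_Nm_hv_self P) (hb_le_Nm_hv_self B)
    ((hb_mono b1).trans M0P) (hb_faithful P) f2 B0 hi
  swap
  · exact b4 (hh.five hV' (hb_le_Nm_hv_self P) (hb_le_Nm_hv_self (T : Subgroup G)) (hb_faithful P)
      y1 y2 c1 c2 og c3)
  have ab : ⁅hb V P, hb V P⁆ = ⊥ := eq_bot_iff.2 ((hb_faithful P).le.trans' (le_inf (der_le _)
    (fp hV' (isPGroup_hb hT.pgrp) (hb_le_Nm_hv_self _) ((der_le _).trans (hb_le_Nm_hv_self P))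
      (hh.TX.trans (Nm_le_Nm_der _)) (pp_of_isPGroup h.h2 (hh.pgrp.to_le (der_le _))) (by
        rw [← hv_inf_Cz TV, ← hb_commutator PV PV, hb_le_Cz_hv_iff ((der_le P).trans PV) inf_le_left]
        exact (na rfl).trans (Cz_anti (le_OZ (elemAb_of_le inf_le_left hV)
          (inf_le_left.trans ((CfH7.OZ_le R).trans RT)) inf_le_right))))))
  have hE : El 3 2 (hb V P) (hb V P) :=
    ⟨le_rfl, ⟨ab_iff_comm.2 ab, hh.exp⟩, by rw [hh.card, ab, card_bot, mul_one]⟩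
  exact p2 hV' hE hA (hb_le_Nm_hv_self P) (hb_le_Nm_hv_self B) ((hb_mono b1).trans M0P) f2 B0
    (p3 hV' hE (hb_le_Nm_hv_self P) (hb_faithful P) (hb_le_Nm_hv_self _) hh.TX (fun K a b =>
      (hh.irr K (le_Nm_of_ab hE.ab a) b).symm.imp (fun e => eq_bot_iff.2 ((le_inf a le_rfl).trans
        (e.trans ab.le))) (le_antisymm a)) c1 c2 og c3 b4) hi

end CfH1.Zs
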