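import Cfsg.Agent.H1.Zs3

/-! The centralizer of `Ω₁(Z(T))`. -/

set_option autoImplicit false
set_option linter.unusedSectionVars false

namespace CfH1.Zs

open Cfsg Subgroup CfH9 CfH7 CfH8 CfH1 CfFT CfH1.Xi
open scoped commutatorElement

universe u
variable {G : Type u} [Group G] [Finite G]

theorem main4 (p1 : P1.{u}) (p2 : P2.{u}) (p3 : P3.{u}) (p4 : P4.{u}) [IsSimpleGroup G]
    (hG : ¬ IsMulCommutative G) (hQ : IsQTKE G) (T : Sylow 2 G) (hL : calL (T : Subgroup G) = ∅)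
    (hs : ∀ H ∈ calHOver (T : Subgroup G), Group.IsSolvable H) {M₁ M₂ : Subgroup G}
    (k1 : M₁ ∈ maxTwoLocalsContaining Cz(OZ 2 (T : Subgroup G)))
    (k2 : M₂ ∈ maxTwoLocalsContaining Cz(OZ 2 (T : Subgroup G))) (k3 : M₁ ≠ M₂) :
    Cz(OZ 2 (T : Subgroup G)) = T := by
  have hT := sylIn_top T
  have hpar : IsOfParabolicCharacteristic 2 G := fun R hR hR1 hS => hQ.2.2 _ ⟨R, hR, hR1, rfl⟩ hS
  have TC := le_Cz_OZ (p := 2) (T : Subgroup G)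
  set C := Cz(OZ 2 (T : Subgroup G)) with eC
  have sC := hT.mono TC le_top
  have o0 : ∀ M : Subgroup G, IsMaximalTwoLocal M → Op 2 M ≠ ⊥ := fun M hM => by
    obtain ⟨R, a, b, rfl⟩ := hM.1
    exact ne_bot_of_le (le_pCoreOf le_normalizer le_rfl a) b
  have QT : ∀ M, C ≤ M → Op 2 M ≤ T := fun M a => sylIn_pCoreOf_le (hT.mono (TC.trans a) le_top)
  have ZV : ∀ M ∈ maxTwoLocalsContaining C, Cz(OZ 2 (Op 2 M)) ≤ C := fun M hM =>
    Cz_anti (le_OZ (elemAb_OZ _) (((OZ_le_Cz _).trans (Cz_anti (QT M hM.2))).trans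
      (parabolicChar_Cz_pCoreOf_le hpar hT (TC.trans hM.2) (o0 M hM.1))) ((OZ_le_Cz _).trans (Cz_anti (QT M hM.2))))
  by_contra ne
  have Y0 : Op 2 (pResidualOf 2 C) ≠ ⊥ := fun e => by
    have c0 : Op 2 C ≠ ⊥ := ne_bot_of_le (le_pCoreOf ((QT _ k1.2).trans TC)
      (k1.2.trans (le_normalizer_pCoreOf _)) (isPGroup_pCoreOf _)) (o0 _ k1.1)
    have n := (pResidualOf_le (p := 2) C).trans (le_normalizer_pCoreOf (p := 2) C)
    have a : ⁅Op 2 C, pResidualOf 2 C⁆ = ⊥ := eq_bot_iff.2 (e ▸ le_pCoreOf (comm_le_right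
      ((pCoreOf_le C).trans (le_normalizer_pResidualOf C))) (right_le_Nm_comm _ _)
      ((isPGroup_pCoreOf C).to_le (comm_le_left n)))
    exact ne (le_antisymm (sC.sup_pResidualOf.ge.trans (sup_le (((commutator_eq_bot_iff'.1 a).trans
      (parabolicChar_Cz_pCoreOf_le hpar hT TC c0)).trans (QT C le_rfl)) le_rfl)) TC)
  obtain ⟨M, hM, nY⟩ : ∃ M ∈ maxTwoLocalsContaining C, ¬ pResidualOf 2 C ≤ Cz(OZ 2 (Op 2 M)) := by
    by_contra! e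
    have k : ∀ M ∈ maxTwoLocalsContaining C, Nm(Op 2 (pResidualOf 2 C)) = M := fun M hM => by
      refine hM.1.2 _ ⟨_, isPGroup_pCoreOf _, Y0, rfl⟩ ?_
      rw [← pResidualOf_eq_of_le (ZV M hM) (e M hM)]
      exact (((((le_normalizer_pCoreOf M).trans (Nm_le_Nm_OZ _)).trans (Nm_le_Nm_Cz _)).trans
        (normalizer_le_normalizer_pResidualOf _)).trans (normalizer_le_normalizer_pCoreOf _))
    exact k3 ((k _ k1).symm.trans (k _ k2))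
  have h2 := isPGroup_pCoreOf (p := 2) M
  have h0 := o0 M hM.1
  have eM := hM.1.2 _ ⟨_, h2, h0, rfl⟩ (le_normalizer_pCoreOf M)
  have hb := pCoreOf_qb_pCoreOf (p := 2) M
  have qT := QT M hM.2
  have sM : Sol M := hs M ⟨fun e => h0 (pCoreOf_eq_bot_iff.2 e), TC.trans hM.2⟩
  set Q := Op 2 M
  have CQ : C ≤ Nm(Q) := hM.2.trans eM.ge
  have TQ := TC.trans CQ
  have et : qb Q M = ⊤ := top_le_iff.1 fun x _ => by
    obtain ⟨g, rfl⟩ := nmQuot_surjective x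
    exact nmQuot_mem_qb (eM.le g.2)
  obtain ⟨S, x, ST, xC, xS, ox, hS, nS⟩ := sx (elemAb_OZ Q) sC (CQ.trans (Nm_le_Nm_OZ Q)) (isSolvable_of_le hM.2 sM)
    (Cz_anti (le_OZ (elemAb_of_le inf_le_left (elemAb_OZ Q)) (inf_le_left.trans ((CfH7.OZ_le Q).trans qT))
      inf_le_right)) nY
  have SQ := ST.trans TQ
  set y : Nm(Q) := ⟨x, CQ xC⟩
  have ey : qb Q (zpowers x) = zpowers (nmQuot Q y) := qb_zpowers y
  have xQ := zpowers_le.2 (CQ xC)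
  have hr : ∀ r : ℕ, r.Prime → r ≠ 2 → rk r (⊤ : Subgroup (NQ Q)) ≤ 2 := fun r r1 r2 => by
    haveI := Fact.mk r1
    rw [← et, rk_qb_pp eM.ge (pp_of_isPGroup r2.symm h2)]
    exact prankLE_iff.1 (hQ.1 r r1 r2 M hM.1.1)
  have yS : zpowers (nmQuot Q y) ≤ Nm(qb Q S) := ey ▸ qb_le_Nm (zpowers_le.2 xS)
  have pS : IsPGroup 2 (qb Q S) := isPGroup_qb (hT.pgrp.to_le ST)
  obtain ⟨q, D, hq, nD, h, d1, d2⟩ := crit p1 (et ▸ sol_qb sM) (et ▸ hb) hr pS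
    (fun e => nS (((qb_eq_bot_iff SQ).1 e).trans (le_Cz_OZ Q))) (zpowers_le.1 yS)
    (ox.of_dvd_nat ((orderOf_map_dvd _ y).trans (orderOf_coe y).symm.dvd))
    (by rw [← ey, ← qb_commutator SQ xQ]; exact qb_mono hS)
  haveI := Fact.mk hq
  obtain ⟨X, P, a1, a2, a3, a4, a5, a6, a7, a8⟩ := lift h2 qT ST TQ nD h
  have PQ := a2.le.trans a6
  have a9 : qb Q ⁅P, P⁆ = ⁅D, D⁆ := by rw [qb_commutator PQ PQ, a8]
  have nD' := nD.trans (Nm_le_Nm_der D)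
  have th : ∀ A : Subgroup (NQ Q), A ≤ qp ⁅D, D⁆ Cz(qb ⁅D, D⁆ D) ↔ ⁅A, D⁆ ≤ ⁅D, D⁆ := fun A => by
    rw [← qb_le_iff (le_top.trans nD'), qb_le_Cz_iff (le_top.trans nD') (le_top.trans nD')]
  refine main3 p2 p3 hG hQ T a1 a2 a3 a4 hL (ne_bot_of_le (le_pCoreOf (qT.trans le_sup_right) (sup_le a6 TQ) h2) h0)
    k1 k2 k3 (a5 (CQ xC)) ox (qp Q (qp ⁅D, D⁆ Cz(qb ⁅D, D⁆ D))) (fun g hg N n1 n2 n3 => ?_) (fun e => d1 ?_) ?_
  · have gQ : zpowers g ≤ Nm(Q) := zpowers_le.2 (eM.ge ((eq_Nm' hQ hT a1 a4 hL hM.1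
      (sup_le (a6.trans eM.le) (TC.trans hM.2))).ge hg))
    rw [← zpowers_le, ← qb_le_iff gQ, th, ← a7, ← qb_commutator gQ a6, Subgroup.commutator_comm, a7, ← a9]
    refine (qb_mono (le_inf (comm_le_left (zpowers_le.2 hg)) n3)).trans (le_trans ?_ (qb_mono n2))
    exact ((sylIn_qb (inf_le_left.trans a6) (a2.inf_normal n1)).eq_of_le
      (h.pgrp.to_le ((qb_mono inf_le_left).trans a7.le)) le_rfl (qb_mono (inf_le_inf_right _ a2.le))).le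
  · rw [← th, ← ey, qb_le_iff xQ]; exact zpowers_le.2 e
  rintro rfl
  by_cases e : ⁅D, D⁆ = ⊥
  · exact ((qb_eq_bot_iff ((der_le P).trans PQ)).1 (a9.trans e)).trans (qT.trans TC)
  obtain ⟨w, w1, w2⟩ := exists_orderOf_eq_prime (p := 3) (Q := zpowers (nmQuot Q y))
    (Nat.card_zpowers (nmQuot Q y) ▸ d2 rfl)
  have w3 := p4 h pS (hr 3 hq (by decide)) e (pow_eq_one_of_orderOf w2) (nD (mem_top w)) (yS w1)
  have hZ : El 3 1 ⁅D, D⁆ ⊤ := el_one le_top (h.cZ e)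
  have : qb Q ⁅P, P⁆ ≤ qb Q (zpowers x) := by
    rw [a9, ey, ← hZ.eq_zpowers w3 (ne_one_of_orderOf_eq_prime w2)]; exact zpowers_le.2 w1
  exact ((qb_le_qb_iff ((der_le P).trans PQ) xQ).1 this).trans (sup_le (zpowers_le.2 xC) (qT.trans TC))

end CfH1.Zs
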