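import Cfsg.Agent.H1.Zs0

/-! The extraspecial case. -/

set_option autoImplicit false
set_option linter.unusedSectionVars false

namespace CfH1.Zs

open Cfsg Subgroup CfH9 CfH7 CfH8 CfH1 CfFT CfH1.Xi
open scoped commutatorElement

universe u
variable {G : Type u} [Group G] [Finite G] {S D : Subgroup G} {s : G}

instance fact3 : Fact (Nat.Prime 3) := ⟨Nat.prime_three⟩

def Gd (S D : Subgroup G) (s : G) : Prop :=
  s ∈ S ∧ s * s ∈ Cz(D) ∧ s ∉ Cz(D) ∧ ∀ t ∈ S, s⁻¹ * (t * s * t⁻¹) ∈ Cz(D)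

theorem Gd.cx (g : Gd S D s) (h : XD 3 S D D) : D ⊓ Cx(s) ≤ ⁅D, D⁆ := by
  have n : S ≤ Nm(D ⊓ Cx(s)) := fun t ht => mem_normalizer_of_cj_le (by
    rintro _ ⟨d, hd, rfl⟩
    have hd' : t * d * t⁻¹ ∈ D := conj_mem_of_mem_normalizer (h.TX ht) hd.1
    refine mi hd' (mem_Cx_comm ?_)
    have a : t * s * t⁻¹ ∈ Cx(t * d * t⁻¹) := cj_Cx t d ▸ conj_mem_cj t (mem_Cx_comm hd.2)
    have := mul_mem a (inv_mem (Cz_le_Cx hd' (g.2.2.2 t ht)))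
    rwa [mul_inv_rev, mul_inv_cancel_left, inv_inv] at this)
  refine (h.irr ((D ⊓ Cx(s)) ⊔ ⁅D, D⁆) (le_Nm_of_der_le le_sup_right (sup_le inf_le_left (der_le D)))
    (le_normalizer_sup n (h.TX.trans (Nm_le_Nm_der D)))).elim (fun e => absurd ?_ g.2.2.1)
    (le_trans (le_inf inf_le_left le_sup_left))
  exact le_Cx_iff.1 ((le_of_le_sup_Phi inf_le_left (e.trans (sup_le_sup_left (comm_le_Phi h.pgrp) _))).trans
    inf_le_right)

theorem Gd.dec (g : Gd S D s) (h : XD 3 S D D) {d : G} (hd : d ∈ D) :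
    ∃ c ∈ D ⊓ Cx(s), ∃ u ∈ D, d = c * u ∧ s * u * s⁻¹ = u⁻¹ := by
  have hu : d⁻¹ * (s * d * s⁻¹) ∈ D := mul_mem (inv_mem hd) (conj_mem_of_mem_normalizer (h.TX g.1) hd)
  have e : s * (d⁻¹ * (s * d * s⁻¹)) * s⁻¹ = (d⁻¹ * (s * d * s⁻¹))⁻¹ := by
    calc _ = s * d⁻¹ * s⁻¹ * ((s * s) * d * (s * s)⁻¹) := by group
      _ = _ := by rw [conj_eq_of_mem_centralizer g.2.1 hd]; group
  have e3 := h.exp _ hu
  have e4 : s * d * s⁻¹ = d * (d⁻¹ * (s * d * s⁻¹)) := by group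
  generalize d⁻¹ * (s * d * s⁻¹) = u at *
  refine ⟨d * u⁻¹, mi (mul_mem hd (inv_mem hu)) (mem_Cx_comm (mem_Cx'.2 ?_)), u, hu, by group, e⟩
  calc s * (d * u⁻¹) * s⁻¹ = s * d * s⁻¹ * (s * u * s⁻¹)⁻¹ := by group
    _ = d * u⁻¹ * u ^ 3 := by rw [e, e4, pow_succ, sq]; group
    _ = _ := by rw [e3, mul_one]

theorem Gd.cz (g : Gd S D s) (h : XD 3 S D D) (h0 : ⁅D, D⁆ ≠ ⊥) : ⁅D, D⁆ ≤ Cx(s) := by
  have hZ : El 3 1 ⁅D, D⁆ ⊤ := el_one le_top (h.cZ h0)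
  by_cases e : D ⊓ Cx(s) = ⊥
  · have k : ∀ d ∈ D, s * d * s⁻¹ = d⁻¹ := fun d hd => by
      obtain ⟨c, hc, u, -, rfl, b⟩ := g.dec h hd
      rw [e, mem_bot] at hc
      rwa [hc, one_mul]
    refine absurd (ab_iff_comm.1 (comm_iff.2 fun a ha b hb => inv_injective ?_)) h0
    rw [← k _ (mul_mem ha hb), mul_inv_rev, ← k a ha, ← k b hb]; group
  obtain ⟨c, hc, c1⟩ := exists_ne_one_of_ne_bot e
  rw [← hZ.eq_zpowers (g.cx h hc) c1]
  exact zpowers_le.2 hc.2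

theorem p4 : P4.{u} := fun {G} _ _ {S D w} h hS hr h0 w3 wD wS => by
  have zc := le_Cz_of_card_dvd h.cz h.pgrp (le_Nm_der D)
  have S0 : hb D S ≠ ⊥ := fun e => by
    rw [hb_eq_bot_iff h.TX] at e
    obtain ⟨a, ha, n⟩ := SetLike.not_le_iff_exists.1 h.not_le
    have l : ⁅D, D⁆ ⊔ zpowers a ≤ D := sup_le (der_le D) (zpowers_le.2 ha)
    obtain e' | e' := h.irr _ (le_Nm_of_der_le le_sup_left l) (le_Nm_of_le_Cz (e.trans (Cz_anti l)))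
    · exact h.idx (K := ⁅D, D⁆) inf_le_right (relIndex_dvd_of_le_sup (le_Nm_der D) ha (h.exp a ha) e')
    · exact n (e' (mi ha (le_sup_right (a := ⁅D, D⁆) (mem_zpowers a))))
  obtain ⟨_, ⟨s, hs, rfl⟩, o, c⟩ := exists_mem_Cz_pow_eq_one (isPGroup_hb hS) (isPGroup_hb hS) le_normalizer S0
  have g : Gd S D s := by
    refine ⟨hs, (holA_eq_one_iff (g := s * s)).1 (by rw [map_mul, ← sq, ← o, pow_orderOf_eq_one]),
      fun e => ?_, fun t ht => (holA_eq_one_iff (g := s⁻¹ * (⟨t, h.TX ht⟩ * s * ⟨t, h.TX ht⟩⁻¹))).1 ?_⟩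
    · rw [holA_eq_one_iff.2 e, orderOf_one] at o; omega
    · rw [map_mul, map_mul, map_mul, map_inv, map_inv, c _ (holA_mem_hb (g := ⟨t, h.TX ht⟩) ht)]; group
  generalize (s : G) = s at g
  have cw : ∀ x ∈ Cz(D), w * x * w⁻¹ ∈ Cz(D) := fun x => conj_mem_of_mem_normalizer (Nm_le_Nm_Cz D wD)
  have g' : Gd S D (w * s * w⁻¹) := by
    refine ⟨conj_mem_of_mem_normalizer wS g.1, by rw [conj_mul]; exact cw _ g.2.1, fun e => g.2.2.1 ?_, fun t ht => ?_⟩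
    · simpa [mul_assoc] using conj_mem_of_mem_normalizer (inv_mem (Nm_le_Nm_Cz D wD)) e
    · simpa [mul_assoc] using cw _ (g.2.2.2 _ (conj_mem_of_mem_normalizer (inv_mem wS) ht))
  have inv : ∀ s, Gd S D s → ∀ d ∈ D, s * d * s⁻¹ * d ∈ ⁅D, D⁆ := fun s g d hd => by
    obtain ⟨c, hc, u, hu, rfl, b⟩ := g.dec h hd
    rw [show s * (c * u) * s⁻¹ = s * c * s⁻¹ * (s * u * s⁻¹) by group, b, mem_Cx'.1 (mem_Cx_comm hc.2),
      show c * u⁻¹ * (c * u) = c * (u⁻¹ * c * u⁻¹⁻¹) by group,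
      conj_eq_of_mem_centralizer (zc (inv_mem hu)) (g.cx h hc)]
    exact mul_mem (g.cx h hc) (g.cx h hc)
  have same : (w * s * w⁻¹)⁻¹ * s ∈ Cz(D) := by
    have m := mul_mem (inv_mem g'.1) g.1
    refine mem_Cz_of_coprime (M := ⁅D, D⁆) h.pgrp (h.TX m) (by
      obtain ⟨k, hk⟩ := isPGroup_iff_mem.1 hS _ m
      exact Nat.Coprime.coprime_dvd_left (orderOf_dvd_of_pow_eq_one hk) (Nat.Coprime.pow_left k (by decide)))
      ?_ (mul_mem (inv_mem (le_Cx_iff.1 (g'.cz h h0))) (le_Cx_iff.1 (g.cz h h0)))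
    have n := Nm_le_Nm_der D (h.TX m)
    rw [Subgroup.commutator_comm, ← qb_le_Cz_iff (zpowers_le.2 n) (le_Nm_der D),
      show zpowers ((w * s * w⁻¹)⁻¹ * s) = zpowers ((⟨_, n⟩ : Nm(⁅D, D⁆)) : G) from rfl, qb_zpowers, zpowers_le]
    rintro _ ⟨d, hd, rfl⟩
    rw [← commutatorElement_eq_one_iff_mul_comm, ← commutatorElement_inv, inv_eq_one,
      ← map_commutatorElement, nmQuot_eq_one_iff]
    have := conj_mem_of_mem_normalizer (inv_mem (Nm_le_Nm_der D (h.TX g'.1)))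
      (mul_mem (inv _ g d hd) (inv_mem (inv _ g' d hd)))
    convert this using 1
    simp only [commutatorElement_def, coe_mul, coe_inv]; group
  have pw : IsPGroup 3 (zpowers w) := isPGroup_zpowers (k := 1) (by rwa [pow_one])
  have wZ := Nm_le_Nm_der D wD
  have wc := le_Cz_of_card_dvd h.cz pw (zpowers_le.2 wZ) (mem_zpowers w)
  obtain ⟨_, ⟨a, ha, rfl⟩, a1, a2⟩ := exists_mem_center_of_normal (isPGroup_qb (Q := ⁅D, D⁆) pw)
    (isPGroup_qb (Q := ⁅D, D⁆) h.pgrp) (qb_le_Nm (zpowers_le.2 wD))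
    fun e => h.not_le ((qb_eq_bot_iff (le_Nm_der D)).1 e)
  have a3 : w * a * w⁻¹ * (a : G)⁻¹ ∈ ⁅D, D⁆ := (nmQuot_eq_one_iff (g := ⁅(⟨w, wZ⟩ : Nm(⁅D, D⁆)), a⁆)).1 (by
    rw [map_commutatorElement, commutatorElement_eq_one_iff_mul_comm]
    exact a2 _ (nmQuot_mem_qb (g := ⟨w, wZ⟩) (mem_zpowers w)))
  have a4 : (a : G) ∉ ⁅D, D⁆ := fun e => a1 (nmQuot_eq_one_iff.2 e)
  obtain ⟨c, hc, u, hu, e1, e2⟩ := g.dec (d := a) h ha
  have cZ := g.cx h hc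
  rw [e1] at a3 a4
  have u1 : u ∉ ⁅D, D⁆ := fun e => a4 (mul_mem cZ e)
  have z1 : w * u * w⁻¹ * u⁻¹ ∈ ⁅D, D⁆ := by
    have := mul_mem (mul_mem (inv_mem (conj_mem_of_mem_normalizer wZ cZ)) a3) cZ
    convert this using 1; group
  have hu' := conj_mem_of_mem_normalizer wD hu
  have e3 : s * (w * u * w⁻¹) * s⁻¹ = (w * u * w⁻¹)⁻¹ := by
    calc _ = (w * s * w⁻¹) * (((w * s * w⁻¹)⁻¹ * s) * (w * u * w⁻¹) * ((w * s * w⁻¹)⁻¹ * s)⁻¹) *
          (w * s * w⁻¹)⁻¹ := by group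
      _ = w * (s * u * s⁻¹) * w⁻¹ := by rw [conj_eq_of_mem_centralizer same hu']; group
      _ = _ := by rw [e2]; group
  have e4 : w * u * w⁻¹ = u := by
    have b1 := mem_Cx'.1 (mem_Cx_comm (g.cz h h0 z1))
    have b2 := conj_eq_of_mem_centralizer (zc (inv_mem hu)) z1
    have b3 := h.exp _ (der_le D z1)
    have b4 : w * u * w⁻¹ = w * u * w⁻¹ * u⁻¹ * u := by group
    generalize w * u * w⁻¹ * u⁻¹ = z at *
    rw [b4] at e3 ⊢
    have b5 : z * z = 1 := by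
      calc z * z = s * z * s⁻¹ * (s * u * s⁻¹) * (u * (u⁻¹ * z * u⁻¹⁻¹)) * u⁻¹ * u := by rw [b1, e2, b2]; group
        _ = s * (z * u) * s⁻¹ * (z * u) := by group
        _ = 1 := by rw [e3]; group
    rw [pow_succ, sq, b5, one_mul] at b3
    rw [b3, one_mul]
  have wm : w ∈ D := h.key hr w3 (by
    have l : ⁅D, D⁆ < D ⊓ Cx(w) := lt_of_le_of_ne (le_inf (der_le D) (le_Cx_iff.2 wc))
      fun e => u1 (e.ge (mi hu (mem_Cx_comm (mem_Cx'.2 e4))))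
    obtain ⟨k, hk⟩ := (h.pgrp.to_le (inf_le_left (b := Cx(w)))).exists_card_eq
    have := CfH9.card_lt_of_lt l
    rw [h.cZ h0, hk] at this
    rw [hk]
    exact Nat.pow_le_pow_right (by decide) ((Nat.pow_lt_pow_iff_right (a := 3) (n := 1) (by decide)).1 this))
  refine g.cx h (mi wm (mem_Cx.2 (commutatorElement_eq_one_iff_mul_comm.1 ?_)))
  rw [← mem_bot, ← (cop_of_isPGroup h.h2 h.pgrp hS).inf_eq_bot]
  exact mi (commutator_mem_left wm (h.TX g.1)) (commutator_mem_right g.1 wS)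

end CfH1.Zs
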